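import Mathlib

/-! Translation-invariant subspaces of the functions on `ZMod p` in characteristic `p`. -/

set_option autoImplicit false

namespace Cfsg.Agent.Lib.Perm

set_option linter.unusedSectionVars false

open Polynomial

section Translation

variable {p : ℕ} [Fact p.Prime] {K : Type*} [Field K] [CharP K p]

/-- Evaluation of polynomials as functions on `ZMod p`. -/
noncomputable def polyFun (p : ℕ) (K : Type*) [Field K] : K[X] →ₗ[K] (ZMod p → K) where
  toFun P := fun j => P.eval (ZMod.cast j : K)
  map_add' P Q := by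
    funext j
    simp
  map_smul' c P := by
    funext j
    simp

@[simp] theorem polyFun_apply (P : K[X]) (j : ZMod p) :
    polyFun p K P j = P.eval (ZMod.cast j : K) := rfl

/-- The difference operator `f ↦ f(· - 1) - f`. -/
noncomputable def diffOp (p : ℕ) (K : Type*) [Field K] : (ZMod p → K) →ₗ[K] (ZMod p → K) where
  toFun f := fun j => f (j - 1) - f j
  map_add' f g := by
    funext j
    simp only [Pi.add_apply]
    ring
  map_smul' c f := by
    funext j
    simp only [Pi.smul_apply, smul_eq_mul, RingHom.id_apply]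
    ring

@[simp] theorem diffOp_apply (f : ZMod p → K) (j : ZMod p) :
    diffOp p K f j = f (j - 1) - f j := rfl

/-- The polynomial functions of degree less than `r`. -/
noncomputable def polyLT (p : ℕ) (K : Type*) [Field K] (r : ℕ) : Submodule K (ZMod p → K) :=
  (Polynomial.degreeLT K r).map (polyFun p K)

theorem mem_polyLT_iff {r : ℕ} {f : ZMod p → K} :
    f ∈ polyLT p K r ↔ ∃ P : K[X], P.degree < r ∧ ∀ j : ZMod p, f j = P.eval (ZMod.cast j : K) := by
  constructor
  · rintro ⟨P, hP, rfl⟩
    exact ⟨P, Polynomial.mem_degreeLT.mp hP, fun j => rfl⟩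
  · rintro ⟨P, hP, hf⟩
    exact ⟨P, Polynomial.mem_degreeLT.mpr hP, funext fun j => (hf j).symm⟩

theorem cast_injective' : Function.Injective (fun j : ZMod p => (ZMod.cast j : K)) := by
  have := (ZMod.castHom (dvd_refl p) K).injective
  exact this

/-- Polynomials of degree less than `p` are determined by their function on `ZMod p`. -/
theorem polyFun_injOn {P : K[X]} (hP : P.degree < p) (h0 : polyFun p K P = 0) : P = 0 := by
  classical
  by_contra hne
  have hroots : (Finset.univ.image (fun j : ZMod p => (ZMod.cast j : K))).card ≤ P.natDegree := by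
    apply Polynomial.card_le_degree_of_subset_roots (Z := Finset.univ.image (fun j : ZMod p => (ZMod.cast j : K)))
    intro x hx
    obtain ⟨j, _, rfl⟩ := Finset.mem_image.mp hx
    rw [Polynomial.mem_roots hne]
    exact congrFun h0 j
  rw [Finset.card_image_of_injective _ cast_injective', Finset.card_univ, ZMod.card] at hroots
  have h1 : P.natDegree < p := (Polynomial.natDegree_lt_iff_degree_lt hne).mpr hP
  omega

/-- Difference of a polynomial lowers the degree. -/
theorem diffOp_polyFun (P : K[X]) :
    diffOp p K (polyFun p K P) = polyFun p K (P.comp (X - C 1) - P) := by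
  funext j
  simp only [diffOp_apply, polyFun_apply, eval_sub, eval_comp, eval_X, eval_C]
  have : (ZMod.cast (j - 1) : K) = (ZMod.cast j : K) - 1 := by
    rw [ZMod.cast_sub (dvd_refl p), ZMod.cast_one (dvd_refl p)]
  rw [this]

theorem degree_comp_sub_lt {P : K[X]} {r : ℕ} (hP : P.degree < (r + 1 : ℕ)) :
    (P.comp (X - C 1) - P).degree < r := by
  by_cases hP0 : P = 0
  · subst hP0
    simp
  have hq : (X - C (1 : K)).natDegree = 1 := natDegree_X_sub_C 1
  have hnd : (P.comp (X - C 1)).natDegree = P.natDegree := by
    rw [natDegree_comp, hq, mul_one]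
  have hlc : (P.comp (X - C 1)).leadingCoeff = P.leadingCoeff := by
    rw [leadingCoeff_comp (by rw [hq]; exact one_ne_zero), leadingCoeff_X_sub_C]
    simp
  have hc0 : P.comp (X - C 1) ≠ 0 := by
    intro h
    rw [h, leadingCoeff_zero] at hlc
    exact hP0 (leadingCoeff_eq_zero.mp hlc.symm)
  have hdeg : (P.comp (X - C 1)).degree = P.degree := by
    rw [degree_eq_natDegree hc0, degree_eq_natDegree hP0, hnd]
  have h1 := degree_sub_lt_left hdeg hc0 hlc
  rw [hdeg] at h1
  have h2 : P.natDegree < r + 1 := (natDegree_lt_iff_degree_lt hP0).mpr hP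
  have h3 : P.degree ≤ (r : ℕ) := by
    rw [degree_eq_natDegree hP0]
    exact_mod_cast Nat.lt_succ_iff.mp h2
  exact lt_of_lt_of_le h1 h3

theorem diffOp_polyLT {r : ℕ} {f : ZMod p → K} (hf : f ∈ polyLT p K (r + 1)) :
    diffOp p K f ∈ polyLT p K r := by
  obtain ⟨P, hP, rfl⟩ := hf
  rw [diffOp_polyFun]
  exact ⟨_, Polynomial.mem_degreeLT.mpr (degree_comp_sub_lt (Polynomial.mem_degreeLT.mp hP)), rfl⟩

theorem polyLT_le_ker (r : ℕ) : polyLT p K r ≤ LinearMap.ker (diffOp p K ^ r) := by
  induction r with
  | zero =>
    intro f hf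
    obtain ⟨P, hP, rfl⟩ := hf
    have : P = 0 := by
      have := Polynomial.mem_degreeLT.mp hP
      rw [Nat.cast_zero] at this
      exact Polynomial.degree_eq_bot.mp (Nat.WithBot.lt_zero_iff.mp this)
    rw [this]
    simp
  | succ r ih =>
    intro f hf
    rw [LinearMap.mem_ker, pow_succ]
    have := ih (diffOp_polyLT hf)
    rw [LinearMap.mem_ker] at this
    exact this

theorem finrank_polyLT {r : ℕ} (hr : r ≤ p) : Module.finrank K (polyLT p K r) = r := by
  have hinj : Function.Injective ((polyFun p K).domRestrict (Polynomial.degreeLT K r)) := by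
    rintro ⟨P, hP⟩ ⟨Q, hQ⟩ h
    have hsub : (P - Q).degree < p := by
      have h1 : P - Q ∈ Polynomial.degreeLT K r := Submodule.sub_mem _ hP hQ
      exact lt_of_lt_of_le (Polynomial.mem_degreeLT.mp h1) (by exact_mod_cast hr)
    have h0 : P - Q = 0 := polyFun_injOn hsub (by
      have : polyFun p K P = polyFun p K Q := h
      rw [map_sub, this, sub_self])
    exact Subtype.ext (sub_eq_zero.mp h0)
  have h1 : polyLT p K r = LinearMap.range ((polyFun p K).domRestrict (Polynomial.degreeLT K r)) := by
    rw [LinearMap.range_domRestrict]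
    rfl
  rw [h1, LinearMap.finrank_range_of_inj hinj,
    (Polynomial.degreeLTEquiv K r).finrank_eq, Module.finrank_fin_fun]

theorem polyLT_p_eq_top : polyLT p K p = ⊤ := by
  apply Submodule.eq_top_of_finrank_eq
  rw [finrank_polyLT le_rfl, Module.finrank_fintype_fun_eq_card, ZMod.card]

theorem diffOp_pow_p : (diffOp p K) ^ p = 0 := by
  have h := polyLT_le_ker (p := p) (K := K) p
  rw [polyLT_p_eq_top, top_le_iff, LinearMap.ker_eq_top] at h
  exact h

/-- Constants are the kernel of the difference operator. -/
theorem eq_of_diffOp_eq_zero {f : ZMod p → K} (hf : diffOp p K f = 0) (j : ZMod p) : f j = f 0 := by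
  have h1 : ∀ j, f (j - 1) = f j := fun j => sub_eq_zero.mp (congrFun hf j)
  have h2 : ∀ n : ℕ, f (-(n : ZMod p)) = f 0 := by
    intro n
    induction n with
    | zero => simp
    | succ n ih =>
      rw [← ih, ← h1 (-(n : ZMod p))]
      congr 1
      push_cast
      ring
  have := h2 (-j).val
  rw [ZMod.natCast_zmod_val, neg_neg] at this
  exact this

theorem finrank_ker_pow_le (r : ℕ) : Module.finrank K (LinearMap.ker ((diffOp p K) ^ r)) ≤ r := by
  induction r with
  | zero =>
    have : LinearMap.ker ((diffOp p K) ^ 0) = ⊥ := by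
      rw [pow_zero]
      exact LinearMap.ker_id
    rw [this]
    simp
  | succ r ih =>
    set A := LinearMap.ker ((diffOp p K) ^ (r + 1)) with hA
    set g := (diffOp p K).domRestrict A with hg
    have hrange : LinearMap.range g ≤ LinearMap.ker ((diffOp p K) ^ r) := by
      rintro _ ⟨⟨f, hf⟩, rfl⟩
      rw [LinearMap.mem_ker]
      have h2 : ((diffOp p K) ^ (r + 1)) f = 0 := hf
      rw [pow_succ] at h2
      exact h2
    have h3 : Module.finrank K (LinearMap.range g) ≤ r :=
      (Submodule.finrank_mono hrange).trans ih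
    have h4 : Module.finrank K (LinearMap.ker g) ≤ 1 := by
      let ev : LinearMap.ker g →ₗ[K] K :=
        (LinearMap.proj (0 : ZMod p)) ∘ₗ A.subtype ∘ₗ (LinearMap.ker g).subtype
      have hev : Function.Injective ev := by
        rw [injective_iff_map_eq_zero]
        rintro ⟨⟨f, hf⟩, hg0⟩ h0
        have h00 : f 0 = 0 := h0
        have hNf : diffOp p K f = 0 := hg0
        apply Subtype.ext
        apply Subtype.ext
        funext j
        exact (eq_of_diffOp_eq_zero hNf j).trans h00
      have := LinearMap.finrank_le_finrank_of_injective hev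
      simpa using this
    have h5 := LinearMap.finrank_range_add_finrank_ker g
    omega

theorem ker_pow_eq_polyLT {r : ℕ} (hr : r ≤ p) :
    LinearMap.ker ((diffOp p K) ^ r) = polyLT p K r := by
  symm
  apply Submodule.eq_of_le_of_finrank_le (polyLT_le_ker r)
  rw [finrank_polyLT hr]
  exact finrank_ker_pow_le r

/-- The shift `f ↦ f(· - 1)`-invariant subspaces. -/
theorem invariant_eq_polyLT (W : Submodule K (ZMod p → K))
    (hW : ∀ f ∈ W, (fun j => f (j - 1)) ∈ W) :
    Module.finrank K W ≤ p ∧ W = polyLT p K (Module.finrank K W) := by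
  set r := Module.finrank K W with hr
  have hrp : r ≤ p := by
    have := Submodule.finrank_le W
    rwa [Module.finrank_fintype_fun_eq_card, ZMod.card] at this
  refine ⟨hrp, ?_⟩
  have hN : ∀ f ∈ W, diffOp p K f ∈ W := by
    intro f hf
    exact W.sub_mem (hW f hf) hf
  let M := (diffOp p K).restrict hN
  have hnil : IsNilpotent M := by
    refine ⟨p, ?_⟩
    rw [Module.End.pow_restrict]
    ext ⟨f, hf⟩
    simp [diffOp_pow_p]
  have hch := (LinearMap.isNilpotent_iff_charpoly M).mp hnil
  have hM0 : M ^ r = 0 := by
    have h := LinearMap.aeval_self_charpoly M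
    rw [hch] at h
    simpa using h
  have hle : W ≤ LinearMap.ker ((diffOp p K) ^ r) := by
    intro f hf
    have h1 : (M ^ r) ⟨f, hf⟩ = 0 := by rw [hM0]; rfl
    rw [LinearMap.mem_ker]
    rw [show M ^ r = _ from Module.End.pow_restrict r hN] at h1
    exact congrArg Subtype.val h1
  rw [ker_pow_eq_polyLT hrp] at hle
  apply Submodule.eq_of_le_of_finrank_le hle
  rw [finrank_polyLT hrp]

end Translation

end Cfsg.Agent.Lib.Perm
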