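import Mathlib
import Cfsg.Agent.Lib.Perm.Translation
import Cfsg.Agent.Lib.Perm.Orbits
import Cfsg.Prelude.Def_Perm

/-! Invariant subspaces of permutation groups of prime degree. -/

set_option autoImplicit false

namespace Cfsg.Agent.Lib.Perm

set_option linter.unusedSectionVars false

open Polynomial

section PolyInv

variable {p : ℕ} [Fact p.Prime] {K : Type*} [Field K] [CharP K p]

/-- The polynomial functions of degree less than `r` are invariant. -/
def PolyInv (Gp : Subgroup (Equiv.Perm (ZMod p))) (K : Type*) [Field K] (r : ℕ) : Prop :=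
  ∀ g ∈ Gp, ∀ f ∈ polyLT p K r, (fun j => f (g j)) ∈ polyLT p K r

theorem polyLT_mono {r r' : ℕ} (h : r ≤ r') : polyLT p K r ≤ polyLT p K r' := by
  apply Submodule.map_mono
  exact Polynomial.degreeLT_mono h

theorem polyFun_mul (P Q : K[X]) (j : ZMod p) :
    polyFun p K (P * Q) j = polyFun p K P j * polyFun p K Q j := by
  simp

/-- The descent step. -/
theorem polyInv_descent {Gp : Subgroup (Equiv.Perm (ZMod p))} {s : ℕ} (hs : 2 * s + 2 ≤ p)
    (h : PolyInv Gp K (s + 1)) : PolyInv Gp K (s / 2 + 1) := by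
  intro g hg f hf
  obtain ⟨P, hP, rfl⟩ := hf
  have hPd := Polynomial.mem_degreeLT.mp hP
  have hPs : polyFun p K P ∈ polyLT p K (s + 1) :=
    polyLT_mono (by omega) ⟨P, hP, rfl⟩
  obtain ⟨P₁, hP₁, hP₁e⟩ := h g hg _ hPs
  have hP₁d := Polynomial.mem_degreeLT.mp hP₁
  have hP2 : polyFun p K (P * P) ∈ polyLT p K (s + 1) := by
    refine ⟨P * P, Polynomial.mem_degreeLT.mpr ?_, rfl⟩
    by_cases hP0 : P = 0
    · subst hP0
      simp
    · have h1 : P.natDegree < s / 2 + 1 := (natDegree_lt_iff_degree_lt hP0).mpr hPd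
      rw [degree_eq_natDegree (mul_ne_zero hP0 hP0), natDegree_mul hP0 hP0]
      exact_mod_cast (by omega : P.natDegree + P.natDegree < s + 1)
  obtain ⟨Q, hQ, hQe⟩ := h g hg _ hP2
  have hQd := Polynomial.mem_degreeLT.mp hQ
  have heq : P₁ * P₁ = Q := by
    have hdeg : (P₁ * P₁ - Q).degree < p := by
      refine lt_of_le_of_lt (degree_sub_le _ _) (max_lt ?_ ?_)
      · by_cases hP0 : P₁ = 0
        · subst hP0
          simp [WithBot.bot_lt_coe]
        · have h1 : P₁.natDegree < s + 1 := (natDegree_lt_iff_degree_lt hP0).mpr hP₁d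
          rw [degree_eq_natDegree (mul_ne_zero hP0 hP0), natDegree_mul hP0 hP0]
          exact_mod_cast (by omega : P₁.natDegree + P₁.natDegree < p)
      · exact lt_of_lt_of_le hQd (by exact_mod_cast (by omega : s + 1 ≤ p))
    have h0 : P₁ * P₁ - Q = 0 := polyFun_injOn hdeg (by
      funext j
      have h2 := congrFun hP₁e j
      have h3 := congrFun hQe j
      simp only [polyFun_apply] at h2 h3
      simp only [polyFun_apply, eval_sub, eval_mul, Pi.zero_apply]
      rw [h2, h3]
      simp)
    exact sub_eq_zero.mp h0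
  refine ⟨P₁, Polynomial.mem_degreeLT.mpr ?_, hP₁e⟩
  by_cases hP0 : P₁ = 0
  · subst hP0
    simp [WithBot.bot_lt_coe]
  · have h1 : (P₁ * P₁).natDegree < s + 1 := by
      rw [heq]
      by_cases hQ0 : Q = 0
      · subst hQ0
        simp
      · exact (natDegree_lt_iff_degree_lt hQ0).mpr hQd
    rw [natDegree_mul hP0 hP0] at h1
    rw [degree_eq_natDegree hP0]
    exact_mod_cast (by omega : P₁.natDegree < s / 2 + 1)

/-- The descent, iterated. -/
theorem polyInv_two {Gp : Subgroup (Equiv.Perm (ZMod p))} :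
    ∀ s : ℕ, 1 ≤ s → 2 * s + 2 ≤ p → PolyInv Gp K (s + 1) → PolyInv Gp K 2 := by
  intro s
  induction s using Nat.strong_induction_on with
  | _ s ih =>
    intro h1 h2 h3
    by_cases hs : s = 1
    · subst hs
      exact h3
    · exact ih (s / 2) (by omega) (by omega) (by omega) (polyInv_descent h2 h3)

/-- Power sums over `ZMod p`. -/
theorem sum_pow_cast_eq_zero {i : ℕ} (hi : i < p - 1) :
    ∑ j : ZMod p, (ZMod.cast j : K) ^ i = 0 := by
  have h1 := FiniteField.sum_pow_lt_card_sub_one (ZMod p) i (by rwa [ZMod.card])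
  have h2 := congrArg (ZMod.castHom (dvd_refl p) K) h1
  simp only [map_sum, map_pow, map_zero] at h2
  exact h2

theorem sum_pow_cast_top : ∑ j : ZMod p, (ZMod.cast j : K) ^ (p - 1) = -1 := by
  have hp : p.Prime := Fact.out
  have h1 : ∑ j : ZMod p, j ^ (p - 1) = -1 := by
    have h2 : ∀ j : ZMod p, j ^ (p - 1) = if j = 0 then 0 else 1 := by
      intro j
      split_ifs with hj
      · rw [hj, zero_pow]
        have := hp.two_le
        omega
      · exact ZMod.pow_card_sub_one_eq_one hj
    simp only [h2]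
    have hsum : ∑ j : ZMod p, (if j = 0 then (0 : ZMod p) else 1) = ∑ j : ZMod p, 1 - 1 := by
      rw [eq_sub_iff_add_eq]
      rw [← Finset.add_sum_erase (a := (0 : ZMod p)) _ _ (Finset.mem_univ _)]
      rw [← Finset.add_sum_erase (s := Finset.univ) (f := fun _ : ZMod p => (1 : ZMod p)) (a := (0 : ZMod p)) (Finset.mem_univ _)]
      rw [if_pos rfl, zero_add, add_comm]
      congr 1
      apply Finset.sum_congr rfl
      intro x hx
      rw [if_neg (Finset.ne_of_mem_erase hx)]
    rw [hsum]
    simp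
  have h2 := congrArg (ZMod.castHom (dvd_refl p) K) h1
  simp only [map_sum, map_pow, map_neg, map_one] at h2
  exact h2

theorem sum_polyFun_eq_zero {P : K[X]} (hP : P.degree < (p - 1 : ℕ)) :
    ∑ j : ZMod p, polyFun p K P j = 0 := by
  simp only [polyFun_apply]
  conv_lhs =>
    enter [2, j]
    rw [eval_eq_sum_range]
  rw [Finset.sum_comm]
  apply Finset.sum_eq_zero
  intro i hi
  rw [← Finset.mul_sum, sum_pow_cast_eq_zero, mul_zero]
  have hi' : i < P.natDegree + 1 := Finset.mem_range.mp hi
  by_cases hP0 : P = 0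
  · subst hP0
    simp at hi'
    have hp : p.Prime := Fact.out
    have := hp.two_le
    simp only [natDegree_zero] at *
    omega
  · have := (natDegree_lt_iff_degree_lt hP0).mpr hP
    omega

theorem addRight_one_inv (x : ZMod p) : (Equiv.addRight (1 : ZMod p))⁻¹ x = x - 1 := by
  rw [Equiv.Perm.inv_eq_iff_eq]
  simp

/-- Duality. -/
theorem polyInv_dual {Gp : Subgroup (Equiv.Perm (ZMod p))} (hshift : Equiv.addRight (1 : ZMod p) ∈ Gp)
    {r : ℕ} (hr : 1 ≤ r) (hrp : r ≤ p) (h : PolyInv Gp K r) : PolyInv Gp K (p - r) := by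
  have hp : p.Prime := Fact.out
  -- the orthogonal complement
  let U : Submodule K (ZMod p → K) :=
    { carrier := {h' | ∀ f ∈ polyLT p K r, ∑ j, f j * h' j = 0}
      add_mem' := by
        intro a b ha hb f hf
        simp only [Pi.add_apply, mul_add, Finset.sum_add_distrib, ha f hf, hb f hf, add_zero]
      zero_mem' := by
        intro f _
        simp
      smul_mem' := by
        intro c a ha f hf
        simp only [Pi.smul_apply, smul_eq_mul]
        calc ∑ x, f x * (c * a x) = c * ∑ x, f x * a x := by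
              rw [Finset.mul_sum]
              exact Finset.sum_congr rfl fun x _ => by ring
          _ = 0 := by rw [ha f hf, mul_zero] }
  have hUinv : ∀ g ∈ Gp, ∀ h' ∈ U, (fun j => h' (g j)) ∈ U := by
    intro g hg h' hh' f hf
    have h1 := hh' _ (h g⁻¹ (Gp.inv_mem hg) f hf)
    rw [← h1]
    refine Fintype.sum_equiv g _ _ (fun j => ?_)
    simp
  have hUshift : ∀ f ∈ U, (fun j => f (j - 1)) ∈ U := by
    intro f hf
    have := hUinv _ (Gp.inv_mem hshift) f hf
    simpa only [addRight_one_inv] using this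
  obtain ⟨hu, hUe⟩ := invariant_eq_polyLT U hUshift
  set u := Module.finrank K U with hu'
  -- the lower bound
  have hle : polyLT p K (p - r) ≤ U := by
    rintro _ ⟨Q, hQ, rfl⟩ f ⟨P, hP, rfl⟩
    have hQd := Polynomial.mem_degreeLT.mp hQ
    have hPd := Polynomial.mem_degreeLT.mp hP
    have hmul : (P * Q).degree < (p - 1 : ℕ) := by
      by_cases hP0 : P = 0
      · subst hP0
        simp [WithBot.bot_lt_coe]
      by_cases hQ0 : Q = 0
      · subst hQ0
        simp [WithBot.bot_lt_coe]
      have h1 : P.natDegree < r := (natDegree_lt_iff_degree_lt hP0).mpr hPd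
      have h2 : Q.natDegree < p - r := (natDegree_lt_iff_degree_lt hQ0).mpr hQd
      rw [degree_eq_natDegree (mul_ne_zero hP0 hQ0), natDegree_mul hP0 hQ0]
      exact_mod_cast (by omega : P.natDegree + Q.natDegree < p - 1)
    have := sum_polyFun_eq_zero hmul
    simpa using this
  have hge : p - r ≤ u := by
    have := Submodule.finrank_mono hle
    rwa [finrank_polyLT (by omega)] at this
  have hule : u ≤ p - r := by
    by_contra hcon
    have hmem : polyFun p K (X ^ (p - r)) ∈ U := by
      rw [hUe]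
      refine ⟨_, Polynomial.mem_degreeLT.mpr ?_, rfl⟩
      rw [degree_X_pow]
      exact_mod_cast (by omega : p - r < u)
    have hf : polyFun p K (X ^ (r - 1)) ∈ polyLT p K r := by
      refine ⟨_, Polynomial.mem_degreeLT.mpr ?_, rfl⟩
      rw [degree_X_pow]
      exact_mod_cast (by omega : r - 1 < r)
    have h0 := hmem _ hf
    have h1 : ∀ j : ZMod p, polyFun p K (X ^ (r - 1)) j * polyFun p K (X ^ (p - r)) j
        = (ZMod.cast j : K) ^ (p - 1) := by
      intro j
      simp only [polyFun_apply, eval_pow, eval_X]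
      rw [← pow_add]
      congr 1
      omega
    simp only [h1, sum_pow_cast_top] at h0
    exact one_ne_zero (neg_eq_zero.mp h0)
  have hue : u = p - r := le_antisymm hule hge
  intro g hg f hf
  have h1 : f ∈ U := hle hf
  have h2 := hUinv g hg f h1
  rw [hUe, hue] at h2
  exact h2

/-- `PolyInv 2` means that the group is affine. -/
theorem polyInv_two_affine {Gp : Subgroup (Equiv.Perm (ZMod p))} (h : PolyInv Gp K 2) :
    ∀ g ∈ Gp, ∀ j, g j = (g 1 - g 0) * j + g 0 := by
  intro g hg j
  have hX : polyFun p K X ∈ polyLT p K 2 := by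
    refine ⟨X, Polynomial.mem_degreeLT.mpr ?_, rfl⟩
    rw [degree_X]
    exact_mod_cast (by omega : 1 < 2)
  obtain ⟨P, hP, hPe⟩ := h g hg _ hX
  have hPd := Polynomial.mem_degreeLT.mp hP
  have hP1 : P.degree ≤ ((1 : ℕ) : WithBot ℕ) := by
    have : P.degree < ((1 : ℕ) + 1 : ℕ) := by exact_mod_cast hPd
    exact Polynomial.degree_le_of_natDegree_le (by
      by_cases hP0 : P = 0
      · subst hP0
        simp
      · have := (natDegree_lt_iff_degree_lt hP0).mpr this
        omega)
  obtain hPf := Polynomial.eq_X_add_C_of_degree_le_one (by simpa using hP1)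
  have hval : ∀ z : ZMod p, (ZMod.cast (g z) : K) = P.coeff 1 * (ZMod.cast z : K) + P.coeff 0 := by
    intro z
    have := congrFun hPe z
    simp only [polyFun_apply, eval_X] at this
    rw [← this]
    conv_lhs => rw [hPf]
    simp
  have hp : p.Prime := Fact.out
  haveI : NeZero p := ⟨hp.ne_zero⟩
  have h0 : (ZMod.cast (g 0) : K) = P.coeff 0 := by
    rw [hval 0]
    simp
  have h1 : (ZMod.cast (g 1) : K) = P.coeff 1 + P.coeff 0 := by
    rw [hval 1]
    have : ((ZMod.cast (1 : ZMod p)) : K) = 1 := ZMod.cast_one (dvd_refl p)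
    rw [this, mul_one]
  apply cast_injective' (p := p) (K := K)
  show (ZMod.cast (g j) : K) = ZMod.cast ((g 1 - g 0) * j + g 0)
  have hring : ∀ a b : ZMod p, (ZMod.cast (a * b) : K) = ZMod.cast a * ZMod.cast b :=
    fun a b => ZMod.cast_mul (dvd_refl p) a b
  have hadd : ∀ a b : ZMod p, (ZMod.cast (a + b) : K) = ZMod.cast a + ZMod.cast b :=
    fun a b => ZMod.cast_add (dvd_refl p) a b
  have hsub : ∀ a b : ZMod p, (ZMod.cast (a - b) : K) = ZMod.cast a - ZMod.cast b :=
    fun a b => ZMod.cast_sub (dvd_refl p) a b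
  rw [hadd, hring, hsub, h0, h1, hval j]
  ring

/-- Affine groups are solvable. -/
theorem affine_solvable {Gp : Subgroup (Equiv.Perm (ZMod p))}
    (h : ∀ g ∈ Gp, ∀ j, g j = (g 1 - g 0) * j + g 0) : Group.IsSolvable Gp := by
  have hp : p.Prime := Fact.out
  haveI : NeZero p := ⟨hp.ne_zero⟩
  have hne : ∀ g : Equiv.Perm (ZMod p), g 1 - g 0 ≠ 0 := by
    intro g h0
    have := g.injective (sub_eq_zero.mp h0)
    exact one_ne_zero this
  let ν : Gp →* (ZMod p)ˣ :=
    { toFun := fun g => Units.mk0 (g.1 1 - g.1 0) (hne g.1)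
      map_one' := by
        ext
        simp
      map_mul' := by
        rintro ⟨a, ha⟩ ⟨b, hb⟩
        ext
        simp only [Units.val_mk0, Units.val_mul]
        show (a * b) 1 - (a * b) 0 = (a 1 - a 0) * (b 1 - b 0)
        rw [Equiv.Perm.mul_apply, Equiv.Perm.mul_apply, h a ha (b 1), h a ha (b 0)]
        ring }
  have hcomm : ∀ x y : ν.ker, x * y = y * x := by
    rintro ⟨⟨a, ha⟩, ha'⟩ ⟨⟨b, hb⟩, hb'⟩
    have ha1 : a 1 - a 0 = 1 := by
      have := congrArg Units.val (MonoidHom.mem_ker.mp ha')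
      simpa [ν] using this
    have hb1 : b 1 - b 0 = 1 := by
      have := congrArg Units.val (MonoidHom.mem_ker.mp hb')
      simpa [ν] using this
    refine Subtype.ext (Subtype.ext (Equiv.ext fun j => ?_))
    show (a * b) j = (b * a) j
    rw [Equiv.Perm.mul_apply, Equiv.Perm.mul_apply, h a ha (b j), h b hb j, h b hb (a j), h a ha j,
      ha1, hb1]
    ring
  haveI : Group.IsSolvable ν.ker := Group.isSolvable_of_comm hcomm
  exact Group.isSolvable_of_ker_le_range ν.ker.subtype ν (by simp)

/-- The main statement over `ZMod p`. -/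
theorem polyInv_main (Gp : Subgroup (Equiv.Perm (ZMod p))) (hshift : Equiv.addRight (1 : ZMod p) ∈ Gp)
    (hns : ¬ Group.IsSolvable Gp) (W : Submodule K (ZMod p → K))
    (hinv : ∀ g ∈ Gp, ∀ f ∈ W, (fun j => f (g j)) ∈ W)
    (h1 : (fun _ => 1) ∈ W) (h2 : ∀ f ∈ W, ∑ j, f j = 0) :
    Module.finrank K W = 1 ∨ Module.finrank K W = p - 1 := by
  classical
  have hp : p.Prime := Fact.out
  have hshift' : ∀ f ∈ W, (fun j => f (j - 1)) ∈ W := by
    intro f hf
    have := hinv _ (Gp.inv_mem hshift) f hf
    simpa only [addRight_one_inv] using this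
  obtain ⟨hrp, hWe⟩ := invariant_eq_polyLT W hshift'
  set r := Module.finrank K W with hr
  have hr1 : 1 ≤ r := by
    by_contra hcon
    have h0 : r = 0 := by omega
    rw [hr, Submodule.finrank_eq_zero] at h0
    rw [h0, Submodule.mem_bot] at h1
    exact one_ne_zero (congrFun h1 0)
  have hrp' : r ≤ p - 1 := by
    by_contra hcon
    have h0 : r = p := by omega
    rw [h0, polyLT_p_eq_top] at hWe
    have hδ : (Pi.single 0 1 : ZMod p → K) ∈ W := by rw [hWe]; trivial
    have := h2 _ hδ
    simp [Finset.sum_pi_single'] at this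
  by_contra hcon
  push Not at hcon
  have hinvr : PolyInv Gp K r := by
    intro g hg f hf
    rw [← hWe] at hf ⊢
    exact hinv g hg f hf
  have hdual := polyInv_dual hshift hr1 (by omega) hinvr
  apply hns
  apply affine_solvable
  apply polyInv_two_affine (K := K)
  by_cases hle : 2 * r ≤ p
  · exact polyInv_two (r - 1) (by omega) (by omega) (by
      rw [show r - 1 + 1 = r by omega]; exact hinvr)
  · exact polyInv_two (p - r - 1) (by omega) (by omega) (by
      rw [show p - r - 1 + 1 = p - r by omega]; exact hdual)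

/-- An invariant subspace of dimension two makes the group solvable. -/
theorem polyInv_main2 (Gp : Subgroup (Equiv.Perm (ZMod p))) (hshift : Equiv.addRight (1 : ZMod p) ∈ Gp)
    (hp2 : 2 ≤ p) (W : Submodule K (ZMod p → K))
    (hinv : ∀ g ∈ Gp, ∀ f ∈ W, (fun j => f (g j)) ∈ W) (h2 : Module.finrank K W = 2) :
    Group.IsSolvable Gp := by
  have hshift' : ∀ f ∈ W, (fun j => f (j - 1)) ∈ W := by
    intro f hf
    have := hinv _ (Gp.inv_mem hshift) f hf
    simpa only [addRight_one_inv] using this
  obtain ⟨hrp, hWe⟩ := invariant_eq_polyLT W hshift'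
  rw [h2] at hWe
  apply affine_solvable
  apply polyInv_two_affine (K := K)
  intro g hg f hf
  rw [← hWe] at hf ⊢
  exact hinv g hg f hf

end PolyInv

section Numbering

variable {α : Type*} [Fintype α] [DecidableEq α] {p : ℕ} [Fact p.Prime]

/-- Numbering the points by a cycle of prime order. -/
theorem exists_cycle_numbering (hα : Fintype.card α = p) (c : Equiv.Perm α) (hc : orderOf c = p) :
    ∃ e : ZMod p ≃ α, ∀ j, c (e j) = e (j + 1) := by
  have hp : p.Prime := Fact.out
  haveI : NeZero p := ⟨hp.ne_zero⟩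
  have hcp : c ^ p = 1 := by rw [← hc]; exact pow_orderOf_eq_one c
  have hc1 : c ≠ 1 := by
    rintro rfl
    rw [orderOf_one] at hc
    exact hp.one_lt.ne hc
  obtain ⟨a, ha⟩ : ∃ a, c a ≠ a := by
    by_contra hcon
    push Not at hcon
    exact hc1 (Equiv.ext hcon)
  let e₀ : ZMod p → α := fun j => (c ^ j.val) a
  have hpow : ∀ n : ℕ, (c ^ n) a = e₀ (n : ZMod p) := by
    intro n
    show (c ^ n) a = (c ^ ((n : ZMod p)).val) a
    rw [ZMod.val_natCast, ← pow_mod_orderOf, hc]
  have hstep : ∀ j, c (e₀ j) = e₀ (j + 1) := by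
    intro j
    have h1 : c ((c ^ j.val) a) = (c ^ (j.val + 1)) a := by
      rw [pow_succ', Equiv.Perm.mul_apply]
    show c ((c ^ j.val) a) = _
    rw [h1, hpow]
    congr 1
    push_cast
    simp
  have hfix : ∀ m : ℕ, (c ^ m) a = a → (p : ℕ) ∣ m := by
    intro m hm
    by_contra hnd
    have hcop : Nat.Coprime m p := ((Nat.Prime.coprime_iff_not_dvd hp).mpr hnd).symm
    have hcop' : m.Coprime (orderOf c) := by rw [hc]; exact hcop
    obtain ⟨k, hk⟩ := exists_pow_eq_self_of_coprime hcop'
    have : ∀ l : ℕ, ((c ^ m) ^ l) a = a := by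
      intro l
      induction l with
      | zero => simp
      | succ l ih => rw [pow_succ', Equiv.Perm.mul_apply, ih, hm]
    apply ha
    have h2 := this k
    rw [hk] at h2
    exact h2
  have hinj : Function.Injective e₀ := by
    intro i j hij
    have hij' : (c ^ i.val) a = (c ^ j.val) a := hij
    wlog hle : i.val ≤ j.val generalizing i j
    · exact (this hij.symm hij'.symm (by omega)).symm
    · have h3 : (c ^ (j.val - i.val)) a = a := by
        have h4 : c ^ j.val = c ^ i.val * c ^ (j.val - i.val) := by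
          rw [← pow_add]
          congr 1
          omega
        rw [h4, Equiv.Perm.mul_apply] at hij'
        exact ((c ^ i.val).injective hij').symm
      have h5 := hfix _ h3
      have h6 : j.val - i.val < p := by
        have := ZMod.val_lt j
        omega
      have h7 : j.val - i.val = 0 := Nat.eq_zero_of_dvd_of_lt h5 h6
      apply ZMod.val_injective
      omega
  have hbij : Function.Bijective e₀ := by
    rw [Fintype.bijective_iff_injective_and_card]
    exact ⟨hinj, by rw [ZMod.card, hα]⟩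
  exact ⟨Equiv.ofBijective e₀ hbij, hstep⟩

end Numbering

section Transport

variable {α : Type*} [Fintype α] [DecidableEq α] {p : ℕ} [Fact p.Prime]

/-- Transport of a permutation group to `ZMod p`. -/
theorem pd_setup (e : ZMod p ≃ α) (c : Equiv.Perm α) (he : ∀ j, c (e j) = e (j + 1))
    (G : Subgroup (Equiv.Perm α)) (hcG : c ∈ G) :
    ∃ Gp : Subgroup (Equiv.Perm (ZMod p)), Equiv.addRight (1 : ZMod p) ∈ Gp ∧
      (Group.IsSolvable Gp → Group.IsSolvable G) ∧
      ∀ g' ∈ Gp, ∃ g ∈ G, ∀ j, e (g' j) = g (e j) := by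
  let ψ : Equiv.Perm α ≃* Equiv.Perm (ZMod p) := e.symm.permCongrHom
  have hψ : ∀ g j, ψ g j = e.symm (g (e j)) := fun g j => by
    simp [ψ, Equiv.permCongrHom, Equiv.permCongr]
  refine ⟨G.map ψ.toMonoidHom, ⟨c, hcG, ?_⟩, fun hs => ?_, ?_⟩
  · ext j
    show ψ c j = j + 1
    rw [hψ, he, Equiv.symm_apply_apply]
  · haveI := hs
    exact Group.isSolvable_of_isSolvable_injective (f := ψ.toMonoidHom.subgroupMap G)
      (fun a b hab => Subtype.ext (ψ.injective (congrArg Subtype.val hab)))
  · rintro _ ⟨g, hg, rfl⟩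
    refine ⟨g, hg, fun j => ?_⟩
    show e (ψ g j) = g (e j)
    rw [hψ, Equiv.apply_symm_apply]

/-- A cycle of prime order in a transitive group of prime degree. -/
theorem pd_exists_cycle (hα : Fintype.card α = p) (G : Subgroup (Equiv.Perm α))
    [MulAction.IsPretransitive G α] : ∃ c ∈ G, orderOf c = p := by
  have hp : p.Prime := Fact.out
  obtain ⟨a⟩ : Nonempty α := by
    rw [← Fintype.card_pos_iff, hα]
    exact hp.pos
  have hdvd : p ∣ Nat.card G := by
    have h1 := card_orbit_mul_card_stabilizer (K := G) a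
    rw [MulAction.orbit_eq_univ, Nat.card_coe_set_eq, Set.ncard_univ, Nat.card_eq_fintype_card, hα] at h1
    exact ⟨_, h1.symm⟩
  obtain ⟨⟨c, hc⟩, hco⟩ := exists_prime_orderOf_dvd_card' p hdvd
  exact ⟨c, hc, by rw [← hco]; exact (Subgroup.orderOf_mk c hc).symm⟩

variable {K : Type*} [Field K] [CharP K p]

open Cfsg in
/-- S0674. -/
theorem pd_heart (hα : Fintype.card α = p) (G : Subgroup (Equiv.Perm α))
    [MulAction.IsPretransitive G α] (hG : ¬ Group.IsSolvable G)
    (W : Subrepresentation (permRep K G α))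
    (h₁ : (permConstants K G α).toSubmodule ≤ W.toSubmodule)
    (h₂ : W.toSubmodule ≤ (permSumZero K G α).toSubmodule) :
    W = permConstants K G α ∨ W = permSumZero K G α := by
  classical
  have hp : p.Prime := Fact.out
  haveI : NeZero p := ⟨hp.ne_zero⟩
  obtain ⟨c, hcG, hco⟩ := pd_exists_cycle hα G
  obtain ⟨e, he⟩ := exists_cycle_numbering hα c hco
  obtain ⟨Gp, hshift, hsolv, hlift⟩ := pd_setup e c he G hcG
  let L : (α → K) ≃ₗ[K] (ZMod p → K) := LinearEquiv.funCongrLeft K K e
  have hL : ∀ f j, L f j = f (e j) := fun f j => rfl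
  have hone : (fun _ : α => (1 : K)) ∈ W.toSubmodule :=
    h₁ (Submodule.mem_span_singleton_self _)
  have hmain := polyInv_main (K := K) Gp hshift (fun hs => hG (hsolv hs)) (W.toSubmodule.map (L : (α → K) →ₗ[K] (ZMod p → K)))
    (by
      rintro g' hg' _ ⟨f, hf, rfl⟩
      obtain ⟨g, hg, hgj⟩ := hlift g' hg'
      refine ⟨_, W.apply_mem_toSubmodule (⟨g, hg⟩⁻¹ : G) hf, ?_⟩
      funext j
      show permRep K G α (⟨g, hg⟩⁻¹ : G) f (e j) = L f (g' j)
      rw [hL, hgj]
      simp [permRep])
    ⟨_, hone, rfl⟩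
    (by
      rintro _ ⟨f, hf, rfl⟩
      have h3 : ∑ x, f x = 0 := h₂ hf
      rw [← h3]
      exact Fintype.sum_equiv e _ _ (fun _ => rfl))
  rw [LinearEquiv.finrank_map_eq] at hmain
  rcases hmain with h1 | h1
  · left
    apply Subrepresentation.toSubmodule_injective
    symm
    apply Submodule.eq_of_le_of_finrank_le h₁
    rw [h1]
    have hne : (fun _ : α => (1 : K)) ≠ 0 := by
      obtain ⟨a⟩ : Nonempty α := by
        rw [← Fintype.card_pos_iff, hα]
        exact hp.pos
      exact fun h' => one_ne_zero (congrFun h' a)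
    show 1 ≤ Module.finrank K (Submodule.span K {fun _ : α => (1 : K)})
    rw [finrank_span_singleton hne]
  · right
    apply Subrepresentation.toSubmodule_injective
    apply Submodule.eq_of_le_of_finrank_le h₂
    rw [h1]
    have hlt : (permSumZero K G α).toSubmodule < ⊤ := by
      rw [lt_top_iff_ne_top]
      intro htop
      obtain ⟨a⟩ : Nonempty α := by
        rw [← Fintype.card_pos_iff, hα]
        exact hp.pos
      have h3 : (Pi.single a 1 : α → K) ∈ (permSumZero K G α).toSubmodule := by
        rw [htop]; trivial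
      have h4 : ∑ x, (Pi.single a 1 : α → K) x = 0 := h3
      simp [Finset.sum_pi_single'] at h4
    have := Submodule.finrank_lt hlt.ne
    rw [Module.finrank_fintype_fun_eq_card, hα] at this
    omega

open Cfsg in
/-- An invariant subspace of dimension 2 makes the group solvable. -/
theorem pd_two (hα : Fintype.card α = p) (G : Subgroup (Equiv.Perm α))
    [MulAction.IsPretransitive G α] (W : Subrepresentation (permRep K G α))
    (h2 : Module.finrank K W.toSubmodule = 2) : Group.IsSolvable G := by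
  classical
  have hp : p.Prime := Fact.out
  haveI : NeZero p := ⟨hp.ne_zero⟩
  obtain ⟨c, hcG, hco⟩ := pd_exists_cycle hα G
  obtain ⟨e, he⟩ := exists_cycle_numbering hα c hco
  obtain ⟨Gp, hshift, hsolv, hlift⟩ := pd_setup e c he G hcG
  let L : (α → K) ≃ₗ[K] (ZMod p → K) := LinearEquiv.funCongrLeft K K e
  have hL : ∀ f j, L f j = f (e j) := fun f j => rfl
  apply hsolv
  apply polyInv_main2 (K := K) Gp hshift hp.two_le (W.toSubmodule.map (L : (α → K) →ₗ[K] (ZMod p → K)))
  · rintro g' hg' _ ⟨f, hf, rfl⟩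
    obtain ⟨g, hg, hgj⟩ := hlift g' hg'
    refine ⟨_, W.apply_mem_toSubmodule (⟨g, hg⟩⁻¹ : G) hf, ?_⟩
    funext j
    show permRep K G α (⟨g, hg⟩⁻¹ : G) f (e j) = L f (g' j)
    rw [hL, hgj]
    simp [permRep]
  · rw [LinearEquiv.finrank_map_eq]
    exact h2

end Transport

end Cfsg.Agent.Lib.Perm
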