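import Mathlib

/-! Fisher's inequality, in the form of a positive definite incidence matrix. -/

set_option autoImplicit false

namespace Cfsg.Agent.Lib.Perm

open Finset

/-- Fisher's inequality. -/
theorem fisher_ineq {I B : Type*} [Fintype I] [Fintype B] [DecidableEq I] (inc : I → B → Prop)
    [∀ i b, Decidable (inc i b)] {r₂ r₃ : ℕ} (hlt : r₃ < r₂)
    (h1 : ∀ i, (univ.filter (fun b => inc i b)).card = r₂)
    (h2 : ∀ i j, i ≠ j → (univ.filter (fun b => inc i b ∧ inc j b)).card = r₃) :
    Fintype.card I ≤ Fintype.card B := by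
  let T : (I → ℚ) →ₗ[ℚ] (B → ℚ) :=
    { toFun := fun u b => ∑ i, if inc i b then u i else 0
      map_add' := by
        intro u v
        funext b
        simp only [Pi.add_apply, ← Finset.sum_add_distrib]
        refine Finset.sum_congr rfl fun i _ => ?_
        split_ifs <;> simp
      map_smul' := by
        intro c u
        funext b
        simp only [Pi.smul_apply, smul_eq_mul, RingHom.id_apply, Finset.mul_sum]
        refine Finset.sum_congr rfl fun i _ => ?_
        split_ifs <;> simp }
  have hT : ∀ u b, T u b = ∑ i, if inc i b then u i else 0 := fun _ _ => rfl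
  have hn : ∀ i j, ((univ.filter (fun b => inc i b ∧ inc j b)).card : ℚ)
      = r₃ + if i = j then ((r₂ : ℚ) - r₃) else 0 := by
    intro i j
    by_cases hij : i = j
    · subst hij
      have : (univ.filter (fun b => inc i b ∧ inc i b)) = univ.filter (fun b => inc i b) := by
        ext b
        simp
      rw [this, h1, if_pos rfl]
      ring
    · rw [h2 i j hij, if_neg hij, add_zero]
  have key : ∀ u : I → ℚ, ∑ b, (T u b) ^ 2 =
      ((r₂ : ℚ) - r₃) * ∑ i, (u i) ^ 2 + r₃ * (∑ i, u i) ^ 2 := by
    intro u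
    have h3 : ∀ b, (T u b) ^ 2 =
        ∑ i, ∑ j, if inc i b ∧ inc j b then u i * u j else 0 := by
      intro b
      rw [hT, pow_two, Finset.sum_mul_sum]
      refine Finset.sum_congr rfl fun i _ => Finset.sum_congr rfl fun j _ => ?_
      by_cases hi : inc i b <;> by_cases hj : inc j b <;> simp [hi, hj]
    simp only [h3]
    rw [Finset.sum_comm]
    have h4 : ∀ i, ∑ b, ∑ j, (if inc i b ∧ inc j b then u i * u j else 0)
        = ∑ j, ((univ.filter (fun b => inc i b ∧ inc j b)).card : ℚ) * (u i * u j) := by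
      intro i
      rw [Finset.sum_comm]
      refine Finset.sum_congr rfl fun j _ => ?_
      rw [Finset.sum_ite, Finset.sum_const_zero, add_zero, Finset.sum_const, nsmul_eq_mul]
    simp only [h4, hn]
    have h5 : ∀ i j, ((r₃ : ℚ) + if i = j then ((r₂ : ℚ) - r₃) else 0) * (u i * u j)
        = r₃ * (u i * u j) + if i = j then ((r₂ : ℚ) - r₃) * (u i * u j) else 0 := by
      intro i j
      split_ifs <;> ring
    simp only [h5, Finset.sum_add_distrib, Finset.sum_ite_eq, Finset.mem_univ, if_true]
    have e1 : ∑ i, ∑ j, (r₃ : ℚ) * (u i * u j) = r₃ * (∑ i, u i) ^ 2 := by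
      rw [pow_two, Finset.sum_mul_sum, Finset.mul_sum]
      refine Finset.sum_congr rfl fun i _ => ?_
      rw [Finset.mul_sum]
    have e2 : ∑ i, ((r₂ : ℚ) - r₃) * (u i * u i) = ((r₂ : ℚ) - r₃) * ∑ i, (u i) ^ 2 := by
      rw [Finset.mul_sum]
      refine Finset.sum_congr rfl fun i _ => ?_
      ring
    rw [e1, e2, add_comm]
  have hinj : Function.Injective T := by
    rw [injective_iff_map_eq_zero]
    intro u hu
    have h3 := key u
    rw [hu] at h3
    simp only [Pi.zero_apply, ne_eq, OfNat.ofNat_ne_zero, not_false_eq_true, zero_pow,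
      Finset.sum_const_zero] at h3
    have h4 : (0 : ℚ) < (r₂ : ℚ) - r₃ := by
      rw [sub_pos]
      exact_mod_cast hlt
    have h5 : 0 ≤ ∑ i, (u i) ^ 2 := Finset.sum_nonneg fun i _ => sq_nonneg _
    have h6 : (0 : ℚ) ≤ r₃ * (∑ i, u i) ^ 2 := mul_nonneg (Nat.cast_nonneg _) (sq_nonneg _)
    have h7 : ∑ i, (u i) ^ 2 = 0 := by nlinarith
    funext i
    have h8 := (Finset.sum_eq_zero_iff_of_nonneg (fun i _ => sq_nonneg (u i))).mp h7 i (Finset.mem_univ _)
    exact pow_eq_zero_iff (two_ne_zero) |>.mp h8
  have := LinearMap.finrank_le_finrank_of_injective hinj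
  simpa using this

end Cfsg.Agent.Lib.Perm
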