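import Mathlib
import Cfsg.Prelude.Def_Perm
import Cfsg.Agent.Lib.Perm.PermModule
import Cfsg.Agent.S0670

/-! The heart of the permutation module in characteristic `p`, for actions of degree `p ^ f`. -/

set_option autoImplicit false

namespace Cfsg.Agent.Lib.Perm

open MulAction Cfsg Cfsg.Agent.Perm.PermModule

section
variable {G : Type*} [Group G] [Finite G] {K : Type*} [Field K] {p f : ℕ} [Fact p.Prime] [CharP K p]
  {Ω : Type*} [Fintype Ω] [MulAction G Ω] [MulAction.IsPretransitive G Ω]

omit [Fact p.Prime] [CharP K p] in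
/-- The sum of values is invariant. -/
theorem ht_sum_rep (g : G) (v : Ω → K) : ∑ x, permRep K G Ω g v x = ∑ x, v x :=
  Fintype.sum_equiv (MulAction.toPerm g⁻¹) _ _ (fun _ => rfl)

/-- Proper submodules lie in the sum-zero functions. -/
theorem ht_le_sumZero (hf : 1 ≤ f) (hcard : Fintype.card Ω = p ^ f)
    (U : Subrepresentation (permRep K G Ω)) (hU : U.toSubmodule ≠ ⊤) :
    U.toSubmodule ≤ (permSumZero K G Ω).toSubmodule := by
  classical
  obtain ⟨ℓ, hℓ0, hℓ⟩ := Submodule.exists_le_ker_of_lt_top U.toSubmodule (lt_top_iff_ne_top.mpr hU)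
  -- the orthogonal complement
  let g₀ : Ω → K := fun x => ℓ (delta K x)
  have hℓg : ∀ v : Ω → K, ℓ v = ∑ x, v x * g₀ x := by
    intro v
    conv_lhs => rw [sum_delta v]
    simp [map_sum, g₀]
  let Uperp : Subrepresentation (permRep K G Ω) :=
    { toSubmodule :=
        { carrier := {w | ∀ u ∈ U.toSubmodule, ∑ x, u x * w x = 0}
          add_mem' := by
            intro a b ha hb u hu
            simp only [Pi.add_apply, mul_add, Finset.sum_add_distrib, ha u hu, hb u hu, add_zero]
          zero_mem' := by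
            intro u _
            simp
          smul_mem' := by
            intro c a ha u hu
            have := ha u hu
            simp only [Pi.smul_apply, smul_eq_mul]
            calc ∑ x, u x * (c * a x) = c * ∑ x, u x * a x := by
                  rw [Finset.mul_sum]
                  exact Finset.sum_congr rfl fun x _ => by ring
              _ = 0 := by rw [this, mul_zero] }
      apply_mem_toSubmodule := by
        intro g w hw u hu
        have h1 := hw _ (U.apply_mem_toSubmodule g⁻¹ hu)
        rw [← h1]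
        refine Fintype.sum_equiv (MulAction.toPerm g⁻¹) _ _ (fun x => ?_)
        simp [permRep_apply] }
  have hg₀ : g₀ ∈ Uperp.toSubmodule := by
    intro u hu
    rw [← hℓg]
    exact hℓ hu
  have hne : Uperp.toSubmodule ≠ ⊥ := by
    intro hbot
    rw [hbot, Submodule.mem_bot] at hg₀
    apply hℓ0
    refine LinearMap.ext fun v => ?_
    rw [hℓg, hg₀]
    simp
  have hconst := Cfsg.Agent.S0670.result hf hcard Uperp hne
  have h1 : (fun _ : Ω => (1 : K)) ∈ Uperp.toSubmodule :=
    hconst (Submodule.mem_span_singleton_self _)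
  intro u hu
  have := h1 u hu
  have h3 : ∑ x, u x = 0 := by simpa using this
  exact h3

/-- Equivariant maps killing the constants are multiples of the map `J`. -/
theorem ht_main (hf : 1 ≤ f) (hcard : Fintype.card Ω = p ^ f)
    (h : ∀ W W' : Subrepresentation (permRep K G Ω),
      (permConstants K G Ω).toSubmodule ≤ W.toSubmodule → W.toSubmodule < W'.toSubmodule →
      W'.toSubmodule ≤ (permSumZero K G Ω).toSubmodule →
      ∃ g : G, ∃ v ∈ W'.toSubmodule, permRep K G Ω g v - v ∉ W.toSubmodule)
    (T : (Ω → K) →ₗ[K] (Ω → K)) (hT : ∀ g v, T (permRep K G Ω g v) = permRep K G Ω g (T v))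
    (h1 : T (fun _ => 1) = 0) : ∃ b : K, ∀ v x, T v x = b * ∑ y, v y := by
  classical
  have hp : p.Prime := Fact.out
  have hΩ : Nonempty Ω := by
    rw [← Fintype.card_pos_iff, hcard]
    exact pow_pos hp.pos _
  obtain ⟨a⟩ := hΩ
  have hone0 : (fun _ : Ω => (1 : K)) ≠ 0 := fun h' => one_ne_zero (congrFun h' a)
  let Wm : Subrepresentation (permRep K G Ω) :=
    { toSubmodule := (permSumZero K G Ω).toSubmodule.map T
      apply_mem_toSubmodule := by
        rintro g _ ⟨z, hz, rfl⟩
        exact ⟨permRep K G Ω g z, (permSumZero K G Ω).apply_mem_toSubmodule g hz, hT g z⟩ }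
  let W' : Subrepresentation (permRep K G Ω) :=
    { toSubmodule := LinearMap.range T
      apply_mem_toSubmodule := by
        rintro g _ ⟨z, rfl⟩
        exact ⟨permRep K G Ω g z, hT g z⟩ }
  let Kr : Subrepresentation (permRep K G Ω) :=
    { toSubmodule := LinearMap.ker T
      apply_mem_toSubmodule := by
        intro g z hz
        rw [LinearMap.mem_ker] at hz ⊢
        rw [hT, hz, map_zero] }
  by_cases hW : Wm.toSubmodule = ⊥
  · have hz : ∀ z : Ω → K, ∑ x, z x = 0 → T z = 0 := by
      intro z hz
      have : T z ∈ Wm.toSubmodule := ⟨z, hz, rfl⟩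
      rw [hW, Submodule.mem_bot] at this
      exact this
    have hTv : ∀ v : Ω → K, T v = (∑ y, v y) • T (delta K a) := by
      intro v
      have : T (v - (∑ y, v y) • delta K a) = 0 := by
        apply hz
        simp [Finset.sum_sub_distrib, ← Finset.mul_sum, delta, Finset.sum_pi_single']
      rw [map_sub, map_smul, sub_eq_zero] at this
      exact this
    by_cases hR : W'.toSubmodule = ⊥
    · refine ⟨0, fun v x => ?_⟩
      have : T v ∈ W'.toSubmodule := ⟨v, rfl⟩
      rw [hR, Submodule.mem_bot] at this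
      rw [this]
      simp
    · have hc := Cfsg.Agent.S0670.result hf hcard W' hR
      have : (fun _ : Ω => (1 : K)) ∈ W'.toSubmodule := hc (Submodule.mem_span_singleton_self _)
      obtain ⟨u, hu⟩ := this
      have hsu : ∑ y, u y ≠ 0 := by
        intro h0
        rw [hTv u, h0, zero_smul] at hu
        exact hone0 hu.symm
      refine ⟨(∑ y, u y)⁻¹, fun v x => ?_⟩
      have hw : ∀ x, T (delta K a) x = (∑ y, u y)⁻¹ := by
        intro x
        have := congrFun hu x
        rw [hTv u] at this
        simp only [Pi.smul_apply, smul_eq_mul] at this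
        rw [eq_inv_of_mul_eq_one_right this]
      rw [hTv v]
      simp only [Pi.smul_apply, smul_eq_mul, hw]
      ring
  · exfalso
    have hc := Cfsg.Agent.S0670.result hf hcard Wm hW
    have hR : W'.toSubmodule ≠ ⊤ := by
      intro htop
      have hsurj : Function.Surjective T := LinearMap.range_eq_top.mp htop
      have hinj := LinearMap.injective_iff_surjective.mpr hsurj
      exact hone0 (hinj (by rw [h1, map_zero]))
    have hRZ := ht_le_sumZero hf hcard W' hR
    have hKr : Kr.toSubmodule ≠ ⊤ := by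
      intro htop
      apply hW
      rw [Submodule.eq_bot_iff]
      rintro _ ⟨z, -, rfl⟩
      have : z ∈ Kr.toSubmodule := by rw [htop]; trivial
      exact this
    have hKrZ := ht_le_sumZero hf hcard Kr hKr
    have hlt : Wm.toSubmodule < W'.toSubmodule := by
      refine lt_of_le_of_ne ?_ ?_
      · rintro _ ⟨z, -, rfl⟩
        exact ⟨z, rfl⟩
      · intro heq
        have h2 : T (delta K a) ∈ Wm.toSubmodule := by
          rw [heq]
          exact ⟨_, rfl⟩
        obtain ⟨z, hz, hzT⟩ := h2
        have h3 : delta K a - z ∈ Kr.toSubmodule := by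
          show T (delta K a - z) = 0
          rw [map_sub, hzT, sub_self]
        have h4 := hKrZ h3
        have h5 : ∑ x, (delta K a - z) x = 0 := h4
        have hz' : ∑ x, z x = 0 := hz
        simp only [Pi.sub_apply, Finset.sum_sub_distrib, hz', sub_zero, delta] at h5
        simp [Finset.sum_pi_single'] at h5
    obtain ⟨g, v, hv, hgv⟩ := h Wm W' hc hlt hRZ
    obtain ⟨u, rfl⟩ := hv
    apply hgv
    refine ⟨permRep K G Ω g u - u, ?_, ?_⟩
    · show ∑ x, (permRep K G Ω g u - u) x = 0
      simp only [Pi.sub_apply, Finset.sum_sub_distrib, ht_sum_rep, sub_self]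
    · rw [map_sub, hT]

/-- S0671. -/
theorem ht_two_trans (hf : 1 ≤ f) (hcard : Fintype.card Ω = p ^ f)
    (h : ∀ W W' : Subrepresentation (permRep K G Ω),
      (permConstants K G Ω).toSubmodule ≤ W.toSubmodule → W.toSubmodule < W'.toSubmodule →
      W'.toSubmodule ≤ (permSumZero K G Ω).toSubmodule →
      ∃ g : G, ∃ v ∈ W'.toSubmodule, permRep K G Ω g v - v ∉ W.toSubmodule) :
    IsMultiplyPretransitive G Ω 2 := by
  classical
  rw [is_two_pretransitive_iff]
  intro x₀ x₁ y₀ y₁ hx hy
  -- the orbital
  let φ : Ω × Ω → K := fun w => if w ∈ orbit G (x₀, x₁) then 1 else 0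
  have hmem : ∀ (g : G) w, g • w ∈ orbit G (x₀, x₁) ↔ w ∈ orbit G (x₀, x₁) := by
    intro g w
    constructor
    · rintro ⟨h', hh⟩
      exact ⟨g⁻¹ * h', by
        have hh' : h' • (x₀, x₁) = g • w := hh
        show (g⁻¹ * h') • (x₀, x₁) = w
        rw [mul_smul, hh', inv_smul_smul]⟩
    · rintro ⟨h', rfl⟩
      exact ⟨g * h', mul_smul _ _ _⟩
  have hφ : ∀ (g : G) w, φ (g • w) = φ w := by
    intro g w
    simp only [φ, hmem]
  let T₀ := kernelOp (Ω₁ := Ω) (Ω₂ := Ω) φ
  have hT₀ : ∀ g v, T₀ (permRep K G Ω g v) = permRep K G Ω g (T₀ v) := by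
    intro g v
    funext y
    simp only [T₀, kernelOp_apply, permRep_apply]
    refine Fintype.sum_equiv (MulAction.toPerm g⁻¹) _ _ (fun z => ?_)
    simp only [MulAction.toPerm_apply]
    rw [← hφ g⁻¹ (z, y)]
    rfl
  have hconst : ∀ y, T₀ (fun _ => 1) y = T₀ (fun _ => 1) x₁ := by
    intro y
    obtain ⟨g, hg⟩ := exists_smul_eq G x₁ y
    have h2 := hT₀ g (fun _ => 1)
    have h3 : permRep K G Ω g (fun _ => (1 : K)) = fun _ => 1 := rfl
    rw [h3] at h2
    have h4 := congrFun h2 y
    rw [h4, permRep_apply, ← hg, inv_smul_smul]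
  let d : K := T₀ (fun _ => 1) x₁
  let T : (Ω → K) →ₗ[K] (Ω → K) := T₀ - d • LinearMap.id
  have hT : ∀ g v, T (permRep K G Ω g v) = permRep K G Ω g (T v) := by
    intro g v
    simp only [T, LinearMap.sub_apply, LinearMap.smul_apply, LinearMap.id_apply, hT₀, map_sub, map_smul]
  have hT1 : T (fun _ => 1) = 0 := by
    funext y
    simp only [T, LinearMap.sub_apply, LinearMap.smul_apply, LinearMap.id_apply, Pi.sub_apply,
      Pi.smul_apply, smul_eq_mul, mul_one, hconst y, d, sub_self, Pi.zero_apply]
  obtain ⟨b, hb⟩ := ht_main hf hcard h T hT hT1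
  have hval : ∀ z w : Ω, z ≠ w → φ (z, w) = b := by
    intro z w hzw
    have := hb (delta K z) w
    simp only [T, LinearMap.sub_apply, LinearMap.smul_apply, LinearMap.id_apply, Pi.sub_apply,
      Pi.smul_apply, smul_eq_mul, T₀, kernelOp_apply, delta] at this
    simp only [Pi.single_apply, mul_ite, mul_one, mul_zero, Finset.sum_ite_eq', Finset.mem_univ,
      if_true, Finset.sum_ite_eq] at this
    rw [if_neg (Ne.symm hzw), sub_zero] at this
    exact this
  have h1 : φ (x₀, x₁) = 1 := by
    simp only [φ]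
    rw [if_pos (mem_orbit_self _)]
  have h2 : φ (y₀, y₁) = 1 := by
    rw [hval _ _ hy, ← hval _ _ hx, h1]
  have h3 : (y₀, y₁) ∈ orbit G (x₀, x₁) := by
    by_contra hcon
    simp only [φ] at h2
    rw [if_neg hcon] at h2
    exact zero_ne_one h2
  obtain ⟨g, hg⟩ := h3
  have hg' : g • (x₀, x₁) = (y₀, y₁) := hg
  simp only [Prod.smul_mk, Prod.mk.injEq] at hg'
  exact ⟨g, hg'.1, hg'.2⟩

end

end Cfsg.Agent.Lib.Perm
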