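import Mathlib
import Cfsg.Agent.Lib.Perm.PrimeDegree
import Cfsg.Agent.Lib.Perm.Heart

/-! Burnside's theorem on transitive groups of prime degree. -/

set_option autoImplicit false

namespace Cfsg.Agent.Lib.Perm

open MulAction Cfsg

variable {α : Type*} [Fintype α] [DecidableEq α]

/-- Burnside's theorem. -/
theorem pd_burnside (hα : (Fintype.card α).Prime) (G : Subgroup (Equiv.Perm α))
    [MulAction.IsPretransitive G α] : Group.IsSolvable G ∨ IsMultiplyPretransitive G α 2 := by
  classical
  by_cases hG : Group.IsSolvable G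
  · exact Or.inl hG
  right
  haveI : Fact (Fintype.card α).Prime := ⟨hα⟩
  set p := Fintype.card α with hp
  have hp' : p.Prime := hα
  haveI : NeZero p := ⟨hp'.ne_zero⟩
  let K := ZMod p
  refine ht_two_trans (K := K) (p := p) (f := 1) le_rfl (by rw [pow_one]) ?_
  intro W W' h₁ hlt h₃
  have hW' := pd_heart (K := K) hp.symm G hG W' (h₁.trans hlt.le) h₃
  have hW := pd_heart (K := K) hp.symm G hG W h₁ (hlt.le.trans h₃)
  rcases hW' with rfl | rfl
  · exact absurd hlt (not_lt_of_ge h₁)
  rcases hW with rfl | rfl
  swap
  · exact absurd hlt (lt_irrefl _)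
  by_contra hcon
  push Not at hcon
  exfalso
  obtain ⟨v, hv, hv'⟩ := SetLike.exists_of_lt hlt
  have hmem : ∀ (g : G) (u : α → K), u ∈ Submodule.span K {(fun _ : α => (1 : K)), v} →
      permRep K G α g u ∈ Submodule.span K {(fun _ : α => (1 : K)), v} := by
    intro g u hu
    rw [Submodule.mem_span_pair] at hu
    obtain ⟨a, b, rfl⟩ := hu
    have h1 : permRep K G α g (fun _ => 1) = fun _ => 1 := rfl
    have h2 := hcon g v hv
    have h2' : permRep K G α g v - v ∈ Submodule.span K {fun _ : α => (1 : K)} := h2
    rw [Submodule.mem_span_singleton] at h2'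
    obtain ⟨d, hd⟩ := h2'
    rw [Submodule.mem_span_pair]
    refine ⟨a + b * d, b, ?_⟩
    rw [map_add, map_smul, map_smul, h1]
    have h3 : permRep K G α g v = d • (fun _ => 1) + v := by
      rw [hd]
      abel
    rw [h3, smul_add, add_smul, smul_smul]
    abel
  let W₂ : Subrepresentation (permRep K G α) :=
    { toSubmodule := Submodule.span K {(fun _ : α => (1 : K)), v}
      apply_mem_toSubmodule := fun g u hu => hmem g u hu }
  have hinde : LinearIndependent K ![(fun _ : α => (1 : K)), v] := by
    rw [LinearIndependent.pair_iff]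
    intro s t hst
    have ht : t = 0 := by
      by_contra ht
      apply hv'
      show v ∈ Submodule.span K {fun _ : α => (1 : K)}
      rw [Submodule.mem_span_singleton]
      refine ⟨-(t⁻¹ * s), ?_⟩
      have h4 : v = -(t⁻¹ • (s • fun _ : α => (1 : K))) := by
        have h5 : t • v = -(s • fun _ : α => (1 : K)) := by
          rw [eq_neg_iff_add_eq_zero, add_comm]
          exact hst
        rw [← smul_neg, ← h5, smul_smul, inv_mul_cancel₀ ht, one_smul]
      rw [h4, neg_smul, mul_smul]
    refine ⟨?_, ht⟩
    rw [ht, zero_smul, add_zero] at hst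
    obtain ⟨a⟩ : Nonempty α := by
      rw [← Fintype.card_pos_iff]
      exact hp'.pos
    have := congrFun hst a
    simpa using this
  have hfr : Module.finrank K W₂.toSubmodule = 2 := by
    have h5 := finrank_span_eq_card hinde
    simp only [Fintype.card_fin] at h5
    have h6 : Set.range ![(fun _ : α => (1 : K)), v] = {(fun _ : α => (1 : K)), v} := by
      simp [Matrix.range_cons, Set.pair_comm]
    rw [h6] at h5
    exact h5
  exact hG (pd_two (K := K) hp.symm G W₂ hfr)

end Cfsg.Agent.Lib.Perm
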