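import Mathlib
import Cfsg.Prelude.Def_Perm
import Cfsg.Agent.Lib.Perm.PermModule

/-! Equivariant maps from the permutation module to the permutation module on pairs, giving
triple transitivity. -/

set_option autoImplicit false

namespace Cfsg.Agent.Lib.Perm

open MulAction Cfsg Cfsg.Agent.Perm.PermModule
open scoped Pointwise

section
variable {G : Type*} [Group G] {K : Type*} [Field K] {Ω : Type*} [Fintype Ω] {P : Type*}

/-- The linear map with a given kernel. -/
noncomputable def pcOp (φ : Ω × P → K) : (Ω → K) →ₗ[K] (P → K) where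
  toFun v t := ∑ a, φ (a, t) * v a
  map_add' f₁ f₂ := by
    ext y
    simp [mul_add, Finset.sum_add_distrib]
  map_smul' c f := by
    ext y
    simp [Finset.mul_sum, mul_left_comm]

@[simp] theorem pcOp_apply (φ : Ω × P → K) (v : Ω → K) (t : P) :
    pcOp φ v t = ∑ a, φ (a, t) * v a := rfl

theorem pcOp_equiv [MulAction G Ω] [MulAction G P] (φ : Ω × P → K) (hφ : ∀ (g : G) w, φ (g • w) = φ w)
    (g : G) (v : Ω → K) : pcOp φ (permRep K G Ω g v) = permRep K G P g (pcOp φ v) := by
  funext t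
  simp only [pcOp_apply, permRep_apply]
  refine Fintype.sum_equiv (MulAction.toPerm g⁻¹) _ _ (fun z => ?_)
  simp only [MulAction.toPerm_apply]
  rw [← hφ g⁻¹ (z, t)]
  rfl

end

section
variable {G : Type*} [Group G] [Finite G] {K : Type*} [Field K]
  {Ω : Type*} [Fintype Ω] [DecidableEq Ω] [MulAction G Ω]

open Set.powersetCard in
/-- The orbits of the setwise stabiliser of a pair on the remaining points. -/
theorem hp_pair_trans (h2 : IsMultiplyPretransitive G Ω 2)
    (h : ∀ f : Representation.IntertwiningMap (permSumZero K G Ω).toRepresentation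
        (permRep K G (Set.powersetCard Ω 2)),
      (∀ v : (permSumZero K G Ω).toSubmodule, (v : Ω → K) ∈ (permConstants K G Ω).toSubmodule → f v = 0) →
      f = 0)
    (b c a₀ a₁ : Ω) (hbc : b ≠ c) (hb₀ : a₀ ≠ b) (hc₀ : a₀ ≠ c) (hb₁ : a₁ ≠ b) (hc₁ : a₁ ≠ c) :
    ∃ g : G, (g • b = b ∧ g • c = c ∨ g • b = c ∧ g • c = b) ∧ g • a₀ = a₁ := by
  classical
  -- vanishing on the sum-zero functions
  have hzero : ∀ φ : Ω × Set.powersetCard Ω 2 → K, (∀ (g : G) w, φ (g • w) = φ w) →
      pcOp φ (fun _ => 1) = 0 → ∀ v : Ω → K, ∑ x, v x = 0 → pcOp φ v = 0 := by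
    intro φ hφ h1 v hv
    let f₀ : (permSumZero K G Ω).toSubmodule →ₗ[K] (Set.powersetCard Ω 2 → K) :=
      (pcOp φ) ∘ₗ (permSumZero K G Ω).toSubmodule.subtype
    let f := LinearMap.intertwiningMap_of_isIntertwiningMap
      (permSumZero K G Ω).toRepresentation (permRep K G (Set.powersetCard Ω 2)) f₀
      (fun g w => pcOp_equiv φ hφ g w.1)
    have hf : f = 0 := by
      apply h
      intro w hw
      have hw' : (w : Ω → K) ∈ Submodule.span K {fun _ => (1 : K)} := hw
      rw [Submodule.mem_span_singleton] at hw'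
      obtain ⟨e, he⟩ := hw'
      show pcOp φ w.1 = 0
      rw [← he, map_smul, h1, smul_zero]
    have : f ⟨v, hv⟩ = 0 := by rw [hf]; rfl
    exact this
  by_contra hcon
  push Not at hcon
  let s₀ : Set.powersetCard Ω 2 := ⟨{b, c}, Finset.card_pair hbc⟩
  have hs₀ : ∀ g : G, g • s₀ = s₀ → (g • b = b ∧ g • c = c ∨ g • b = c ∧ g • c = b) := by
    intro g hg
    have hg' : g • ({b, c} : Finset Ω) = {b, c} := by
      have := congrArg (fun t : Set.powersetCard Ω 2 => (t : Finset Ω)) hg
      simpa [s₀] using this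
    have h1 : g • b ∈ ({b, c} : Finset Ω) := by
      rw [← hg']
      exact Finset.smul_mem_smul_finset (by simp)
    have h3 : g • c ∈ ({b, c} : Finset Ω) := by
      rw [← hg']
      exact Finset.smul_mem_smul_finset (by simp)
    simp only [Finset.mem_insert, Finset.mem_singleton] at h1 h3
    rcases h1 with h1 | h1 <;> rcases h3 with h3 | h3
    · exact absurd (smul_left_cancel g (h1.trans h3.symm)) hbc
    · exact Or.inl ⟨h1, h3⟩
    · exact Or.inr ⟨h1, h3⟩
    · exact absurd (smul_left_cancel g (h1.trans h3.symm)) hbc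
  let φ₀ : Ω × Set.powersetCard Ω 2 → K := fun w => if w.1 ∈ (w.2 : Finset Ω) then 1 else 0
  have hφ₀ : ∀ (g : G) w, φ₀ (g • w) = φ₀ w := by
    intro g w
    simp only [φ₀, Prod.smul_fst, Prod.smul_snd, Set.powersetCard.coe_smul,
      Finset.smul_mem_smul_finset_iff]
  have hφ₀1 : ∀ t, pcOp φ₀ (fun _ => 1) t = 2 := by
    intro t
    simp only [pcOp_apply, φ₀, mul_one, Finset.sum_boole, Finset.filter_mem_eq_inter,
      Finset.univ_inter, Set.powersetCard.card_eq]
    norm_num
  have hδ : ∀ (φ : Ω × Set.powersetCard Ω 2 → K) x y t,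
      pcOp φ (delta K x - delta K y) t = φ (x, t) - φ (y, t) := by
    intro φ x y t
    simp only [pcOp_apply, Pi.sub_apply, mul_sub, Finset.sum_sub_distrib, delta, Pi.single_apply,
      mul_ite, mul_one, mul_zero, Finset.sum_ite_eq', Finset.mem_univ, if_true]
  have hδs : ∀ x y : Ω, ∑ z, (delta K x - delta K y) z = 0 := by
    intro x y
    simp [Finset.sum_sub_distrib, delta, Finset.sum_pi_single']
  have hmem₀ : ∀ x, φ₀ (x, s₀) = if x = b ∨ x = c then 1 else 0 := by
    intro x
    simp [φ₀, s₀]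
  by_cases h2K : (2 : K) = 0
  · have h1 : pcOp φ₀ (fun _ => 1) = 0 := by
      funext t
      rw [hφ₀1, h2K]
      rfl
    have h3 := congrFun (hzero φ₀ hφ₀ h1 _ (hδs a₀ b)) s₀
    rw [hδ, hmem₀, hmem₀] at h3
    simp [hb₀, hc₀] at h3
  · let R := orbit G (a₀, s₀)
    have hmem : ∀ (g : G) w, g • w ∈ R ↔ w ∈ R := by
      intro g w
      constructor
      · rintro ⟨h', hh⟩
        exact ⟨g⁻¹ * h', by
          have hh' : h' • (a₀, s₀) = g • w := hh
          show (g⁻¹ * h') • (a₀, s₀) = w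
          rw [mul_smul, hh', inv_smul_smul]⟩
      · rintro ⟨h', rfl⟩
        exact ⟨g * h', mul_smul _ _ _⟩
    let φR : Ω × Set.powersetCard Ω 2 → K := fun w => if w ∈ R then 1 else 0
    have hφR : ∀ (g : G) w, φR (g • w) = φR w := by
      intro g w
      simp only [φR, hmem]
    have hTrans : IsPretransitive G (Set.powersetCard Ω 2) :=
      Set.powersetCard.isPretransitive_of_isMultiplyPretransitive G h2
    have hconst : ∀ t, pcOp φR (fun _ => 1) t = pcOp φR (fun _ => 1) s₀ := by
      intro t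
      obtain ⟨g, hg⟩ := exists_smul_eq G s₀ t
      have h3 := pcOp_equiv φR hφR g (fun _ => 1)
      have h4 : permRep K G Ω g (fun _ => (1 : K)) = fun _ => 1 := rfl
      rw [h4] at h3
      have h5 := congrFun h3 t
      rw [h5, permRep_apply, ← hg, inv_smul_smul]
    let d : K := pcOp φR (fun _ => 1) s₀
    let φ : Ω × Set.powersetCard Ω 2 → K := fun w => φR w - (d / 2) * φ₀ w
    have hφ : ∀ (g : G) w, φ (g • w) = φ w := by
      intro g w
      simp only [φ, hφR, hφ₀]
    have h1 : pcOp φ (fun _ => 1) = 0 := by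
      funext t
      have h3 := hconst t
      have h4 := hφ₀1 t
      simp only [pcOp_apply, φ, mul_one, Pi.zero_apply, Finset.sum_sub_distrib, ← Finset.mul_sum] at h3 h4 ⊢
      have hd : ∑ x, φR (x, s₀) = d := by simp [d, pcOp_apply]
      rw [h3, h4, hd]
      field_simp
      ring
    have h3 := congrFun (hzero φ hφ h1 _ (hδs a₀ a₁)) s₀
    rw [hδ] at h3
    have h4 : φR (a₀, s₀) = 1 := by
      simp only [φR]
      rw [if_pos (mem_orbit_self _)]
    have h5 : φR (a₁, s₀) = 0 := by
      simp only [φR]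
      rw [if_neg]
      rintro ⟨g, hg⟩
      have hg' : g • (a₀, s₀) = (a₁, s₀) := hg
      simp only [Prod.smul_mk, Prod.mk.injEq] at hg'
      exact hcon g (hs₀ g hg'.2) hg'.1
    simp only [φ, h4, h5, hmem₀, hb₀, hc₀, hb₁, hc₁] at h3
    simp at h3

/-- S0672. -/
theorem hp_three_trans [FaithfulSMul G Ω] (h2 : IsMultiplyPretransitive G Ω 2)
    (heven : ∀ a : Ω, Even (Nat.card (stabilizer G a)))
    (h : ∀ f : Representation.IntertwiningMap (permSumZero K G Ω).toRepresentation
        (permRep K G (Set.powersetCard Ω 2)),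
      (∀ v : (permSumZero K G Ω).toSubmodule, (v : Ω → K) ∈ (permConstants K G Ω).toSubmodule → f v = 0) →
      f = 0) :
    IsMultiplyPretransitive G Ω 3 := by
  classical
  rw [isMultiplyPretransitive_iff]
  intro x y
  have hpair := hp_pair_trans (K := K) h2 h
  -- an involution
  let a := x 0
  have hdvd : 2 ∣ Nat.card (stabilizer G a) := (heven a).two_dvd
  obtain ⟨⟨u, hu⟩, huo⟩ := exists_prime_orderOf_dvd_card' 2 hdvd
  have hua : u • a = a := hu
  have hu2 : u * u = 1 := by
    have := pow_orderOf_eq_one (⟨u, hu⟩ : stabilizer G a)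
    rw [huo, pow_two] at this
    exact congrArg Subtype.val this
  have hu1 : u ≠ 1 := by
    rintro rfl
    have : (⟨1, hu⟩ : stabilizer G a) = 1 := rfl
    rw [this, orderOf_one] at huo
    omega
  obtain ⟨b, hb⟩ : ∃ b : Ω, u • b ≠ b := by
    by_contra hcon
    push Not at hcon
    apply hu1
    apply FaithfulSMul.eq_of_smul_eq_smul (α := Ω)
    intro z
    rw [hcon z, one_smul]
  set c := u • b with hc
  have huc : u • c = b := by
    rw [hc, ← mul_smul, hu2, one_smul]
  have hbc : b ≠ c := Ne.symm hb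
  have hab : a ≠ b := by
    rintro h'
    apply hb
    rw [hc, ← h', hua]
  have hac : a ≠ c := by
    intro h'
    have h3 : u • c = c := by rw [← h']; exact hua
    exact hbc (huc.symm.trans h3)
  -- pointwise transitivity
  have hpt : ∀ a', a' ≠ b → a' ≠ c → ∃ g : G, g • b = b ∧ g • c = c ∧ g • a = a' := by
    intro a' hb' hc'
    obtain ⟨g, hg, hga⟩ := hpair b c a a' hbc hab hac hb' hc'
    rcases hg with ⟨h1, h3⟩ | ⟨h1, h3⟩
    · exact ⟨g, h1, h3, hga⟩
    · refine ⟨g * u, ?_, ?_, ?_⟩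
      · rw [mul_smul, ← hc, h3]
      · rw [mul_smul, huc, h1]
      · rw [mul_smul, hua, hga]
  have hT : ∀ z : Fin 3 ↪ Ω, ∃ g : G, g • z 0 = b ∧ g • z 1 = c ∧ g • z 2 = a := by
    intro z
    have h01 : z 0 ≠ z 1 := fun h' => by
      have := z.injective h'
      simp at this
    obtain ⟨g₁, hg₁, hg₂⟩ := is_two_pretransitive_iff.mp h2 h01 hbc
    have hb' : g₁ • z 2 ≠ b := by
      intro h'
      rw [← hg₁] at h'
      have := z.injective (smul_left_cancel g₁ h')
      simp at this
    have hc' : g₁ • z 2 ≠ c := by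
      intro h'
      rw [← hg₂] at h'
      have := z.injective (smul_left_cancel g₁ h')
      simp at this
    obtain ⟨g₂, h3, h4, h5⟩ := hpt _ hb' hc'
    refine ⟨g₂⁻¹ * g₁, ?_, ?_, ?_⟩
    · rw [mul_smul, hg₁, inv_smul_eq_iff, h3]
    · rw [mul_smul, hg₂, inv_smul_eq_iff, h4]
    · rw [mul_smul, inv_smul_eq_iff, h5]
  obtain ⟨g₁, h1, h3, h4⟩ := hT x
  obtain ⟨g₂, h5, h6, h7⟩ := hT y
  refine ⟨g₂⁻¹ * g₁, ?_⟩
  ext i
  fin_cases i
  · show (g₂⁻¹ * g₁) • x 0 = y 0
    rw [mul_smul, h1, inv_smul_eq_iff, h5]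
  · show (g₂⁻¹ * g₁) • x 1 = y 1
    rw [mul_smul, h3, inv_smul_eq_iff, h6]
  · show (g₂⁻¹ * g₁) • x 2 = y 2
    rw [mul_smul, h4, inv_smul_eq_iff, h7]

end

end Cfsg.Agent.Lib.Perm
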