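import Mathlib
import Cfsg.Agent.Lib.Perm.Burnside1
import Cfsg.Agent.Lib.Perm.Heart2

/-! Transitive groups of prime degree in which the Sylow normaliser has even order. -/

set_option autoImplicit false

namespace Cfsg.Agent.Lib.Perm

open MulAction Cfsg
open scoped Pointwise

variable {α : Type*} [Fintype α] [DecidableEq α] {p : ℕ} [Fact p.Prime]

theorem pd_cpow (e : ZMod p ≃ α) (c : Equiv.Perm α) (he : ∀ j, c (e j) = e (j + 1)) :
    ∀ (n : ℕ) j, (c ^ n) (e j) = e (j + (n : ZMod p)) := by
  intro n
  induction n with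
  | zero => intro j; simp
  | succ n ih =>
    intro j
    rw [pow_succ', Equiv.Perm.mul_apply, ih, he]
    congr 1
    push_cast
    ring

/-- The structure of an involution normalising a Sylow `p`-subgroup. -/
theorem pd_involution (hα : Fintype.card α = p) (G : Subgroup (Equiv.Perm α))
    [MulAction.IsPretransitive G α] (hp2 : p ≠ 2) (P : Sylow p G)
    (heven : Even (Nat.card (Subgroup.normalizer ((P : Subgroup G) : Set G)))) :
    ∃ (c t : G) (e : ZMod p ≃ α) (b : ZMod p), (∀ j, c.1 (e j) = e (j + 1)) ∧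
      (∀ j, t.1 (e j) = e (b - j)) ∧ c ∈ (P : Subgroup G) ∧ orderOf c = p ∧ t ≠ 1 := by
  classical
  have hp : p.Prime := Fact.out
  haveI : NeZero p := ⟨hp.ne_zero⟩
  -- the order of `P`
  obtain ⟨c₀, hc₀G, hc₀o⟩ := pd_exists_cycle hα G
  have hdvd : p ∣ Nat.card G := by
    have := orderOf_dvd_natCard (⟨c₀, hc₀G⟩ : G)
    rwa [Subgroup.orderOf_mk, hc₀o] at this
  have hPdvd : p ∣ Nat.card (P : Subgroup G) := P.dvd_card_of_dvd_card hdvd
  obtain ⟨k, hk⟩ := IsPGroup.iff_card.mp P.isPGroup'
  have hfact : Nat.card (P : Subgroup G) ∣ p.factorial := by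
    have h1 : Nat.card (P : Subgroup G) ∣ Nat.card G := Subgroup.card_subgroup_dvd_card _
    have h2 : Nat.card G ∣ Nat.card (Equiv.Perm α) := Subgroup.card_subgroup_dvd_card _
    rw [Nat.card_eq_fintype_card (α := Equiv.Perm α), Fintype.card_perm, hα] at h2
    exact h1.trans h2
  have hPcard : Nat.card (P : Subgroup G) = p := by
    rw [hk] at hPdvd hfact ⊢
    have hk0 : k ≠ 0 := by
      rintro rfl
      rw [pow_zero, Nat.dvd_one] at hPdvd
      exact hp.one_lt.ne' hPdvd
    have hk2 : k < 2 := by
      by_contra hcon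
      have h3 : p ^ 2 ∣ p.factorial := (pow_dvd_pow p (by omega)).trans hfact
      rw [← Nat.mul_factorial_pred hp.ne_zero, pow_two] at h3
      have h4 := Nat.dvd_of_mul_dvd_mul_left hp.pos h3
      rw [hp.dvd_factorial] at h4
      have := hp.pos
      omega
    have : k = 1 := by omega
    rw [this, pow_one]
  -- the generator
  obtain ⟨⟨c, hcP⟩, hco⟩ := exists_prime_orderOf_dvd_card' (G := (P : Subgroup G)) p (by rw [hPcard])
  have hco' : orderOf c = p := by rw [← hco]; exact (Subgroup.orderOf_mk c hcP).symm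
  have hco'' : orderOf (c : Equiv.Perm α) = p := by
    rw [← hco']
    exact Subgroup.orderOf_coe c
  have hzp : Subgroup.zpowers c = (P : Subgroup G) := by
    apply Subgroup.eq_of_le_of_card_ge
    · rw [Subgroup.zpowers_le]
      exact hcP
    · rw [Nat.card_zpowers, hco', hPcard]
  -- the involution
  haveI : Fact (Nat.Prime 2) := Nat.fact_prime_two
  obtain ⟨⟨t, htN⟩, hto⟩ := exists_prime_orderOf_dvd_card'
    (G := Subgroup.normalizer ((P : Subgroup G) : Set G)) 2 heven.two_dvd
  have hto' : orderOf t = 2 := by rw [← hto]; exact (Subgroup.orderOf_mk t htN).symm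
  have ht1 : t ≠ 1 := by
    rintro rfl
    rw [orderOf_one] at hto'
    omega
  have ht2 : t * t = 1 := by
    rw [← pow_two, ← hto']
    exact pow_orderOf_eq_one t
  have ht2' : ∀ x : α, (t : Equiv.Perm α) ((t : Equiv.Perm α) x) = x := by
    intro x
    have h1 : ((t * t : G) : Equiv.Perm α) x = x := by rw [ht2]; rfl
    exact h1
  obtain ⟨e, he⟩ := exists_cycle_numbering hα (c : Equiv.Perm α) hco''
  -- the conjugate of `c`
  have hconj : t * c * t⁻¹ ∈ (P : Subgroup G) := (Subgroup.mem_normalizer_iff.mp htN c).mp hcP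
  rw [← hzp, ← mem_powers_iff_mem_zpowers] at hconj
  obtain ⟨m, hm⟩ := hconj
  have htc : ∀ x : α, (t : Equiv.Perm α) ((c : Equiv.Perm α) x)
      = ((c : Equiv.Perm α) ^ m) ((t : Equiv.Perm α) x) := by
    intro x
    have h1 : t * c = c ^ m * t := by
      have hm' : c ^ m = t * c * t⁻¹ := hm
      rw [hm']
      group
    have h2 := congrArg (fun g : G => (g : Equiv.Perm α) x) h1
    simpa using h2
  let b : ZMod p := e.symm ((t : Equiv.Perm α) (e 0))
  have hb : (t : Equiv.Perm α) (e 0) = e b := by simp [b]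
  have hnat : ∀ n : ℕ, (t : Equiv.Perm α) (e (n : ZMod p)) = e (b + n * (m : ZMod p)) := by
    intro n
    induction n with
    | zero => simpa using hb
    | succ n ih =>
      have h1 : ((n + 1 : ℕ) : ZMod p) = n + 1 := by push_cast; ring
      rw [h1, ← he, htc, ih, pd_cpow e _ he]
      congr 1
      ring
  have hall : ∀ j : ZMod p, (t : Equiv.Perm α) (e j) = e (b + j * (m : ZMod p)) := by
    intro j
    have := hnat j.val
    rwa [ZMod.natCast_zmod_val] at this
  have hrel : ∀ j : ZMod p, b + (b + j * (m : ZMod p)) * (m : ZMod p) = j := by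
    intro j
    have h1 := ht2' (e j)
    rw [hall, hall] at h1
    exact e.injective h1
  have h0 := hrel 0
  have h1 := hrel 1
  have hm2 : (m : ZMod p) * m = 1 := by
    simp only [zero_mul, add_zero] at h0
    have : b + (b + 1 * (m : ZMod p)) * m = (b + b * m) + m * m := by ring
    rw [this, h0, zero_add] at h1
    exact h1
  have h2ne : (2 : ZMod p) ≠ 0 := by
    intro h
    have h3 : ((2 : ℕ) : ZMod p) = 0 := by exact_mod_cast h
    rw [ZMod.natCast_eq_zero_iff] at h3
    have := (Nat.prime_dvd_prime_iff_eq hp Nat.prime_two).mp h3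
    exact hp2 this
  have hmpm : (m : ZMod p) = 1 ∨ (m : ZMod p) = -1 := by
    have : ((m : ZMod p) - 1) * ((m : ZMod p) + 1) = 0 := by
      rw [show ((m : ZMod p) - 1) * ((m : ZMod p) + 1) = (m : ZMod p) * m - 1 by ring, hm2, sub_self]
    rcases mul_eq_zero.mp this with h | h
    · exact Or.inl (sub_eq_zero.mp h)
    · exact Or.inr (eq_neg_of_add_eq_zero_left h)
  rcases hmpm with hm1 | hm1
  · exfalso
    apply ht1
    rw [hm1] at h0
    have hb0 : b = 0 := by
      have h3 : 2 * b = 0 := by
        simp only [zero_mul, add_zero, mul_one] at h0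
        rw [two_mul]
        exact h0
      exact (mul_eq_zero.mp h3).resolve_left h2ne
    apply Subtype.ext
    ext x
    obtain ⟨j, rfl⟩ := e.surjective x
    rw [hall, hm1, hb0]
    simp
  · refine ⟨c, t, e, b, he, fun j => ?_, hcP, hco', ht1⟩
    rw [hall, hm1]
    congr 1
    ring

/-- S0676. -/
theorem pd_three (hα : Fintype.card α = p) (G : Subgroup (Equiv.Perm α))
    [MulAction.IsPretransitive G α] (hG : ¬ Group.IsSolvable G) (P : Sylow p G)
    (heven : Even (Nat.card (Subgroup.normalizer ((P : Subgroup G) : Set G)))) :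
    IsMultiplyPretransitive G α 3 := by
  classical
  have hp : p.Prime := Fact.out
  haveI : NeZero p := ⟨hp.ne_zero⟩
  let K := ZMod p
  have hp2 : p ≠ 2 := by
    intro h2
    apply hG
    refine pd_two (K := K) hα G ⟨⊤, fun _ _ _ => trivial⟩ ?_
    show Module.finrank K (⊤ : Submodule K (α → K)) = 2
    rw [finrank_top, Module.finrank_fintype_fun_eq_card, hα, h2]
  have h2t : IsMultiplyPretransitive G α 2 :=
    (pd_burnside (by rw [hα]; exact hp) G).resolve_left hG
  obtain ⟨c, t, e, b, hc, ht, hcP, hco, ht1⟩ := pd_involution hα G hp2 P heven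
  have h2ne : (2 : ZMod p) ≠ 0 := by
    intro h
    have h3 : ((2 : ℕ) : ZMod p) = 0 := by exact_mod_cast h
    rw [ZMod.natCast_eq_zero_iff] at h3
    exact hp2 ((Nat.prime_dvd_prime_iff_eq hp Nat.prime_two).mp h3)
  -- even stabilisers
  have ht2 : t * t = 1 := by
    apply Subtype.ext
    ext x
    obtain ⟨j, rfl⟩ := e.surjective x
    show t.1 (t.1 (e j)) = e j
    rw [ht, ht]
    congr 1
    ring
  have heven' : ∀ a : α, Even (Nat.card (stabilizer G a)) := by
    intro a
    have hcard : ∀ a' : α, Nat.card G = p * Nat.card (stabilizer G a') := by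
      intro a'
      have h1 := card_orbit_mul_card_stabilizer (K := G) a'
      rw [MulAction.orbit_eq_univ, Nat.card_coe_set_eq, Set.ncard_univ, Nat.card_eq_fintype_card, hα] at h1
      exact h1.symm
    let j₀ : ZMod p := b * 2⁻¹
    have hj₀ : t • e j₀ = e j₀ := by
      show t.1 (e j₀) = e j₀
      rw [ht]
      congr 1
      show b - b * 2⁻¹ = b * 2⁻¹
      field_simp
      ring
    have hmem : t ∈ stabilizer G (e j₀) := hj₀
    have hord : orderOf (⟨t, hmem⟩ : stabilizer G (e j₀)) = 2 := by
      rw [Subgroup.orderOf_mk]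
      apply orderOf_eq_prime
      · rw [pow_two, ht2]
      · exact ht1
    have h1 : 2 ∣ Nat.card (stabilizer G (e j₀)) := by
      rw [← hord]
      exact orderOf_dvd_natCard _
    have h3 : Nat.card (stabilizer G a) = Nat.card (stabilizer G (e j₀)) :=
      Nat.eq_of_mul_eq_mul_left hp.pos ((hcard a).symm.trans (hcard _))
    rw [h3]
    exact (even_iff_two_dvd).mpr h1
  refine hp_three_trans (K := K) h2t heven' ?_
  intro f hf
  have hint : ∀ g v, f ((permSumZero K G α).toRepresentation g v) =
      permRep K G (Set.powersetCard α 2) g (f v) := by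
    intro g v
    exact LinearMap.congr_fun (f.isIntertwining' g) v
  let Kerf : Subrepresentation (permRep K G α) :=
    { toSubmodule := (LinearMap.ker f.toLinearMap).map (permSumZero K G α).toSubmodule.subtype
      apply_mem_toSubmodule := by
        rintro g _ ⟨v, hv, rfl⟩
        refine ⟨(permSumZero K G α).toRepresentation g v, ?_, rfl⟩
        have hv' : f v = 0 := hv
        show f _ = 0
        rw [hint, hv', map_zero] }
  have hconstZ : ∀ d : K, (fun _ : α => d) ∈ (permSumZero K G α).toSubmodule := by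
    intro d
    show ∑ _x : α, d = 0
    rw [Finset.sum_const, Finset.card_univ, hα]
    simp [K]
  have hfc : ∀ d : K, f ⟨fun _ => d, hconstZ d⟩ = 0 := by
    intro d
    apply hf
    show (fun _ : α => d) ∈ Submodule.span K {fun _ : α => (1 : K)}
    rw [Submodule.mem_span_singleton]
    exact ⟨d, by ext; simp⟩
  have hle₁ : (permConstants K G α).toSubmodule ≤ Kerf.toSubmodule := by
    intro w hw
    have hw' : w ∈ Submodule.span K {fun _ : α => (1 : K)} := hw
    rw [Submodule.mem_span_singleton] at hw'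
    obtain ⟨d, rfl⟩ := hw'
    have h1 : (d • fun _ : α => (1 : K)) = fun _ => d := by
      ext
      simp
    rw [h1]
    exact ⟨⟨_, hconstZ d⟩, hfc d, rfl⟩
  have hle₂ : Kerf.toSubmodule ≤ (permSumZero K G α).toSubmodule := by
    rintro _ ⟨v, -, rfl⟩
    exact v.2
  rcases pd_heart hα G hG Kerf hle₁ hle₂ with hk | hk
  swap
  · refine Representation.IntertwiningMap.ext (LinearMap.ext fun v => ?_)
    have h1 : (v : α → K) ∈ Kerf.toSubmodule := by rw [hk]; exact v.2
    obtain ⟨v', hv', hvv⟩ := h1
    have : v' = v := Subtype.ext hvv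
    rw [← this]
    exact hv'
  exfalso
  let v₀ : α → K := fun x => e.symm x
  have hv₀ : v₀ ∈ (permSumZero K G α).toSubmodule := by
    show ∑ x, v₀ x = 0
    have h1 : ∑ x, v₀ x = ∑ j : ZMod p, j := by
      symm
      exact Fintype.sum_equiv e _ _ (fun j => by simp [v₀])
    rw [h1]
    have h2 := FiniteField.sum_pow_lt_card_sub_one (ZMod p) 1 (by
      rw [ZMod.card]
      have := hp.two_le
      omega)
    simpa using h2
  let V : (permSumZero K G α).toSubmodule := ⟨v₀, hv₀⟩
  have hW : f V ≠ 0 := by
    intro h0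
    have h1 : v₀ ∈ Kerf.toSubmodule := ⟨V, h0, rfl⟩
    rw [hk] at h1
    have h2 : v₀ ∈ Submodule.span K {fun _ : α => (1 : K)} := h1
    rw [Submodule.mem_span_singleton] at h2
    obtain ⟨d, hd⟩ := h2
    have h3 := congrFun hd (e 0)
    have h4 := congrFun hd (e 1)
    simp [v₀] at h3 h4
    rw [h3] at h4
    exact zero_ne_one h4
  apply hW
  -- the action of `c`
  have hcV : (permSumZero K G α).toRepresentation c V = V - ⟨_, hconstZ 1⟩ := by
    apply Subtype.ext
    funext x
    obtain ⟨j, rfl⟩ := e.surjective x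
    show v₀ ((c⁻¹).1 (e j)) = v₀ (e j) - 1
    have h1 : (c⁻¹).1 (e j) = e (j - 1) := by
      show (c.1)⁻¹ (e j) = _
      rw [Equiv.Perm.inv_eq_iff_eq, hc]
      congr 1
      ring
    rw [h1]
    simp [v₀]
  have htV : (permSumZero K G α).toRepresentation t V = ⟨_, hconstZ b⟩ - V := by
    apply Subtype.ext
    funext x
    obtain ⟨j, rfl⟩ := e.surjective x
    show v₀ ((t⁻¹).1 (e j)) = b - v₀ (e j)
    have h1 : (t⁻¹).1 (e j) = e (b - j) := by
      have : t⁻¹ = t := by
        rw [inv_eq_iff_mul_eq_one]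
        exact ht2
      rw [this, ht]
    rw [h1]
    simp [v₀]
  have hW1 : ∀ s, f V (c • s) = f V s := by
    intro s
    have h1 := hint c V
    rw [hcV, map_sub, hfc, sub_zero] at h1
    have h2 := congrFun h1 (c • s)
    rw [h2]
    show f V (c⁻¹ • c • s) = f V s
    rw [inv_smul_smul]
  have hW2 : ∀ s, f V (t • s) = - f V s := by
    intro s
    have h1 := hint t V
    rw [htV, map_sub, hfc, zero_sub] at h1
    have h2 := congrFun h1 (t • s)
    have h3 : permRep K G (Set.powersetCard α 2) t (f V) (t • s) = f V s := by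
      show f V (t⁻¹ • t • s) = f V s
      rw [inv_smul_smul]
    rw [h3] at h2
    rw [Pi.neg_apply] at h2
    rw [← h2, neg_neg]
  have hWk : ∀ (k : ℕ) s, f V (c ^ k • s) = f V s := by
    intro k
    induction k with
    | zero => intro s; simp
    | succ k ih =>
      intro s
      rw [pow_succ', mul_smul, hW1, ih]
  have hcp : ∀ (k : ℕ) j, (c ^ k) • e j = e (j + (k : ZMod p)) := by
    intro k j
    exact pd_cpow e c.1 hc k j
  funext s
  obtain ⟨x, y, hxy, hs⟩ := Finset.card_eq_two.mp s.2
  obtain ⟨i, rfl⟩ := e.surjective x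
  obtain ⟨l, rfl⟩ := e.surjective y
  have horb : t • s = c ^ (b - i - l).val • s := by
    apply Subtype.ext
    have h01 : ((t • s : Set.powersetCard α 2) : Finset α) = t • (s : Finset α) :=
      Set.powersetCard.coe_smul
    have h02 : ((c ^ (b - i - l).val • s : Set.powersetCard α 2) : Finset α)
        = c ^ (b - i - l).val • (s : Finset α) :=
      Set.powersetCard.coe_smul
    rw [h01, h02, hs, Finset.smul_finset_insert,
      Finset.smul_finset_insert, Finset.smul_finset_singleton, Finset.smul_finset_singleton, hcp, hcp,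
      ZMod.natCast_zmod_val]
    have h1 : t • e i = e (b - i) := ht i
    have h2 : t • e l = e (b - l) := ht l
    rw [h1, h2]
    have h3 : i + (b - i - l) = b - l := by ring
    have h4 : l + (b - i - l) = b - i := by ring
    rw [h3, h4, Finset.pair_comm]
  have h1 := hW2 s
  rw [horb, hWk] at h1
  have h2 : (2 : ZMod p) * f V s = 0 := by
    have : f V s + f V s = 0 := by
      nth_rw 1 [h1]
      exact neg_add_cancel _
    rw [two_mul]
    exact this
  exact (mul_eq_zero.mp h2).resolve_left h2ne

end Cfsg.Agent.Lib.Perm
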