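import Mathlib
import Cfsg.Agent.Lib.Perm.PrimeThree
import Cfsg.Agent.Lib.Perm.Fisher
import Cfsg.Agent.Lib.Basic.MinNormal

/-! Subgroups of index `p` in transitive groups of prime degree `p`. -/

set_option autoImplicit false

namespace Cfsg.Agent.Lib.Perm

open MulAction Cfsg
open scoped Pointwise

variable {α : Type*} [Fintype α] [DecidableEq α] {p : ℕ}

section Design

variable {G : Type*} [Group G] [Finite G] [MulAction G α]

/-- A triply transitive group acts on the translates of an invariant set, for a subgroup of index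
equal to the degree: the set has at least `p - 1` points. -/
theorem pd_invariant_set (hα : Fintype.card α = p) (hp3 : 3 ≤ p) (h2t : IsMultiplyPretransitive G α 2)
    (h3t : IsMultiplyPretransitive G α 3) (H : Subgroup G) (hH : H.index = p)
    (B : Finset α) (hB : ∀ h ∈ H, ∀ x ∈ B, h • x ∈ B) (hB2 : 2 ≤ B.card) (hBlt : B.card < p) :
    p - 1 ≤ B.card := by
  classical
  haveI : Fintype G := Fintype.ofFinite G
  have hB' : ∀ h ∈ H, h • B = B := by
    intro h hh
    apply Finset.eq_of_subset_of_card_le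
    · intro y hy
      obtain ⟨x, hx, rfl⟩ := Finset.mem_smul_finset.mp hy
      exact hB h hh x hx
    · rw [Finset.card_smul_finset]
  let q : G ⧸ H → Finset α := Quotient.lift (fun g : G => g • B) (by
    intro a b hab
    have h1 : a⁻¹ * b ∈ H := QuotientGroup.leftRel_apply.mp hab
    have h3 := hB' _ h1
    show a • B = b • B
    conv_lhs => rw [← h3]
    rw [smul_smul, mul_inv_cancel_left])
  have hq : ∀ g : G, q (g : G ⧸ H) = g • B := fun g => rfl
  haveI : Fintype (G ⧸ H) := Fintype.ofFinite _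
  let 𝔹 : Finset (Finset α) := Finset.univ.image q
  have hmem : ∀ C, C ∈ 𝔹 ↔ ∃ g : G, g • B = C := by
    intro C
    constructor
    · intro hC
      obtain ⟨x, -, rfl⟩ := Finset.mem_image.mp hC
      obtain ⟨g, rfl⟩ := QuotientGroup.mk_surjective x
      exact ⟨g, rfl⟩
    · rintro ⟨g, rfl⟩
      exact Finset.mem_image.mpr ⟨(g : G ⧸ H), Finset.mem_univ _, rfl⟩
  have h𝔹card : 𝔹.card ≤ p := by
    have h1 := Finset.card_image_le (s := (Finset.univ : Finset (G ⧸ H))) (f := q)
    rw [Finset.card_univ] at h1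
    rw [← hH, Subgroup.index_eq_card, Nat.card_eq_fintype_card]
    exact h1
  have h𝔹smul : ∀ (g : G) C, C ∈ 𝔹 → g • C ∈ 𝔹 := by
    intro g C hC
    rw [hmem] at hC ⊢
    obtain ⟨g', rfl⟩ := hC
    exact ⟨g * g', mul_smul _ _ _⟩
  -- incidence numbers
  let N : Finset α → ℕ := fun S => (𝔹.filter (fun C => S ⊆ C)).card
  have hN : ∀ (g : G) S, N (g • S) = N S := by
    intro g S
    symm
    apply Finset.card_bij (fun C _ => g • C)
    · intro C hC
      rw [Finset.mem_filter] at hC ⊢
      exact ⟨h𝔹smul g C hC.1, (Finset.smul_finset_subset_smul_finset_iff).mpr hC.2⟩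
    · intro C₁ _ C₂ _ h
      exact smul_left_cancel g h
    · intro C hC
      rw [Finset.mem_filter] at hC
      refine ⟨g⁻¹ • C, ?_, smul_inv_smul g C⟩
      rw [Finset.mem_filter]
      refine ⟨h𝔹smul _ _ hC.1, ?_⟩
      rw [← Finset.smul_finset_subset_smul_finset_iff (a := g), smul_inv_smul]
      exact hC.2
  obtain ⟨x⟩ : Nonempty α := by
    rw [← Fintype.card_pos_iff, hα]
    omega
  -- points through which we count
  have hcardI : Fintype.card {i // i ≠ x} = p - 1 := by
    rw [Fintype.card_subtype_compl, Fintype.card_subtype_eq, hα]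
  have hne3 : 2 ≤ Fintype.card {i // i ≠ x} := by
    rw [hcardI]
    omega
  obtain ⟨⟨i₀, hi₀⟩, ⟨j₀, hj₀⟩, hij₀⟩ : ∃ a b : {i // i ≠ x}, a ≠ b :=
    Fintype.exists_pair_of_one_lt_card (by omega)
  have hij₀' : i₀ ≠ j₀ := fun h => hij₀ (Subtype.ext h)
  -- r₂ and r₃
  have h2 : ∀ i, i ≠ x → N {x, i} = N {x, i₀} := by
    intro i hi
    obtain ⟨g, hg1, hg2⟩ := is_two_pretransitive_iff.mp h2t (Ne.symm hi₀) (Ne.symm hi)
    rw [← hN g {x, i₀}, Finset.smul_finset_insert, Finset.smul_finset_singleton, hg1, hg2]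
  have hthree : ∀ a b c a' b' c' : α, a ≠ b → a ≠ c → b ≠ c → a' ≠ b' → a' ≠ c' → b' ≠ c' →
      ∃ g : G, g • a = a' ∧ g • b = b' ∧ g • c = c' := by
    intro a b c a' b' c' hab hac hbc hab' hac' hbc'
    let u : Fin 3 ↪ α := ⟨![a, b, c], by
      intro i j hij
      fin_cases i <;> fin_cases j <;> simp_all⟩
    let v : Fin 3 ↪ α := ⟨![a', b', c'], by
      intro i j hij
      fin_cases i <;> fin_cases j <;> simp_all⟩
    obtain ⟨g, hg⟩ := isMultiplyPretransitive_iff.mp h3t u v
    refine ⟨g, ?_, ?_, ?_⟩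
    · exact congrArg (fun e : Fin 3 ↪ α => e 0) hg
    · exact congrArg (fun e : Fin 3 ↪ α => e 1) hg
    · exact congrArg (fun e : Fin 3 ↪ α => e 2) hg
  have h3 : ∀ i j, i ≠ x → j ≠ x → i ≠ j → N {x, i, j} = N {x, i₀, j₀} := by
    intro i j hi hj hij
    obtain ⟨g, hg1, hg2, hg3⟩ := hthree x i₀ j₀ x i j (Ne.symm hi₀) (Ne.symm hj₀) hij₀'
      (Ne.symm hi) (Ne.symm hj) hij
    rw [← hN g {x, i₀, j₀}, Finset.smul_finset_insert, Finset.smul_finset_insert,
      Finset.smul_finset_singleton, hg1, hg2, hg3]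
  have hlt : N {x, i₀, j₀} < N {x, i₀} := by
    apply Finset.card_lt_card
    rw [Finset.ssubset_iff_of_subset]
    · obtain ⟨y₁, hy₁, y₂, hy₂, hy⟩ := Finset.one_lt_card.mp (by omega : 1 < B.card)
      obtain ⟨z, hz⟩ : ∃ z, z ∉ B := by
        by_contra hcon
        push Not at hcon
        have : B = Finset.univ := Finset.eq_univ_iff_forall.mpr hcon
        rw [this, Finset.card_univ, hα] at hBlt
        omega
      have hy₁z : y₁ ≠ z := fun h => hz (h ▸ hy₁)
      have hy₂z : y₂ ≠ z := fun h => hz (h ▸ hy₂)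
      obtain ⟨g, hg1, hg2, hg3⟩ := hthree y₁ y₂ z x i₀ j₀ hy hy₁z hy₂z (Ne.symm hi₀) (Ne.symm hj₀) hij₀'
      refine ⟨g • B, ?_, ?_⟩
      · rw [Finset.mem_filter]
        refine ⟨(hmem _).mpr ⟨g, rfl⟩, ?_⟩
        intro w hw
        simp only [Finset.mem_insert, Finset.mem_singleton] at hw
        rcases hw with rfl | rfl
        · rw [← hg1]
          exact Finset.smul_mem_smul_finset hy₁
        · rw [← hg2]
          exact Finset.smul_mem_smul_finset hy₂
      · rw [Finset.mem_filter]
        rintro ⟨-, hsub⟩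
        have hj : j₀ ∈ g • B := hsub (by simp)
        rw [← hg3] at hj
        exact hz ((Finset.smul_mem_smul_finset_iff g).mp hj)
    · intro C hC
      rw [Finset.mem_filter] at hC ⊢
      refine ⟨hC.1, fun w hw => hC.2 ?_⟩
      simp only [Finset.mem_insert, Finset.mem_singleton] at hw ⊢
      tauto
  -- blocks through `x`
  let 𝔹x : Finset (Finset α) := 𝔹.filter (fun C => x ∈ C)
  have hfil : ∀ P : Finset α → Prop, [DecidablePred P] →
      (Finset.univ.filter (fun C : ↥𝔹x => P C.1)).card = (𝔹x.filter P).card := by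
    intro P _
    rw [← Finset.card_map (Function.Embedding.subtype _)]
    congr 1
    ext C
    simp [and_comm]
  have hfis : Fintype.card {i // i ≠ x} ≤ Fintype.card ↥𝔹x := by
    refine fisher_ineq (fun (i : {i // i ≠ x}) (C : ↥𝔹x) => i.1 ∈ C.1) hlt ?_ ?_
    · rintro ⟨i, hi⟩
      rw [hfil (fun C => i ∈ C), ← h2 i hi]
      congr 1
      ext C
      simp only [𝔹x, Finset.mem_filter, Finset.insert_subset_iff, Finset.singleton_subset_iff]
      tauto
    · rintro ⟨i, hi⟩ ⟨j, hj⟩ hij
      have hij' : i ≠ j := fun h => hij (Subtype.ext h)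
      rw [hfil (fun C => i ∈ C ∧ j ∈ C), ← h3 i j hi hj hij']
      congr 1
      ext C
      simp only [𝔹x, Finset.mem_filter, Finset.insert_subset_iff, Finset.singleton_subset_iff]
      tauto
  have hr1 : 𝔹x.card ≤ B.card := by
    have hconst : ∀ y, (𝔹.filter (fun C => y ∈ C)).card = 𝔹x.card := by
      intro y
      have hT : IsPretransitive G α := @isPretransitive_of_is_two_pretransitive G α _ _ h2t
      obtain ⟨g, hg⟩ := hT.exists_smul_eq x y
      have h4 := hN g {x}
      rw [Finset.smul_finset_singleton, hg] at h4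
      simp only [N, Finset.singleton_subset_iff] at h4
      exact h4
    have hdc := Finset.sum_card_bipartiteAbove_eq_sum_card_bipartiteBelow
      (s := (Finset.univ : Finset α)) (t := 𝔹) (fun y C => y ∈ C)
    have hL : ∑ y ∈ (Finset.univ : Finset α), (Finset.bipartiteAbove (fun y C => y ∈ C) 𝔹 y).card
        = p * 𝔹x.card := by
      have : ∀ y, (Finset.bipartiteAbove (fun y C => y ∈ C) 𝔹 y).card = 𝔹x.card := hconst
      simp only [this, Finset.sum_const, Finset.card_univ, hα, smul_eq_mul]
    have hR : ∑ C ∈ 𝔹, (Finset.bipartiteBelow (fun y C => y ∈ C) (Finset.univ : Finset α) C).card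
        = 𝔹.card * B.card := by
      rw [Finset.sum_const_nat]
      intro C hC
      obtain ⟨g, rfl⟩ := (hmem C).mp hC
      have : Finset.bipartiteBelow (fun y C => y ∈ C) (Finset.univ : Finset α) (g • B) = g • B := by
        ext y
        simp [Finset.bipartiteBelow]
      rw [this, Finset.card_smul_finset]
    rw [hL, hR] at hdc
    have h5 : p * 𝔹x.card ≤ p * B.card := by
      rw [hdc]
      exact Nat.mul_le_mul_right _ h𝔹card
    exact Nat.le_of_mul_le_mul_left h5 (by omega)
  rw [hcardI, Fintype.card_coe] at hfis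
  omega

end Design

variable [Fact p.Prime]

/-- The solvable case: every element of `G` acts as an affine map. -/
theorem pd_affine (hα : Fintype.card α = p) (G : Subgroup (Equiv.Perm α))
    [MulAction.IsPretransitive G α] [Group.IsSolvable G] :
    ∃ (c : G) (e : ZMod p ≃ α), (∀ j, c.1 (e j) = e (j + 1)) ∧
      ∀ g : G, ∃ b m : ZMod p, m ≠ 0 ∧ ∀ j, g.1 (e j) = e (b + j * m) := by
  classical
  have hp : p.Prime := Fact.out
  haveI : NeZero p := ⟨hp.ne_zero⟩
  have hαn : Nat.card α = p := by rw [Nat.card_eq_fintype_card, hα]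
  haveI hprim : IsPreprimitive G α := IsPreprimitive.of_prime_card (by rw [hαn]; exact hp)
  have hαone : Nontrivial α := by
    rw [← Fintype.one_lt_card_iff_nontrivial, hα]
    exact hp.one_lt
  obtain ⟨x, y, hxy⟩ := exists_pair_ne α
  haveI hnt : Nontrivial G := by
    obtain ⟨g, hg⟩ := MulAction.exists_smul_eq G x y
    refine ⟨⟨g, 1, fun h => hxy ?_⟩⟩
    rw [h, one_smul] at hg
    exact hg
  obtain ⟨_, N, _, hNn, hNne, hNc, _⟩ := Cfsg.Agent.Lib.Basic.exists_normal_abelian_pSubgroup (G := G)
  have hfp : fixedPoints N α ≠ Set.univ := by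
    intro h
    apply hNne
    rw [eq_bot_iff]
    intro n hn
    rw [Subgroup.mem_bot]
    apply Subtype.ext
    ext z
    have hz : z ∈ fixedPoints N α := by rw [h]; trivial
    exact hz ⟨n, hn⟩
  have hNt : IsPretransitive N α := IsQuasiPreprimitive.isPretransitive_of_normal hfp
  have hdvd : p ∣ Nat.card N := by
    have h1 := card_orbit_mul_card_stabilizer (K := N) x
    rw [MulAction.orbit_eq_univ, Nat.card_coe_set_eq, Set.ncard_univ, Nat.card_eq_fintype_card, hα] at h1
    exact ⟨_, h1.symm⟩
  obtain ⟨⟨c, hcN⟩, hco⟩ := exists_prime_orderOf_dvd_card' p hdvd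
  have hco' : orderOf c = p := by rw [← hco]; exact (Subgroup.orderOf_mk c hcN).symm
  have hco'' : orderOf (c : Equiv.Perm α) = p := by
    rw [← hco']
    exact Subgroup.orderOf_coe c
  obtain ⟨e, he⟩ := exists_cycle_numbering hα (c : Equiv.Perm α) hco''
  refine ⟨c, e, he, fun g => ?_⟩
  -- the conjugate
  let c' : G := g * c * g⁻¹
  have hc'N : c' ∈ N := hNn.conj_mem c hcN g
  have hcomm : c' * c = c * c' := by
    have := hNc.is_comm.comm ⟨c', hc'N⟩ ⟨c, hcN⟩
    exact congrArg Subtype.val this
  have hcomm' : ∀ z : α, c'.1 (c.1 z) = c.1 (c'.1 z) := by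
    intro z
    have h2 := congrArg (fun u : G => u.1 z) hcomm
    exact h2
  let β : ZMod p := e.symm (c'.1 (e 0))
  have hβ : c'.1 (e 0) = e β := by simp [β]
  have hc'nat : ∀ n : ℕ, c'.1 (e (n : ZMod p)) = e (β + n) := by
    intro n
    induction n with
    | zero => simpa using hβ
    | succ n ih =>
      have h1 : ((n + 1 : ℕ) : ZMod p) = n + 1 := by push_cast; ring
      rw [h1, ← he, hcomm', ih, he]
      congr 1
      ring
  have hc'all : ∀ j, c'.1 (e j) = e (β + j) := by
    intro j
    have := hc'nat j.val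
    rwa [ZMod.natCast_zmod_val] at this
  have hconj : ∀ z : α, g.1 (c.1 z) = ((c.1) ^ β.val) (g.1 z) := by
    intro z
    have h3 : c'.1 = (c.1) ^ β.val := by
      ext w
      obtain ⟨j, rfl⟩ := e.surjective w
      rw [hc'all, pd_cpow e _ he, ZMod.natCast_zmod_val, add_comm]
    rw [← h3]
    show g.1 (c.1 z) = (g * c * g⁻¹).1 (g.1 z)
    simp
  let b : ZMod p := e.symm (g.1 (e 0))
  have hb : g.1 (e 0) = e b := by simp [b]
  have hnat : ∀ n : ℕ, g.1 (e (n : ZMod p)) = e (b + n * β) := by
    intro n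
    induction n with
    | zero => simpa using hb
    | succ n ih =>
      have h1 : ((n + 1 : ℕ) : ZMod p) = n + 1 := by push_cast; ring
      rw [h1, ← he, hconj, ih, pd_cpow e _ he, ZMod.natCast_zmod_val]
      congr 1
      ring
  have hall : ∀ j : ZMod p, g.1 (e j) = e (b + j * β) := by
    intro j
    have := hnat j.val
    rwa [ZMod.natCast_zmod_val] at this
  refine ⟨b, β, ?_, hall⟩
  intro h0
  have h1 := hall 0
  have h2 := hall 1
  rw [h0] at h1 h2
  simp only [mul_zero, add_zero] at h1 h2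
  have h3 : e 0 = e 1 := g.1.injective (h1.trans h2.symm)
  exact zero_ne_one (e.injective h3)

/-- S0677. -/
theorem pd_index (hα : Fintype.card α = p) (G : Subgroup (Equiv.Perm α))
    [MulAction.IsPretransitive G α] (P : Sylow p G)
    (heven : Even (Nat.card (Subgroup.normalizer ((P : Subgroup G) : Set G))))
    (H : Subgroup G) (hH : H.index = p) : ∃ a : α, H = stabilizer G a := by
  classical
  have hp : p.Prime := Fact.out
  haveI : NeZero p := ⟨hp.ne_zero⟩
  have hGcard : ∀ a' : α, Nat.card G = p * Nat.card (stabilizer G a') := by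
    intro a'
    have h1 := card_orbit_mul_card_stabilizer (K := G) a'
    rw [MulAction.orbit_eq_univ, Nat.card_coe_set_eq, Set.ncard_univ, Nat.card_eq_fintype_card, hα] at h1
    exact h1.symm
  have hHcard : Nat.card G = p * Nat.card H := by
    rw [← Subgroup.card_mul_index H, hH, mul_comm]
  have hnd : ¬ p ∣ Nat.card H := by
    intro hd
    have h2 : Nat.card G ∣ Nat.card (Equiv.Perm α) := Subgroup.card_subgroup_dvd_card _
    rw [Nat.card_eq_fintype_card (α := Equiv.Perm α), Fintype.card_perm, hα, hHcard] at h2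
    have h3 : p * p ∣ p.factorial := (Nat.mul_dvd_mul_left p hd).trans h2
    rw [← Nat.mul_factorial_pred hp.ne_zero] at h3
    have h4 := Nat.dvd_of_mul_dvd_mul_left hp.pos h3
    rw [hp.dvd_factorial] at h4
    have := hp.pos
    omega
  have hfix : ∀ a : α, (∀ h ∈ H, h • a = a) → H = stabilizer G a := by
    intro a ha
    apply Subgroup.eq_of_le_of_card_ge
    · intro h hh
      exact ha h hh
    · have h1 := hGcard a
      rw [hHcard] at h1
      exact (Nat.eq_of_mul_eq_mul_left hp.pos h1).ge
  obtain ⟨x₀⟩ : Nonempty α := by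
    rw [← Fintype.card_pos_iff, hα]
    exact hp.pos
  by_cases hG : Group.IsSolvable G
  · -- the solvable case
    obtain ⟨c, e, he, haff⟩ := pd_affine hα G
    by_cases hbot : H = ⊥
    · refine ⟨x₀, hfix x₀ ?_⟩
      intro h hh
      rw [hbot, Subgroup.mem_bot] at hh
      rw [hh, one_smul]
    -- translations in `H` are trivial
    have htr : ∀ u ∈ H, ∀ δ : ZMod p, (∀ j, u.1 (e j) = e (j + δ)) → δ = 0 := by
      intro u hu δ huδ
      by_contra hδ
      have hpow : ∀ n : ℕ, ∀ j, (u ^ n).1 (e j) = e (j + n * δ) := by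
        intro n
        induction n with
        | zero => intro j; simp
        | succ n ih =>
          intro j
          rw [pow_succ', Subgroup.coe_mul, Equiv.Perm.mul_apply, ih, huδ]
          congr 1
          push_cast
          ring
      have hup : u ^ p = 1 := by
        apply Subtype.ext
        ext z
        obtain ⟨j, rfl⟩ := e.surjective z
        rw [hpow]
        simp
      have hu1 : u ≠ 1 := by
        rintro rfl
        have h1 := huδ 0
        have h2 : e 0 = e (0 + δ) := h1
        have h3 := e.injective h2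
        simp only [zero_add] at h3
        exact hδ h3.symm
      have hord : orderOf u = p := orderOf_eq_prime hup hu1
      have h2 : orderOf (⟨u, hu⟩ : H) = p := by rw [Subgroup.orderOf_mk, hord]
      apply hnd
      rw [← h2]
      exact orderOf_dvd_natCard _
    obtain ⟨⟨h₀, hh₀⟩, hne⟩ := (Subgroup.ne_bot_iff_exists_ne_one).mp hbot
    have hh₀1 : h₀ ≠ 1 := fun h => hne (Subtype.ext h)
    obtain ⟨b₀, m₀, hm₀, hh₀e⟩ := haff h₀
    have hm₀1 : m₀ ≠ 1 := by
      intro h1
      have h2 := htr h₀ hh₀ b₀ (fun j => by rw [hh₀e, h1, mul_one, add_comm])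
      apply hh₀1
      apply Subtype.ext
      ext z
      obtain ⟨j, rfl⟩ := e.surjective z
      rw [hh₀e, h1, h2]
      simp
    have hsub : (1 - m₀) ≠ 0 := sub_ne_zero.mpr (Ne.symm hm₀1)
    let j₀ : ZMod p := b₀ / (1 - m₀)
    have hj₀ : b₀ + j₀ * m₀ = j₀ := by
      show b₀ + b₀ / (1 - m₀) * m₀ = b₀ / (1 - m₀)
      field_simp
      ring
    have huniq : ∀ j, h₀.1 (e j) = e j → j = j₀ := by
      intro j hj
      rw [hh₀e] at hj
      have h1 := e.injective hj
      show j = b₀ / (1 - m₀)
      rw [eq_div_iff hsub]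
      linear_combination -h1
    refine ⟨e j₀, hfix _ ?_⟩
    intro h hh
    obtain ⟨b, m, hm, hhe⟩ := haff h
    -- `h` commutes with `h₀`
    have hcomm : h * h₀ = h₀ * h := by
      have hu : h * h₀ * (h₀ * h)⁻¹ ∈ H :=
        H.mul_mem (H.mul_mem hh hh₀) (H.inv_mem (H.mul_mem hh₀ hh))
      let δ : ZMod p := (b + b₀ * m) - (b₀ + b * m₀)
      have hmm : m * m₀ ≠ 0 := mul_ne_zero hm hm₀
      have hδ := htr _ hu δ (by
        intro j
        obtain ⟨i, hi⟩ : ∃ i : ZMod p, b₀ + (b + i * m) * m₀ = j :=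
          ⟨(j - (b₀ + b * m₀)) / (m * m₀), by
            field_simp
            ring⟩
        have h1 : (h₀ * h).1 (e i) = e j := by
          show h₀.1 (h.1 (e i)) = e j
          rw [hhe, hh₀e, hi]
        have h2 : ((h₀ * h)⁻¹).1 (e j) = e i := by
          show ((h₀ * h).1)⁻¹ (e j) = e i
          rw [Equiv.Perm.inv_eq_iff_eq, h1]
        show (h * h₀).1 (((h₀ * h)⁻¹).1 (e j)) = _
        rw [h2]
        show h.1 (h₀.1 (e i)) = _
        rw [hh₀e, hhe]
        congr 1
        show b + (b₀ + i * m₀) * m = j + ((b + b₀ * m) - (b₀ + b * m₀))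
        linear_combination hi)
      apply Subtype.ext
      ext z
      obtain ⟨j, rfl⟩ := e.surjective z
      show h.1 (h₀.1 (e j)) = h₀.1 (h.1 (e j))
      rw [hh₀e, hhe, hhe, hh₀e]
      congr 1
      have hδ' : (b + b₀ * m) - (b₀ + b * m₀) = 0 := hδ
      linear_combination hδ'
    have h1 : h₀.1 (h.1 (e j₀)) = h.1 (e j₀) := by
      have h2 : (h₀ * h).1 (e j₀) = (h * h₀).1 (e j₀) := by rw [hcomm]
      show _ = _
      have h3 : (h * h₀).1 (e j₀) = h.1 (h₀.1 (e j₀)) := rfl
      rw [h3, hh₀e, hj₀] at h2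
      exact h2
    have h2 := huniq (e.symm (h.1 (e j₀))) (by simpa using h1)
    rw [Equiv.symm_apply_eq] at h2
    exact h2
  · -- the nonsolvable case
    let K := ZMod p
    have hp2 : p ≠ 2 := by
      intro h2
      apply hG
      refine pd_two (K := K) hα G ⟨⊤, fun _ _ _ => trivial⟩ ?_
      show Module.finrank K (⊤ : Submodule K (α → K)) = 2
      rw [finrank_top, Module.finrank_fintype_fun_eq_card, hα, h2]
    have hp3 : 3 ≤ p := by
      have := hp.two_le
      omega
    have h2t : IsMultiplyPretransitive G α 2 :=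
      (pd_burnside (by rw [hα]; exact hp) G).resolve_left hG
    have h3t := pd_three hα G hG P heven
    by_contra hno
    have hmove : ∀ a : α, ∃ h ∈ H, h • a ≠ a := by
      intro a
      by_contra hcon
      push Not at hcon
      exact hno ⟨a, hfix a hcon⟩
    let B : Finset α := Finset.univ.filter (fun z => z ∈ orbit H x₀)
    have hBmem : ∀ z, z ∈ B ↔ z ∈ orbit H x₀ := fun z => by simp [B]
    have hBinv : ∀ h ∈ H, ∀ z ∈ B, h • z ∈ B := by
      intro h hh z hz
      rw [hBmem] at hz ⊢
      obtain ⟨⟨h', hh'⟩, rfl⟩ := hz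
      exact ⟨⟨h, hh⟩ * ⟨h', hh'⟩, by
        show (h * h') • x₀ = h • (h' • x₀)
        rw [mul_smul]⟩
    have hB2 : 2 ≤ B.card := by
      obtain ⟨h, hh, hhx⟩ := hmove x₀
      have h1 : x₀ ∈ B := (hBmem _).mpr (mem_orbit_self _)
      have h3 : h • x₀ ∈ B := hBinv h hh _ h1
      exact Finset.one_lt_card.mpr ⟨_, h1, _, h3, Ne.symm hhx⟩
    have hBlt : B.card < p := by
      have hle : B.card ≤ p := by
        rw [← hα]
        exact Finset.card_le_univ _
      refine lt_of_le_of_ne hle fun heq => ?_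
      have huniv : B = Finset.univ := by
        apply Finset.eq_of_subset_of_card_le (Finset.subset_univ _)
        rw [heq, Finset.card_univ, hα]
      have horb : orbit H x₀ = Set.univ := by
        ext z
        simp only [Set.mem_univ, iff_true]
        rw [← hBmem, huniv]
        exact Finset.mem_univ _
      have h1 := card_orbit_mul_card_stabilizer (K := H) x₀
      rw [horb, Nat.card_coe_set_eq, Set.ncard_univ, Nat.card_eq_fintype_card, hα] at h1
      exact hnd ⟨_, h1.symm⟩
    have hBge := pd_invariant_set hα hp3 h2t h3t H hH B hBinv hB2 hBlt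
    have hcompl : (Bᶜ).card = 1 := by
      rw [Finset.card_compl, hα]
      omega
    obtain ⟨z, hz⟩ := Finset.card_eq_one.mp hcompl
    have hzB : z ∉ B := by
      have : z ∈ Bᶜ := by rw [hz]; exact Finset.mem_singleton_self _
      exact Finset.mem_compl.mp this
    obtain ⟨h, hh, hhz⟩ := hmove z
    have h1 : h • z ∈ B := by
      by_contra hcon
      have : h • z ∈ Bᶜ := Finset.mem_compl.mpr hcon
      rw [hz, Finset.mem_singleton] at this
      exact hhz this
    have h2 := hBinv h⁻¹ (H.inv_mem hh) _ h1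
    rw [inv_smul_smul] at h2
    exact hzB h2

end Cfsg.Agent.Lib.Perm
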