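import Mathlib

/-! Blocks from equivariant involutions, and the structure of regular normal subgroups of
multiply primitive groups. -/

set_option autoImplicit false

namespace Cfsg.Agent.Lib.Perm

open MulAction SubMulAction
open scoped Pointwise

/-- An equivariant involution `ι` on a primitive `K`-set: each `y` is fixed by `ι`, or the set is
`{y, ι y}`. -/
theorem fixed_or_eq_pair_of_equivariant_involution {K Y : Type*} [Group K] [MulAction K Y]
    [IsPreprimitive K Y] (ι : Y → Y) (hι : ∀ (k : K) (y : Y), ι (k • y) = k • ι y)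
    (hιι : ∀ y, ι (ι y) = y) (y : Y) : ι y = y ∨ ∀ z, z = y ∨ z = ι y := by
  have hB : IsBlock K ({y, ι y} : Set Y) := by
    rw [isBlock_iff_smul_eq_or_disjoint]
    intro k
    have hpairsmul : k • ({y, ι y} : Set Y) = {k • y, k • ι y} := by
      simp [Set.smul_set_insert]
    by_cases h1 : k • y = y
    · left
      rw [hpairsmul, h1, ← hι, h1]
    by_cases h2 : k • y = ι y
    · left
      rw [hpairsmul, h2, ← hι, h2, hιι, Set.pair_comm]
    right
    rw [hpairsmul, Set.disjoint_left]
    intro z hz hz2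
    have h3 : ι (k • y) ≠ y := fun h => h2 (by
      have := congrArg ι h
      rwa [hιι] at this)
    have h4 : ι (k • y) ≠ ι y := fun h => h1 (by
      have := congrArg ι h
      rwa [hιι, hιι] at this)
    rw [← hι] at hz
    rcases hz with rfl | rfl <;> rcases hz2 with h | h
    · exact h1 h
    · exact h2 h
    · exact h3 h
    · exact h4 h
  rcases IsPreprimitive.isTrivialBlock_of_isBlock hB with h | h
  · left
    exact h (by simp) (by simp)
  · right
    intro z
    have : z ∈ ({y, ι y} : Set Y) := by rw [h]; trivial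
    exact this

section Regular

variable {G X : Type*} [Group G] [MulAction G X]

/-- In a regular action of `N` (given as a subgroup with trivial point stabilisers): injectivity of
the orbit map. -/
theorem regular_smul_injective (N : Subgroup G) (hreg : ∀ x : X, stabilizer N x = ⊥) (x₀ : X)
    {n m : N} (h : n • x₀ = m • x₀) : n = m := by
  have : m⁻¹ * n ∈ stabilizer N x₀ := by
    rw [mem_stabilizer_iff, mul_smul, h, inv_smul_smul]
  rw [hreg x₀, Subgroup.mem_bot] at this
  exact (inv_mul_eq_one.mp this).symm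

/-- Doubly primitive groups with a regular normal subgroup: the subgroup has exponent 2 unless
the degree is 3. -/
theorem regular_normal_of_two_primitive [Finite X] (h2 : IsMultiplyPreprimitive G X 2)
    (N : Subgroup G) [N.Normal] (htrans : IsPretransitive N X)
    (hreg : ∀ x : X, stabilizer N x = ⊥) (x₀ : X) :
    Nat.card X = 3 ∨ ∀ n ∈ N, n ^ 2 = 1 := by
  classical
  let s : Set X := {x₀}
  have hs : s.encard + 1 = (2 : ℕ) := by
    simp only [s, Set.encard_singleton]
    norm_num
  have hprim : IsPreprimitive (fixingSubgroup G s) (ofFixingSubgroup G s) :=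
    IsMultiplyPreprimitive.isPreprimitive_ofFixingSubgroup G 2 hs
  -- the element of `N` taking `x₀` to a given point
  have hex : ∀ x : X, ∃ n : N, n • x₀ = x := fun x => exists_smul_eq N x₀ x
  choose γ hγ using hex
  have huniq : ∀ n : N, γ (n • x₀) = n := fun n => regular_smul_injective N hreg x₀ (hγ _)
  have hmem : ∀ y : ofFixingSubgroup G s, (γ y)⁻¹ • x₀ ∈ ofFixingSubgroup G s := by
    intro y
    rw [mem_ofFixingSubgroup_iff]
    intro hy
    have hy' : (γ y)⁻¹ • x₀ = x₀ := hy
    have h1 : (γ y) • x₀ = x₀ := by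
      conv_lhs => rw [← hy']
      exact smul_inv_smul _ _
    have h2 := hγ (y : X)
    rw [h1] at h2
    exact (mem_ofFixingSubgroup_iff G).mp y.2 (by rw [← h2]; rfl)
  let ι : ofFixingSubgroup G s → ofFixingSubgroup G s := fun y => ⟨_, hmem y⟩
  have hconj : ∀ (k : fixingSubgroup G s) (n : N),
      (⟨(k : G) * (n : G) * (k : G)⁻¹, Subgroup.Normal.conj_mem ‹_› _ n.2 _⟩ : N) • x₀ = (k : G) • (n • x₀) := by
    intro k n
    have hk : (k : G) • x₀ = x₀ := (mem_fixingSubgroup_iff G).mp k.2 x₀ rfl
    have hk' : (k : G)⁻¹ • x₀ = x₀ := by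
      rw [inv_smul_eq_iff, hk]
    change ((k : G) * (n : G) * (k : G)⁻¹) • x₀ = (k : G) • ((n : G) • x₀)
    rw [mul_smul, mul_smul, hk']
  have hγk : ∀ (k : fixingSubgroup G s) (y : X), γ ((k : G) • y) =
      ⟨(k : G) * (γ y : G) * (k : G)⁻¹, Subgroup.Normal.conj_mem ‹_› _ (γ y).2 _⟩ := by
    intro k y
    apply regular_smul_injective N hreg x₀
    rw [hγ, hconj, hγ]
  have hι : ∀ (k : fixingSubgroup G s) (y : ofFixingSubgroup G s), ι (k • y) = k • ι y := by
    intro k y
    apply Subtype.ext
    change (γ ((k : G) • (y : X)))⁻¹ • x₀ = (k : G) • ((γ (y : X))⁻¹ • x₀)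
    rw [hγk]
    have hconj2 := hconj k (γ (y : X))⁻¹
    rw [← hconj2]
    congr 1
    apply Subtype.ext
    simp [mul_assoc]
  have hιι : ∀ y, ι (ι y) = y := by
    intro y
    apply Subtype.ext
    change (γ ((γ (y : X))⁻¹ • x₀))⁻¹ • x₀ = (y : X)
    rw [huniq, inv_inv, hγ]
  by_cases hall : ∀ y, ι y = y
  · right
    intro n hn
    by_cases hn1 : (⟨n, hn⟩ : N) • x₀ = x₀
    · have : (⟨n, hn⟩ : N) ∈ stabilizer N x₀ := hn1
      rw [hreg x₀, Subgroup.mem_bot] at this
      have hn2 : n = 1 := congrArg Subtype.val this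
      rw [hn2, one_pow]
    · have hy : (⟨n, hn⟩ : N) • x₀ ∈ ofFixingSubgroup G s := by
        rw [mem_ofFixingSubgroup_iff]
        exact hn1
      have := hall ⟨_, hy⟩
      have h3 : (γ ((⟨n, hn⟩ : N) • x₀))⁻¹ • x₀ = (⟨n, hn⟩ : N) • x₀ := congrArg Subtype.val this
      rw [huniq] at h3
      have h4 := regular_smul_injective N hreg x₀ h3
      have h5 : (⟨n, hn⟩ : N) * (⟨n, hn⟩ : N) = 1 := by
        have := inv_mul_cancel (⟨n, hn⟩ : N)
        rwa [h4] at this
      have h6 : n * n = 1 := congrArg Subtype.val h5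
      rw [pow_two, h6]
  · left
    push Not at hall
    obtain ⟨y, hy⟩ := hall
    have hpair := fixed_or_eq_pair_of_equivariant_involution (K := fixingSubgroup G s) ι hι hιι y
    rcases hpair with h | hpair
    · exact absurd h hy
    -- `X = {x₀, y, ι y}`
    have hne1 : (y : X) ≠ x₀ := (mem_ofFixingSubgroup_iff G).mp y.2
    have hne2 : ((ι y : ofFixingSubgroup G s) : X) ≠ x₀ := (mem_ofFixingSubgroup_iff G).mp (ι y).2
    have hne3 : ((ι y : ofFixingSubgroup G s) : X) ≠ y := fun h => hy (Subtype.ext h)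
    have huniv : (Set.univ : Set X) = {x₀, (y : X), ((ι y : ofFixingSubgroup G s) : X)} := by
      ext z
      simp only [Set.mem_univ, Set.mem_insert_iff, Set.mem_singleton_iff, true_iff]
      by_cases hz : z = x₀
      · exact Or.inl hz
      · right
        have hz' : z ∈ ofFixingSubgroup G s := by
          rw [mem_ofFixingSubgroup_iff]
          exact hz
        rcases hpair ⟨z, hz'⟩ with h | h
        · left; exact congrArg Subtype.val h
        · right; exact congrArg Subtype.val h
    rw [← Set.ncard_univ, huniv, Set.ncard_eq_toFinset_card']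
    simp [Set.toFinset_insert, Set.toFinset_singleton]
    rw [Finset.card_insert_of_notMem, Finset.card_pair]
    · exact hne3.symm
    · simp [hne1.symm, hne2.symm]

/-- Triply primitive groups with a regular normal subgroup of exponent 2 have degree 4. -/
theorem regular_normal_of_three_primitive [Finite X] (h3 : IsMultiplyPreprimitive G X 3)
    (N : Subgroup G) [N.Normal] (htrans : IsPretransitive N X)
    (hreg : ∀ x : X, stabilizer N x = ⊥) (hexp : ∀ n ∈ N, n ^ 2 = 1) (hX : 3 ≤ Nat.card X) :
    Nat.card X = 4 := by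
  classical
  have hnt : Nontrivial X := by
    rw [← Finite.one_lt_card_iff_nontrivial]
    omega
  obtain ⟨x₀, x₁, h01⟩ := exists_pair_ne X
  let s : Set X := {x₀, x₁}
  have hs : s.encard + 1 = (3 : ℕ) := by
    simp only [s, Set.encard_pair h01]
    norm_num
  have hprim : IsPreprimitive (fixingSubgroup G s) (ofFixingSubgroup G s) :=
    IsMultiplyPreprimitive.isPreprimitive_ofFixingSubgroup G 3 hs
  have hex : ∀ x : X, ∃ n : N, n • x₀ = x := fun x => exists_smul_eq N x₀ x
  choose γ hγ using hex
  have huniq : ∀ n : N, γ (n • x₀) = n := fun n => regular_smul_injective N hreg x₀ (hγ _)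
  let n₀ : N := γ x₁
  have hn₀ : n₀ • x₀ = x₁ := hγ x₁
  have hn₀1 : n₀ ≠ 1 := by
    intro h
    rw [h, one_smul] at hn₀
    exact h01 hn₀
  have hn₀2 : n₀ * n₀ = 1 := by
    apply Subtype.ext
    have := hexp n₀ n₀.2
    rw [pow_two] at this
    exact this
  have hmem : ∀ z : ofFixingSubgroup G s, (γ z * n₀) • x₀ ∈ ofFixingSubgroup G s := by
    intro z
    have hz := (mem_ofFixingSubgroup_iff G).mp z.2
    rw [mem_ofFixingSubgroup_iff]
    intro hy
    rcases hy with hy | hy
    · -- `γ z * n₀ = 1`
      have h1 : (γ z * n₀) • x₀ = (1 : N) • x₀ := by rw [one_smul]; exact hy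
      have h2 := regular_smul_injective N hreg x₀ h1
      have h3 : γ z = n₀ := by
        calc γ z = γ z * (n₀ * n₀) := by rw [hn₀2, mul_one]
          _ = (γ z * n₀) * n₀ := by rw [mul_assoc]
          _ = n₀ := by rw [h2, one_mul]
      apply hz
      have h4 := hγ (z : X)
      rw [h3, hn₀] at h4
      right
      exact h4.symm
    · have h1 : (γ z * n₀) • x₀ = n₀ • x₀ := by rw [hn₀]; exact hy
      have h2 := regular_smul_injective N hreg x₀ h1
      have h3 : γ z = 1 := by simpa using h2
      apply hz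
      have h4 := hγ (z : X)
      rw [h3, one_smul] at h4
      left
      exact h4.symm
  let ι : ofFixingSubgroup G s → ofFixingSubgroup G s := fun z => ⟨_, hmem z⟩
  have hk0 : ∀ k : fixingSubgroup G s, (k : G) • x₀ = x₀ := fun k =>
    (mem_fixingSubgroup_iff G).mp k.2 x₀ (Or.inl rfl)
  have hk1 : ∀ k : fixingSubgroup G s, (k : G) • x₁ = x₁ := fun k =>
    (mem_fixingSubgroup_iff G).mp k.2 x₁ (Or.inr rfl)
  have hconj : ∀ (k : fixingSubgroup G s) (n : N),
      (⟨(k : G) * (n : G) * (k : G)⁻¹, Subgroup.Normal.conj_mem ‹_› _ n.2 _⟩ : N) • x₀ = (k : G) • (n • x₀) := by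
    intro k n
    have hk' : (k : G)⁻¹ • x₀ = x₀ := by
      rw [inv_smul_eq_iff, hk0]
    change ((k : G) * (n : G) * (k : G)⁻¹) • x₀ = (k : G) • ((n : G) • x₀)
    rw [mul_smul, mul_smul, hk']
  have hγk : ∀ (k : fixingSubgroup G s) (y : X), γ ((k : G) • y) =
      ⟨(k : G) * (γ y : G) * (k : G)⁻¹, Subgroup.Normal.conj_mem ‹_› _ (γ y).2 _⟩ := by
    intro k y
    apply regular_smul_injective N hreg x₀
    rw [hγ, hconj, hγ]
  have hn₀k : ∀ k : fixingSubgroup G s, (k : G) * (n₀ : G) * (k : G)⁻¹ = n₀ := by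
    intro k
    have h1 := hconj k n₀
    rw [hn₀, hk1, ← hn₀] at h1
    exact congrArg Subtype.val (regular_smul_injective N hreg x₀ h1)
  have hι : ∀ (k : fixingSubgroup G s) (y : ofFixingSubgroup G s), ι (k • y) = k • ι y := by
    intro k y
    apply Subtype.ext
    change (γ ((k : G) • (y : X)) * n₀) • x₀ = (k : G) • ((γ (y : X) * n₀) • x₀)
    rw [hγk, ← hconj]
    congr 1
    apply Subtype.ext
    change (k : G) * (γ (y : X) : G) * (k : G)⁻¹ * (n₀ : G) = (k : G) * ((γ (y : X) : G) * (n₀ : G)) * (k : G)⁻¹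
    conv_lhs => rw [← hn₀k k]
    group
  have hιι : ∀ y, ι (ι y) = y := by
    intro y
    apply Subtype.ext
    change (γ ((γ (y : X) * n₀) • x₀) * n₀) • x₀ = (y : X)
    rw [huniq, mul_assoc, hn₀2, mul_one, hγ]
  have hne : ∀ z, ι z ≠ z := by
    intro z h
    have h1 : (γ (z : X) * n₀) • x₀ = (γ (z : X)) • x₀ := by
      rw [hγ]
      exact congrArg Subtype.val h
    have h2 := regular_smul_injective N hreg x₀ h1
    exact hn₀1 (by simpa using h2)
  -- a third point
  have hex3 : ∃ z : X, z ≠ x₀ ∧ z ≠ x₁ := by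
    by_contra hcon
    push Not at hcon
    have huniv : (Set.univ : Set X) = {x₀, x₁} := by
      ext z
      simp only [Set.mem_univ, Set.mem_insert_iff, Set.mem_singleton_iff, true_iff]
      by_cases hz : z = x₀
      · exact Or.inl hz
      · exact Or.inr (hcon z hz)
    have : Nat.card X = 2 := by
      rw [← Set.ncard_univ, huniv, Set.ncard_pair h01]
    omega
  obtain ⟨z, hz0, hz1⟩ := hex3
  have hzmem : z ∈ ofFixingSubgroup G s := by
    rw [mem_ofFixingSubgroup_iff]
    rintro (h | h)
    · exact hz0 h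
    · exact hz1 h
  let z' : ofFixingSubgroup G s := ⟨z, hzmem⟩
  have hpair := fixed_or_eq_pair_of_equivariant_involution (K := fixingSubgroup G s) ι hι hιι z'
  rcases hpair with h | hpair
  · exact absurd h (hne z')
  have hιz : ((ι z' : ofFixingSubgroup G s) : X) ∉ s := (mem_ofFixingSubgroup_iff G).mp (ι z').2
  have hne2 : ((ι z' : ofFixingSubgroup G s) : X) ≠ z := fun h => hne z' (Subtype.ext h)
  have huniv : (Set.univ : Set X) = {x₀, x₁, z, ((ι z' : ofFixingSubgroup G s) : X)} := by
    ext w
    simp only [Set.mem_univ, Set.mem_insert_iff, Set.mem_singleton_iff, true_iff]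
    by_cases hw : w = x₀
    · exact Or.inl hw
    by_cases hw1 : w = x₁
    · exact Or.inr (Or.inl hw1)
    have hw' : w ∈ ofFixingSubgroup G s := by
      rw [mem_ofFixingSubgroup_iff]
      rintro (h | h)
      · exact hw h
      · exact hw1 h
    rcases hpair ⟨w, hw'⟩ with h | h
    · exact Or.inr (Or.inr (Or.inl (congrArg Subtype.val h)))
    · exact Or.inr (Or.inr (Or.inr (congrArg Subtype.val h)))
  rw [← Set.ncard_univ, huniv, Set.ncard_eq_toFinset_card']
  simp only [Set.toFinset_insert, Set.toFinset_singleton]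
  rw [Finset.card_insert_of_notMem, Finset.card_insert_of_notMem, Finset.card_pair hne2.symm]
  · simp only [Finset.mem_insert, Finset.mem_singleton, not_or]
    exact ⟨hz1.symm, fun h => hιz (Or.inr h.symm)⟩
  · simp only [Finset.mem_insert, Finset.mem_singleton, not_or]
    exact ⟨h01, hz0.symm, fun h => hιz (Or.inl h.symm)⟩

/-- A group of exponent 2 is commutative. -/
theorem isMulCommutative_of_exp_two (N : Subgroup G) (hexp : ∀ n ∈ N, n ^ 2 = 1) :
    IsMulCommutative N := by
  refine ⟨⟨fun a b => ?_⟩⟩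
  have ha : (a * a : N) = 1 := Subtype.ext (by simpa [pow_two] using hexp a a.2)
  have hb : (b * b : N) = 1 := Subtype.ext (by simpa [pow_two] using hexp b b.2)
  have hab : ((a * b) * (a * b) : N) = 1 :=
    Subtype.ext (by simpa [pow_two] using hexp (a * b : N) (a * b : N).2)
  calc a * b = a * b * (a * b * (b * a)) := by
        rw [show a * b * (b * a) = a * (b * b) * a by group, hb, mul_one, ha, mul_one]
    _ = ((a * b) * (a * b)) * (b * a) := by group
    _ = b * a := by rw [hab, one_mul]

/-- Exponent two and regular: the degree is a power of 2. -/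
theorem card_eq_two_pow_of_regular_exp_two [Finite X] (N : Subgroup G)
    (htrans : IsPretransitive N X) (hreg : ∀ x : X, stabilizer N x = ⊥) (x₀ : X)
    (hexp : ∀ n ∈ N, n ^ 2 = 1) : ∃ m : ℕ, Nat.card X = 2 ^ m := by
  have hbij : Function.Bijective (fun n : N => n • x₀) :=
    ⟨fun _ _ h => regular_smul_injective N hreg x₀ h, fun x => exists_smul_eq N x₀ x⟩
  have hc : Nat.card X = Nat.card N := (Nat.card_congr (Equiv.ofBijective _ hbij)).symm
  have : Finite N := Finite.of_injective _ hbij.1
  have hp : IsPGroup 2 N := fun g => ⟨1, Subtype.ext (by simpa using hexp g g.2)⟩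
  obtain ⟨m, hm⟩ := (IsPGroup.iff_card).mp hp
  exact ⟨m, by rw [hc, hm]⟩

end Regular

end Cfsg.Agent.Lib.Perm
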