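import Mathlib
import Cfsg.Agent.Lib.Perm.Regular
import Cfsg.Agent.Lib.Perm.Sharp2

/-!
Jordan's theorems on normal subgroups of multiply transitive and multiply primitive groups.
-/

set_option autoImplicit false

namespace Cfsg.Agent.Lib.Perm

open MulAction SubMulAction

universe u v
variable {G : Type u} {X : Type v} [Group G] [MulAction G X]

/-- The action of a point stabiliser on the remaining points is faithful. -/
lemma jn_faithful [FaithfulSMul G X] (a : X) :
    FaithfulSMul (stabilizer G a) (ofStabilizer G a) := by
  refine ⟨fun {g h} hgh => ?_⟩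
  apply Subtype.ext
  apply FaithfulSMul.eq_of_smul_eq_smul (α := X)
  intro x
  by_cases hx : x = a
  · subst hx
    rw [show (g : G) • x = x from g.2, show (h : G) • x = x from h.2]
  · have := hgh ⟨x, hx⟩
    exact congrArg Subtype.val this

/-- Transfer of multiple transitivity from the stabiliser. -/
lemma jn_trans_step (N : Subgroup G) (a : X) (hN : IsPretransitive N X) {m : ℕ}
    (h : IsMultiplyPretransitive (N.subgroupOf (stabilizer G a)) (ofStabilizer G a) m) :
    IsMultiplyPretransitive N X (m + 1) := by
  rw [ofStabilizer.isMultiplyPretransitive (a := a)]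
  refine ⟨fun u v => ?_⟩
  let ι : ofStabilizer N a → ofStabilizer G a := fun x => ⟨x.1, x.2⟩
  have hι : Function.Injective ι := fun x y hxy =>
    Subtype.ext (congrArg (fun z : ofStabilizer G a => (z : X)) hxy)
  let u' : Fin m ↪ ofStabilizer G a := u.trans ⟨ι, hι⟩
  let v' : Fin m ↪ ofStabilizer G a := v.trans ⟨ι, hι⟩
  obtain ⟨g, hg⟩ := exists_smul_eq (N.subgroupOf (stabilizer G a)) u' v'
  have hgN : ((g : stabilizer G a) : G) ∈ N := g.2
  refine ⟨⟨⟨((g : stabilizer G a) : G), hgN⟩, (g : stabilizer G a).2⟩, ?_⟩
  ext i
  have := congrArg (fun f : Fin m ↪ ofStabilizer G a => ((f i : ofStabilizer G a) : X)) hg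
  exact this

/-- A normal subgroup, sharply 2-transitive, contains a regular normal subgroup of `G`. -/
lemma jn_regular_of_sharp [Finite G] [Finite X] [Nontrivial X] (N : Subgroup G) [N.Normal]
    (h2 : IsMultiplyPretransitive N X 2)
    (hs : ∀ n ∈ N, ∀ a b : X, a ≠ b → n • a = a → n • b = b → n = 1) :
    ∃ F : Subgroup G, F.Normal ∧ IsPretransitive F X ∧ ∀ x : X, stabilizer F x = ⊥ := by
  classical
  have : Fintype X := Fintype.ofFinite X
  obtain ⟨F, p, j, -, -, -, -, -, -, hFmem, hFtr, -, -⟩ := sharp2_structure (G := N) (Ω := X)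
    (fun a b c d hab hcd => by
      obtain ⟨g, hg1, hg2⟩ := is_two_pretransitive_iff.mp h2 hab hcd
      exact ⟨g, hg1, hg2⟩)
    (fun g a b hab ha hb => Subtype.ext (hs g g.2 a b hab ha hb))
  have hmem : ∀ g : G, g ∈ F.map N.subtype ↔ g ∈ N ∧ (g = 1 ∨ ∀ a : X, g • a ≠ a) := by
    intro g
    constructor
    · rintro ⟨f, hf, rfl⟩
      refine ⟨f.2, ?_⟩
      rcases (hFmem f).mp hf with h | h
      · left; simp [h]
      · right; exact h
    · rintro ⟨hg, h⟩
      refine ⟨⟨g, hg⟩, ?_, rfl⟩
      rw [SetLike.mem_coe, hFmem]
      rcases h with h | h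
      · left; exact Subtype.ext h
      · right; exact h
  refine ⟨F.map N.subtype, ⟨fun x hx g => ?_⟩, ⟨fun a b => ?_⟩, fun x => ?_⟩
  · rw [hmem] at hx ⊢
    refine ⟨Subgroup.Normal.conj_mem inferInstance x hx.1 g, ?_⟩
    rcases hx.2 with h | h
    · left; simp [h]
    · right
      intro a ha
      apply h (g⁻¹ • a)
      rw [mul_smul, mul_smul] at ha
      calc x • g⁻¹ • a = g⁻¹ • (g • x • g⁻¹ • a) := by simp
        _ = g⁻¹ • a := by rw [ha]
  · obtain ⟨t, ht, hta⟩ := hFtr a b
    exact ⟨⟨t.1, Subgroup.mem_map_of_mem _ ht⟩, hta⟩
  · rw [eq_bot_iff]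
    rintro ⟨s, hsF⟩ hs'
    rw [Subgroup.mem_bot]
    apply Subtype.ext
    have hsx : s • x = x := hs'
    rcases ((hmem s).mp hsF).2 with h | h
    · exact h
    · exact absurd hsx (h x)

/-- A normal subgroup regular on the remaining points yields a sharply 2-transitive one. -/
lemma jn_sharp_of_stab [Finite X] (N : Subgroup G) (hN : IsPretransitive N X) (a : X)
    (htr : IsPretransitive (N.subgroupOf (stabilizer G a)) (ofStabilizer G a))
    (hreg : ∀ x : ofStabilizer G a, stabilizer (N.subgroupOf (stabilizer G a)) x = ⊥) :
    IsMultiplyPretransitive N X 2 ∧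
      ∀ n ∈ N, ∀ b c : X, b ≠ c → n • b = b → n • c = c → n = 1 := by
  constructor
  · apply jn_trans_step N a hN
    rw [is_one_pretransitive_iff]
    exact htr
  · intro n hn b c hbc hb hc
    obtain ⟨t, ht⟩ := exists_smul_eq N b a
    have htG : ((t : N) : G) • b = a := ht
    let m : G := (t : G) * n * (t : G)⁻¹
    have hmN : m ∈ N := N.mul_mem (N.mul_mem t.2 hn) (N.inv_mem t.2)
    have hma : m • a = a := by
      simp only [m, mul_smul]
      rw [← htG, inv_smul_smul, hb]
    have hcne : (t : G) • c ≠ a := by
      intro h
      rw [← htG] at h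
      exact hbc (smul_left_cancel _ h).symm
    let x : ofStabilizer G a := ⟨(t : G) • c, hcne⟩
    have hmx : m • ((t : G) • c) = (t : G) • c := by
      simp only [m, mul_smul]
      rw [inv_smul_smul, hc]
    have hm : (⟨⟨m, hma⟩, hmN⟩ : N.subgroupOf (stabilizer G a)) ∈
        stabilizer (N.subgroupOf (stabilizer G a)) x := by
      rw [mem_stabilizer_iff]
      exact Subtype.ext hmx
    rw [hreg x, Subgroup.mem_bot] at hm
    have hm1 : m = 1 := by
      have := congrArg (fun z : N.subgroupOf (stabilizer G a) => ((z : stabilizer G a) : G)) hm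
      exact this
    have : (t : G) * n = (t : G) := by
      have h3 : (t : G) * n * (t : G)⁻¹ = 1 := hm1
      exact mul_inv_eq_one.mp h3
    simpa using this

/-- A nontrivial normal subgroup of a faithful primitive group is transitive. -/
lemma jn_normal_trans [FaithfulSMul G X] (hprim : IsPreprimitive G X) (N : Subgroup G) [N.Normal]
    (hN : N ≠ ⊥) : IsPretransitive N X := by
  refine IsQuasiPreprimitive.isPretransitive_of_normal (G := G) (X := X) (N := N) ?_
  intro hfix
  apply hN
  rw [eq_bot_iff]
  intro n hn
  rw [Subgroup.mem_bot]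
  apply FaithfulSMul.eq_of_smul_eq_smul (α := X)
  intro x
  have hx : x ∈ fixedPoints N X := by rw [hfix]; trivial
  have := hx ⟨n, hn⟩
  rw [one_smul]
  exact this

/-- If the stabiliser part of a transitive normal subgroup is trivial, the subgroup is regular. -/
lemma jn_regular_of_bot (N : Subgroup G) [N.Normal] (hN : IsPretransitive N X) (a : X)
    (hbot : N.subgroupOf (stabilizer G a) = ⊥) (x : X) : stabilizer N x = ⊥ := by
  rw [eq_bot_iff]
  rintro ⟨n, hn⟩ hnx
  rw [Subgroup.mem_bot]
  obtain ⟨t, ht⟩ := exists_smul_eq N x a
  have htG : ((t : N) : G) • x = a := ht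
  have hnx' : n • x = x := hnx
  let m : G := (t : G) * n * (t : G)⁻¹
  have hmN : m ∈ N := N.mul_mem (N.mul_mem t.2 hn) (N.inv_mem t.2)
  have hma : m • a = a := by
    simp only [m, mul_smul]
    rw [← htG, inv_smul_smul, hnx']
  have h0 : (⟨m, hma⟩ : stabilizer G a) ∈ N.subgroupOf (stabilizer G a) := hmN
  rw [hbot, Subgroup.mem_bot] at h0
  have hm1 : m = 1 := congrArg Subtype.val h0
  have h3 : (t : G) * n = (t : G) := mul_inv_eq_one.mp hm1
  apply Subtype.ext
  simpa using h3

/-- A triply primitive group of degree at least 5 has no regular normal subgroup. -/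
lemma jn_no_regular [Finite X] (h3 : IsMultiplyPreprimitive G X 3) (F : Subgroup G) [F.Normal]
    (htr : IsPretransitive F X) (hreg : ∀ x : X, stabilizer F x = ⊥) (hc : 5 ≤ Nat.card X) :
    False := by
  have hne : Nonempty X := by
    rw [← Finite.card_pos_iff]; omega
  obtain ⟨a⟩ := hne
  have hc3 : ((3 : ℕ) : ℕ∞) ≤ ENat.card X := by
    rw [ENat.card_eq_coe_natCard]
    exact_mod_cast (by omega : 3 ≤ Nat.card X)
  have h2 : IsMultiplyPreprimitive G X 2 := isMultiplyPreprimitive_of_le G X h3 (by norm_num) hc3
  rcases regular_normal_of_two_primitive h2 F htr hreg a with h | hexp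
  · omega
  · have := regular_normal_of_three_primitive h3 F htr hreg hexp (by omega)
    omega

/-- Jordan's theorem, abstract form. -/
theorem jordan_normal_core (k : ℕ) (hk : 2 ≤ k) :
    ∀ (G : Type u) (X : Type v) [Group G] [MulAction G X] [Finite X] [FaithfulSMul G X]
      (N : Subgroup G) [N.Normal], N ≠ ⊥ → k < Nat.card X → IsMultiplyPretransitive G X k →
      IsMultiplyPretransitive N X (k - 1) ∨ (k = 3 ∧ ∀ n ∈ N, n ^ 2 = 1) := by
  induction k, hk using Nat.le_induction with
  | base =>
    intro G X _ _ _ _ N _ hN hcard h2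
    left
    have hprim : IsPreprimitive G X := isPreprimitive_of_is_two_pretransitive h2
    exact is_one_pretransitive_iff.mpr (jn_normal_trans hprim N hN)
  | succ k hk ih =>
    intro G X _ _ _ _ N _ hN hcard hG
    have hcE : ((k + 1 : ℕ) : ℕ∞) ≤ ENat.card X := by
      rw [ENat.card_eq_coe_natCard]
      exact_mod_cast hcard.le
    have hG2 : IsMultiplyPretransitive G X 2 :=
      isMultiplyPretransitive_of_le (n := k + 1) (by omega) hcard.le
    have hprim : IsPreprimitive G X := isPreprimitive_of_is_two_pretransitive hG2
    have hNtr : IsPretransitive N X := jn_normal_trans hprim N hN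
    have hGtr : IsPretransitive G X := hprim.toIsPretransitive
    have hne : Nonempty X := by
      rw [← Finite.card_pos_iff]; omega
    obtain ⟨a⟩ := hne
    have hPk : IsMultiplyPreprimitive G X k :=
      isMultiplyPreprimitive_of_isMultiplyPretransitive_succ G X hcE
    have hcEk : ((k : ℕ) : ℕ∞) ≤ ENat.card X := le_trans (by exact_mod_cast Nat.le_succ k) hcE
    by_cases hbot : N.subgroupOf (stabilizer G a) = ⊥
    · have hreg := jn_regular_of_bot N hNtr a hbot
      have hP2 : IsMultiplyPreprimitive G X 2 := isMultiplyPreprimitive_of_le G X hPk hk hcEk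
      rcases regular_normal_of_two_primitive hP2 N hNtr hreg a with h | hexp
      · omega
      · by_cases hk3 : k + 1 = 3
        · right; exact ⟨hk3, hexp⟩
        · exfalso
          have hP3 : IsMultiplyPreprimitive G X 3 :=
            isMultiplyPreprimitive_of_le G X hPk (by omega) hcEk
          exact jn_no_regular hP3 N hNtr hreg (by omega)
    · have := jn_faithful (G := G) a
      have hcard' : k < Nat.card (ofStabilizer G a) := by
        have := nat_card_ofStabilizer_add_one_eq G a
        omega
      have hG' : IsMultiplyPretransitive (stabilizer G a) (ofStabilizer G a) k :=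
        ofStabilizer.isMultiplyPretransitive.mp hG
      rcases ih (stabilizer G a) (ofStabilizer G a) (N.subgroupOf (stabilizer G a)) hbot hcard' hG'
        with h | ⟨hk3, hexp⟩
      · left
        have := jn_trans_step N a hNtr h
        rwa [show k - 1 + 1 = k by omega] at this
      · exfalso
        subst hk3
        have hcE' : ((3 : ℕ) : ℕ∞) ≤ ENat.card (ofStabilizer G a) := by
          rw [ENat.card_eq_coe_natCard]
          exact_mod_cast hcard'.le
        have hG'2 : IsMultiplyPretransitive (stabilizer G a) (ofStabilizer G a) 2 :=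
          isMultiplyPretransitive_of_le (n := 3) (by omega) hcard'.le
        have hprim' : IsPreprimitive (stabilizer G a) (ofStabilizer G a) :=
          isPreprimitive_of_is_two_pretransitive hG'2
        have htr' : IsPretransitive (N.subgroupOf (stabilizer G a)) (ofStabilizer G a) :=
          jn_normal_trans hprim' _ hbot
        have hcomm := isMulCommutative_of_exp_two (N.subgroupOf (stabilizer G a)) hexp
        have hreg' : ∀ x : ofStabilizer G a,
            stabilizer (N.subgroupOf (stabilizer G a)) x = ⊥ := by
          intro x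
          rw [eq_bot_iff]
          intro s hs
          rw [Subgroup.mem_bot]
          have hsx : s • x = x := hs
          have hsall : ∀ y : ofStabilizer G a, s • y = y := by
            intro y
            obtain ⟨t, ht⟩ := exists_smul_eq (N.subgroupOf (stabilizer G a)) x y
            rw [← ht, ← mul_smul, hcomm.is_comm.comm s t, mul_smul, hsx]
          apply Subtype.ext
          apply FaithfulSMul.eq_of_smul_eq_smul (α := ofStabilizer G a)
          intro y
          change s • y = (1 : N.subgroupOf (stabilizer G a)) • y
          rw [one_smul]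
          exact hsall y
        obtain ⟨hN2, hsharp⟩ := jn_sharp_of_stab N hNtr a htr' hreg'
        have hfinG : Finite G := Finite.of_injective (MulAction.toPermHom G X)
          (fun x y h => FaithfulSMul.eq_of_smul_eq_smul (α := X) (fun z => by
            have := congrArg (fun f : Equiv.Perm X => f z) h
            exact this))
        have hnt : Nontrivial X := by
          rw [← Finite.one_lt_card_iff_nontrivial]; omega
        obtain ⟨F, hFn, hFtr, hFreg⟩ := jn_regular_of_sharp N hN2 hsharp
        have hP3 : IsMultiplyPreprimitive G X 3 := hPk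
        exact jn_no_regular hP3 F hFtr hFreg (by omega)

/-- Jordan's theorem on multiply primitive groups, abstract form. -/
theorem jordan_prim_core (k : ℕ) (hk : 1 ≤ k) :
    ∀ (G : Type u) (X : Type v) [Group G] [MulAction G X] [Finite X] [FaithfulSMul G X]
      (N : Subgroup G) [N.Normal], N ≠ ⊥ → k ≤ Nat.card X → IsMultiplyPreprimitive G X k →
      ¬ IsMultiplyPretransitive G X (Nat.card X - 1) → (∃ a : X, stabilizer N a ≠ ⊥) →
      IsMultiplyPretransitive N X k := by
  induction k, hk using Nat.le_induction with
  | base =>
    intro G X _ _ _ _ N _ hN hcard h1 _ _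
    have hprim : IsPreprimitive G X := (is_one_preprimitive_iff G X).mp h1
    exact is_one_pretransitive_iff.mpr (jn_normal_trans hprim N hN)
  | succ k hk ih =>
    intro G X _ _ _ _ N _ hN hcard hG hnot ⟨a, ha⟩
    have hcE : ((k + 1 : ℕ) : ℕ∞) ≤ ENat.card X := by
      rw [ENat.card_eq_coe_natCard]
      exact_mod_cast hcard
    have hG1 : IsMultiplyPreprimitive G X 1 := isMultiplyPreprimitive_of_le G X hG (by omega) hcE
    have hprim : IsPreprimitive G X := (is_one_preprimitive_iff G X).mp hG1
    have hNtr : IsPretransitive N X := jn_normal_trans hprim N hN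
    have hGtr : IsPretransitive G X := hprim.toIsPretransitive
    have := jn_faithful (G := G) a
    have hcard1 := nat_card_ofStabilizer_add_one_eq G a
    have hG' : IsMultiplyPreprimitive (stabilizer G a) (ofStabilizer G a) k :=
      isMultiplyPreprimitive_ofStabilizer G X
    have hbot : N.subgroupOf (stabilizer G a) ≠ ⊥ := by
      intro h
      exact ha (jn_regular_of_bot N hNtr a h a)
    have hprim' : IsPreprimitive (stabilizer G a) (ofStabilizer G a) := by
      have hcE' : ((k : ℕ) : ℕ∞) ≤ ENat.card (ofStabilizer G a) := by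
        rw [ENat.card_eq_coe_natCard]
        exact_mod_cast (by omega : k ≤ Nat.card (ofStabilizer G a))
      exact (is_one_preprimitive_iff _ _).mp (isMultiplyPreprimitive_of_le (stabilizer G a) (ofStabilizer G a) hG' hk hcE')
    have htr' : IsPretransitive (N.subgroupOf (stabilizer G a)) (ofStabilizer G a) :=
      jn_normal_trans hprim' _ hbot
    by_cases hb : ∃ b : ofStabilizer G a, stabilizer (N.subgroupOf (stabilizer G a)) b ≠ ⊥
    · have hnot' : ¬ IsMultiplyPretransitive (stabilizer G a) (ofStabilizer G a)
          (Nat.card (ofStabilizer G a) - 1) := by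
        intro h
        apply hnot
        have := ofStabilizer.isMultiplyPretransitive.mpr h
        rwa [show (Nat.card (ofStabilizer G a) - 1).succ = Nat.card X - 1 by
          simp only [Nat.succ_eq_add_one]
          omega] at this
      exact jn_trans_step N a hNtr
        (ih (stabilizer G a) (ofStabilizer G a) _ hbot (by omega) hG' hnot' hb)
    · by_cases hk1 : k = 1
      · subst hk1
        exact jn_trans_step N a hNtr (is_one_pretransitive_iff.mpr htr')
      · exfalso
        push Not at hb
        obtain ⟨hN2, hsharp⟩ := jn_sharp_of_stab N hNtr a htr' hb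
        have hfinG : Finite G := Finite.of_injective (MulAction.toPermHom G X)
          (fun x y h => FaithfulSMul.eq_of_smul_eq_smul (α := X) (fun z => by
            have := congrArg (fun f : Equiv.Perm X => f z) h
            exact this))
        have hnt : Nontrivial X := by
          rw [← Finite.one_lt_card_iff_nontrivial]; omega
        obtain ⟨F, hFn, hFtr, hFreg⟩ := jn_regular_of_sharp N hN2 hsharp
        have hP3 : IsMultiplyPreprimitive G X 3 := isMultiplyPreprimitive_of_le G X hG (by omega) hcE
        have hP2 : IsMultiplyPreprimitive G X 2 := isMultiplyPreprimitive_of_le G X hG (by omega) hcE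
        have hc4 : Nat.card X ≤ 4 := by
          rcases regular_normal_of_two_primitive hP2 F hFtr hFreg a with h | hexp
          · omega
          · have := regular_normal_of_three_primitive hP3 F hFtr hFreg hexp (by omega)
            omega
        apply hnot
        have hT3 : IsMultiplyPretransitive G X 3 := hP3.isMultiplyPretransitive
        exact isMultiplyPretransitive_of_le (n := 3) (by omega) (by omega)

end Cfsg.Agent.Lib.Perm
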