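import Mathlib
import Cfsg.Agent.Lib.Basic.Frobenius
import Cfsg.Agent.Lib.PGroups.Frobenius

/-!
A finite group with a group of automorphisms acting freely on its non-identity elements with at
most two orbits is elementary abelian.
-/

set_option autoImplicit false

namespace Cfsg.Agent.Lib.Perm

universe u
variable {F : Type u} {H : Type*} [Group F] [Group H] [Finite F]

/-- The order of a group acting freely divides the size of an invariant set. -/
lemma to_dvd (Φ : H →* MulAut F) (hfree : ∀ (h : H) (x : F), Φ h x = x → h = 1 ∨ x = 1)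
    (S : Set F) (hinv : ∀ h : H, ∀ x ∈ S, Φ h x ∈ S) (h1 : (1 : F) ∉ S) :
    Nat.card H ∣ S.ncard := by
  let _ : MulAction H S :=
    { smul := fun h x => ⟨Φ h x, hinv h x x.2⟩
      one_smul := fun x => Subtype.ext (by
        change Φ 1 (x : F) = x
        simp)
      mul_smul := fun g h x => Subtype.ext (by
        change Φ (g * h) (x : F) = Φ g (Φ h x)
        simp) }
  have h2 : ∀ b : S, MulAction.stabilizer H b = ⊥ := by
    intro b
    rw [eq_bot_iff]
    intro h hh
    rw [Subgroup.mem_bot]
    have h3 : Φ h (b : F) = b := congrArg Subtype.val (show h • b = b from hh)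
    rcases hfree h b h3 with h4 | h4
    · exact h4
    · exact absurd (h4 ▸ b.2) h1
  have := Cfsg.Agent.Lib.Basic.card_dvd_of_free h2
  rwa [Nat.card_coe_set_eq] at this

variable (Φ : H →* MulAut F) (hfree : ∀ (h : H) (x : F), Φ h x = x → h = 1 ∨ x = 1)
  (hcard : Nat.card F - 1 ≤ 2 * Nat.card H) [Finite H]

include hfree hcard

/-- An invariant non-trivial subgroup is everything. -/
lemma to_subgroup (A : Subgroup F) (hA : A ≠ ⊥) (hinv : ∀ (h : H), ∀ x ∈ A, Φ h x ∈ A) : A = ⊤ := by
  classical
  have hdpos : 0 < Nat.card H := Nat.card_pos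
  have hS : ∀ B : Subgroup F, (∀ (h : H), ∀ x ∈ B, Φ h x ∈ B) → B ≠ ⊥ →
      ∃ k, 1 ≤ k ∧ Nat.card B = 1 + k * Nat.card H := by
    intro B hB hB0
    let S : Set F := {x | x ∈ B ∧ x ≠ 1}
    have hd := to_dvd Φ hfree S (fun h x hx => ⟨hB h x hx.1, by
      intro h2
      exact hx.2 ((map_eq_one_iff _ (MulEquiv.injective _)).mp h2)⟩) (fun h => h.2 rfl)
    have hcardS : S.ncard + 1 = Nat.card B := by
      have h1 : S = (B : Set F) \ {1} := by
        ext x
        simp [S]
      rw [h1, Set.ncard_sdiff_singleton_add_one (by simp) (Set.toFinite _)]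
      exact (Nat.card_coe_set_eq (B : Set F)).symm
    obtain ⟨k, hk⟩ := hd
    refine ⟨k, ?_, by rw [← hcardS, hk]; ring⟩
    rcases Nat.eq_zero_or_pos k with h0 | h0
    · exfalso
      rw [h0, mul_zero] at hk
      have hcB : Nat.card B = 1 := by omega
      exact hB0 ((Subgroup.card_eq_one).mp hcB)
    · exact h0
  obtain ⟨k, hk1, hk⟩ := hS A hinv hA
  have hnt : (⊤ : Subgroup F) ≠ ⊥ := by
    intro h
    apply hA
    rw [eq_bot_iff, ← h]
    exact le_top
  obtain ⟨m, hm1, hm⟩ := hS ⊤ (fun h x _ => Subgroup.mem_top _) hnt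
  have hcF : Nat.card (⊤ : Subgroup F) = Nat.card F := Subgroup.card_top
  rw [hcF] at hm
  have hm2 : m ≤ 2 := by
    have : m * Nat.card H ≤ 2 * Nat.card H := by omega
    exact Nat.le_of_mul_le_mul_right this hdpos
  have hdvd : Nat.card A ∣ Nat.card F := Subgroup.card_subgroup_dvd_card A
  rw [hm, hk] at hdvd
  have hle : k ≤ m := by
    have := Nat.le_of_dvd (by positivity) hdvd
    have h3 : k * Nat.card H ≤ m * Nat.card H := by omega
    exact Nat.le_of_mul_le_mul_right h3 hdpos
  by_cases hkm : k = m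
  · apply Subgroup.eq_top_of_card_eq
    rw [hk, hm, hkm]
  · exfalso
    have hk1' : k = 1 := by omega
    have hm2' : m = 2 := by omega
    subst hk1' hm2'
    obtain ⟨c, hc⟩ := hdvd
    rw [one_mul] at hc
    -- `1 + 2d = (1 + d) c`
    have hc1 : c ≠ 0 := by
      rintro rfl
      omega
    have hc2 : c < 2 := by
      by_contra h
      push Not at h
      have : (1 + Nat.card H) * 2 ≤ (1 + Nat.card H) * c := Nat.mul_le_mul_left _ h
      omega
    have hc3 : c = 1 := by omega
    subst hc3
    omega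

/-- The elements of `p`-power order, without the identity. -/
def toR (F : Type*) [Group F] (p : ℕ) : Set F := {x | x ≠ 1 ∧ ∃ k, x ^ p ^ k = 1}

omit hfree hcard in
lemma toR_invariant (p : ℕ) (h : H) (x : F) (hx : x ∈ toR F p) : Φ h x ∈ toR F p := by
  obtain ⟨h1, k, hk⟩ := hx
  refine ⟨fun h2 => h1 ((map_eq_one_iff _ (MulEquiv.injective _)).mp h2), k, ?_⟩
  rw [← map_pow, hk, map_one]

omit hfree hcard [Finite H] [Group H] in
lemma toR_nonempty {p : ℕ} (hp : p.Prime) (hpn : p ∣ Nat.card F) : (toR F p).Nonempty := by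
  have : Fact p.Prime := ⟨hp⟩
  obtain ⟨x, hx⟩ := exists_prime_orderOf_dvd_card' (G := F) p hpn
  refine ⟨x, ?_, 1, ?_⟩
  · intro h
    rw [h, orderOf_one] at hx
    exact hp.one_lt.ne hx
  · rw [pow_one, ← hx]
    exact pow_orderOf_eq_one x

omit hfree hcard [Finite H] [Group H] [Finite F] in
lemma toR_disjoint {p q : ℕ} (hp : p.Prime) (hq : q.Prime) (hpq : p ≠ q) :
    Disjoint (toR F p) (toR F q) := by
  rw [Set.disjoint_left]
  rintro x ⟨h1, k, hk⟩ ⟨-, l, hl⟩
  have h2 : orderOf x ∣ p ^ k := orderOf_dvd_of_pow_eq_one hk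
  have h3 : orderOf x ∣ q ^ l := orderOf_dvd_of_pow_eq_one hl
  have hcop : Nat.Coprime (p ^ k) (q ^ l) :=
    Nat.Coprime.pow _ _ ((Nat.coprime_primes hp hq).mpr hpq)
  have h4 : orderOf x = 1 := Nat.eq_one_of_dvd_coprimes hcop h2 h3
  exact h1 (orderOf_eq_one_iff.mp h4)

omit hfree hcard [Finite H] [Group H] in
/-- The number of `p`-elements is divisible by the full power of `p` in the order. -/
lemma toR_card_dvd {p : ℕ} (hp : p.Prime) :
    p ^ (Nat.card F).factorization p ∣ (toR F p).ncard + 1 := by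
  classical
  have h1 := Cfsg.Agent.Lib.PGroups.frobenius (G := F) (Nat.ordProj_dvd (Nat.card F) p)
  have h2 : Nat.card {g : F // g ^ p ^ (Nat.card F).factorization p = 1} = (toR F p).ncard + 1 := by
    have h3 : {x : F | x ^ p ^ (Nat.card F).factorization p = 1} = insert 1 (toR F p) := by
      ext x
      simp only [Set.mem_ofPred_eq, Set.mem_insert_iff, toR]
      constructor
      · intro h
        by_cases hx : x = 1
        · exact Or.inl hx
        · exact Or.inr ⟨hx, _, h⟩
      · rintro (rfl | ⟨-, k, hk⟩)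
        · simp
        · have h4 : orderOf x ∣ p ^ k := orderOf_dvd_of_pow_eq_one hk
          obtain ⟨j, -, hj⟩ := (Nat.dvd_prime_pow hp).mp h4
          have h5 : orderOf x ∣ Nat.card F := orderOf_dvd_natCard x
          rw [hj] at h5
          by_cases hj0 : j = 0
          · subst hj0
            rw [pow_zero] at hj
            rw [orderOf_eq_one_iff.mp hj, one_pow]
          have hle : j ≤ (Nat.card F).factorization p :=
            (hp.pow_dvd_iff_le_factorization Nat.card_pos.ne').mp h5
          have h6 : orderOf x ∣ p ^ (Nat.card F).factorization p := by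
            rw [hj]
            exact pow_dvd_pow p hle
          exact orderOf_dvd_iff_pow_eq_one.mp h6
    rw [← Set.ncard_insert_of_notMem (a := (1 : F)) (s := toR F p) (fun h => h.1 rfl) (Set.toFinite _),
      ← h3, ← Nat.card_coe_set_eq]
    rfl
  rwa [h2] at h1

/-- The group is a `p`-group. -/
lemma to_isPGroup [Nontrivial F] : ∃ p : ℕ, p.Prime ∧ IsPGroup p F := by
  classical
  have hdpos : 0 < Nat.card H := Nat.card_pos
  have hn1 : 1 < Nat.card F := Finite.one_lt_card
  have hRdvd : ∀ p : ℕ, Nat.card H ∣ (toR F p).ncard := fun p =>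
    to_dvd Φ hfree (toR F p) (fun h x hx => toR_invariant Φ p h x hx) (fun h => h.1 rfl)
  have hRpos : ∀ p : ℕ, p.Prime → p ∣ Nat.card F → Nat.card H ≤ (toR F p).ncard := by
    intro p hp hpn
    apply Nat.le_of_dvd _ (hRdvd p)
    rw [Set.ncard_pos (Set.toFinite _)]
    exact toR_nonempty hp hpn
  have hsub : ∀ p : ℕ, toR F p ⊆ {x : F | x ≠ 1} := fun p x hx => hx.1
  have hne1 : ({x : F | x ≠ 1}).ncard = Nat.card F - 1 := by
    have h1 : {x : F | x ≠ 1} = Set.univ \ {1} := by
      ext x
      simp
    rw [h1, Set.ncard_sdiff_singleton_of_mem (Set.mem_univ _), Set.ncard_univ]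
  obtain ⟨p, hp, hpn⟩ := Nat.exists_prime_and_dvd hn1.ne'
  refine ⟨p, hp, ?_⟩
  by_contra hnotP
  have hex : ∃ x : F, x ≠ 1 ∧ x ∉ toR F p := by
    by_contra hcon
    push Not at hcon
    apply hnotP
    intro x
    by_cases hx : x = 1
    · exact ⟨0, by simp [hx]⟩
    · obtain ⟨-, k, hk⟩ := hcon x hx
      exact ⟨k, hk⟩
  obtain ⟨x, hx1, hxR⟩ := hex
  have hq : ∃ q : ℕ, q.Prime ∧ q ∣ orderOf x ∧ q ≠ p := by
    by_contra hcon
    push Not at hcon
    have hpow : ∃ k, orderOf x = p ^ k :=
      ⟨_, Nat.eq_prime_pow_of_unique_prime_dvd (orderOf_pos x).ne' (fun {d} hd hd2 => hcon d hd hd2)⟩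
    obtain ⟨k, hk⟩ := hpow
    apply hxR
    refine ⟨hx1, k, ?_⟩
    rw [← hk]
    exact pow_orderOf_eq_one x
  obtain ⟨q, hqp, hqo, hqne⟩ := hq
  have hqn : q ∣ Nat.card F := hqo.trans (orderOf_dvd_natCard x)
  have hdisj := toR_disjoint (F := F) hqp hp hqne
  have hunion : (toR F q).ncard + (toR F p).ncard ≤ Nat.card F - 1 := by
    rw [← hne1, ← Set.ncard_union_eq hdisj (Set.toFinite _) (Set.toFinite _)]
    exact Set.ncard_le_ncard (Set.union_subset (hsub q) (hsub p)) (Set.toFinite _)
  have h1 := hRpos p hp hpn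
  have h2 := hRpos q hqp hqn
  have hp1 : (toR F p).ncard = Nat.card H := by omega
  have hq1 : (toR F q).ncard = Nat.card H := by omega
  have hn : Nat.card F = 1 + 2 * Nat.card H := by omega
  -- every prime divisor of the order is `p` or `q`
  have hprimes : ∀ r : ℕ, r.Prime → r ∣ Nat.card F → r = p ∨ r = q := by
    intro r hr hrn
    by_contra hcon
    push Not at hcon
    have h3 := hRpos r hr hrn
    have hd1 := toR_disjoint (F := F) hr hp hcon.1
    have hd2 := toR_disjoint (F := F) hr hqp hcon.2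
    have hd3 : Disjoint (toR F r) (toR F q ∪ toR F p) := by
      rw [Set.disjoint_union_right]
      exact ⟨hd2, hd1⟩
    have h4 : (toR F r).ncard + ((toR F q).ncard + (toR F p).ncard) ≤ Nat.card F - 1 := by
      rw [← hne1, ← Set.ncard_union_eq hdisj (Set.toFinite _) (Set.toFinite _),
        ← Set.ncard_union_eq hd3 (Set.toFinite _) (Set.toFinite _)]
      exact Set.ncard_le_ncard
        (Set.union_subset (hsub r) (Set.union_subset (hsub q) (hsub p))) (Set.toFinite _)
    omega
  have hdvd : Nat.card F ∣ 1 + Nat.card H := by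
    rw [Nat.dvd_iff_prime_pow_dvd_dvd]
    intro r k hr hrk
    rcases Nat.eq_zero_or_pos k with rfl | hk
    · simp
    have hrn : r ∣ Nat.card F := (dvd_pow_self r hk.ne').trans hrk
    have hle : k ≤ (Nat.card F).factorization r :=
      (hr.pow_dvd_iff_le_factorization Nat.card_pos.ne').mp hrk
    refine (pow_dvd_pow r hle).trans ?_
    rcases hprimes r hr hrn with rfl | rfl
    · have := toR_card_dvd (F := F) hr
      rwa [hp1, add_comm] at this
    · have := toR_card_dvd (F := F) hr
      rwa [hq1, add_comm] at this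
  have := Nat.le_of_dvd (by omega) hdvd
  omega

/-- The main theorem. -/
theorem to_elementary [Nontrivial F] :
    (∀ x y : F, x * y = y * x) ∧ ∃ p f : ℕ, p.Prime ∧ (∀ u : F, u ^ p = 1) ∧ Nat.card F = p ^ f := by
  classical
  obtain ⟨p, hp, hP⟩ := to_isPGroup Φ hfree hcard
  have : Fact p.Prime := ⟨hp⟩
  have hZ : Subgroup.center F = ⊤ := by
    apply to_subgroup Φ hfree hcard
    · have := hP.center_nontrivial
      intro h
      rw [h] at this
      exact not_nontrivial _ this
    · intro h x hx
      rw [Subgroup.mem_center_iff] at hx ⊢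
      intro g
      obtain ⟨g', rfl⟩ := (Φ h).surjective g
      rw [← map_mul, ← map_mul, hx]
  have hcomm : ∀ x y : F, x * y = y * x := fun x y => by
    have : y ∈ Subgroup.center F := by rw [hZ]; trivial
    exact (Subgroup.mem_center_iff.mp this x)
  refine ⟨hcomm, ?_⟩
  obtain ⟨f, hf⟩ := IsPGroup.iff_card.mp hP
  refine ⟨p, f, hp, ?_, hf⟩
  let A : Subgroup F :=
    { carrier := {x | x ^ p = 1}
      mul_mem' := fun {x y} hx hy => by
        change (x * y) ^ p = 1
        have hc : Commute x y := hcomm x y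
        rw [hc.mul_pow, show x ^ p = 1 from hx, show y ^ p = 1 from hy, one_mul]
      one_mem' := one_pow _
      inv_mem' := fun {x} hx => by
        change x⁻¹ ^ p = 1
        rw [inv_pow, show x ^ p = 1 from hx, inv_one] }
  have hA : A = ⊤ := by
    apply to_subgroup Φ hfree hcard
    · intro h
      have hpn : p ∣ Nat.card F := by
        rw [hf]
        apply dvd_pow_self
        rintro rfl
        have h1 : Nat.card F = 1 := by rw [hf, pow_zero]
        have h2 : 1 < Nat.card F := Finite.one_lt_card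
        omega
      obtain ⟨x, hx⟩ := exists_prime_orderOf_dvd_card' (G := F) p hpn
      have hxA : x ∈ A := by
        change x ^ p = 1
        rw [← hx]
        exact pow_orderOf_eq_one x
      rw [h, Subgroup.mem_bot] at hxA
      rw [hxA, orderOf_one] at hx
      exact hp.one_lt.ne hx
    · intro h x hx
      change (Φ h x) ^ p = 1
      rw [← map_pow, show x ^ p = 1 from hx, map_one]
  intro u
  have : u ∈ A := by rw [hA]; trivial
  exact this

end Cfsg.Agent.Lib.Perm
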