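import Mathlib
import Cfsg.Agent.Lib.Perm.Regular
import Cfsg.Agent.Lib.Perm.TwoOrbit
import Cfsg.Agent.Lib.Perm.JordanNormal
import Cfsg.Agent.Lib.Basic.MinNormal
import Cfsg.Agent.S0035

/-!
Burnside's theorem on minimal normal subgroups of doubly transitive groups.
-/

set_option autoImplicit false

namespace Cfsg.Agent.Lib.Perm

open MulAction Cfsg
open scoped Pointwise

section Arith

variable {F : Type*} [Group F] [Finite F]

/-- A group whose non-identity elements are all of `p`-power or `q`-power order, with as many of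
the first kind as of the second, is trivial. -/
lemma two_prime_contra {p q : ℕ} (hp : p.Prime) (hq : q.Prime) (hpq : p ≠ q)
    (hcover : ∀ x : F, x ≠ 1 → x ∈ toR F p ∨ x ∈ toR F q) (φ : F → F)
    (hφ : Function.Injective φ) (h : ∀ x, x ∈ toR F p ↔ φ x ∈ toR F q) : Nat.card F = 1 := by
  classical
  have hsurj : Function.Surjective φ := Finite.surjective_of_injective hφ
  have hc : (toR F p).ncard = (toR F q).ncard := by
    apply Set.ncard_congr (fun x _ => φ x)
    · intro x hx
      exact (h x).mp hx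
    · intro x y _ _ hxy
      exact hφ hxy
    · intro y hy
      obtain ⟨x, rfl⟩ := hsurj y
      exact ⟨x, (h x).mpr hy, rfl⟩
  have hdisj := toR_disjoint (F := F) hp hq hpq
  have hun : toR F p ∪ toR F q = {x : F | x ≠ 1} := by
    ext x
    constructor
    · rintro (h1 | h1)
      · exact h1.1
      · exact h1.1
    · intro hx
      exact hcover x hx
  have hne1 : ({x : F | x ≠ 1}).ncard = Nat.card F - 1 := by
    have h1 : {x : F | x ≠ 1} = Set.univ \ {1} := by
      ext x
      simp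
    rw [h1, Set.ncard_sdiff_singleton_of_mem (Set.mem_univ _), Set.ncard_univ]
  have hsum : (toR F p).ncard + (toR F q).ncard = Nat.card F - 1 := by
    rw [← hne1, ← hun, Set.ncard_union_eq hdisj (Set.toFinite _) (Set.toFinite _)]
  have hpos : 0 < Nat.card F := Nat.card_pos
  have hprimes : ∀ r : ℕ, r.Prime → r ∣ Nat.card F → r = p ∨ r = q := by
    intro r hr hrn
    haveI : Fact r.Prime := ⟨hr⟩
    obtain ⟨x, hx⟩ := exists_prime_orderOf_dvd_card' (G := F) r hrn
    have hx1 : x ≠ 1 := by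
      rintro rfl
      rw [orderOf_one] at hx
      exact hr.one_lt.ne hx
    rcases hcover x hx1 with ⟨-, k, hk⟩ | ⟨-, k, hk⟩
    · left
      have h1 : r ∣ p ^ k := by
        rw [← hx]
        exact orderOf_dvd_of_pow_eq_one hk
      exact (Nat.prime_dvd_prime_iff_eq hr hp).mp (hr.dvd_of_dvd_pow h1)
    · right
      have h1 : r ∣ q ^ k := by
        rw [← hx]
        exact orderOf_dvd_of_pow_eq_one hk
      exact (Nat.prime_dvd_prime_iff_eq hr hq).mp (hr.dvd_of_dvd_pow h1)
  have hdvd : Nat.card F ∣ 1 + (toR F p).ncard := by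
    rw [Nat.dvd_iff_prime_pow_dvd_dvd]
    intro r k hr hrk
    rcases Nat.eq_zero_or_pos k with rfl | hk
    · simp
    have hrn : r ∣ Nat.card F := (dvd_pow_self r hk.ne').trans hrk
    have hle : k ≤ (Nat.card F).factorization r :=
      (hr.pow_dvd_iff_le_factorization Nat.card_pos.ne').mp hrk
    refine (pow_dvd_pow r hle).trans ?_
    rcases hprimes r hr hrn with rfl | rfl
    · have := toR_card_dvd (F := F) hr
      rwa [add_comm] at this
    · have := toR_card_dvd (F := F) hr
      rwa [← hc, add_comm] at this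
  have := Nat.le_of_dvd (by omega) hdvd
  omega

end Arith

section Main

variable {G X : Type*} [Group G] [MulAction G X]

/-- A regular normal subgroup of a doubly transitive group is elementary abelian. -/
lemma bt_regular [Finite X] (h2 : IsMultiplyPretransitive G X 2) (N : Subgroup G) [hNn : N.Normal]
    (hreg : ∀ x : X, stabilizer N x = ⊥) (hN : N ≠ ⊥) (a : X) :
    IsMulCommutative N ∧ ∃ p : ℕ, p.Prime ∧ ∀ n ∈ N, n ^ p = 1 := by
  classical
  have hfinN : Finite N := by
    have hinj : Function.Injective (fun n : N => n • a) :=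
      fun _ _ h => regular_smul_injective N hreg a h
    exact Finite.of_injective _ hinj
  have hconj : ∀ u ∈ N, ∀ v ∈ N, u ≠ 1 → v ≠ 1 → ∃ g : G, g * u * g⁻¹ = v := by
    intro u hu v hv hu1 hv1
    have hne : ∀ w ∈ N, w ≠ 1 → a ≠ w • a := by
      intro w hw hw1 h
      have h1 : (⟨w, hw⟩ : N) ∈ stabilizer N a := h.symm
      rw [hreg a, Subgroup.mem_bot] at h1
      exact hw1 (congrArg Subtype.val h1)
    obtain ⟨g, hg1, hg2⟩ := is_two_pretransitive_iff.mp h2 (hne u hu hu1) (hne v hv hv1)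
    refine ⟨g, ?_⟩
    have hm : g * u * g⁻¹ ∈ N := hNn.conj_mem u hu g
    have : (⟨g * u * g⁻¹, hm⟩ : N) = ⟨v, hv⟩ := by
      apply regular_smul_injective N hreg a
      change (g * u * g⁻¹) • a = v • a
      rw [← hg2, mul_smul, mul_smul]
      congr 2
      rw [inv_smul_eq_iff, hg1]
    exact congrArg Subtype.val this
  have hnt : Nontrivial N := by
    rw [Subgroup.nontrivial_iff_ne_bot]
    exact hN
  obtain ⟨p, hp, hpn⟩ := Nat.exists_prime_and_dvd (Finite.one_lt_card (α := N)).ne'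
  haveI : Fact p.Prime := ⟨hp⟩
  obtain ⟨x, hx⟩ := exists_prime_orderOf_dvd_card' (G := N) p hpn
  have hx1 : (x : G) ≠ 1 := by
    intro h
    have : x = 1 := Subtype.ext h
    rw [this, orderOf_one] at hx
    exact hp.one_lt.ne hx
  have hxp : (x : G) ^ p = 1 := by
    have := pow_orderOf_eq_one x
    rw [hx] at this
    exact congrArg Subtype.val this
  have hexp : ∀ n ∈ N, n ^ p = 1 := by
    intro n hn
    by_cases hn1 : n = 1
    · rw [hn1, one_pow]
    · obtain ⟨g, hg⟩ := hconj x x.2 n hn hx1 hn1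
      rw [← hg, conj_pow, hxp]
      group
  refine ⟨?_, p, hp, hexp⟩
  have hP : IsPGroup p N := fun g => ⟨1, Subtype.ext (by simpa using hexp g g.2)⟩
  have hcnt := hP.center_nontrivial
  obtain ⟨z, hz⟩ := exists_ne (1 : Subgroup.center N)
  have hz1 : ((z : N) : G) ≠ 1 := by
    intro h
    apply hz
    exact Subtype.ext (Subtype.ext h)
  have hzc : ∀ w ∈ N, ((z : N) : G) * w = w * (z : N) := by
    intro w hw
    have := Subgroup.mem_center_iff.mp z.2 ⟨w, hw⟩
    exact (congrArg Subtype.val this).symm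
  refine ⟨⟨fun u w => ?_⟩⟩
  apply Subtype.ext
  by_cases hu1 : (u : G) = 1
  · simp [hu1]
  · obtain ⟨g, hg⟩ := hconj _ (z : N).2 _ u.2 hz1 hu1
    simp only [Subgroup.coe_mul]
    -- `g⁻¹ w g` commutes with `z`
    have hw' : g⁻¹ * (w : G) * g ∈ N := by
      have := hNn.conj_mem w w.2 g⁻¹
      simpa using this
    have h3 := hzc _ hw'
    rw [← hg]
    calc g * ((z : N) : G) * g⁻¹ * w = g * (((z : N) : G) * (g⁻¹ * w * g)) * g⁻¹ := by group
      _ = g * ((g⁻¹ * w * g) * ((z : N) : G)) * g⁻¹ := by rw [h3]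
      _ = w * (g * ((z : N) : G) * g⁻¹) := by group

/-- `G`-translates of `N`-blocks are `N`-blocks. -/
lemma bt_translate (N : Subgroup G) [hNn : N.Normal] {B : Set X} (hB : IsBlock N B) (g : G) :
    IsBlock N (g • B) := by
  have h := IsBlock.of_subgroup_of_conjugate hB g
  have h2 : N.map (MulAut.conj g).toMonoidHom = N := by
    apply le_antisymm
    · rintro _ ⟨n, hn, rfl⟩
      exact hNn.conj_mem n hn g
    · intro n hn
      refine ⟨g⁻¹ * n * g, ?_, ?_⟩
      · have := hNn.conj_mem n hn g⁻¹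
        simpa using this
      · simp only [MulEquiv.coe_toMonoidHom, MulAut.conj_apply]
        group
  rwa [h2] at h

/-- The geometry of lines: an element of `N` fixing two points is trivial if `N` is imprimitive. -/
lemma bt_two_fix_trivial [Finite X] [FaithfulSMul G X] (h2 : IsMultiplyPretransitive G X 2)
    (N : Subgroup G) [hNn : N.Normal] (hNtr : IsPretransitive N X) (a₀ : X) {B : Set X}
    (hB : IsBlock N B) (ha₀ : a₀ ∈ B) (hns : ¬ B.Subsingleton) (hnu : B ≠ Set.univ) :
    ∀ n ∈ N, ∀ x y : X, x ≠ y → n • x = x → n • y = y → n = 1 := by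
  classical
  let 𝓑 : Set (Set X) := {D | IsBlock N D ∧ a₀ ∈ D ∧ ¬ D.Subsingleton ∧ D ≠ Set.univ}
  have h𝓑 : 𝓑.Nonempty := ⟨B, hB, ha₀, hns, hnu⟩
  obtain ⟨Δ, hΔ, hmin⟩ := Set.exists_min_image 𝓑 Set.ncard (Set.toFinite _) h𝓑
  obtain ⟨hΔb, hΔa, hΔs, hΔu⟩ := hΔ
  have hfinΔ : ∀ D : Set X, D.Finite := fun D => Set.toFinite D
  -- a second point on the base line
  obtain ⟨b₀, hb₀, hb₀a⟩ : ∃ b₀ ∈ Δ, b₀ ≠ a₀ := by
    by_contra hcon
    push Not at hcon
    exact hΔs fun u hu v hv => (hcon u hu).trans (hcon v hv).symm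
  have hcard : ∀ g : G, (g • Δ).ncard = Δ.ncard := fun g => Set.ncard_smul_set g Δ
  -- lines are blocks
  have hblock : ∀ g : G, IsBlock N (g • Δ) := fun g => bt_translate N hΔb g
  -- two lines through two points coincide
  have htwo_base : ∀ h : G, ∀ x y : X, x ≠ y → x ∈ Δ → y ∈ Δ → x ∈ h • Δ → y ∈ h • Δ →
      h • Δ = Δ := by
    intro h x y hxy hx hy hxh hyh
    set D := Δ ∩ h • Δ with hD
    have hDb : IsBlock N D := hΔb.inter (hblock h)
    obtain ⟨t, ht⟩ := exists_smul_eq N x a₀
    have hta : (t : G) • x = a₀ := ht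
    have htΔ : t • Δ = Δ := hΔb.smul_eq_of_mem hx (by rw [ht]; exact hΔa)
    have htD : t • D ⊆ Δ := by
      rintro _ ⟨z, hz, rfl⟩
      rw [← htΔ]
      exact Set.smul_mem_smul_set hz.1
    have hDmem : t • D ∈ 𝓑 := by
      refine ⟨IsBlock.translate t hDb, ?_, ?_, ?_⟩
      · exact ⟨x, ⟨hx, hxh⟩, ht⟩
      · intro hsub
        apply hxy
        have h1 : t • x = t • y := hsub (Set.smul_mem_smul_set ⟨hx, hxh⟩)
          (Set.smul_mem_smul_set ⟨hy, hyh⟩)
        exact smul_left_cancel t h1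
      · intro h1
        apply hΔu
        rw [Set.eq_univ_iff_forall]
        intro z
        apply htD
        rw [h1]
        trivial
    have h1 := hmin _ hDmem
    rw [Set.ncard_smul_set] at h1
    have h3 : D = Δ := Set.eq_of_subset_of_ncard_le Set.inter_subset_left h1 (hfinΔ _)
    have h4 : Δ ⊆ h • Δ := by
      intro z hz
      have hzD : z ∈ D := by rw [h3]; exact hz
      exact hzD.2
    exact (Set.eq_of_subset_of_ncard_le h4 (by rw [hcard]) (hfinΔ _)).symm
  have htwo : ∀ g h : G, ∀ x y : X, x ≠ y → x ∈ g • Δ → y ∈ g • Δ → x ∈ h • Δ → y ∈ h • Δ →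
      g • Δ = h • Δ := by
    intro g h x y hxy hxg hyg hxh hyh
    have h1 := htwo_base (g⁻¹ * h) (g⁻¹ • x) (g⁻¹ • y)
      (fun e => hxy (smul_left_cancel _ e)) (Set.mem_smul_set_iff_inv_smul_mem.mp hxg)
      (Set.mem_smul_set_iff_inv_smul_mem.mp hyg)
      (by
        rw [Set.mem_smul_set_iff_inv_smul_mem, mul_inv_rev, inv_inv, mul_smul, smul_inv_smul]
        exact Set.mem_smul_set_iff_inv_smul_mem.mp hxh)
      (by
        rw [Set.mem_smul_set_iff_inv_smul_mem, mul_inv_rev, inv_inv, mul_smul, smul_inv_smul]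
        exact Set.mem_smul_set_iff_inv_smul_mem.mp hyh)
    have h3 := congrArg (fun D => g • D) h1
    simp only [smul_smul, mul_inv_cancel_left] at h3
    exact h3.symm
  -- existence of lines
  have hline : ∀ x y : X, x ≠ y → ∃ g : G, x ∈ g • Δ ∧ y ∈ g • Δ := by
    intro x y hxy
    obtain ⟨g, h1, h3⟩ := is_two_pretransitive_iff.mp h2 hb₀a.symm hxy
    exact ⟨g, by rw [← h1]; exact Set.smul_mem_smul_set hΔa, by rw [← h3]; exact Set.smul_mem_smul_set hb₀⟩
  intro n hn x y hxy hnx hny
  -- lines through fixed points are invariant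
  have hinv : ∀ (g : G) (p : X), n • p = p → p ∈ g • Δ → ∀ z ∈ g • Δ, n • z ∈ g • Δ := by
    intro g p hp hpg z hz
    have h1 : (⟨n, hn⟩ : N) • (g • Δ) = g • Δ :=
      (hblock g).smul_eq_of_mem hpg (by rw [show (⟨n, hn⟩ : N) • p = p from hp]; exact hpg)
    rw [← h1]
    exact Set.smul_mem_smul_set hz
  have hstep : ∀ (p q : X), p ≠ q → n • p = p → n • q = q → ∀ g : G, p ∈ g • Δ → q ∈ g • Δ →
      ∀ z, z ∉ g • Δ → n • z = z := by
    intro p q hpq hnp hnq g hpg hqg z hz
    by_contra hnz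
    have hpz : p ≠ z := fun h => hz (h ▸ hpg)
    have hqz : q ≠ z := fun h => hz (h ▸ hqg)
    obtain ⟨g₁, h1p, h1z⟩ := hline p z hpz
    obtain ⟨g₂, h2q, h2z⟩ := hline q z hqz
    have h3 := hinv g₁ p hnp h1p z h1z
    have h4 := hinv g₂ q hnq h2q z h2z
    have h5 : g₁ • Δ = g₂ • Δ := htwo g₁ g₂ z (n • z) (Ne.symm hnz) h1z h3 h2z h4
    rw [← h5] at h2q
    have h6 : g • Δ = g₁ • Δ := htwo g g₁ p q hpq hpg hqg h1p h2q
    exact hz (by rw [h6]; exact h1z)
  obtain ⟨g₀, hx0, hy0⟩ := hline x y hxy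
  have hnotuniv : g₀ • Δ ≠ Set.univ := by
    intro h
    apply hΔu
    have h1 : Δ = g₀⁻¹ • (g₀ • Δ) := by simp
    rw [h1, h]
    simp
  obtain ⟨w, hw⟩ := (Set.ne_univ_iff_exists_notMem _).mp hnotuniv
  have hnw : n • w = w := hstep x y hxy hnx hny g₀ hx0 hy0 w hw
  have hxw : x ≠ w := fun h => hw (h ▸ hx0)
  obtain ⟨g₃, hx3, hw3⟩ := hline x w hxw
  apply FaithfulSMul.eq_of_smul_eq_smul (α := X)
  intro z
  rw [one_smul]
  by_cases hz : z ∈ g₀ • Δ
  · by_cases hzx : z = x
    · rw [hzx, hnx]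
    · apply hstep x w hxw hnx hnw g₃ hx3 hw3
      intro hz3
      have h1 : g₀ • Δ = g₃ • Δ := htwo g₀ g₃ x z (Ne.symm hzx) hx0 hz hx3 hz3
      exact hw (by rw [h1]; exact hw3)
  · exact hstep x y hxy hnx hny g₀ hx0 hy0 z hz

/-- A non-regular transitive normal subgroup in which only the identity fixes two points is a
Frobenius group, whose kernel contradicts minimality. -/
lemma bt_frobenius_contra [Finite X] [FaithfulSMul G X] (N : Subgroup G) [hNn : N.Normal]
    (hNtr : IsPretransitive N X)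
    (hmin : ∀ M : Subgroup G, M.Normal → M ≤ N → M = ⊥ ∨ M = N)
    (hfix2 : ∀ n ∈ N, ∀ x y : X, x ≠ y → n • x = x → n • y = y → n = 1) (a : X)
    (ha : stabilizer N a ≠ ⊥) : False := by
  classical
  have hfinG : Finite G := Finite.of_injective (MulAction.toPermHom G X)
    (fun x y h => FaithfulSMul.eq_of_smul_eq_smul (α := X) (fun z => by
      have := congrArg (fun f : Equiv.Perm X => f z) h
      exact this))
  set H' : Subgroup N := stabilizer N a with hH'
  have hmemH : ∀ u : N, u ∈ H' ↔ (u : G) • a = a := fun _ => Iff.rfl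
  have hex : ∃ u ∈ H', u ≠ 1 := by
    by_contra h
    push Not at h
    apply ha
    rw [eq_bot_iff]
    intro u hu
    rw [Subgroup.mem_bot]
    exact h u hu
  obtain ⟨n₀, hn₀, hn₀1⟩ := hex
  have hz : ∃ z : X, (n₀ : G) • z ≠ z := by
    by_contra h
    push Not at h
    apply hn₀1
    apply Subtype.ext
    apply FaithfulSMul.eq_of_smul_eq_smul (α := X)
    intro z
    rw [h z]
    simp
  obtain ⟨z, hz⟩ := hz
  have hza : z ≠ a := by
    rintro rfl
    exact hz hn₀
  have hFC : IsFrobeniusComplement H' := by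
    refine ⟨ha, ?_, ?_⟩
    · intro h
      obtain ⟨t, ht⟩ := exists_smul_eq N a z
      have : t ∈ H' := by rw [h]; trivial
      exact hza (ht.symm.trans this)
    · intro g hg
      rw [eq_bot_iff]
      rintro x ⟨hx1, hx2⟩
      rw [Subgroup.mem_bot]
      have hx3 := (Subgroup.mem_pointwise_smul_iff_inv_smul_mem).mp hx2
      have hx4 : (((MulAut.conj g)⁻¹ • x : N) : G) • a = a := hx3
      have h5 : (((MulAut.conj g)⁻¹ • x : N) : G) = (g : G)⁻¹ * x * g := by
        simp [MulAut.smul_def]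
      rw [h5] at hx4
      have hx5 : (x : G) • ((g : G) • a) = (g : G) • a := by
        simp only [mul_smul] at hx4
        rw [inv_smul_eq_iff] at hx4
        exact hx4
      have hga : (g : G) • a ≠ a := fun h => hg h
      apply Subtype.ext
      exact hfix2 x x.2 a _ (Ne.symm hga) hx1 hx5
  obtain ⟨K, hKset, hKn, hKc⟩ := Cfsg.Agent.S0035.result H' hFC
  have hKmem : ∀ u : N, u ∈ K ↔ u = 1 ∨ ∀ x : X, (u : G) • x ≠ x := by
    intro u
    have h1 : u ∈ K ↔ u ∈ frobeniusKernel H' := by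
      rw [← hKset]
      rfl
    rw [h1]
    constructor
    · rintro (h | h)
      · exact Or.inl h
      · right
        intro x hx
        obtain ⟨g, hg⟩ := exists_smul_eq N a x
        apply h g
        rw [Subgroup.mem_pointwise_smul_iff_inv_smul_mem]
        change (((MulAut.conj g)⁻¹ • u : N) : G) • a = a
        have h5 : (((MulAut.conj g)⁻¹ • u : N) : G) = (g : G)⁻¹ * u * g := by
          simp [MulAut.smul_def]
        have hg' : (g : G) • a = x := hg
        rw [h5, mul_smul, mul_smul, hg', hx, ← hg', inv_smul_smul]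
    · rintro (h | h)
      · exact Or.inl h
      · right
        intro g hg
        rw [Subgroup.mem_pointwise_smul_iff_inv_smul_mem] at hg
        have hx4 : (((MulAut.conj g)⁻¹ • u : N) : G) • a = a := hg
        have h5 : (((MulAut.conj g)⁻¹ • u : N) : G) = (g : G)⁻¹ * u * g := by
          simp [MulAut.smul_def]
        rw [h5] at hx4
        apply h ((g : G) • a)
        simp only [mul_smul] at hx4
        rw [inv_smul_eq_iff] at hx4
        exact hx4
  have hK'n : (K.map N.subtype).Normal := by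
    refine ⟨fun x hx g => ?_⟩
    obtain ⟨u, hu, rfl⟩ := hx
    have hm : g * (u : G) * g⁻¹ ∈ N := hNn.conj_mem _ u.2 g
    refine ⟨⟨_, hm⟩, ?_, rfl⟩
    rw [SetLike.mem_coe, hKmem]
    rcases (hKmem u).mp hu with h | h
    · left
      apply Subtype.ext
      simp [h]
    · right
      intro x hx
      apply h (g⁻¹ • x)
      change (g * (u : G) * g⁻¹) • x = x at hx
      calc (u : G) • g⁻¹ • x = g⁻¹ • ((g * (u : G) * g⁻¹) • x) := by simp [mul_smul]
        _ = g⁻¹ • x := by rw [hx]
  rcases hmin _ hK'n (Subgroup.map_subtype_le K) with h | h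
  · have hKb : K = ⊥ := (Subgroup.map_eq_bot_iff_of_injective K N.subtype_injective).mp h
    rw [hKb] at hKc
    have : H' = ⊤ := Subgroup.isComplement'_bot_left.mp hKc
    obtain ⟨t, ht⟩ := exists_smul_eq N a z
    have h3 : t ∈ H' := by rw [this]; trivial
    exact hza (ht.symm.trans h3)
  · have h3 : (n₀ : G) ∈ K.map N.subtype := by rw [h]; exact n₀.2
    obtain ⟨u, hu, hue⟩ := h3
    have hun : u = n₀ := Subtype.ext hue
    rw [hun] at hu
    rcases (hKmem n₀).mp hu with h4 | h4
    · exact hn₀1 h4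
    · exact h4 a hn₀

/-- A non-regular minimal normal subgroup of a doubly transitive group is primitive. -/
lemma bt_primitive [Finite X] [FaithfulSMul G X] (h2 : IsMultiplyPretransitive G X 2)
    (N : Subgroup G) [hNn : N.Normal] (hNtr : IsPretransitive N X)
    (hmin : ∀ M : Subgroup G, M.Normal → M ≤ N → M = ⊥ ∨ M = N) (a : X)
    (ha : stabilizer N a ≠ ⊥) : IsPreprimitive N X := by
  apply IsPreprimitive.of_isTrivialBlock_base a
  intro B haB hB
  by_contra hcon
  rw [IsTrivialBlock, not_or] at hcon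
  exact bt_frobenius_contra N hNtr hmin
    (bt_two_fix_trivial h2 N hNtr a hB haB hcon.1 hcon.2) a ha

/-- `T` is minimal among the non-trivial subgroups of `N` normalised by `N`. -/
structure BtMin (N T : Subgroup G) : Prop where
  le : T ≤ N
  ne : T ≠ ⊥
  norm : ∀ n ∈ N, ∀ t ∈ T, n * t * n⁻¹ ∈ T
  min : ∀ S : Subgroup G, S ≤ T → S ≠ ⊥ → (∀ n ∈ N, ∀ s ∈ S, n * s * n⁻¹ ∈ S) → S = T

/-- The conjugate of a subgroup. -/
def btConj (g : G) (T : Subgroup G) : Subgroup G := T.map (MulAut.conj g).toMonoidHom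

lemma mem_btConj {g x : G} {T : Subgroup G} : x ∈ btConj g T ↔ g⁻¹ * x * g ∈ T := by
  constructor
  · rintro ⟨t, ht, rfl⟩
    simp only [MulEquiv.coe_toMonoidHom, MulAut.conj_apply]
    have : g⁻¹ * (g * t * g⁻¹) * g = t := by group
    rwa [this]
  · intro h
    refine ⟨_, h, ?_⟩
    simp only [MulEquiv.coe_toMonoidHom, MulAut.conj_apply]
    group

lemma btConj_inj {g : G} {S T : Subgroup G} (h : btConj g S = btConj g T) : S = T := by
  ext x
  have h1 := SetLike.ext_iff.mp h (g * x * g⁻¹)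
  simp only [mem_btConj] at h1
  have h2 : g⁻¹ * (g * x * g⁻¹) * g = x := by group
  rwa [h2] at h1

lemma BtMin.conj {N T : Subgroup G} [hNn : N.Normal] (h : BtMin N T) (g : G) :
    BtMin N (btConj g T) := by
  have hg : ∀ n ∈ N, g⁻¹ * n * g ∈ N := by
    intro n hn
    have := hNn.conj_mem n hn g⁻¹
    simpa using this
  have hg' : ∀ n ∈ N, g * n * g⁻¹ ∈ N := fun n hn => hNn.conj_mem n hn g
  refine ⟨?_, ?_, ?_, ?_⟩
  · intro x hx
    have h1 := h.le (mem_btConj.mp hx)
    have h2 := hg' _ h1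
    have h3 : g * (g⁻¹ * x * g) * g⁻¹ = x := by group
    rwa [h3] at h2
  · intro h1
    apply h.ne
    rw [eq_bot_iff]
    intro t ht
    rw [Subgroup.mem_bot]
    have h2 : g * t * g⁻¹ ∈ btConj g T := by
      rw [mem_btConj]
      have : g⁻¹ * (g * t * g⁻¹) * g = t := by group
      rwa [this]
    rw [h1, Subgroup.mem_bot] at h2
    have h3 : t = g⁻¹ * (g * t * g⁻¹) * g := by group
    rw [h3, h2]
    group
  · intro n hn x hx
    rw [mem_btConj] at hx ⊢
    have h1 := h.norm _ (hg n hn) _ hx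
    have h2 : g⁻¹ * (n * x * n⁻¹) * g =
        g⁻¹ * n * g * (g⁻¹ * x * g) * (g⁻¹ * n * g)⁻¹ := by group
    rwa [h2]
  · intro S hS hS0 hSn
    have h1 : btConj g⁻¹ S = T := by
      apply h.min
      · intro x hx
        rw [mem_btConj] at hx
        have h2 := hS hx
        rw [mem_btConj] at h2
        have h3 : g⁻¹ * (g⁻¹⁻¹ * x * g⁻¹) * g = x := by group
        rwa [h3] at h2
      · intro h2
        apply hS0
        rw [eq_bot_iff]
        intro s hs
        rw [Subgroup.mem_bot]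
        have h3 : g⁻¹ * s * g ∈ btConj g⁻¹ S := by
          rw [mem_btConj]
          have : g⁻¹⁻¹ * (g⁻¹ * s * g) * g⁻¹ = s := by group
          rwa [this]
        rw [h2, Subgroup.mem_bot] at h3
        have h4 : s = g * (g⁻¹ * s * g) * g⁻¹ := by group
        rw [h4, h3]
        group
      · intro n hn x hx
        rw [mem_btConj] at hx ⊢
        have h2 := hSn _ (hg' n hn) _ hx
        have h3 : g⁻¹⁻¹ * (n * x * n⁻¹) * g⁻¹ =
            g * n * g⁻¹ * (g⁻¹⁻¹ * x * g⁻¹) * (g * n * g⁻¹)⁻¹ := by group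
        rwa [h3]
    rw [← h1]
    ext x
    rw [mem_btConj, mem_btConj]
    have h3 : g⁻¹⁻¹ * (g⁻¹ * x * g) * g⁻¹ = x := by group
    rw [h3]

/-- Distinct minimal subgroups intersect trivially. -/
lemma bt_inf {N S S' : Subgroup G} (hS : BtMin N S) (hS' : BtMin N S') (hne : S ≠ S') :
    S ⊓ S' = ⊥ := by
  by_contra h
  have h1 : S ⊓ S' = S := hS.min _ inf_le_left h (fun n hn s hs =>
    ⟨hS.norm n hn s hs.1, hS'.norm n hn s hs.2⟩)
  have h2 : S ≤ S' := by
    rw [← h1]
    exact inf_le_right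
  exact hne (hS'.min S h2 hS.ne hS.norm)

/-- Distinct minimal subgroups commute. -/
lemma bt_commute {N S S' : Subgroup G} (hS : BtMin N S) (hS' : BtMin N S') (hne : S ≠ S') :
    ∀ x ∈ S, ∀ y ∈ S', x * y = y * x := by
  have hinter : S ⊓ S' = ⊥ := bt_inf hS hS' hne
  intro x hx y hy
  have h1 : x * y * x⁻¹ * y⁻¹ ∈ S ⊓ S' := by
    constructor
    · have h2 := hS.norm y (hS'.le hy) x⁻¹ (S.inv_mem hx)
      have h3 : x * y * x⁻¹ * y⁻¹ = x * (y * x⁻¹ * y⁻¹) := by group
      change x * y * x⁻¹ * y⁻¹ ∈ S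
      rw [h3]
      exact S.mul_mem hx h2
    · exact S'.mul_mem (hS'.norm x (hS.le hx) y hy) (S'.inv_mem hy)
  rw [hinter, Subgroup.mem_bot] at h1
  have h3 : x * y * x⁻¹ = y := by
    calc x * y * x⁻¹ = (x * y * x⁻¹ * y⁻¹) * y := by group
      _ = y := by rw [h1, one_mul]
  calc x * y = (x * y * x⁻¹) * x := by group
    _ = y * x := by rw [h3]

/-- Order is preserved by conjugation. -/
lemma bt_orderOf_conj (h u : G) : orderOf (h * u * h⁻¹) = orderOf u := by
  have := orderOf_injective (MulAut.conj h).toMonoidHom (MulEquiv.injective _) u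
  simpa using this

/-- The core of Burnside's theorem. -/
theorem bt_min_eq [Finite X] [FaithfulSMul G X] (h2 : IsMultiplyPretransitive G X 2)
    (N : Subgroup G) [hNn : N.Normal]
    (hmin : ∀ M : Subgroup G, M.Normal → M ≤ N → M = ⊥ ∨ M = N)
    (hTR : ∀ T' : Subgroup G, BtMin N T' → ∀ x y : X, ∃ t ∈ T', t • x = y)
    {T : Subgroup G} (hT : BtMin N T) (a : X) : T = N := by
  classical
  by_contra hTN
  have hfinG : Finite G := Finite.of_injective (MulAction.toPermHom G X)
    (fun x y h => FaithfulSMul.eq_of_smul_eq_smul (α := X) (fun z => by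
      have := congrArg (fun f : Equiv.Perm X => f z) h
      exact this))
  -- a different conjugate
  have hex : ∃ g : G, btConj g T ≠ T := by
    by_contra hcon
    push Not at hcon
    have hnorm : T.Normal := by
      refine ⟨fun t ht g => ?_⟩
      have h1 := hcon g
      rw [← h1, mem_btConj]
      have : g⁻¹ * (g * t * g⁻¹) * g = t := by group
      rwa [this]
    rcases hmin T hnorm hT.le with h1 | h1
    · exact hT.ne h1
    · exact hTN h1
  obtain ⟨g, hg⟩ := hex
  set T₂ := btConj g T with hT₂def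
  have hT₂ : BtMin N T₂ := hT.conj g
  have hne : T ≠ T₂ := fun h => hg h.symm
  have hcomm := bt_commute hT hT₂ hne
  -- an element centralising a transitive group and fixing a point is trivial
  have hfree : ∀ S : Subgroup G, BtMin N S → ∀ c : G, (∀ s ∈ S, c * s = s * c) → ∀ x : X,
      c • x = x → c = 1 := by
    intro S hS c hc x hx
    apply FaithfulSMul.eq_of_smul_eq_smul (α := X)
    intro y
    obtain ⟨s, hs, hsy⟩ := hTR S hS x y
    rw [one_smul, ← hsy, ← mul_smul, hc s hs, mul_smul, hx]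
  have hreg1 : ∀ t ∈ T, ∀ x : X, t • x = x → t = 1 :=
    fun t ht x hx => hfree T₂ hT₂ t (fun s hs => hcomm t ht s hs) x hx
  have hreg2 : ∀ t ∈ T₂, ∀ x : X, t • x = x → t = 1 :=
    fun t ht x hx => hfree T hT t (fun s hs => (hcomm s hs t ht).symm) x hx
  have huniq : ∀ S : Subgroup G, (∀ t ∈ S, ∀ x : X, t • x = x → t = 1) → ∀ u ∈ S, ∀ u' ∈ S,
      u • a = u' • a → u = u' := by
    intro S hS u hu u' hu' he
    have h1 := hS (u'⁻¹ * u) (S.mul_mem (S.inv_mem hu') hu) a (by rw [mul_smul, he, inv_smul_smul])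
    exact (inv_mul_eq_one.mp h1).symm
  -- the conjugates of `T` are `T` and `T₂`
  have hall : ∀ S : Subgroup G, BtMin N S → S ≠ T → S = T₂ := by
    intro S hS hST
    have hSc := bt_commute hS hT hST
    have hle : S ≤ T₂ := by
      intro u hu
      obtain ⟨v, hv, hva⟩ := hTR T₂ hT₂ a (u • a)
      have h1 : v⁻¹ * u = 1 := by
        apply hfree T hT _ _ a
        · rw [mul_smul, ← hva, inv_smul_smul]
        · intro s hs
          have h3 := hSc u hu s hs
          have h4 := hcomm s hs v hv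
          calc v⁻¹ * u * s = v⁻¹ * (u * s) := by group
            _ = v⁻¹ * (s * u) := by rw [h3]
            _ = (v⁻¹ * s) * u := by group
            _ = (s * v⁻¹) * u := by
              congr 1
              have : s * v * v⁻¹ = v * s * v⁻¹ := by rw [h4]
              calc v⁻¹ * s = v⁻¹ * (s * v * v⁻¹) := by group
                _ = v⁻¹ * (v * s * v⁻¹) := by rw [this]
                _ = s * v⁻¹ := by group
            _ = s * (v⁻¹ * u) := by group
      have h3 : u = v := (inv_mul_eq_one.mp h1).symm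
      rw [h3]
      exact hv
    exact hT₂.min S hle hS.ne hS.norm
  have hconjcase : ∀ h : G, (btConj h T = T ∧ btConj h T₂ = T₂) ∨
      (btConj h T = T₂ ∧ btConj h T₂ = T) := by
    intro h
    by_cases h1 : btConj h T = T
    · left
      refine ⟨h1, ?_⟩
      by_contra h3
      have h4 : btConj h T₂ = T := by
        by_contra h5
        exact h3 (hall _ (hT₂.conj h) h5)
      exact hne (btConj_inj (h := h1.trans h4.symm))
    · right
      have h3 := hall _ (hT.conj h) h1
      refine ⟨h3, ?_⟩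
      by_contra h4
      have h5 := hall _ (hT₂.conj h) h4
      exact hne (btConj_inj (g := h) (h3.trans h5.symm))
  -- conjugates of elements
  have hmem : ∀ (h : G) (S S' : Subgroup G), btConj h S = S' → ∀ u ∈ S, h * u * h⁻¹ ∈ S' := by
    rintro h S S' rfl u hu
    rw [mem_btConj]
    have : h⁻¹ * (h * u * h⁻¹) * h = u := by group
    rwa [this]
  -- comparing orders
  have hcmp : ∀ u ∈ T, ∀ v ∈ T₂, v • a = u • a → u ≠ 1 → ∀ u' ∈ T, ∀ v' ∈ T₂, v' • a = u' • a →
      u' ≠ 1 → (orderOf u' = orderOf u ∧ orderOf v' = orderOf v) ∨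
        (orderOf u' = orderOf v ∧ orderOf v' = orderOf u) := by
    intro u hu v hv hva hu1 u' hu' v' hv' hva' hu'1
    have hne1 : a ≠ u • a := fun h => hu1 (hreg1 u hu a h.symm)
    have hne2 : a ≠ u' • a := fun h => hu'1 (hreg1 u' hu' a h.symm)
    obtain ⟨h, ha, hua⟩ := is_two_pretransitive_iff.mp h2 hne1 hne2
    have hinva : h⁻¹ • a = a := by rw [inv_smul_eq_iff, ha]
    have hcu : (h * u * h⁻¹) • a = u' • a := by
      rw [mul_smul, mul_smul, hinva, hua]
    have hcv : (h * v * h⁻¹) • a = u' • a := by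
      rw [mul_smul, mul_smul, hinva, hva, hua]
    rcases hconjcase h with ⟨h1, h3⟩ | ⟨h1, h3⟩
    · left
      have h4 := huniq T hreg1 _ (hmem h T T h1 u hu) u' hu' hcu
      have h5 := huniq T₂ hreg2 _ (hmem h T₂ T₂ h3 v hv) v' hv' (hcv.trans hva'.symm)
      rw [← h4, ← h5, bt_orderOf_conj, bt_orderOf_conj]
      exact ⟨rfl, rfl⟩
    · right
      have h4 := huniq T hreg1 _ (hmem h T₂ T h3 v hv) u' hu' hcv
      have h5 := huniq T₂ hreg2 _ (hmem h T T₂ h1 u hu) v' hv' (hcu.trans hva'.symm)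
      rw [← h4, ← h5, bt_orderOf_conj, bt_orderOf_conj]
      exact ⟨rfl, rfl⟩
  have hnt : Nontrivial T := (Subgroup.nontrivial_iff_ne_bot T).mpr hT.ne
  obtain ⟨p, hp, hpT⟩ := Nat.exists_prime_and_dvd (Finite.one_lt_card (α := T)).ne'
  haveI hpF : Fact p.Prime := ⟨hp⟩
  -- `T` is not a `p`-group
  have hnotP : ¬ IsPGroup p T := by
    intro hP
    have hcnt := hP.center_nontrivial
    let Z : Subgroup G := (Subgroup.center T).map T.subtype
    have hZT : Z ≤ T := Subgroup.map_subtype_le _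
    have hZ0 : Z ≠ ⊥ := by
      intro h
      have h1 : Subgroup.center T = ⊥ :=
        (Subgroup.map_eq_bot_iff_of_injective _ T.subtype_injective).mp h
      rw [h1] at hcnt
      exact not_nontrivial _ hcnt
    have hZn : ∀ n ∈ N, ∀ z ∈ Z, n * z * n⁻¹ ∈ Z := by
      rintro n hn _ ⟨z, hz, rfl⟩
      have hm : n * (z : G) * n⁻¹ ∈ T := hT.norm n hn _ z.2
      refine ⟨⟨_, hm⟩, ?_, rfl⟩
      rw [SetLike.mem_coe, Subgroup.mem_center_iff]
      intro w
      apply Subtype.ext
      simp only [Subgroup.coe_mul]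
      have hw : n⁻¹ * (w : G) * n ∈ T := by
        have := hT.norm n⁻¹ (N.inv_mem hn) _ w.2
        simpa using this
      have h3 := Subgroup.mem_center_iff.mp hz ⟨_, hw⟩
      have h4 : (n⁻¹ * (w : G) * n) * z = z * (n⁻¹ * w * n) := congrArg Subtype.val h3
      calc (w : G) * (n * z * n⁻¹) = n * ((n⁻¹ * w * n) * z) * n⁻¹ := by group
        _ = n * (z * (n⁻¹ * w * n)) * n⁻¹ := by rw [h4]
        _ = n * z * n⁻¹ * w := by group
    have hZeq := hT.min Z hZT hZ0 hZn
    have hTc : ∀ x ∈ T, ∀ y ∈ T, x * y = y * x := by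
      intro x hx y hy
      have hx' : x ∈ Z := by rw [hZeq]; exact hx
      obtain ⟨z, hz, rfl⟩ := hx'
      have h3 := Subgroup.mem_center_iff.mp hz ⟨y, hy⟩
      exact (congrArg Subtype.val h3).symm
    obtain ⟨t, ht⟩ := exists_ne (1 : T)
    obtain ⟨v, hv, hva⟩ := hTR T₂ hT₂ a ((t : G) • a)
    have h1 : v⁻¹ * t = 1 := by
      apply hfree T hT _ _ a
      · rw [mul_smul, ← hva, inv_smul_smul]
      · intro s hs
        have h3 := hTc t t.2 s hs
        have h4 := hcomm s hs v hv
        calc v⁻¹ * t * s = v⁻¹ * (s * t) := by rw [mul_assoc, h3]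
          _ = (v⁻¹ * s) * t := by group
          _ = (s * v⁻¹) * t := by
            congr 1
            have : s * v * v⁻¹ = v * s * v⁻¹ := by rw [h4]
            calc v⁻¹ * s = v⁻¹ * (s * v * v⁻¹) := by group
              _ = v⁻¹ * (v * s * v⁻¹) := by rw [this]
              _ = s * v⁻¹ := by group
          _ = s * (v⁻¹ * t) := by group
    have h3 : (t : G) = v := (inv_mul_eq_one.mp h1).symm
    have h4 : (t : G) ∈ T ⊓ T₂ := ⟨t.2, by rw [h3]; exact hv⟩
    rw [bt_inf hT hT₂ hne, Subgroup.mem_bot] at h4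
    exact ht (Subtype.ext h4)
  have hq : ∃ q : ℕ, q.Prime ∧ q ∣ Nat.card T ∧ q ≠ p := by
    by_contra hcon
    push Not at hcon
    apply hnotP
    exact IsPGroup.of_card
      (Nat.eq_prime_pow_of_unique_prime_dvd Nat.card_pos.ne' (fun {d} hd hd2 => hcon d hd hd2))
  obtain ⟨q, hqp, hqT, hqne⟩ := hq
  haveI hqF : Fact q.Prime := ⟨hqp⟩
  obtain ⟨x₀, hx₀⟩ := exists_prime_orderOf_dvd_card' (G := T) p hpT
  obtain ⟨y₀, hy₀⟩ := exists_prime_orderOf_dvd_card' (G := T) q hqT
  have hx₀' : orderOf (x₀ : G) = p := by rw [Subgroup.orderOf_coe]; exact hx₀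
  have hy₀' : orderOf (y₀ : G) = q := by rw [Subgroup.orderOf_coe]; exact hy₀
  have hne1 : ∀ (u : G) (r : ℕ), r.Prime → orderOf u = r → u ≠ 1 := by
    rintro u r hr hu rfl
    rw [orderOf_one] at hu
    exact hr.one_lt.ne hu
  have hpart : ∀ u : T, ∃ v : G, v ∈ T₂ ∧ v • a = (u : G) • a := fun u => hTR T₂ hT₂ a _
  choose v hv hva using hpart
  have hv0 : orderOf (v x₀) = q := by
    rcases hcmp x₀ x₀.2 (v x₀) (hv x₀) (hva x₀) (hne1 _ p hp hx₀') y₀ y₀.2 (v y₀) (hv y₀) (hva y₀)
      (hne1 _ q hqp hy₀') with ⟨h1, -⟩ | ⟨h1, -⟩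
    · rw [hx₀', hy₀'] at h1
      exact absurd h1 hqne
    · rw [← h1]
      exact hy₀'
  have hgen : ∀ u : T, (u : G) ≠ 1 → (orderOf (u : G) = p ∧ orderOf (v u) = q) ∨
      (orderOf (u : G) = q ∧ orderOf (v u) = p) := by
    intro u hu
    rcases hcmp x₀ x₀.2 (v x₀) (hv x₀) (hva x₀) (hne1 _ p hp hx₀') u u.2 (v u) (hv u) (hva u) hu
      with ⟨h1, h3⟩ | ⟨h1, h3⟩
    · left
      rw [hx₀'] at h1
      rw [hv0] at h3
      exact ⟨h1, h3⟩
    · right
      rw [hv0] at h1
      rw [hx₀'] at h3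
      exact ⟨h1, h3⟩
  let φ : T → T := fun u => ⟨g⁻¹ * v u * g, mem_btConj.mp (hv u)⟩
  have hφord : ∀ u : T, orderOf (φ u) = orderOf (v u) := by
    intro u
    rw [← Subgroup.orderOf_coe]
    change orderOf (g⁻¹ * v u * g) = _
    have := bt_orderOf_conj g⁻¹ (v u)
    simpa using this
  have hφinj : Function.Injective φ := by
    intro u u' h
    have h1 : g⁻¹ * v u * g = g⁻¹ * v u' * g := congrArg Subtype.val h
    have h3 : v u = v u' := by
      have h4 : g * (g⁻¹ * v u * g) * g⁻¹ = g * (g⁻¹ * v u' * g) * g⁻¹ := by rw [h1]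
      have e1 : ∀ w : G, g * (g⁻¹ * w * g) * g⁻¹ = w := fun w => by group
      rwa [e1, e1] at h4
    apply Subtype.ext
    apply huniq T hreg1 _ u.2 _ u'.2
    rw [← hva, ← hva, h3]
  have hφ1 : φ 1 = 1 := by
    apply Subtype.ext
    have h1 : v 1 = 1 := by
      apply hreg2 _ (hv 1) a
      rw [hva]
      simp
    change g⁻¹ * v 1 * g = 1
    rw [h1]
    group
  have hinR : ∀ (x : T) (r : ℕ), r.Prime → orderOf x = r → x ∈ toR T r := by
    intro x r hr hx
    refine ⟨?_, 1, ?_⟩
    · rintro rfl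
      rw [orderOf_one] at hx
      exact hr.one_lt.ne hx
    · rw [pow_one, ← hx]
      exact pow_orderOf_eq_one x
  have hnotR : ∀ (x : T) (r s : ℕ), r.Prime → s.Prime → r ≠ s → orderOf x = r → x ∉ toR T s := by
    rintro x r s hr hs hrs hx ⟨-, k, hk⟩
    have h1 : orderOf x ∣ s ^ k := orderOf_dvd_of_pow_eq_one hk
    rw [hx] at h1
    exact hrs ((Nat.prime_dvd_prime_iff_eq hr hs).mp (hr.dvd_of_dvd_pow h1))
  have hc1 : ∀ u : T, u ≠ 1 → (orderOf u = p ∧ orderOf (φ u) = q) ∨
      (orderOf u = q ∧ orderOf (φ u) = p) := by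
    intro u hu
    have hu' : (u : G) ≠ 1 := fun h => hu (Subtype.ext h)
    rw [hφord, ← Subgroup.orderOf_coe]
    exact hgen u hu'
  have hcard := two_prime_contra (F := T) hp hqp hqne.symm (fun x hx => by
      rcases hc1 x hx with ⟨h1, -⟩ | ⟨h1, -⟩
      · exact Or.inl (hinR x p hp h1)
      · exact Or.inr (hinR x q hqp h1)) φ hφinj (fun x => by
      by_cases hx : x = 1
      · subst hx
        rw [hφ1]
        constructor
        · intro h
          exact absurd rfl h.1
        · intro h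
          exact absurd rfl h.1
      · rcases hc1 x hx with ⟨h1, h3⟩ | ⟨h1, h3⟩
        · exact ⟨fun _ => hinR _ q hqp h3, fun _ => hinR x p hp h1⟩
        · exact ⟨fun h => absurd h (hnotR x q p hqp hp hqne h1),
            fun h => absurd h (hnotR _ p q hp hqp hqne.symm h3)⟩)
  have := Finite.one_lt_card (α := T)
  omega

/-- **Burnside's theorem** on doubly transitive groups, abstract form. -/
theorem burnside_two_trans [Finite X] [FaithfulSMul G X] (h2 : IsMultiplyPretransitive G X 2)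
    (N : Subgroup G) [hNn : N.Normal] (hN : N ≠ ⊥)
    (hmin : ∀ M : Subgroup G, M.Normal → M ≤ N → M = ⊥ ∨ M = N) :
    (IsMulCommutative N ∧ (∃ p : ℕ, p.Prime ∧ ∀ n ∈ N, n ^ p = 1) ∧ ∀ a : X, stabilizer N a = ⊥) ∨
      (IsSimpleGroup N ∧ IsPreprimitive N X) := by
  classical
  have hfinG : Finite G := Finite.of_injective (MulAction.toPermHom G X)
    (fun x y h => FaithfulSMul.eq_of_smul_eq_smul (α := X) (fun z => by
      have := congrArg (fun f : Equiv.Perm X => f z) h
      exact this))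
  have hGprim : IsPreprimitive G X := isPreprimitive_of_is_two_pretransitive h2
  have hNtr : IsPretransitive N X := jn_normal_trans hGprim N hN
  have hne : Nonempty X := by
    by_contra hem
    rw [not_nonempty_iff] at hem
    apply hN
    rw [eq_bot_iff]
    intro n _
    rw [Subgroup.mem_bot]
    apply FaithfulSMul.eq_of_smul_eq_smul (α := X)
    intro z
    exact (hem.false z).elim
  obtain ⟨a⟩ := hne
  by_cases hreg : ∀ x : X, stabilizer N x = ⊥
  · left
    obtain ⟨h1, h3⟩ := bt_regular h2 N hreg hN a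
    exact ⟨h1, h3, hreg⟩
  · right
    push Not at hreg
    obtain ⟨b, hb⟩ := hreg
    have hprim : IsPreprimitive N X := bt_primitive h2 N hNtr hmin b hb
    refine ⟨?_, hprim⟩
    have hfaith : FaithfulSMul N X := ⟨fun {u w} h => Subtype.ext
      (FaithfulSMul.eq_of_smul_eq_smul (α := X) h)⟩
    have hTR : ∀ T' : Subgroup G, BtMin N T' → ∀ x y : X, ∃ t ∈ T', t • x = y := by
      intro T' hT' x y
      have hnorm : (T'.subgroupOf N).Normal := by
        refine ⟨fun t ht n => ?_⟩
        exact hT'.norm n n.2 t ht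
      have hne' : T'.subgroupOf N ≠ ⊥ := by
        intro h
        apply hT'.ne
        rw [eq_bot_iff]
        intro t ht
        have h3 : (⟨t, hT'.le ht⟩ : N) ∈ T'.subgroupOf N := ht
        rw [h, Subgroup.mem_bot] at h3
        rw [Subgroup.mem_bot]
        exact congrArg Subtype.val h3
      have htr := jn_normal_trans hprim (T'.subgroupOf N) hne'
      obtain ⟨t, ht⟩ := htr.exists_smul_eq x y
      exact ⟨_, t.2, ht⟩
    have hnt : Nontrivial N := (Subgroup.nontrivial_iff_ne_bot N).mpr hN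
    refine ⟨fun T₀ hT₀ => ?_⟩
    by_cases hT₀b : T₀ = ⊥
    · exact Or.inl hT₀b
    right
    obtain ⟨M, ⟨hMn, hM0, hMmin⟩, hMle⟩ :=
      Cfsg.Agent.Lib.Basic.exists_isMinNormal_le hT₀ hT₀b
    have hmap0 : M.map N.subtype ≠ ⊥ := by
      intro h
      exact hM0 ((Subgroup.map_eq_bot_iff_of_injective M N.subtype_injective).mp h)
    have hT : BtMin N (M.map N.subtype) := by
      refine ⟨Subgroup.map_subtype_le M, hmap0, ?_, ?_⟩
      · rintro n hn _ ⟨t, ht, rfl⟩
        exact ⟨_, hMn.conj_mem t ht ⟨n, hn⟩, rfl⟩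
      · intro S hS hS0 hSn
        have hSN : S ≤ N := hS.trans (Subgroup.map_subtype_le M)
        have hS' : S.subgroupOf N ≤ M := by
          intro s hs
          obtain ⟨t, ht, hte⟩ := hS hs
          have : t = s := Subtype.ext hte
          rwa [← this]
        have hS'n : (S.subgroupOf N).Normal := ⟨fun t ht n => hSn n n.2 t ht⟩
        rcases hMmin _ hS'n hS' with h | h
        · exfalso
          apply hS0
          rw [eq_bot_iff]
          intro s hs
          have h3 : (⟨s, hSN hs⟩ : N) ∈ S.subgroupOf N := hs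
          rw [h, Subgroup.mem_bot] at h3
          rw [Subgroup.mem_bot]
          exact congrArg Subtype.val h3
        · apply le_antisymm hS
          rintro _ ⟨t, ht, rfl⟩
          rw [← h] at ht
          exact ht
    have hTN := bt_min_eq h2 N hmin hTR hT a
    rw [eq_top_iff]
    intro u _
    apply hMle
    have h3 : (u : G) ∈ M.map N.subtype := by rw [hTN]; exact u.2
    obtain ⟨t, ht, hte⟩ := h3
    have : t = u := Subtype.ext hte
    rwa [← this]

end Main

end Cfsg.Agent.Lib.Perm
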