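import Cfsg.Agent.Lib.Char.Schur
import Cfsg.Agent.Lib.Char.PermChar
import Cfsg.Agent.Lib.Char.Invariants
import Cfsg.Agent.Lib.Perm.PermModule

/-!
Isotypic projectors and the centraliser ring of a permutation module.
-/

set_option autoImplicit false
set_option linter.unusedSectionVars false

namespace Cfsg.Agent.Lib.Perm

open Cfsg Module Cfsg.Agent.Lib.Char Cfsg.Agent.Perm.PermModule
open scoped ComplexConjugate

universe u v w

variable {G : Type u} [Group G] [Fintype G]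

theorem ctr_sum_comp {ι V W X : Type*} [AddCommGroup V] [Module ℂ V] [AddCommGroup W] [Module ℂ W]
    [AddCommGroup X] [Module ℂ X] (s : Finset ι) (f : ι → W →ₗ[ℂ] X) (T : V →ₗ[ℂ] W) :
    (∑ i ∈ s, f i) ∘ₗ T = ∑ i ∈ s, f i ∘ₗ T := by
  ext v
  simp [LinearMap.sum_apply]

theorem ctr_comp_sum {ι V W X : Type*} [AddCommGroup V] [Module ℂ V] [AddCommGroup W] [Module ℂ W]
    [AddCommGroup X] [Module ℂ X] (s : Finset ι) (f : ι → V →ₗ[ℂ] W) (T : W →ₗ[ℂ] X) :
    T ∘ₗ (∑ i ∈ s, f i) = ∑ i ∈ s, T ∘ₗ f i := by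
  ext v
  simp [LinearMap.sum_apply]

theorem ctr_class_symm {χ : G → ℂ} (hχ : IsClassFunction G χ) (x y : G) : χ (x * y) = χ (y * x) := by
  have := hχ (y * x) x
  rw [← this]
  congr 1
  group

/-- Convolution of irreducible characters. -/
theorem conv_irr {χ ψ : G → ℂ} (hχ : IsIrrCharacter G χ) (hψ : IsIrrCharacter G ψ) (x : G) :
    ∑ g, χ g * ψ (g⁻¹ * x) = if χ = ψ then (Nat.card G : ℂ) / χ 1 * χ x else 0 := by
  classical
  obtain ⟨n, σ, hσ, rfl⟩ := id hψ
  have hfc : IsClassFunction G (fun g => χ g⁻¹) := by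
    intro g h
    have h1 := IsCharacter.isClassFunction (IsIrrCharacter.isCharacter hχ) g⁻¹ h
    simp only [mul_inv_rev, inv_inv, mul_assoc]
    simpa [mul_assoc] using h1
  have hS := classSum_eq_smul_id σ (fun g => χ g⁻¹) hfc
  have hfr : (finrank ℂ (Fin n → ℂ) : ℂ) = σ.character 1 := by
    simp [Representation.character]
  have hinner : ∑ g, χ g⁻¹ * σ.character g = (Nat.card G : ℂ) * classInner σ.character χ := by
    rw [classInner_eq_sum_inv _ (IsIrrCharacter.isCharacter hχ)]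
    rw [← mul_assoc, mul_inv_cancel₀ (NeZero.ne _), one_mul]
    exact Finset.sum_congr rfl fun g _ => mul_comm _ _
  have h2 : ∑ g, χ g * σ.character (g⁻¹ * x) = ∑ g, χ g⁻¹ * σ.character (g * x) := by
    refine Fintype.sum_equiv (Equiv.inv G) _ _ fun g => ?_
    simp
  rw [h2]
  have h3 : ∑ g, χ g⁻¹ * σ.character (g * x) =
      LinearMap.trace ℂ _ ((∑ g, χ g⁻¹ • σ g) ∘ₗ σ x) := by
    rw [ctr_sum_comp, map_sum]
    refine Finset.sum_congr rfl fun g _ => ?_
    rw [LinearMap.smul_comp, map_smul, smul_eq_mul, Representation.character, map_mul]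
    rfl
  rw [h3, hS, LinearMap.smul_comp, LinearMap.id_comp, map_smul, smul_eq_mul, hinner, hfr]
  have hne : σ.character 1 ≠ 0 := IsIrrCharacter.apply_one_ne_zero hψ
  rw [classInner_irr hψ hχ]
  by_cases hc : χ = σ.character
  · subst hc
    rw [if_pos rfl, if_pos rfl]
    field_simp
    rfl
  · rw [if_neg (fun h => hc h.symm), if_neg hc]
    simp

section Proj

variable {V : Type v} [AddCommGroup V] [Module ℂ V]

/-- The isotypic projector. -/
noncomputable def isoProj (ρ : Representation ℂ G V) (χ : G → ℂ) : V →ₗ[ℂ] V :=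
  (χ 1 / (Nat.card G : ℂ)) • ∑ g, χ g⁻¹ • ρ g

theorem isoProj_comp_self (ρ : Representation ℂ G V) {χ ψ : G → ℂ} (hχ : IsIrrCharacter G χ)
    (hψ : IsIrrCharacter G ψ) :
    isoProj ρ χ ∘ₗ isoProj ρ ψ = if χ = ψ then isoProj ρ χ else 0 := by
  classical
  have hG : (Nat.card G : ℂ) ≠ 0 := NeZero.ne _
  have hψc := IsCharacter.isClassFunction (IsIrrCharacter.isCharacter hψ)
  have key : (∑ g, χ g⁻¹ • ρ g) ∘ₗ (∑ h, ψ h⁻¹ • ρ h) =
      ∑ x, (∑ g, χ g⁻¹ * ψ (x⁻¹ * g)) • ρ x := by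
    rw [ctr_sum_comp]
    simp only [ctr_comp_sum, LinearMap.smul_comp, LinearMap.comp_smul]
    have : ∀ g h : G, ρ g ∘ₗ ρ h = ρ (g * h) := fun g h => by
      rw [map_mul]; rfl
    simp only [this]
    have h2 : ∀ g : G, χ g⁻¹ • ∑ h, ψ h⁻¹ • ρ (g * h) = ∑ x, (χ g⁻¹ * ψ (x⁻¹ * g)) • ρ x := by
      intro g
      rw [Finset.smul_sum]
      refine Fintype.sum_equiv (Equiv.mulLeft g) _ _ fun h => ?_
      simp [smul_smul]
    simp only [h2, Finset.sum_smul]
    rw [Finset.sum_comm]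
  have key2 : ∀ x : G, ∑ g, χ g⁻¹ * ψ (x⁻¹ * g) = ∑ g, χ g * ψ (g⁻¹ * x⁻¹) := by
    intro x
    refine Fintype.sum_equiv (Equiv.inv G) _ _ fun g => ?_
    simp only [Equiv.inv_apply, inv_inv]
    rw [ctr_class_symm hψc]
  unfold isoProj
  rw [LinearMap.smul_comp, LinearMap.comp_smul, key]
  simp only [key2, conv_irr hχ hψ]
  by_cases hc : χ = ψ
  · subst hc
    simp only [if_true]
    rw [smul_smul]
    have hne := IsIrrCharacter.apply_one_ne_zero hχ
    rw [Finset.smul_sum]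
    conv_rhs => rw [Finset.smul_sum]
    refine Finset.sum_congr rfl fun x _ => ?_
    rw [smul_smul, smul_smul]
    congr 1
    field_simp
  · simp [if_neg hc]

theorem isoProj_comm (ρ : Representation ℂ G V) {χ : G → ℂ} (hχ : IsCharacter G χ) (x : G) :
    isoProj ρ χ ∘ₗ ρ x = ρ x ∘ₗ isoProj ρ χ := by
  have hfc : IsClassFunction G (fun g => χ g⁻¹) := by
    intro g h
    have h1 := IsCharacter.isClassFunction hχ g⁻¹ h
    simp only [mul_inv_rev, inv_inv, mul_assoc]
    simpa [mul_assoc] using h1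
  unfold isoProj
  rw [LinearMap.smul_comp, LinearMap.comp_smul, classSum_comm ρ _ hfc x]

theorem sum_isoProj (ρ : Representation ℂ G V) :
    ∑ χ : IrrCharacter G, isoProj ρ (χ : G → ℂ) = LinearMap.id := by
  classical
  have hG : (Nat.card G : ℂ) ≠ 0 := NeZero.ne _
  unfold isoProj
  have h1 : ∑ χ : IrrCharacter G, ((χ : G → ℂ) 1 / (Nat.card G : ℂ)) • ∑ g, (χ : G → ℂ) g⁻¹ • ρ g =
      ∑ g, ((Nat.card G : ℂ)⁻¹ * ∑ χ : IrrCharacter G, (χ : G → ℂ) 1 * (χ : G → ℂ) g⁻¹) • ρ g := by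
    simp only [Finset.smul_sum, smul_smul]
    rw [Finset.sum_comm]
    refine Finset.sum_congr rfl fun g _ => ?_
    rw [Finset.mul_sum, Finset.sum_smul]
    refine Finset.sum_congr rfl fun χ _ => ?_
    congr 1
    field_simp
  rw [h1]
  simp only [sum_irr_degree_mul_apply]
  rw [Finset.sum_eq_single 1]
  · simp [hG]
    rfl
  · intro g _ hg
    rw [if_neg (by simpa using hg)]
    simp
  · simp

variable [FiniteDimensional ℂ V]

theorem trace_isoProj (ρ : Representation ℂ G V) {χ : G → ℂ} (hχ : IsCharacter G χ) :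
    LinearMap.trace ℂ V (isoProj ρ χ) = χ 1 * classInner ρ.character χ := by
  unfold isoProj
  rw [map_smul, map_sum, classInner_eq_sum_inv _ hχ, smul_eq_mul, div_eq_mul_inv, mul_assoc]
  congr 2
  refine Finset.sum_congr rfl fun g _ => ?_
  rw [map_smul, smul_eq_mul, mul_comm]
  rfl

/-- A projector with zero trace is zero. -/
theorem eq_zero_of_idem_trace {T : V →ₗ[ℂ] V} (h : T ∘ₗ T = T) (ht : LinearMap.trace ℂ V T = 0) :
    T = 0 := by
  classical
  have hid : IsIdempotentElem T := h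
  have hp := LinearMap.IsIdempotentElem.isProj_range T hid
  have hr := hp.trace
  rw [ht] at hr
  have h0 : finrank ℂ (LinearMap.range T) = 0 := by exact_mod_cast hr.symm
  have h1 : LinearMap.range T = ⊥ := Submodule.finrank_eq_zero.mp h0
  exact LinearMap.range_eq_bot.mp h1

end Proj

section Hom

variable {V : Type v} [AddCommGroup V] [Module ℂ V] [FiniteDimensional ℂ V]
  {W : Type w} [AddCommGroup W] [Module ℂ W] [FiniteDimensional ℂ W]

theorem finrank_hom_eq (σ : Representation ℂ G W) (ρ : Representation ℂ G V) :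
    (finrank ℂ (σ.linHom ρ).invariants : ℂ) = classInner ρ.character σ.character := by
  rw [← classInner_one_eq_finrank]
  rw [classInner_eq_sum_inv _ (isCharacter_character σ)]
  simp only [classInner, map_one, mul_one]
  congr 1
  refine Finset.sum_congr rfl fun g _ => ?_
  rw [Representation.char_linHom, mul_comm]

theorem mem_linHom_invariants (σ : Representation ℂ G W) (ρ : Representation ℂ G V)
    (φ : W →ₗ[ℂ] V) : φ ∈ (σ.linHom ρ).invariants ↔ ∀ g, φ ∘ₗ σ g = ρ g ∘ₗ φ := by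
  constructor
  · intro h g
    have := h g
    rw [Representation.linHom_apply] at this
    conv_lhs => rw [← this]
    ext v
    simp only [LinearMap.comp_apply]
    have h3 : ∀ u : W, σ g⁻¹ (σ g u) = u := fun u => by
      rw [← Module.End.mul_apply, ← map_mul]; simp
    rw [h3]
  · intro h g
    rw [Representation.linHom_apply]
    ext v
    simp only [LinearMap.comp_apply]
    have := congrArg (fun f => f (σ g⁻¹ v)) (h g)
    simp only [LinearMap.comp_apply] at this
    rw [← this]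
    have h3 : ∀ u : W, σ g (σ g⁻¹ u) = u := fun u => by
      rw [← Module.End.mul_apply, ← map_mul]; simp
    rw [h3]

/-- Equivariant retraction of an injective equivariant map. -/
theorem exists_equivariant_retraction (σ : Representation ℂ G W) (ρ : Representation ℂ G V)
    (φ : W →ₗ[ℂ] V) (hφ : ∀ g, φ ∘ₗ σ g = ρ g ∘ₗ φ) (hinj : Function.Injective φ) :
    ∃ r : V →ₗ[ℂ] W, (∀ g, r ∘ₗ ρ g = σ g ∘ₗ r) ∧ r ∘ₗ φ = LinearMap.id := by
  classical
  obtain ⟨r₀, hr₀⟩ := LinearMap.exists_leftInverse_of_injective φ (LinearMap.ker_eq_bot.mpr hinj)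
  have hG : (Nat.card G : ℂ) ≠ 0 := NeZero.ne _
  have hσ : ∀ g h : G, ∀ u : W, σ g (σ h u) = σ (g * h) u := fun g h u => by
    rw [map_mul]; rfl
  have hρ : ∀ g h : G, ∀ u : V, ρ g (ρ h u) = ρ (g * h) u := fun g h u => by
    rw [map_mul]; rfl
  refine ⟨(Nat.card G : ℂ)⁻¹ • ∑ g, σ g ∘ₗ r₀ ∘ₗ ρ g⁻¹, ?_, ?_⟩
  · intro x
    ext v
    simp only [LinearMap.comp_apply, LinearMap.smul_apply, LinearMap.sum_apply, map_smul, map_sum]
    congr 1
    refine Fintype.sum_equiv (Equiv.mulLeft x⁻¹) _ _ fun g => ?_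
    simp only [Equiv.coe_mulLeft, mul_inv_rev, inv_inv, hσ, hρ, mul_inv_cancel_left]
  · ext v
    simp only [LinearMap.comp_apply, LinearMap.smul_apply, LinearMap.sum_apply, LinearMap.id_apply]
    have : ∀ g : G, σ g (r₀ (ρ g⁻¹ (φ v))) = v := by
      intro g
      have h1 := congrArg (fun f => f v) (hφ g⁻¹)
      simp only [LinearMap.comp_apply] at h1
      rw [← h1]
      have h2 := congrArg (fun f => f (σ g⁻¹ v)) hr₀
      simp only [LinearMap.comp_apply, LinearMap.id_apply] at h2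
      rw [h2, hσ]
      simp
    simp only [this, Finset.sum_const, Finset.card_univ, Nat.card_eq_fintype_card]
    rw [← Nat.cast_smul_eq_nsmul ℂ, smul_smul]
    have : (Fintype.card G : ℂ) ≠ 0 := by exact_mod_cast Fintype.card_ne_zero
    rw [inv_mul_cancel₀ this, one_smul]

/-- Injectivity of a nonzero map from an irreducible representation. -/
theorem injective_of_irr (σ : Representation ℂ G W) [hσ : σ.IsIrreducible] (ρ : Representation ℂ G V)
    (φ : W →ₗ[ℂ] V) (hφ : ∀ g, φ ∘ₗ σ g = ρ g ∘ₗ φ) (h0 : φ ≠ 0) : Function.Injective φ := by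
  classical
  let K : Subrepresentation σ :=
    { toSubmodule := LinearMap.ker φ
      apply_mem_toSubmodule := by
        intro g w hw
        have h1 := congrArg (fun f => f w) (hφ g)
        simp only [LinearMap.comp_apply] at h1
        rw [LinearMap.mem_ker] at hw ⊢
        rw [h1, hw, map_zero] }
  have hsimple : IsSimpleOrder (Subrepresentation σ) := hσ
  rcases hsimple.eq_bot_or_eq_top K with hK | hK
  · have : LinearMap.ker φ = ⊥ := by
      rw [eq_bot_iff]
      intro v hv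
      have hv2 : v ∈ K := hv
      rw [hK] at hv2
      exact hv2
    exact LinearMap.ker_eq_bot.mp this
  · exfalso
    apply h0
    ext v
    have hv : v ∈ K := by rw [hK]; trivial
    exact hv

/-- Two independent embeddings give non-commuting operators. -/
theorem classInner_le_one_of_comm (σ : Representation ℂ G W) [hσ : σ.IsIrreducible]
    (ρ : Representation ℂ G V)
    (hcomm : ∀ S T : V →ₗ[ℂ] V, (∀ g, S ∘ₗ ρ g = ρ g ∘ₗ S) → (∀ g, T ∘ₗ ρ g = ρ g ∘ₗ T) →
      S ∘ₗ T = T ∘ₗ S) :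
    finrank ℂ (σ.linHom ρ).invariants ≤ 1 := by
  classical
  by_contra hlt
  push Not at hlt
  have hfin : (1 : ℕ) < finrank ℂ (σ.linHom ρ).invariants := hlt
  obtain ⟨φ₁', hφ₁'⟩ : ∃ φ : (σ.linHom ρ).invariants, φ ≠ 0 := by
    have : Nontrivial (σ.linHom ρ).invariants :=
      Module.nontrivial_of_finrank_pos (R := ℂ) (by omega)
    exact exists_ne 0
  have hspan : Submodule.span ℂ {φ₁'} ≠ ⊤ := by
    intro h
    have := finrank_span_singleton (K := ℂ) hφ₁'
    rw [h, finrank_top] at this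
    omega
  obtain ⟨φ₂', hφ₂'⟩ : ∃ φ : (σ.linHom ρ).invariants, φ ∉ Submodule.span ℂ {φ₁'} := by
    by_contra hh
    push Not at hh
    exact hspan (eq_top_iff.mpr fun x _ => hh x)
  set φ₁ : W →ₗ[ℂ] V := φ₁'.1 with hφ₁def
  set φ₂ : W →ₗ[ℂ] V := φ₂'.1 with hφ₂def
  have he₁ : ∀ g, φ₁ ∘ₗ σ g = ρ g ∘ₗ φ₁ := (mem_linHom_invariants σ ρ _).mp φ₁'.2
  have he₂ : ∀ g, φ₂ ∘ₗ σ g = ρ g ∘ₗ φ₂ := (mem_linHom_invariants σ ρ _).mp φ₂'.2
  have hne : φ₁ ≠ 0 := fun h => hφ₁' (Subtype.ext h)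
  obtain ⟨r, hr, hrφ⟩ := exists_equivariant_retraction σ ρ φ₁ he₁ (injective_of_irr σ ρ φ₁ he₁ hne)
  obtain ⟨c, hc⟩ := schur_scalar σ (r ∘ₗ φ₂) (fun g => by
    rw [LinearMap.comp_assoc, he₂, ← LinearMap.comp_assoc, hr, LinearMap.comp_assoc])
  have h := hcomm (φ₁ ∘ₗ r) (φ₂ ∘ₗ r)
    (fun g => by rw [LinearMap.comp_assoc, hr, ← LinearMap.comp_assoc, he₁, LinearMap.comp_assoc])
    (fun g => by rw [LinearMap.comp_assoc, hr, ← LinearMap.comp_assoc, he₂, LinearMap.comp_assoc])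
  have h1 : (φ₁ ∘ₗ r) ∘ₗ (φ₂ ∘ₗ r) ∘ₗ φ₁ = (φ₂ ∘ₗ r) ∘ₗ (φ₁ ∘ₗ r) ∘ₗ φ₁ := by
    rw [← LinearMap.comp_assoc, h, LinearMap.comp_assoc]
  have h2 : φ₂ = c • φ₁ := by
    have e1 : (φ₁ ∘ₗ r) ∘ₗ φ₁ = φ₁ := by rw [LinearMap.comp_assoc, hrφ, LinearMap.comp_id]
    have e2 : (φ₂ ∘ₗ r) ∘ₗ φ₁ = φ₂ := by rw [LinearMap.comp_assoc, hrφ, LinearMap.comp_id]
    rw [e1, e2] at h1
    have e3 : (φ₁ ∘ₗ r) ∘ₗ φ₂ = c • φ₁ := by
      rw [LinearMap.comp_assoc, hc, LinearMap.comp_smul, LinearMap.comp_id]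
    rw [e3] at h1
    exact h1.symm
  apply hφ₂'
  rw [Submodule.mem_span_singleton]
  exact ⟨c, Subtype.ext (by simpa using h2.symm)⟩

end Hom


section PermMod

variable {Ω : Type w} [Fintype Ω] [MulAction G Ω]

theorem character_permRep (g : G) :
    (permRep ℂ G Ω).character g = (Nat.card (MulAction.fixedBy Ω g) : ℂ) := by
  classical
  rw [Representation.character, LinearMap.trace_eq_matrix_trace ℂ (Pi.basisFun ℂ Ω), Matrix.trace]
  simp only [Matrix.diag_apply, LinearMap.toMatrix_apply, Pi.basisFun_repr, Pi.basisFun_apply]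
  have h : ∀ x : Ω, (permRep ℂ G Ω g (Pi.single x 1)) x = if g • x = x then 1 else 0 := by
    intro x
    rw [Cfsg.Agent.Perm.PermModule.permRep_apply, Pi.single_apply]
    by_cases hx : g • x = x
    · rw [if_pos hx, if_pos]
      rw [inv_smul_eq_iff, hx]
    · rw [if_neg hx, if_neg]
      rw [inv_smul_eq_iff]
      exact fun h => hx h.symm
  simp only [h]
  rw [Finset.sum_boole, Nat.card_eq_fintype_card, Fintype.card_subtype]
  congr 2

theorem character_permRep' :
    (permRep ℂ G Ω).character = fun g : G => (Nat.card (MulAction.fixedBy Ω g) : ℂ) :=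
  funext character_permRep

/-- The permutation character. -/
noncomputable abbrev permCh (G : Type u) [Group G] (Ω : Type w) [MulAction G Ω] : G → ℂ :=
  fun g : G => (Nat.card (MulAction.fixedBy Ω g) : ℂ)

/-- The centraliser ring. -/
noncomputable abbrev ctrRing (G : Type u) [Group G] (Ω : Type w) [Fintype Ω] [MulAction G Ω] :
    Submodule ℂ ((Ω → ℂ) →ₗ[ℂ] (Ω → ℂ)) :=
  ((permRep ℂ G Ω).linHom (permRep ℂ G Ω)).invariants

theorem mem_ctrRing_iff (T : (Ω → ℂ) →ₗ[ℂ] (Ω → ℂ)) :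
    T ∈ ctrRing G Ω ↔ ∀ g, T ∘ₗ permRep ℂ G Ω g = permRep ℂ G Ω g ∘ₗ T :=
  mem_linHom_invariants _ _ _

theorem isoProj_mem_ctrRing {χ : G → ℂ} (hχ : IsCharacter G χ) :
    isoProj (permRep ℂ G Ω) χ ∈ ctrRing G Ω :=
  (mem_ctrRing_iff _).mpr (isoProj_comm _ hχ)

theorem isCharacter_permCh : IsCharacter G (permCh G Ω) := isCharacter_permChar

theorem isClass_permCh : IsClassFunction G (permCh G Ω) :=
  IsCharacter.isClassFunction isCharacter_permCh

theorem finrank_ctrRing :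
    (finrank ℂ (ctrRing G Ω) : ℂ) = classInner (permCh G Ω) (permCh G Ω) := by
  classical
  rw [classInner_permChar_self, Cfsg.Agent.Perm.PermModule.finrank_invariants_eq]

theorem comp_isoProj_comm {V : Type v} [AddCommGroup V] [Module ℂ V] (ρ : Representation ℂ G V)
    (T : V →ₗ[ℂ] V) (hT : ∀ g, T ∘ₗ ρ g = ρ g ∘ₗ T) (χ : G → ℂ) :
    T ∘ₗ isoProj ρ χ = isoProj ρ χ ∘ₗ T := by
  unfold isoProj
  rw [LinearMap.comp_smul, LinearMap.smul_comp, ctr_comp_sum, ctr_sum_comp]
  congr 1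
  refine Finset.sum_congr rfl fun g _ => ?_
  rw [LinearMap.comp_smul, LinearMap.smul_comp, hT]

theorem trace_isoProj_perm {χ : G → ℂ} (hχ : IsCharacter G χ) :
    LinearMap.trace ℂ _ (isoProj (permRep ℂ G Ω) χ) = χ 1 * classInner (permCh G Ω) χ := by
  rw [trace_isoProj _ hχ, character_permRep']

open Classical in
/-- The set of constituents. -/
noncomputable def constituents (G : Type u) [Group G] [Fintype G] (Ω : Type w) [MulAction G Ω] :
    Finset (IrrCharacter G) :=
  Finset.univ.filter fun ψ => classInner (permCh G Ω) (ψ : G → ℂ) ≠ 0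

theorem mem_constituents {ψ : IrrCharacter G} :
    ψ ∈ constituents G Ω ↔ classInner (permCh G Ω) (ψ : G → ℂ) ≠ 0 := by
  classical
  simp [constituents]

theorem isoProj_ne_zero {ψ : IrrCharacter G} (hψ : ψ ∈ constituents G Ω) :
    isoProj (permRep ℂ G Ω) (ψ : G → ℂ) ≠ 0 := by
  intro h0
  have h1 := trace_isoProj_perm (Ω := Ω) (IsIrrCharacter.isCharacter ψ.2)
  rw [h0, map_zero] at h1
  have h2 := mul_ne_zero (IsIrrCharacter.apply_one_ne_zero ψ.2) (mem_constituents.mp hψ)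
  exact h2 h1.symm

theorem isoProj_eq_zero_of_not {ψ : IrrCharacter G} (hψ : ψ ∉ constituents G Ω) :
    isoProj (permRep ℂ G Ω) (ψ : G → ℂ) = 0 := by
  have h1 := trace_isoProj_perm (Ω := Ω) (IsIrrCharacter.isCharacter ψ.2)
  have h2 : classInner (permCh G Ω) (ψ : G → ℂ) = 0 := by
    by_contra h
    exact hψ (mem_constituents.mpr h)
  rw [h2, mul_zero] at h1
  refine eq_zero_of_idem_trace ?_ h1
  have := isoProj_comp_self (permRep ℂ G Ω) ψ.2 ψ.2
  rwa [if_pos rfl] at this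

/-- In the multiplicity-free case the projectors span the centraliser ring. -/
theorem exists_eq_sum_isoProj
    (hm : ∀ χ : G → ℂ, IsIrrCharacter G χ →
      classInner (permCh G Ω) χ = 0 ∨ classInner (permCh G Ω) χ = 1)
    {T : (Ω → ℂ) →ₗ[ℂ] (Ω → ℂ)} (hT : T ∈ ctrRing G Ω) :
    ∃ c : IrrCharacter G → ℂ, T = ∑ ψ ∈ constituents G Ω, c ψ • isoProj (permRep ℂ G Ω) (ψ : G → ℂ) := by
  classical
  let v : constituents G Ω → ((Ω → ℂ) →ₗ[ℂ] (Ω → ℂ)) := fun ψ =>
    isoProj (permRep ℂ G Ω) (ψ.1 : G → ℂ)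
  have hind : LinearIndependent ℂ v := by
    refine Fintype.linearIndependent_iff.mpr ?_
    intro c hc ψ
    have h1 := congrArg (fun S : (Ω → ℂ) →ₗ[ℂ] (Ω → ℂ) => S ∘ₗ isoProj (permRep ℂ G Ω) (ψ.1 : G → ℂ)) hc
    simp only [LinearMap.zero_comp, ctr_sum_comp, LinearMap.smul_comp, v] at h1
    rw [Finset.sum_eq_single ψ] at h1
    · rw [isoProj_comp_self _ ψ.1.2 ψ.1.2, if_pos rfl] at h1
      exact (smul_eq_zero.mp h1).resolve_right (isoProj_ne_zero ψ.2)
    · intro φ _ hφ
      rw [isoProj_comp_self _ φ.1.2 ψ.1.2, if_neg, smul_zero]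
      intro h
      exact hφ (Subtype.ext (Subtype.ext h))
    · simp
  have hcard : Fintype.card (constituents G Ω) = finrank ℂ (ctrRing G Ω) := by
    have h1 : (finrank ℂ (ctrRing G Ω) : ℂ) = ((constituents G Ω).card : ℂ) := by
      rw [finrank_ctrRing, classInner_eq_sum_coeffs _ _ isClass_permCh isClass_permCh]
      have : ∀ ψ : IrrCharacter G, classInner (permCh G Ω) (ψ : G → ℂ) *
          conj (classInner (permCh G Ω) (ψ : G → ℂ)) = if ψ ∈ constituents G Ω then 1 else 0 := by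
        intro ψ
        rcases hm ψ ψ.2 with h | h
        · rw [if_neg (fun h' => mem_constituents.mp h' h), h]
          simp
        · rw [if_pos (mem_constituents.mpr (by rw [h]; exact one_ne_zero)), h]
          simp
      simp only [this]
      rw [Finset.sum_boole]
      simp
    rw [Fintype.card_coe]
    exact_mod_cast h1.symm
  have hle : Submodule.span ℂ (Set.range v) ≤ ctrRing G Ω := by
    rw [Submodule.span_le]
    rintro _ ⟨ψ, rfl⟩
    exact isoProj_mem_ctrRing (IsIrrCharacter.isCharacter ψ.1.2)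
  have hfr : finrank ℂ (Submodule.span ℂ (Set.range v)) = finrank ℂ (ctrRing G Ω) := by
    rw [finrank_span_eq_card hind, hcard]
  have hspan := Submodule.eq_of_le_of_finrank_eq hle hfr
  have hmem : T ∈ Submodule.span ℂ (Set.range v) := by rw [hspan]; exact hT
  obtain ⟨c, hc⟩ := (Submodule.mem_span_range_iff_exists_fun ℂ).mp hmem
  refine ⟨fun ψ => if h : ψ ∈ constituents G Ω then c ⟨ψ, h⟩ else 0, ?_⟩
  rw [← hc, ← Finset.sum_coe_sort (constituents G Ω)]
  refine Finset.sum_congr rfl fun ψ _ => ?_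
  simp only [v, dif_pos ψ.2]

/-- Multiplicity-freeness is equivalent to commutativity of the centraliser ring. -/
theorem multFree_iff_comm :
    (∀ χ : G → ℂ, IsIrrCharacter G χ →
      classInner (permCh G Ω) χ = 0 ∨ classInner (permCh G Ω) χ = 1) ↔
    ∀ S T : (Ω → ℂ) →ₗ[ℂ] (Ω → ℂ), S ∈ ctrRing G Ω → T ∈ ctrRing G Ω → S ∘ₗ T = T ∘ₗ S := by
  classical
  constructor
  · intro hm S T hS hT
    obtain ⟨c, rfl⟩ := exists_eq_sum_isoProj hm hT
    rw [ctr_comp_sum, ctr_sum_comp]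
    refine Finset.sum_congr rfl fun ψ _ => ?_
    rw [LinearMap.comp_smul, LinearMap.smul_comp, comp_isoProj_comm _ _ ((mem_ctrRing_iff _).mp hS)]
  · intro hc χ hχ
    obtain ⟨n, σ, hσ, rfl⟩ := id hχ
    have h1 := classInner_le_one_of_comm σ (permRep ℂ G Ω)
      (fun S T hS hT => hc S T ((mem_ctrRing_iff _).mpr hS) ((mem_ctrRing_iff _).mpr hT))
    have h2 := finrank_hom_eq σ (permRep ℂ G Ω)
    rw [character_permRep'] at h2
    rw [← h2]
    interval_cases h : finrank ℂ ((σ.linHom (permRep ℂ G Ω)).invariants)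
    · left; simp
    · right; simp

/-- The standard bilinear form. -/
noncomputable def ctrDot (f h : Ω → ℂ) : ℂ := ∑ x, f x * h x

theorem ctrDot_add_left (f f' h : Ω → ℂ) : ctrDot (f + f') h = ctrDot f h + ctrDot f' h := by
  simp [ctrDot, add_mul, Finset.sum_add_distrib]

theorem ctrDot_add_right (f h h' : Ω → ℂ) : ctrDot f (h + h') = ctrDot f h + ctrDot f h' := by
  simp [ctrDot, mul_add, Finset.sum_add_distrib]

theorem ctrDot_smul_left (c : ℂ) (f h : Ω → ℂ) : ctrDot (c • f) h = c * ctrDot f h := by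
  simp [ctrDot, Finset.mul_sum, mul_assoc]

theorem ctrDot_smul_right (c : ℂ) (f h : Ω → ℂ) : ctrDot f (c • h) = c * ctrDot f h := by
  simp only [ctrDot, Finset.mul_sum, Pi.smul_apply, smul_eq_mul]
  exact Finset.sum_congr rfl fun x _ => by ring

theorem ctrDot_sum_left {ι : Type*} (s : Finset ι) (f : ι → Ω → ℂ) (h : Ω → ℂ) :
    ctrDot (∑ i ∈ s, f i) h = ∑ i ∈ s, ctrDot (f i) h := by
  classical
  induction s using Finset.induction_on with
  | empty => simp [ctrDot]
  | insert a s ha ih => rw [Finset.sum_insert ha, Finset.sum_insert ha, ctrDot_add_left, ih]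

theorem ctrDot_sum_right {ι : Type*} (s : Finset ι) (f : Ω → ℂ) (h : ι → Ω → ℂ) :
    ctrDot f (∑ i ∈ s, h i) = ∑ i ∈ s, ctrDot f (h i) := by
  classical
  induction s using Finset.induction_on with
  | empty => simp [ctrDot]
  | insert a s ha ih => rw [Finset.sum_insert ha, Finset.sum_insert ha, ctrDot_add_right, ih]

theorem ctrDot_permRep (g : G) (f h : Ω → ℂ) :
    ctrDot (permRep ℂ G Ω g f) h = ctrDot f (permRep ℂ G Ω g⁻¹ h) := by
  unfold ctrDot
  refine Fintype.sum_equiv (MulAction.toPerm g⁻¹) _ _ fun x => ?_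
  simp

theorem ctrDot_isoProj {χ : G → ℂ} (hχ : IsCharacter G χ) (f h : Ω → ℂ) :
    ctrDot (isoProj (permRep ℂ G Ω) χ f) h =
      ctrDot f (isoProj (permRep ℂ G Ω) (fun g => conj (χ g)) h) := by
  unfold isoProj
  simp only [LinearMap.smul_apply, LinearMap.sum_apply]
  rw [ctrDot_smul_left, ctrDot_smul_right, ctrDot_sum_left, ctrDot_sum_right]
  have h1 : conj (χ 1) = χ 1 := IsCharacter.conj_apply_one hχ
  rw [h1]
  congr 1
  refine Fintype.sum_equiv (Equiv.inv G) _ _ fun g => ?_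
  rw [ctrDot_smul_left, ctrDot_smul_right, ctrDot_permRep]
  simp only [Equiv.inv_apply, inv_inv]
  rw [IsCharacter.apply_inv hχ g]

theorem ctrDot_nondeg {h h' : Ω → ℂ} (H : ∀ f : Ω → ℂ, ctrDot f h = ctrDot f h') : h = h' := by
  classical
  funext x
  have := H (Pi.single x 1)
  simpa [ctrDot, Pi.single_apply] using this

/-- Dot-symmetric operator. -/
def DotSym (T : (Ω → ℂ) →ₗ[ℂ] (Ω → ℂ)) : Prop := ∀ f h, ctrDot (T f) h = ctrDot f (T h)

theorem dotSym_of_swap (hswap : ∀ a b : Ω, ∃ g : G, g • a = b ∧ g • b = a)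
    {T : (Ω → ℂ) →ₗ[ℂ] (Ω → ℂ)} (hT : T ∈ ctrRing G Ω) : DotSym T := by
  classical
  intro f h
  have hφ : ∀ x y : Ω, kernelOf T (x, y) = kernelOf T (y, x) := by
    intro x y
    obtain ⟨g, h1, h2⟩ := hswap x y
    rw [← kernelOf_smul T hT g (x, y)]
    simp [Prod.smul_mk, h1, h2]
  conv_lhs => rw [← kernelOp_kernelOf T]
  conv_rhs => rw [← kernelOp_kernelOf T]
  simp only [ctrDot, kernelOp_apply, Finset.sum_mul, Finset.mul_sum]
  rw [Finset.sum_comm]
  refine Finset.sum_congr rfl fun x _ => Finset.sum_congr rfl fun y _ => ?_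
  rw [hφ x y]
  ring

theorem swap_of_dotSym (hsym : ∀ T : (Ω → ℂ) →ₗ[ℂ] (Ω → ℂ), T ∈ ctrRing G Ω → DotSym T) (a b : Ω) :
    ∃ g : G, g • a = b ∧ g • b = a := by
  classical
  let φ : Ω × Ω → ℂ := fun p => if p ∈ MulAction.orbit G (a, b) then 1 else 0
  have hφ : ∀ (g : G) p, φ (g • p) = φ p := by
    intro g p
    simp only [φ]
    have hiff : g • p ∈ MulAction.orbit G (a, b) ↔ p ∈ MulAction.orbit G (a, b) := by
      constructor
      · rintro ⟨k, hk⟩
        refine ⟨g⁻¹ * k, ?_⟩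
        have hk' : k • (a, b) = g • p := hk
        change (g⁻¹ * k) • (a, b) = p
        rw [mul_smul, hk', inv_smul_smul]
      · rintro ⟨k, hk⟩
        refine ⟨g * k, ?_⟩
        have hk' : k • (a, b) = p := hk
        change (g * k) • (a, b) = g • p
        rw [mul_smul, hk']
    simp only [hiff]
  have hT := kernelOp_mem_invariants (G := G) φ hφ
  have h1 := hsym _ hT (Pi.single a 1) (Pi.single b 1)
  have h2 : φ (a, b) = 1 := by
    simp only [φ]
    rw [if_pos (MulAction.mem_orbit_self _)]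
  have h3 : φ (b, a) = 1 := by
    have h4 : ctrDot (kernelOp φ (Pi.single a 1)) (Pi.single b 1) = φ (a, b) := by
      simp [ctrDot, kernelOp_apply, Pi.single_apply]
    have h5 : ctrDot (Pi.single a 1) (kernelOp φ (Pi.single b 1)) = φ (b, a) := by
      simp [ctrDot, kernelOp_apply, Pi.single_apply]
    rw [← h2, ← h4, ← h5, h1]
  simp only [φ] at h3
  by_cases hh : (b, a) ∈ MulAction.orbit G (a, b)
  · obtain ⟨g, hg⟩ := hh
    have h6 : g • (a, b) = (b, a) := hg
    rw [Prod.smul_mk, Prod.mk.injEq] at h6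
    exact ⟨g, h6.1, h6.2⟩
  · rw [if_neg hh] at h3
    exact absurd h3 zero_ne_one

/-- Suborbits self-paired iff multiplicity-free with real constituents. -/
theorem selfPaired_iff :
    (∀ a b : Ω, ∃ g : G, g • a = b ∧ g • b = a) ↔
      ∀ χ : G → ℂ, IsIrrCharacter G χ → classInner (permCh G Ω) χ ≠ 0 →
        classInner (permCh G Ω) χ = 1 ∧ ∀ g : G, conj (χ g) = χ g := by
  classical
  constructor
  · intro hswap
    have hsym := fun T hT => dotSym_of_swap (G := G) (Ω := Ω) hswap (T := T) hT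
    have hcomm : ∀ S T : (Ω → ℂ) →ₗ[ℂ] (Ω → ℂ), S ∈ ctrRing G Ω → T ∈ ctrRing G Ω →
        S ∘ₗ T = T ∘ₗ S := by
      intro S T hS hT
      have hST : S ∘ₗ T ∈ ctrRing G Ω := by
        rw [mem_ctrRing_iff] at hS hT ⊢
        intro g
        rw [LinearMap.comp_assoc, hT, ← LinearMap.comp_assoc, hS, LinearMap.comp_assoc]
      refine LinearMap.ext fun h => ctrDot_nondeg fun f => ?_
      have h1 := hsym _ hST f h
      simp only [LinearMap.comp_apply] at h1 ⊢
      rw [← h1, hsym S hS, hsym T hT]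
    have hm := multFree_iff_comm.mpr hcomm
    intro χ hχ hne
    refine ⟨(hm χ hχ).resolve_left hne, ?_⟩
    have hχc := IsIrrCharacter.isCharacter hχ
    have hE : isoProj (permRep ℂ G Ω) χ = isoProj (permRep ℂ G Ω) (fun g => conj (χ g)) := by
      refine LinearMap.ext fun h => ctrDot_nondeg fun f => ?_
      rw [← ctrDot_isoProj hχc, hsym _ (isoProj_mem_ctrRing hχc)]
    have hne2 : (fun g => conj (χ g)) = χ := by
      by_contra hcon
      have h1 := isoProj_comp_self (permRep ℂ G Ω) hχ (IsIrrCharacter.conj hχ)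
      rw [← hE, if_neg (fun h => hcon h.symm), isoProj_comp_self _ hχ hχ, if_pos rfl] at h1
      exact isoProj_ne_zero (ψ := ⟨χ, hχ⟩) (mem_constituents.mpr hne) h1
    exact fun g => congrFun hne2 g
  · intro h
    apply swap_of_dotSym
    have hm : ∀ χ : G → ℂ, IsIrrCharacter G χ →
        classInner (permCh G Ω) χ = 0 ∨ classInner (permCh G Ω) χ = 1 := by
      intro χ hχ
      by_cases h0 : classInner (permCh G Ω) χ = 0
      · exact Or.inl h0
      · exact Or.inr (h χ hχ h0).1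
    intro T hT
    obtain ⟨c, rfl⟩ := exists_eq_sum_isoProj hm hT
    intro f g
    simp only [LinearMap.sum_apply, LinearMap.smul_apply]
    rw [ctrDot_sum_left, ctrDot_sum_right]
    refine Finset.sum_congr rfl fun ψ hψ => ?_
    rw [ctrDot_smul_left, ctrDot_smul_right, ctrDot_isoProj (IsIrrCharacter.isCharacter ψ.2)]
    have : (fun g => conj ((ψ : G → ℂ) g)) = (ψ : G → ℂ) :=
      funext (h ψ ψ.2 (mem_constituents.mp hψ)).2
    rw [this]

end PermMod

end Cfsg.Agent.Lib.Perm
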