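import Mathlib

/-!
The arithmetic of Dickson pairs.
-/

set_option autoImplicit false

namespace Cfsg.Agent.Lib.Perm.Dickson

lemma dvd_of_padic {d n : ℕ} (hd : d ≠ 0) (hn : n ≠ 0)
    (h : ∀ p : ℕ, p.Prime → padicValNat p d ≤ padicValNat p n) : d ∣ n := by
  rw [← Nat.factorization_prime_le_iff_dvd hd hn]
  intro p hp
  rw [Nat.factorization_def _ hp, Nat.factorization_def _ hp]
  exact h p hp

lemma padic_le_of_dvd {p a b : ℕ} [hp : Fact p.Prime] (hb : b ≠ 0) (h : a ∣ b) :
    padicValNat p a ≤ padicValNat p b := by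
  rw [← padicValNat_dvd_iff_le hb]
  exact pow_padicValNat_dvd.trans h

lemma pow_sub_one_ne {q i : ℕ} (hq : 2 ≤ q) (hi : i ≠ 0) : q ^ i - 1 ≠ 0 := by
  have : 2 ≤ q ^ i := le_trans hq (Nat.le_self_pow hi q)
  omega

lemma sub_one_dvd_pow (q i : ℕ) : q - 1 ∣ q ^ i - 1 := by
  have := Nat.sub_dvd_pow_sub_pow q 1 i
  rwa [one_pow] at this

/-- Lifting the exponent for odd primes. -/
lemma val_odd {p x k : ℕ} [hp : Fact p.Prime] (hp2 : p ≠ 2) (hx : 2 ≤ x) (hpx : p ∣ x - 1)
    (hk : k ≠ 0) : padicValNat p (x ^ k - 1) = padicValNat p (x - 1) + padicValNat p k := by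
  have hodd : Odd p := hp.out.odd_of_ne_two hp2
  have hnd : ¬ p ∣ x := by
    intro h
    have h1 : p ∣ 1 := by
      have := Nat.dvd_sub h hpx
      rwa [show x - (x - 1) = 1 by omega] at this
    exact hp.out.one_lt.ne' (Nat.dvd_one.mp h1)
  have := padicValNat.pow_sub_pow (x := x) (y := 1) (p := p) hodd (by omega) hpx hnd hk
  rwa [one_pow] at this

/-- For odd exponents the 2-adic valuation does not change. -/
lemma val_two_odd {x k : ℕ} (hx : 2 ≤ x) (hxo : x % 2 = 1) (hk : k % 2 = 1) :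
    padicValNat 2 (x ^ k - 1) = padicValNat 2 (x - 1) := by
  have hS : (x - 1) * ∑ j ∈ Finset.range k, x ^ j = x ^ k - 1 := by
    have h1 : ((x : ℤ) - 1) * ∑ j ∈ Finset.range k, (x : ℤ) ^ j = (x : ℤ) ^ k - 1 :=
      mul_geom_sum (x : ℤ) k
    zify [show 1 ≤ x by omega, Nat.one_le_pow k x (by omega)]
    exact h1
  have hSodd : (∑ j ∈ Finset.range k, x ^ j) % 2 = 1 := by
    rw [Finset.sum_nat_mod]
    have h2 : ∀ j ∈ Finset.range k, x ^ j % 2 = 1 := by
      intro j _
      rw [Nat.pow_mod, hxo]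
      simp
    rw [Finset.sum_congr rfl h2]
    simpa using hk
  have hne : ∑ j ∈ Finset.range k, x ^ j ≠ 0 := by
    intro h
    rw [h] at hSodd
    simp at hSodd
  rw [← hS, padicValNat.mul (by omega) hne]
  have h0 : padicValNat 2 (∑ j ∈ Finset.range k, x ^ j) = 0 :=
    padicValNat.eq_zero_of_not_dvd (by omega)
  rw [h0, add_zero]

/-- A valuation is one if divisibility by `2` and not by `4` holds. -/
lemma val_two_eq_one {m : ℕ} (hm : m ≠ 0) (h2 : 2 ∣ m) (h4 : ¬ 4 ∣ m) : padicValNat 2 m = 1 := by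
  have h1 : 1 ≤ padicValNat 2 m := (padicValNat_dvd_iff_le hm).mp (by simpa using h2)
  have h3 : ¬ 2 ≤ padicValNat 2 m := fun h => h4 (by
    have := (padicValNat_dvd_iff_le (p := 2) hm).mpr h
    simpa using this)
  omega

/-- The main valuation formula. -/
lemma val_A {p q i : ℕ} [hp : Fact p.Prime] (hq : 2 ≤ q) (hpq : p ∣ q - 1) (h : p ≠ 2 ∨ 4 ∣ q - 1)
    (hi : i ≠ 0) : padicValNat p (q ^ i - 1) = padicValNat p (q - 1) + padicValNat p i := by
  by_cases hp2 : p = 2
  · subst hp2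
    have h4 : 4 ∣ q - 1 := by
      rcases h with h | h
      · exact absurd rfl h
      · exact h
    have hqo : q % 2 = 1 := by omega
    by_cases hie : i % 2 = 1
    · rw [val_two_odd hq hqo hie, padicValNat.eq_zero_of_not_dvd (n := i) (by omega)]
      rfl
    · have hev : Even i := Nat.even_iff.mpr (by omega)
      have h5 := padicValNat.pow_two_sub_pow (x := q) (y := 1) (by omega) hpq (by omega) hi hev
      rw [one_pow] at h5
      have h6 : padicValNat 2 (q + 1) = 1 := val_two_eq_one (by omega) (by omega) (by omega)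
      omega
  · exact val_odd hp2 hq hpq hi

/-- The case `q ≡ 3 mod 4`. -/
lemma val_B {q i : ℕ} (hq : 2 ≤ q) (h3 : q % 4 = 3) (hi : i ≠ 0) (hev : 2 ∣ i) :
    2 + padicValNat 2 i ≤ padicValNat 2 (q ^ i - 1) := by
  have h5 := padicValNat.pow_two_sub_pow (x := q) (y := 1) (by omega) (by omega) (by omega) hi
    (even_iff_two_dvd.mpr hev)
  rw [one_pow] at h5
  have h6 : padicValNat 2 (q - 1) = 1 := val_two_eq_one (by omega) (by omega) (by omega)
  have h7 : 2 ≤ padicValNat 2 (q + 1) :=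
    (padicValNat_dvd_iff_le (by omega)).mp (by
      have : 4 ∣ q + 1 := by omega
      simpa using this)
  omega

/-- Primes not dividing `q - 1`. -/
lemma val_N {s q n m : ℕ} [hs : Fact s.Prime] (hs2 : s ≠ 2) (hq : 2 ≤ q) (hn : n ≠ 0)
    (hs1 : s ∣ q ^ n - 1) (hm : m ≠ 0) (hg : Nat.gcd n (s - 1) ∣ m) :
    padicValNat s m + 1 ≤ padicValNat s (q ^ m - 1) := by
  have hsp := hs.out
  have hnd : ¬ s ∣ q := by
    intro h
    have h1 : s ∣ q ^ n := dvd_pow h hn
    have h2 : s ∣ 1 := by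
      have hpos : 1 ≤ q ^ n := Nat.one_le_pow n q (by omega)
      have := Nat.dvd_sub h1 hs1
      rwa [show q ^ n - (q ^ n - 1) = 1 by omega] at this
    exact hsp.one_lt.ne' (Nat.dvd_one.mp h2)
  have hfermat : s ∣ q ^ (s - 1) - 1 := by
    have h1 : ((q : ZMod s)) ^ (s - 1) = 1 := by
      apply ZMod.pow_card_sub_one_eq_one
      rwa [Ne, ZMod.natCast_eq_zero_iff]
    have hpos : 1 ≤ q ^ (s - 1) := Nat.one_le_pow _ q (by omega)
    rw [← ZMod.natCast_eq_zero_iff, Nat.cast_sub hpos]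
    push_cast
    rw [h1, sub_self]
  set g := Nat.gcd n (s - 1) with hgdef
  have hg0 : g ≠ 0 := by
    rw [hgdef]
    exact Nat.gcd_ne_zero_left hn
  have hsg : s ∣ q ^ g - 1 := by
    have := Nat.dvd_gcd hs1 hfermat
    rwa [Nat.pow_sub_one_gcd_pow_sub_one] at this
  have hx : 2 ≤ q ^ g := le_trans hq (Nat.le_self_pow hg0 q)
  obtain ⟨k, rfl⟩ := hg
  have hk : k ≠ 0 := by
    rintro rfl
    simp at hm
  have hval := val_odd hs2 hx hsg hk
  rw [← pow_mul] at hval
  have hgs : ¬ s ∣ g := by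
    intro h
    have h1 : g ∣ s - 1 := Nat.gcd_dvd_right _ _
    have h2 : s ∣ s - 1 := h.trans h1
    have h3 := Nat.le_of_dvd (by have := hsp.two_le; omega) h2
    have := hsp.two_le
    omega
  rw [padicValNat.mul hg0 hk, padicValNat.eq_zero_of_not_dvd hgs, hval]
  have h1 : 1 ≤ padicValNat s (q ^ g - 1) :=
    (padicValNat_dvd_iff_le (pow_sub_one_ne hq hg0)).mp (by simpa using hsg)
  omega

/-- Divisibility of `q ^ i - 1` by `n (q - 1)` via valuations. -/
lemma dvd_of_vals {q n i : ℕ} (hq : 2 ≤ q) (hn : n ≠ 0) (hi : i ≠ 0)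
    (h : ∀ s : ℕ, s.Prime → s ∣ n → ∀ [Fact s.Prime], padicValNat s n + padicValNat s (q - 1) ≤
      padicValNat s (q ^ i - 1)) : n * (q - 1) ∣ q ^ i - 1 := by
  apply dvd_of_padic (mul_ne_zero hn (by omega)) (pow_sub_one_ne hq hi)
  intro s hs
  haveI : Fact s.Prime := ⟨hs⟩
  rw [padicValNat.mul hn (by omega)]
  by_cases hsn : s ∣ n
  · exact h s hs hsn
  · rw [padicValNat.eq_zero_of_not_dvd hsn, zero_add]
    exact padic_le_of_dvd (pow_sub_one_ne hq hi) (sub_one_dvd_pow q i)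

lemma modEq_iff {q i m : ℕ} (hq : 2 ≤ q) : q ^ i ≡ 1 [MOD m] ↔ m ∣ q ^ i - 1 := by
  have hpos : 1 ≤ q ^ i := Nat.one_le_pow i q (by omega)
  constructor
  · intro h
    exact (Nat.modEq_iff_dvd' hpos).mp h.symm
  · intro h
    exact ((Nat.modEq_iff_dvd' hpos).mpr h).symm

/-- The forward direction. -/
lemma forward {q n : ℕ} (hq : 2 ≤ q) (hn : 1 < n)
    (h1 : ∀ r : ℕ, r.Prime → r ∣ n → r ∣ q - 1) (h4 : 4 ∣ n → 4 ∣ q - 1) :
    n * (q - 1) ∣ q ^ n - 1 ∧ ∀ i : ℕ, 0 < i → i < n → ¬ n * (q - 1) ∣ q ^ i - 1 := by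
  constructor
  · apply dvd_of_vals hq (by omega) (by omega)
    intro s hs hsn _
    by_cases hA : s ≠ 2 ∨ 4 ∣ q - 1
    · rw [val_A hq (h1 s hs hsn) hA (by omega)]
      omega
    · push Not at hA
      obtain ⟨rfl, h5⟩ := hA
      have h2 := h1 2 hs hsn
      have h3 : q % 4 = 3 := by omega
      have h6 := val_B (i := n) hq h3 (by omega) hsn
      have h7 : padicValNat 2 (q - 1) = 1 := val_two_eq_one (by omega) h2 h5
      omega
  · intro i hi hin hdvd
    have hni : n ∣ i := by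
      apply dvd_of_padic (by omega) (by omega)
      intro s hs
      haveI : Fact s.Prime := ⟨hs⟩
      by_cases hsn : s ∣ n
      · have h2 : padicValNat s n + padicValNat s (q - 1) ≤ padicValNat s (q ^ i - 1) := by
          rw [← padicValNat.mul (by omega) (by omega)]
          exact padic_le_of_dvd (pow_sub_one_ne hq hi.ne') hdvd
        by_cases hA : s ≠ 2 ∨ 4 ∣ q - 1
        · rw [val_A hq (h1 s hs hsn) hA hi.ne'] at h2
          omega
        · push Not at hA
          obtain ⟨rfl, h5⟩ := hA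
          have h6 := h1 2 hs hsn
          have h3 : q % 4 = 3 := by omega
          have h7 : ¬ 4 ∣ n := fun h => h5 (h4 h)
          rw [val_two_eq_one (by omega) hsn h7]
          by_contra hcon
          have hio : i % 2 = 1 := by
            by_contra hio
            apply hcon
            have h8 : 2 ∣ i := by omega
            exact (padicValNat_dvd_iff_le hi.ne').mp (by simpa using h8)
          -- `q ^ i ≡ 3 mod 4`
          have hq4 : q ^ i % 4 = 3 := by
            obtain ⟨k, hk⟩ : ∃ k, i = 2 * k + 1 := ⟨i / 2, by omega⟩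
            rw [hk, pow_succ, pow_mul, Nat.mul_mod, Nat.pow_mod, Nat.pow_mod q 2, h3]
            simp
          have h9 : 4 ∣ q ^ i - 1 := by
            refine Dvd.dvd.trans ?_ hdvd
            have h10 : 2 * 2 ∣ n * (q - 1) := Nat.mul_dvd_mul hsn h6
            simpa using h10
          omega
      · rw [padicValNat.eq_zero_of_not_dvd hsn]
        exact Nat.zero_le _
    have := Nat.le_of_dvd hi hni
    omega

/-- A prime dividing `n` and not `q - 1`: the reduction. -/
lemma backward_step1 {q n : ℕ} (hq : 2 ≤ q) (hn : 1 < n) (hd : n * (q - 1) ∣ q ^ n - 1) :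
    (∀ r : ℕ, r.Prime → r ∣ n → r ∣ q - 1) ∨ ∃ i : ℕ, 0 < i ∧ i < n ∧ n * (q - 1) ∣ q ^ i - 1 := by
  classical
  by_contra hcon
  push Not at hcon
  obtain ⟨hex, hmin⟩ := hcon
  -- the largest bad prime
  let S : Finset ℕ := (Nat.primeFactors n).filter fun r => ¬ r ∣ q - 1
  have hSne : S.Nonempty := by
    obtain ⟨r, hr, hrn, hrq⟩ := hex
    exact ⟨r, Finset.mem_filter.mpr ⟨Nat.mem_primeFactors.mpr ⟨hr, hrn, by omega⟩, hrq⟩⟩
  obtain ⟨r, hrS, hrmax⟩ := S.exists_max_image id hSne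
  obtain ⟨hrf, hrq⟩ := Finset.mem_filter.mp hrS
  obtain ⟨hr, hrn, -⟩ := Nat.mem_primeFactors.mp hrf
  simp only [id] at hrmax
  obtain ⟨i, hi⟩ := hrn
  have hi0 : i ≠ 0 := by
    rintro rfl
    omega
  have hilt : i < n := by
    rw [hi]
    have := hr.two_le
    have : 0 < i := Nat.pos_of_ne_zero hi0
    nlinarith
  apply hmin i (Nat.pos_of_ne_zero hi0) hilt
  have hqn1 : q ^ n % 2 = 0 ∨ q % 2 = 1 := by
    by_cases h : q % 2 = 1
    · exact Or.inr h
    · left
      have h2 : 2 ∣ q := by omega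
      have h3 : 2 ∣ q ^ n := dvd_pow h2 (by omega)
      omega
  apply dvd_of_vals hq (by omega) hi0
  intro s hs hsn _
  have hnv : padicValNat s n = padicValNat s r + padicValNat s i := by
    rw [hi, padicValNat.mul hr.ne_zero hi0]
  by_cases hsq : s ∣ q - 1
  · have hsr : s ≠ r := by
      rintro rfl
      exact hrq hsq
    have hvr : padicValNat s r = 0 := by
      haveI : Fact r.Prime := ⟨hr⟩
      exact padicValNat_primes hsr
    by_cases hA : s ≠ 2 ∨ 4 ∣ q - 1
    · rw [val_A hq hsq hA hi0]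
      omega
    · push Not at hA
      obtain ⟨rfl, h5⟩ := hA
      have h3 : q % 4 = 3 := by omega
      have hr2 : r ≠ 2 := hsr.symm
      have hi2 : 2 ∣ i := by
        have h6 : 2 ∣ r * i := by rwa [← hi]
        rcases (Nat.Prime.dvd_mul hs).mp h6 with h | h
        · exact absurd ((Nat.prime_dvd_prime_iff_eq hs hr).mp h).symm hr2
        · exact h
      have h6 := val_B hq h3 hi0 hi2
      have h7 : padicValNat 2 (q - 1) = 1 := val_two_eq_one (by omega) hsq h5
      omega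
  · -- `s` does not divide `q - 1`
    have hsd : s ∣ q ^ n - 1 := (Dvd.dvd.mul_right hsn _).trans hd
    have hs2 : s ≠ 2 := by
      rintro rfl
      have hq0 : q % 2 = 0 := by omega
      have h3 : 2 ∣ q ^ n := dvd_pow (by omega) (by omega)
      have h4 : 1 ≤ q ^ n := Nat.one_le_pow n q (by omega)
      omega
    have hsS : s ∈ S := Finset.mem_filter.mpr ⟨Nat.mem_primeFactors.mpr ⟨hs, hsn, by omega⟩, hsq⟩
    have hsr := hrmax s hsS
    have hgcop : Nat.Coprime r (Nat.gcd n (s - 1)) := by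
      rw [Nat.Prime.coprime_iff_not_dvd hr]
      intro h
      have h1 : Nat.gcd n (s - 1) ∣ s - 1 := Nat.gcd_dvd_right _ _
      have h2 := Nat.le_of_dvd (by have := hs.two_le; omega) (h.trans h1)
      have := hs.two_le
      omega
    have hgi : Nat.gcd n (s - 1) ∣ i := by
      have h1 : Nat.gcd n (s - 1) ∣ r * i := by
        rw [← hi]
        exact Nat.gcd_dvd_left _ _
      exact (Nat.Coprime.dvd_mul_left hgcop.symm).mp h1
    have h1 := val_N hs2 hq (by omega : n ≠ 0) hsd hi0 hgi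
    have hvr : padicValNat s r ≤ 1 := by
      by_cases hsr' : s = r
      · subst hsr'
        rw [padicValNat_self]
      · haveI : Fact r.Prime := ⟨hr⟩
        rw [padicValNat_primes hsr']
        exact Nat.zero_le _
    have hv0 : padicValNat s (q - 1) = 0 := padicValNat.eq_zero_of_not_dvd hsq
    omega

/-- The case `4 ∣ n`. -/
lemma backward_step2 {q n : ℕ} (hq : 2 ≤ q) (hn : 1 < n)
    (h1 : ∀ r : ℕ, r.Prime → r ∣ n → r ∣ q - 1) (h4n : 4 ∣ n) (h4q : ¬ 4 ∣ q - 1) :
    n * (q - 1) ∣ q ^ (n / 2) - 1 := by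
  obtain ⟨k, rfl⟩ := h4n
  have hk0 : k ≠ 0 := by
    rintro rfl
    omega
  rw [show 4 * k / 2 = 2 * k by omega]
  have h2q : 2 ∣ q - 1 := h1 2 Nat.prime_two (Dvd.intro_left (2 * k) (by ring))
  apply dvd_of_vals hq (by omega) (by omega)
  intro s hs hsn _
  have hv : padicValNat s (4 * k) = padicValNat s 2 + padicValNat s (2 * k) := by
    rw [show 4 * k = 2 * (2 * k) by ring, padicValNat.mul (by omega) (by omega)]
  by_cases hs2 : s = 2
  · subst hs2
    have h3 : q % 4 = 3 := by omega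
    have h6 := val_B (i := 2 * k) hq h3 (by omega) (Dvd.intro k rfl)
    have h7 : padicValNat 2 (q - 1) = 1 := val_two_eq_one (by omega) h2q h4q
    have h8 : padicValNat 2 2 = 1 := padicValNat_self
    omega
  · rw [val_A hq (h1 s hs hsn) (Or.inl hs2) (by omega)]
    have h8 : padicValNat s 2 = 0 := padicValNat_primes hs2
    omega

/-- The Dickson arithmetic. -/
theorem main {q n : ℕ} (hq : 2 ≤ q) (hn : 1 < n) :
    ((∀ r : ℕ, r.Prime → r ∣ n → r ∣ q - 1) ∧ (4 ∣ n → 4 ∣ q - 1)) ↔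
      (q ^ n ≡ 1 [MOD n * (q - 1)] ∧ ∀ i : ℕ, 0 < i → i < n → ¬ q ^ i ≡ 1 [MOD n * (q - 1)]) := by
  simp only [modEq_iff hq]
  constructor
  · rintro ⟨h1, h2⟩
    exact forward hq hn h1 h2
  · rintro ⟨h1, h2⟩
    have h3 : ∀ r : ℕ, r.Prime → r ∣ n → r ∣ q - 1 := by
      rcases backward_step1 hq hn h1 with h | ⟨i, h3, h4, h5⟩
      · exact h
      · exact absurd h5 (h2 i h3 h4)
    refine ⟨h3, ?_⟩
    intro h4
    by_contra h5
    have h6 := backward_step2 hq hn h3 h4 h5
    obtain ⟨k, rfl⟩ := h4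
    exact h2 _ (by omega) (by omega) h6

end Cfsg.Agent.Lib.Perm.Dickson
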