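import Mathlib
import Cfsg.Agent.Lib.Perm.Orbits

/-! Generously `k`-transitive groups: the pointwise stabiliser of a `k`-set has at most `p - 1`
orbits of length coprime to `p` outside the set, for a prime `p ≤ k`. -/

set_option autoImplicit false

namespace Cfsg.Agent.Lib.Perm

open MulAction

variable {α : Type*} [Fintype α] [DecidableEq α]

/-- A generous group is transitive on `k`-sets. -/
theorem gen_set_trans (G : Subgroup (Equiv.Perm α)) {k : ℕ}
    (hgen : ∀ s : Finset α, s.card = k + 1 → ∀ σ : Equiv.Perm ↥s, ∃ g ∈ G, ∀ x : ↥s, g (x : α) = σ x) :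
    ∀ (n : ℕ) (A B : Finset α), A.card = k → B.card = k → (A \ B).card = n →
      ∃ g ∈ G, ∀ x ∈ A, g x ∈ B := by
  intro n
  induction n with
  | zero =>
    intro A B hA hB h
    refine ⟨1, G.one_mem, fun x hx => ?_⟩
    have : A ⊆ B := by
      rw [Finset.card_eq_zero, Finset.sdiff_eq_empty_iff_subset] at h
      exact h
    exact this hx
  | succ n ih =>
    intro A B hA hB h
    obtain ⟨a, ha⟩ : (A \ B).Nonempty := by
      rw [← Finset.card_pos]; omega
    have hcard : (B \ A).card = (A \ B).card := by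
      have := Finset.card_sdiff_add_card_inter A B
      have h2 := Finset.card_sdiff_add_card_inter B A
      rw [Finset.inter_comm] at h2
      omega
    obtain ⟨b, hb⟩ : (B \ A).Nonempty := by
      rw [← Finset.card_pos]; omega
    rw [Finset.mem_sdiff] at ha hb
    have hab : a ≠ b := by
      rintro rfl
      exact ha.2 hb.1
    have hscard : (insert b A).card = k + 1 := by
      rw [Finset.card_insert_of_notMem hb.2, hA]
    have has : a ∈ insert b A := Finset.mem_insert_of_mem ha.1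
    have hbs : b ∈ insert b A := Finset.mem_insert_self _ _
    obtain ⟨g, hg, hgx⟩ := hgen _ hscard (Equiv.swap ⟨a, has⟩ ⟨b, hbs⟩)
    have hga : g a = b := by
      have := hgx ⟨a, has⟩
      simpa using this
    have hgb : g b = a := by
      have := hgx ⟨b, hbs⟩
      simpa using this
    have hgo : ∀ x ∈ A, x ≠ a → g x = x := by
      intro x hx hxa
      have hxb : x ≠ b := by
        rintro rfl
        exact hb.2 hx
      have := hgx ⟨x, Finset.mem_insert_of_mem hx⟩
      rw [Equiv.swap_apply_of_ne_of_ne] at this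
      · exact this
      · intro h'; exact hxa (congrArg Subtype.val h')
      · intro h'; exact hxb (congrArg Subtype.val h')
    -- the image of `A`
    set A' := insert b (A.erase a) with hA'
    have hA'card : A'.card = k := by
      rw [hA', Finset.card_insert_of_notMem (by simp [hb.2]), Finset.card_erase_of_mem ha.1, hA]
      have : 0 < k := by
        rw [← hA]; exact Finset.card_pos.mpr ⟨a, ha.1⟩
      omega
    have hsd : A' \ B = (A \ B).erase a := by
      ext x
      simp only [hA', Finset.mem_sdiff, Finset.mem_insert, Finset.mem_erase]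
      constructor
      · rintro ⟨rfl | ⟨h1, h2⟩, h3⟩
        · exact absurd hb.1 h3
        · exact ⟨h1, h2, h3⟩
      · rintro ⟨h1, h2, h3⟩
        exact ⟨Or.inr ⟨h1, h2⟩, h3⟩
    have hcard' : (A' \ B).card = n := by
      rw [hsd, Finset.card_erase_of_mem (Finset.mem_sdiff.mpr ha), h]
      rfl
    obtain ⟨g', hg', hg'x⟩ := ih A' B hA'card hB hcard'
    refine ⟨g' * g, G.mul_mem hg' hg, fun x hx => ?_⟩
    rw [Equiv.Perm.mul_apply]
    apply hg'x
    by_cases hxa : x = a
    · subst hxa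
      rw [hga]
      exact Finset.mem_insert_self _ _
    · rw [hgo x hx hxa]
      exact Finset.mem_insert_of_mem (Finset.mem_erase.mpr ⟨hxa, hx⟩)

/-- Pointwise stabiliser of `A` in `G`, inside the symmetric group. -/
def genFix (G : Subgroup (Equiv.Perm α)) (A : Finset α) : Subgroup (Equiv.Perm α) where
  carrier := {g | g ∈ G ∧ ∀ x ∈ A, g x = x}
  mul_mem' := by
    rintro a b ⟨ha, ha'⟩ ⟨hb, hb'⟩
    refine ⟨G.mul_mem ha hb, fun x hx => ?_⟩
    rw [Equiv.Perm.mul_apply, hb' x hx, ha' x hx]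
  one_mem' := ⟨G.one_mem, fun _ _ => rfl⟩
  inv_mem' := by
    rintro a ⟨ha, ha'⟩
    refine ⟨G.inv_mem ha, fun x hx => ?_⟩
    rw [Equiv.Perm.inv_eq_iff_eq, ha' x hx]

theorem mem_genFix {G : Subgroup (Equiv.Perm α)} {A : Finset α} {g : Equiv.Perm α} :
    g ∈ genFix G A ↔ g ∈ G ∧ ∀ x ∈ A, g x = x := Iff.rfl

/-- Stabilisers of `k`-sets of a generous group have the same order. -/
theorem genFix_card (G : Subgroup (Equiv.Perm α)) {k : ℕ}
    (hgen : ∀ s : Finset α, s.card = k + 1 → ∀ σ : Equiv.Perm ↥s, ∃ g ∈ G, ∀ x : ↥s, g (x : α) = σ x)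
    (A B : Finset α) (hA : A.card = k) (hB : B.card = k) :
    Nat.card (genFix G A) = Nat.card (genFix G B) := by
  obtain ⟨g, hg, hgx⟩ := gen_set_trans G hgen _ A B hA hB rfl
  have himg : A.image g = B := by
    apply Finset.eq_of_subset_of_card_le
    · intro y hy
      obtain ⟨x, hx, rfl⟩ := Finset.mem_image.mp hy
      exact hgx x hx
    · rw [Finset.card_image_of_injective _ g.injective, hA, hB]
  refine Nat.card_congr ⟨fun x => ⟨g * x * g⁻¹, ?_⟩, fun y => ⟨g⁻¹ * y * g, ?_⟩, ?_, ?_⟩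
  · obtain ⟨x, hx, hx'⟩ := x
    refine ⟨G.mul_mem (G.mul_mem hg hx) (G.inv_mem hg), fun y hy => ?_⟩
    rw [← himg] at hy
    obtain ⟨z, hz, rfl⟩ := Finset.mem_image.mp hy
    simp [hx' z hz]
  · obtain ⟨y, hy, hy'⟩ := y
    refine ⟨G.mul_mem (G.mul_mem (G.inv_mem hg) hy) hg, fun z hz => ?_⟩
    have : g z ∈ B := hgx z hz
    simp [hy' _ this]
  · intro x
    ext z
    simp
  · intro x
    ext z
    simp

/-- The core of the argument. -/
theorem gen_core (G : Subgroup (Equiv.Perm α)) {k : ℕ}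
    (hgen : ∀ s : Finset α, s.card = k + 1 → ∀ σ : Equiv.Perm ↥s, ∃ g ∈ G, ∀ x : ↥s, g (x : α) = σ x)
    {p : ℕ} [Fact p.Prime] (hpk : p ≤ k) (Γ : Finset α) (hΓ : Γ.card = k) (f : Fin p → α)
    (hf : ∀ i, f i ∉ Γ)
    (hdist : ∀ i j, i ≠ j → f j ∉ orbit (genFix G Γ) (f i))
    (hcop : ∀ i, ¬ p ∣ Nat.card (orbit (genFix G Γ) (f i))) : False := by
  classical
  have hp : p.Prime := Fact.out
  have hpos : 0 < p := hp.pos
  haveI : NeZero p := ⟨hp.ne_zero⟩
  -- an enumeration of `p` points of `Γ`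
  obtain ⟨e⟩ : Nonempty (ZMod p ↪ ↥Γ) := by
    apply Function.Embedding.nonempty_of_card_le
    rw [ZMod.card, Fintype.card_coe, hΓ]
    exact hpk
  let c : ZMod p ↪ α := e.trans (Function.Embedding.subtype _)
  have hcΓ : ∀ i, c i ∈ Γ := fun i => (e i).2
  -- the subgroup `N`
  let N : Subgroup (Equiv.Perm α) :=
    { carrier := {g | g ∈ G ∧ (∃ j : ZMod p, ∀ i, g (c i) = c (i + j)) ∧
        ∀ x ∈ Γ, x ∉ Set.range c → g x = x}
      mul_mem' := by
        rintro a b ⟨ha, ⟨j, hj⟩, ha'⟩ ⟨hb, ⟨l, hl⟩, hb'⟩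
        refine ⟨G.mul_mem ha hb, ⟨l + j, fun i => ?_⟩, fun x hx hx' => ?_⟩
        · rw [Equiv.Perm.mul_apply, hl, hj, add_assoc]
        · rw [Equiv.Perm.mul_apply, hb' x hx hx', ha' x hx hx']
      one_mem' := ⟨G.one_mem, ⟨0, fun i => by simp⟩, fun _ _ _ => rfl⟩
      inv_mem' := by
        rintro a ⟨ha, ⟨j, hj⟩, ha'⟩
        refine ⟨G.inv_mem ha, ⟨-j, fun i => ?_⟩, fun x hx hx' => ?_⟩
        · rw [Equiv.Perm.inv_eq_iff_eq, hj]
          simp
        · rw [Equiv.Perm.inv_eq_iff_eq, ha' x hx hx'] }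
  have hN : ∀ {g : Equiv.Perm α}, g ∈ N ↔ g ∈ G ∧ (∃ j : ZMod p, ∀ i, g (c i) = c (i + j)) ∧
        ∀ x ∈ Γ, x ∉ Set.range c → g x = x := Iff.rfl
  -- `N` preserves `Γ`
  have hNΓ : ∀ g ∈ N, ∀ x ∈ Γ, g x ∈ Γ := by
    rintro g ⟨-, ⟨j, hj⟩, hg⟩ x hx
    by_cases hxc : x ∈ Set.range c
    · obtain ⟨i, rfl⟩ := hxc
      rw [hj]
      exact hcΓ _
    · rw [hg x hx hxc]
      exact hx
  -- `F` is normal in `N`
  have hconj : ∀ g ∈ N, ∀ h ∈ genFix G Γ, g * h * g⁻¹ ∈ genFix G Γ := by
    intro g hg h hh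
    refine ⟨G.mul_mem (G.mul_mem hg.1 hh.1) (G.inv_mem hg.1), fun x hx => ?_⟩
    have : g⁻¹ x ∈ Γ := hNΓ _ (N.inv_mem hg) x hx
    rw [Equiv.Perm.mul_apply, Equiv.Perm.mul_apply, hh.2 _ this]
    simp
  -- the elements `t`
  have ht : ∀ x, x ∉ Γ → ∃ t ∈ N, t x = x ∧ ∀ i, t (c i) = c (i + 1) := by
    intro x hx
    let τ : Equiv.Perm α := (Equiv.addRight (1 : ZMod p)).viaFintypeEmbedding c
    have hτc : ∀ i, τ (c i) = c (i + 1) := fun i => by
      simp [τ, Equiv.Perm.viaFintypeEmbedding_apply_image]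
    have hτo : ∀ y, y ∉ Set.range c → τ y = y := fun y hy =>
      Equiv.Perm.viaFintypeEmbedding_apply_notMem_range _ _ hy
    have hcard : (insert x Γ).card = k + 1 := by
      rw [Finset.card_insert_of_notMem hx, hΓ]
    have hτs : ∀ y, y ∈ insert x Γ → τ y ∈ insert x Γ := by
      intro y hy
      by_cases hyc : y ∈ Set.range c
      · obtain ⟨i, rfl⟩ := hyc
        rw [hτc]
        exact Finset.mem_insert_of_mem (hcΓ _)
      · rw [hτo y hyc]
        exact hy
    have hτs' : ∀ y, y ∈ insert x Γ ↔ τ y ∈ insert x Γ := by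
      intro y
      refine ⟨hτs y, fun h => ?_⟩
      -- a permutation preserving a finite set preserves its complement
      have himg : (insert x Γ).image τ = insert x Γ := by
        apply Finset.eq_of_subset_of_card_le
        · intro z hz
          obtain ⟨w, hw, rfl⟩ := Finset.mem_image.mp hz
          exact hτs w hw
        · rw [Finset.card_image_of_injective _ τ.injective]
      rw [← himg] at h
      obtain ⟨w, hw, hwy⟩ := Finset.mem_image.mp h
      rwa [← τ.injective hwy]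
    obtain ⟨t, htG, htx⟩ := hgen _ hcard (τ.subtypePerm (fun y => (hτs' y).symm))
    have ht1 : ∀ y (hy : y ∈ insert x Γ), t y = τ y := fun y hy => by
      have := htx ⟨y, hy⟩
      simpa using this
    refine ⟨t, ⟨htG, ⟨1, fun i => ?_⟩, fun y hy hy' => ?_⟩, ?_, fun i => ?_⟩
    · rw [ht1 _ (Finset.mem_insert_of_mem (hcΓ i)), hτc]
    · rw [ht1 _ (Finset.mem_insert_of_mem hy), hτo y hy']
    · rw [ht1 _ (Finset.mem_insert_self _ _), hτo x]
      rintro ⟨i, rfl⟩
      exact hx (hcΓ i)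
    · rw [ht1 _ (Finset.mem_insert_of_mem (hcΓ i)), hτc]
  -- powers of `t`
  have htpow : ∀ t : Equiv.Perm α, (∀ i, t (c i) = c (i + 1)) → ∀ (m : ℕ) i,
      (t ^ m) (c i) = c (i + (m : ZMod p)) := by
    intro t ht' m
    induction m with
    | zero => intro i; simp
    | succ m ih =>
      intro i
      rw [pow_succ, Equiv.Perm.mul_apply, ht', ih]
      congr 1
      push_cast
      ring
  -- decomposition of elements of `N`
  have hdecomp : ∀ x, x ∉ Γ → ∀ g ∈ N, ∃ (m : ℕ) (t : Equiv.Perm α) (u : Equiv.Perm α),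
      t ∈ N ∧ t x = x ∧ u ∈ genFix G Γ ∧ g = t ^ m * u := by
    intro x hx g hg
    obtain ⟨t, htN, htx, htc⟩ := ht x hx
    obtain ⟨j, hj⟩ := hg.2.1
    refine ⟨j.val, t, (t ^ j.val)⁻¹ * g, htN, htx, ⟨G.mul_mem (G.inv_mem (G.pow_mem htN.1 _)) hg.1, ?_⟩,
      by group⟩
    intro y hy
    rw [Equiv.Perm.mul_apply, Equiv.Perm.inv_eq_iff_eq]
    by_cases hyc : y ∈ Set.range c
    · obtain ⟨i, rfl⟩ := hyc
      rw [hj, htpow t htc]
      simp
    · rw [hg.2.2 y hy hyc]
      have : ∀ m : ℕ, (t ^ m) y = y := by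
        intro m
        induction m with
        | zero => simp
        | succ m ih =>
          rw [pow_succ, Equiv.Perm.mul_apply, htN.2.2 y hy hyc, ih]
      rw [this]
  -- orbits of `F` on the points `f i` are `N`-invariant
  have hinv : ∀ x, x ∉ Γ → ∀ g ∈ N, ∀ y ∈ orbit (genFix G Γ) x, g y ∈ orbit (genFix G Γ) x := by
    intro x hx g hg y hy
    obtain ⟨m, t, u, htN, htx, hu, rfl⟩ := hdecomp x hx g hg
    obtain ⟨⟨w, hw⟩, rfl⟩ := hy
    have hconj' : t ^ m * (u * w) * (t ^ m)⁻¹ ∈ genFix G Γ :=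
      hconj _ (N.pow_mem htN m) _ ((genFix G Γ).mul_mem hu hw)
    have htm : ∀ n : ℕ, (t ^ n) x = x := by
      intro n
      induction n with
      | zero => simp
      | succ n ih => rw [pow_succ, Equiv.Perm.mul_apply, htx, ih]
    have htm' : ((t ^ m)⁻¹) x = x := by
      rw [Equiv.Perm.inv_eq_iff_eq, htm]
    refine ⟨⟨_, hconj'⟩, ?_⟩
    show (t ^ m * (u * w) * (t ^ m)⁻¹) x = (t ^ m * u) (w x)
    rw [Equiv.Perm.mul_apply, htm']
    rfl
  -- a Sylow subgroup of `N` and its fixed points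
  obtain ⟨S⟩ : Nonempty (Sylow p N) := inferInstance
  have hSp : IsPGroup p S := S.isPGroup'
  have hfix : ∀ i, ∃ y ∈ orbit (genFix G Γ) (f i), ∀ s : S, ((s : N) : Equiv.Perm α) y = y := by
    intro i
    let D : SubMulAction S α :=
      { carrier := orbit (genFix G Γ) (f i)
        smul_mem' := fun s y hy => hinv (f i) (hf i) _ s.1.2 y hy }
    have hmod := hSp.card_modEq_card_fixedPoints D
    have hcardD : Nat.card D = Nat.card (orbit (genFix G Γ) (f i)) := rfl
    rw [hcardD] at hmod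
    have hne : Nat.card (fixedPoints S D) ≠ 0 := by
      intro h0
      rw [h0] at hmod
      exact hcop i ((Nat.modEq_zero_iff_dvd).mp hmod)
    have hnon : Nonempty (fixedPoints S D) := (Nat.card_ne_zero.mp hne).1
    obtain ⟨⟨y, hy⟩⟩ := hnon
    refine ⟨y.1, y.2, fun s => ?_⟩
    have := hy s
    exact congrArg Subtype.val this
  choose y hyo hyS using hfix
  -- the points `y i`
  have hyΓ : ∀ i, y i ∉ Γ := by
    intro i hi
    obtain ⟨⟨u, hu⟩, hu'⟩ := hyo i
    have h1 : u (f i) = y i := hu'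
    have h2 : u (y i) = y i := hu.2 _ hi
    rw [← h1] at h2
    have := u.injective h2
    exact hf i (by rw [← this, h1]; exact hi)
  have hyinj : Function.Injective y := by
    intro i j hij
    by_contra hne
    apply hdist i j hne
    have e1 := orbit_eq_iff.mpr (hyo i)
    have e2 := orbit_eq_iff.mpr (hyo j)
    rw [hij] at e1
    exact orbit_eq_iff.mp (e2.symm.trans e1)
  -- the new set
  let C : Finset α := Finset.univ.image c
  let Y : Finset α := Finset.univ.image y
  have hCcard : C.card = p := by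
    rw [Finset.card_image_of_injective _ c.injective]
    simp [ZMod.card]
  have hYcard : Y.card = p := by
    rw [Finset.card_image_of_injective _ hyinj]
    simp
  have hCΓ : C ⊆ Γ := by
    intro z hz
    obtain ⟨i, -, rfl⟩ := Finset.mem_image.mp hz
    exact hcΓ i
  have hdisj : Disjoint (Γ \ C) Y := by
    rw [Finset.disjoint_left]
    intro z hz hz'
    obtain ⟨i, -, rfl⟩ := Finset.mem_image.mp hz'
    exact hyΓ i (Finset.mem_sdiff.mp hz).1
  have hΓ'card : ((Γ \ C) ∪ Y).card = k := by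
    rw [Finset.card_union_of_disjoint hdisj, hYcard, Finset.card_sdiff_of_subset hCΓ, hCcard, hΓ]
    omega
  have hcardF : Nat.card (genFix G ((Γ \ C) ∪ Y)) = Nat.card (genFix G Γ) :=
    genFix_card G hgen _ _ hΓ'card hΓ
  -- `S` lies in the stabiliser of the new set
  have hSle : ((S : Subgroup N).map N.subtype) ≤ genFix G ((Γ \ C) ∪ Y) := by
    rintro g ⟨s, hs, rfl⟩
    refine ⟨s.2.1, fun z hz => ?_⟩
    rcases Finset.mem_union.mp hz with hz | hz
    · rw [Finset.mem_sdiff] at hz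
      exact s.2.2.2 z hz.1 (fun ⟨i, hi⟩ => hz.2 (Finset.mem_image.mpr ⟨i, Finset.mem_univ _, hi⟩))
    · obtain ⟨i, -, rfl⟩ := Finset.mem_image.mp hz
      exact hyS i ⟨s, hs⟩
  have hdvd : Nat.card S ∣ Nat.card (genFix G Γ) := by
    rw [← hcardF]
    have := Subgroup.card_dvd_of_le hSle
    rwa [Subgroup.card_map_of_injective (Subgroup.subtype_injective _)] at this
  -- the order of `N`
  have h0 : ∃ x, x ∉ Γ := ⟨f ⟨0, hpos⟩, hf _⟩
  obtain ⟨x₀, hx₀⟩ := h0
  obtain ⟨t, htN, -, htc⟩ := ht x₀ hx₀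
  have horb : orbit N (c 0) = Set.range c := by
    ext z
    constructor
    · rintro ⟨⟨g, hg⟩, rfl⟩
      obtain ⟨j, hj⟩ := hg.2.1
      exact ⟨0 + j, (hj 0).symm⟩
    · rintro ⟨i, rfl⟩
      refine ⟨⟨t ^ i.val, N.pow_mem htN _⟩, ?_⟩
      show (t ^ i.val) (c 0) = c i
      rw [htpow t htc]
      simp
  have hcardorb : Nat.card (orbit N (c 0)) = p := by
    rw [horb, Nat.card_coe_set_eq, Set.ncard_range_of_injective c.injective] 
    simp
  have hstab : Nat.card (stabilizer N (c 0)) = Nat.card (genFix G Γ) := by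
    refine Nat.card_congr ⟨fun x => ⟨x.1.1, x.1.2.1, fun z hz => ?_⟩,
      fun y => ⟨⟨y.1, y.2.1, ?_, ?_⟩, ?_⟩, ?_, ?_⟩
    · obtain ⟨⟨g, hg⟩, hg'⟩ := x
      have hg0 : g (c 0) = c 0 := hg'
      obtain ⟨j, hj⟩ := hg.2.1
      have hj0 : j = 0 := by
        have := hj 0
        rw [hg0] at this
        have := c.injective this
        simpa using this.symm
      by_cases hzc : z ∈ Set.range c
      · obtain ⟨i, rfl⟩ := hzc
        show g (c i) = c i
        rw [hj, hj0, add_zero]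
      · exact hg.2.2 z hz hzc
    · exact ⟨0, fun i => by rw [add_zero]; exact y.2.2 _ (hcΓ i)⟩
    · exact fun z hz _ => y.2.2 z hz
    · exact y.2.2 _ (hcΓ 0)
    · intro x; rfl
    · intro y; rfl
  have hcardN := card_orbit_mul_card_stabilizer (K := N) (c 0)
  rw [hcardorb, hstab] at hcardN
  have hFpos : Nat.card (genFix G Γ) ≠ 0 := Nat.card_pos.ne'
  have hS := Sylow.card_eq_multiplicity S
  rw [hS, ← hcardN, Nat.factorization_mul hp.ne_zero hFpos] at hdvd
  simp only [Finsupp.coe_add, Pi.add_apply, hp.factorization_self] at hdvd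
  rw [add_comm] at hdvd
  exact Nat.pow_succ_factorization_not_dvd hFpos hp hdvd

/-- The statement. -/
theorem generous_orbits (G : Subgroup (Equiv.Perm α)) {k : ℕ}
    (hgen : ∀ s : Finset α, s.card = k + 1 → ∀ σ : Equiv.Perm ↥s, ∃ g ∈ G, ∀ x : ↥s, g (x : α) = σ x)
    {p : ℕ} (hp : p.Prime) (hpk : p ≤ k) (Γ : Finset α) (hΓ : Γ.card = k) (f : Fin p → α)
    (hf : ∀ i, f i ∉ Γ)
    (hdist : ∀ i j, i ≠ j → f j ∉ orbit (fixingSubgroup G (Γ : Set α)) (f i)) :
    ∃ i, p ∣ Nat.card (orbit (fixingSubgroup G (Γ : Set α)) (f i)) := by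
  haveI : Fact p.Prime := ⟨hp⟩
  have horb : ∀ x : α, orbit (fixingSubgroup G (Γ : Set α)) x = orbit (genFix G Γ) x := by
    intro x
    ext z
    constructor
    · rintro ⟨⟨g, hg⟩, rfl⟩
      refine ⟨⟨g.1, g.2, fun w hw => ?_⟩, rfl⟩
      have := (mem_fixingSubgroup_iff G).mp hg w (by simpa using hw)
      exact this
    · rintro ⟨⟨g, hg, hg'⟩, rfl⟩
      refine ⟨⟨⟨g, hg⟩, (mem_fixingSubgroup_iff G).mpr fun w hw => hg' w (by simpa using hw)⟩, rfl⟩
  by_contra hcon
  push Not at hcon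
  refine gen_core G hgen hpk Γ hΓ f hf (fun i j hij => ?_) (fun i => ?_)
  · rw [← horb]; exact hdist i j hij
  · rw [← horb]; exact hcon i

end Cfsg.Agent.Lib.Perm
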