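import Mathlib

/-! `k`-homogeneous groups are `(k-1)`-homogeneous, given a lower bound on the degree. -/

set_option autoImplicit false

namespace Cfsg.Agent.Lib.Perm

open MulAction
open scoped Pointwise

/-- A binomial coefficient modulo `p`, by Lucas' theorem. -/
theorem choose_pow_modEq_one {p : ℕ} [Fact p.Prime] (a : ℕ) :
    ∀ t, (p ^ a * t + p ^ a - 1).choose (p ^ a - 1) ≡ 1 [MOD p] := by
  have hp : p.Prime := Fact.out
  induction a with
  | zero =>
    intro t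
    simp
    rfl
  | succ a ih =>
    intro t
    have hpos : 0 < p ^ a := pow_pos hp.pos a
    have h1 : p ^ (a + 1) * t + p ^ (a + 1) - 1 = p * (p ^ a * t + p ^ a - 1) + (p - 1) := by
      have h2 : 1 ≤ p ^ a * t + p ^ a := by omega
      have h3 := hp.pos
      obtain ⟨u, hu⟩ : ∃ u, p ^ a * t + p ^ a = u + 1 := ⟨p ^ a * t + p ^ a - 1, by omega⟩
      obtain ⟨v, hv⟩ : ∃ v, p = v + 1 := ⟨p - 1, by omega⟩
      have h4 : p ^ (a + 1) * t + p ^ (a + 1) = p * (p ^ a * t + p ^ a) := by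
        rw [pow_succ]
        ring
      rw [h4, hu]
      simp only [Nat.add_sub_cancel]
      rw [hv]
      simp only [Nat.add_sub_cancel]
      ring_nf
      omega
    have h5 : p ^ (a + 1) - 1 = p * (p ^ a - 1) + (p - 1) := by
      have h3 := hp.pos
      obtain ⟨u, hu⟩ : ∃ u, p ^ a = u + 1 := ⟨p ^ a - 1, by omega⟩
      obtain ⟨v, hv⟩ : ∃ v, p = v + 1 := ⟨p - 1, by omega⟩
      have h4 : p ^ (a + 1) = p * p ^ a := by rw [pow_succ]; ring
      rw [h4, hu]
      simp only [Nat.add_sub_cancel]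
      rw [hv]
      simp only [Nat.add_sub_cancel]
      ring_nf
      omega
    have hmod : ∀ m, (p * m + (p - 1)) % p = p - 1 := by
      intro m
      rw [Nat.mul_add_mod, Nat.mod_eq_of_lt (by have := hp.pos; omega)]
    have hdiv : ∀ m, (p * m + (p - 1)) / p = m := by
      intro m
      rw [Nat.mul_add_div hp.pos, Nat.div_eq_of_lt (by have := hp.pos; omega), add_zero]
    rw [h1, h5]
    refine Choose.choose_modEq_choose_mod_mul_choose_div_nat.trans ?_
    rw [hmod, hmod, hdiv, hdiv, Nat.choose_self, one_mul]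
    exact ih t

theorem not_dvd_choose {p a k : ℕ} (hp : p.Prime) (hq : p ^ a ∣ k) :
    ¬ p ∣ (k + p ^ a - 1).choose (p ^ a - 1) := by
  haveI : Fact p.Prime := ⟨hp⟩
  obtain ⟨t, rfl⟩ := hq
  have h1 := choose_pow_modEq_one (p := p) a t
  intro h2
  have h3 : (p ^ a * t + p ^ a - 1).choose (p ^ a - 1) % p = 0 := Nat.mod_eq_zero_of_dvd h2
  have h4 : (1 : ℕ) % p = 1 := Nat.mod_eq_of_lt hp.one_lt
  have h5 : (p ^ a * t + p ^ a - 1).choose (p ^ a - 1) % p = 1 % p := h1
  omega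

variable {α : Type*} [Fintype α] [DecidableEq α]

/-- The combinatorial part. -/
theorem homog_counting (𝒜 : Finset (Finset α)) {k c q : ℕ} (hk : 1 ≤ k) (h𝒜 : ∀ Γ ∈ 𝒜, Γ.card = k - 1)
    (hc : ∀ Δ : Finset α, Δ.card = k → (𝒜.filter (fun Γ => Γ ⊆ Δ)).card = c)
    (S : Finset α) (hS : S.card = k + q - 1) (hq : 1 ≤ q) :
    q ∣ c * (k + q - 1).choose k := by
  classical
  let t := 𝒜.filter (fun Γ => Γ ⊆ S)
  have hdc := Finset.sum_card_bipartiteAbove_eq_sum_card_bipartiteBelow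
    (s := Finset.powersetCard k S) (t := t) (fun Δ Γ => Γ ⊆ Δ)
  have hL : ∑ Δ ∈ Finset.powersetCard k S, (Finset.bipartiteAbove (fun Δ Γ => Γ ⊆ Δ) t Δ).card
      = (k + q - 1).choose k * c := by
    rw [Finset.sum_const_nat (m := c), Finset.card_powersetCard, hS]
    intro Δ hΔ
    rw [Finset.mem_powersetCard] at hΔ
    rw [← hc Δ hΔ.2]
    congr 1
    ext Γ
    simp only [Finset.bipartiteAbove, t, Finset.mem_filter]
    constructor
    · rintro ⟨⟨h1, -⟩, h2⟩
      exact ⟨h1, h2⟩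
    · rintro ⟨h1, h2⟩
      exact ⟨⟨h1, h2.trans hΔ.1⟩, h2⟩
  have hR : ∑ Γ ∈ t, (Finset.bipartiteBelow (fun Δ Γ => Γ ⊆ Δ) (Finset.powersetCard k S) Γ).card
      = t.card * q := by
    rw [Finset.sum_const_nat (m := q)]
    intro Γ hΓ
    rw [Finset.mem_filter] at hΓ
    have hcardΓ := h𝒜 Γ hΓ.1
    have hsd : (S \ Γ).card = q := by
      rw [Finset.card_sdiff_of_subset hΓ.2, hS, hcardΓ]
      omega
    rw [← hsd]
    symm
    apply Finset.card_bij (fun x _ => insert x Γ)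
    · intro x hx
      rw [Finset.mem_sdiff] at hx
      simp only [Finset.bipartiteBelow, Finset.mem_filter, Finset.mem_powersetCard]
      refine ⟨⟨Finset.insert_subset hx.1 hΓ.2, ?_⟩, Finset.subset_insert _ _⟩
      rw [Finset.card_insert_of_notMem hx.2, hcardΓ]
      omega
    · intro x hx y hy hxy
      rw [Finset.mem_sdiff] at hx hy
      have : x ∈ insert y Γ := by
        rw [← hxy]
        exact Finset.mem_insert_self _ _
      rcases Finset.mem_insert.mp this with h | h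
      · exact h
      · exact absurd h hx.2
    · intro Δ hΔ
      simp only [Finset.bipartiteBelow, Finset.mem_filter, Finset.mem_powersetCard] at hΔ
      have h1 : (Δ \ Γ).card = 1 := by
        rw [Finset.card_sdiff_of_subset hΔ.2, hΔ.1.2, hcardΓ]
        omega
      obtain ⟨x, hx⟩ := Finset.card_eq_one.mp h1
      have hxm : x ∈ Δ \ Γ := by rw [hx]; exact Finset.mem_singleton_self _
      rw [Finset.mem_sdiff] at hxm
      refine ⟨x, Finset.mem_sdiff.mpr ⟨hΔ.1.1 hxm.1, hxm.2⟩, ?_⟩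
      ext y
      simp only [Finset.mem_insert]
      constructor
      · rintro (rfl | h)
        · exact hxm.1
        · exact hΔ.2 h
      · intro h
        by_cases hy : y ∈ Γ
        · exact Or.inr hy
        · left
          have : y ∈ Δ \ Γ := Finset.mem_sdiff.mpr ⟨h, hy⟩
          rw [hx] at this
          exact Finset.mem_singleton.mp this
  rw [hL, hR] at hdc
  rw [mul_comm]
  exact ⟨t.card, by rw [hdc]; ring⟩

/-- S0736. -/
theorem homog_down (G : Subgroup (Equiv.Perm α)) {k : ℕ} (hk : 2 ≤ k)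
    (hG : IsPretransitive G (Set.powersetCard α k))
    (hq : ∀ q : ℕ, IsPrimePow q → q ∣ k → k + q - 1 ≤ Fintype.card α) :
    IsPretransitive G (Set.powersetCard α (k - 1)) := by
  classical
  -- `k` is smaller than the degree
  have hkn : k < Fintype.card α := by
    obtain ⟨p, hp, hpk⟩ := Nat.exists_prime_and_dvd (by omega : k ≠ 1)
    have := hq p hp.isPrimePow hpk
    have := hp.two_le
    omega
  obtain ⟨Γ₀, hΓ₀⟩ : ∃ Γ₀ : Finset α, Γ₀.card = k - 1 :=
    Finset.exists_subset_card_eq (s := Finset.univ) (by rw [Finset.card_univ]; omega) |>.imp fun _ h => h.2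
  -- the orbit
  let 𝒜 : Finset (Finset α) := Finset.univ.filter (fun Γ => ∃ g : G, Γ = g • Γ₀)
  have h𝒜 : ∀ Γ, Γ ∈ 𝒜 ↔ ∃ g : G, Γ = g • Γ₀ := fun Γ => by simp [𝒜]
  have h𝒜card : ∀ Γ ∈ 𝒜, Γ.card = k - 1 := by
    intro Γ hΓ
    obtain ⟨g, rfl⟩ := (h𝒜 Γ).mp hΓ
    rw [Finset.card_smul_finset, hΓ₀]
  -- the number of orbit members in a `k`-set
  have hinv : ∀ (g : G) (Δ : Finset α), (𝒜.filter (fun Γ => Γ ⊆ g • Δ)).card = (𝒜.filter (fun Γ => Γ ⊆ Δ)).card := by
    intro g Δ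
    symm
    apply Finset.card_bij (fun Γ _ => g • Γ)
    · intro Γ hΓ
      rw [Finset.mem_filter] at hΓ ⊢
      refine ⟨?_, Finset.smul_finset_subset_smul_finset_iff.mpr hΓ.2⟩
      obtain ⟨g', rfl⟩ := (h𝒜 Γ).mp hΓ.1
      exact (h𝒜 _).mpr ⟨g * g', (mul_smul _ _ _).symm⟩
    · intro Γ₁ _ Γ₂ _ h
      exact smul_left_cancel g h
    · intro Γ hΓ
      rw [Finset.mem_filter] at hΓ
      refine ⟨g⁻¹ • Γ, ?_, smul_inv_smul g Γ⟩
      rw [Finset.mem_filter]
      constructor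
      · obtain ⟨g', rfl⟩ := (h𝒜 Γ).mp hΓ.1
        exact (h𝒜 _).mpr ⟨g⁻¹ * g', (mul_smul _ _ _).symm⟩
      · rw [← Finset.smul_finset_subset_smul_finset_iff (a := g), smul_inv_smul]
        exact hΓ.2
  obtain ⟨x₀, hx₀⟩ : ∃ x, x ∉ Γ₀ := by
    by_contra hcon
    push Not at hcon
    have : Γ₀ = Finset.univ := Finset.eq_univ_iff_forall.mpr hcon
    rw [this, Finset.card_univ] at hΓ₀
    omega
  let Δ₀ : Finset α := insert x₀ Γ₀
  have hΔ₀ : Δ₀.card = k := by
    rw [Finset.card_insert_of_notMem hx₀, hΓ₀]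
    omega
  set c := (𝒜.filter (fun Γ => Γ ⊆ Δ₀)).card with hc
  have hcall : ∀ Δ : Finset α, Δ.card = k → (𝒜.filter (fun Γ => Γ ⊆ Δ)).card = c := by
    intro Δ hΔ
    obtain ⟨g, hg⟩ := hG.exists_smul_eq (⟨Δ₀, hΔ₀⟩ : Set.powersetCard α k) ⟨Δ, hΔ⟩
    have h1 : g • Δ₀ = Δ := by
      have h0 : ((g • (⟨Δ₀, hΔ₀⟩ : Set.powersetCard α k) : Set.powersetCard α k) : Finset α) = g • Δ₀ :=
        Set.powersetCard.coe_smul
      rw [← h0]
      exact congrArg Subtype.val hg
    rw [← h1, hinv]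
  have hc0 : c ≠ 0 := by
    rw [hc]
    apply Finset.card_ne_zero_of_mem (a := Γ₀)
    rw [Finset.mem_filter]
    exact ⟨(h𝒜 _).mpr ⟨1, (one_smul _ _).symm⟩, Finset.subset_insert _ _⟩
  have hcle : c ≤ k := by
    have hsub : 𝒜.filter (fun Γ => Γ ⊆ Δ₀) ⊆ Finset.powersetCard (k - 1) Δ₀ := by
      intro Γ hΓ
      rw [Finset.mem_filter] at hΓ
      exact Finset.mem_powersetCard.mpr ⟨hΓ.2, h𝒜card Γ hΓ.1⟩
    have := Finset.card_le_card hsub
    rw [Finset.card_powersetCard, hΔ₀] at this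
    have h3 : k.choose (k - 1) = k := by
      rw [Nat.choose_symm (by omega : 1 ≤ k), Nat.choose_one_right]
    omega
  have hdvd : k ∣ c := by
    refine (Nat.factorization_prime_le_iff_dvd (by omega) hc0).mp fun p hp => ?_
    by_cases hpk : p ∣ k
    · set a := k.factorization p with ha
      have ha0 : a ≠ 0 := by
        have := (hp.dvd_iff_one_le_factorization (by omega)).mp hpk
        omega
      have hqk : p ^ a ∣ k := Nat.ordProj_dvd k p
      have hqpp : IsPrimePow (p ^ a) := hp.isPrimePow.pow ha0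
      have hle := hq _ hqpp hqk
      have hq1 : 1 ≤ p ^ a := Nat.one_le_pow _ _ hp.pos
      obtain ⟨S, -, hS⟩ := Finset.exists_subset_card_eq (s := (Finset.univ : Finset α))
        (n := k + p ^ a - 1) (by rw [Finset.card_univ]; exact hle)
      have h1 := homog_counting 𝒜 (by omega) h𝒜card hcall S hS hq1
      have h2 : (k + p ^ a - 1).choose k = (k + p ^ a - 1).choose (p ^ a - 1) :=
        Nat.choose_symm_of_eq_add (by omega)
      rw [h2] at h1
      have h3 := not_dvd_choose hp hqk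
      have h4 : Nat.Coprime (p ^ a) ((k + p ^ a - 1).choose (p ^ a - 1)) :=
        Nat.Coprime.pow_left a ((Nat.Prime.coprime_iff_not_dvd hp).mpr h3)
      have h5 := h4.dvd_of_dvd_mul_right h1
      exact (hp.pow_dvd_iff_le_factorization hc0).mp h5
    · rw [Nat.factorization_eq_zero_of_not_dvd hpk]
      exact Nat.zero_le _
  have hck : c = k := le_antisymm hcle (Nat.le_of_dvd (Nat.pos_of_ne_zero hc0) hdvd)
  have hall : ∀ Γ : Finset α, Γ.card = k - 1 → Γ ∈ 𝒜 := by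
    intro Γ hΓ
    obtain ⟨x, hx⟩ : ∃ x, x ∉ Γ := by
      by_contra hcon
      push Not at hcon
      have : Γ = Finset.univ := Finset.eq_univ_iff_forall.mpr hcon
      rw [this, Finset.card_univ] at hΓ
      omega
    have hΔ : (insert x Γ).card = k := by
      rw [Finset.card_insert_of_notMem hx, hΓ]
      omega
    have hsub : 𝒜.filter (fun Γ' => Γ' ⊆ insert x Γ) ⊆ Finset.powersetCard (k - 1) (insert x Γ) := by
      intro Γ' hΓ'
      rw [Finset.mem_filter] at hΓ'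
      exact Finset.mem_powersetCard.mpr ⟨hΓ'.2, h𝒜card Γ' hΓ'.1⟩
    have heq := Finset.eq_of_subset_of_card_le hsub (by
      rw [hcall _ hΔ, hck, Finset.card_powersetCard, hΔ,
        Nat.choose_symm (by omega : 1 ≤ k), Nat.choose_one_right])
    have hmem : Γ ∈ Finset.powersetCard (k - 1) (insert x Γ) :=
      Finset.mem_powersetCard.mpr ⟨Finset.subset_insert _ _, hΓ⟩
    rw [← heq, Finset.mem_filter] at hmem
    exact hmem.1
  refine ⟨fun Γ₁ Γ₂ => ?_⟩
  obtain ⟨g₁, hg₁⟩ := (h𝒜 _).mp (hall Γ₁.1 Γ₁.2)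
  obtain ⟨g₂, hg₂⟩ := (h𝒜 _).mp (hall Γ₂.1 Γ₂.2)
  refine ⟨g₂ * g₁⁻¹, Subtype.ext ?_⟩
  have h0 : (((g₂ * g₁⁻¹) • Γ₁ : Set.powersetCard α (k - 1)) : Finset α) = (g₂ * g₁⁻¹) • (Γ₁ : Finset α) :=
    Set.powersetCard.coe_smul
  show (((g₂ * g₁⁻¹) • Γ₁ : Set.powersetCard α (k - 1)) : Finset α) = Γ₂.1
  rw [h0]
  show (g₂ * g₁⁻¹) • Γ₁.1 = Γ₂.1
  rw [hg₁, hg₂, smul_smul, inv_mul_cancel_right]

end Cfsg.Agent.Lib.Perm
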