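import Mathlib

/-!
Basic tools for the Livingstone–Wagner theorem: realised position permutations of tuples,
dihedral tricks for involutions, a combinatorial lemma on transpositions.
-/

set_option autoImplicit false

namespace Cfsg.Agent.Lib.Perm

open MulAction Equiv

section TupM
variable (G : Type*) [Group G] {α β : Type*} [MulAction G α]

/-- The permutations of positions of a tuple that are realised by group elements. -/
def tupM (x : β ↪ α) : Subgroup (Perm β) where
  carrier := {σ | ∃ g : G, ∀ i, g • x i = x (σ i)}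
  mul_mem' := by
    rintro σ τ ⟨g, hg⟩ ⟨h, hh⟩
    refine ⟨g * h, fun i => ?_⟩
    rw [mul_smul, hh, hg, Perm.mul_apply]
  one_mem' := ⟨1, fun i => by simp⟩
  inv_mem' := by
    rintro σ ⟨g, hg⟩
    refine ⟨g⁻¹, fun i => ?_⟩
    rw [inv_smul_eq_iff, hg]
    simp

variable {G}

theorem mem_tupM {x : β ↪ α} {σ : Perm β} :
    σ ∈ tupM G x ↔ ∃ g : G, ∀ i, g • x i = x (σ i) := Iff.rfl

/-- A group element preserving the range of a tuple realises a position permutation. -/
theorem tup_perm_of_preserve [Finite β] (x : β ↪ α) (g : G) (h : ∀ i, ∃ j, g • x i = x j) :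
    ∃ σ : Perm β, ∀ i, g • x i = x (σ i) := by
  choose f hf using h
  have hinj : Function.Injective f := by
    intro i j hij
    apply x.injective
    have : g • x i = g • x j := by rw [hf, hf, hij]
    exact smul_left_cancel g this
  exact ⟨Equiv.ofBijective f (Finite.injective_iff_bijective.mp hinj), hf⟩

/-- Transfer of a realised permutation along an orbit-and-permutation relation. -/
theorem tup_transfer {x y : β ↪ α} {g : G} {ρ : Perm β} (h : ∀ i, g • x i = y (ρ i))
    {σ : Perm β} (hσ : σ ∈ tupM G x) : ρ * σ * ρ⁻¹ ∈ tupM G y := by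
  obtain ⟨s, hs⟩ := hσ
  refine ⟨g * s * g⁻¹, fun j => ?_⟩
  have h1 : y j = g • x (ρ⁻¹ j) := by rw [h]; simp
  rw [h1, mul_smul, mul_smul, inv_smul_smul, hs, h]
  simp

end TupM

section Dihedral

variable {G : Type*} [Group G]

/-- Two involutions whose product has odd order are conjugate by a power of the product. -/
theorem dihedral_conj (u u' : G) (hu : u ^ 2 = 1) (hu' : u' ^ 2 = 1) (l : ℕ)
    (hr : (u * u') ^ (2 * l + 1) = 1) :
    (u * u') ^ l * u * ((u * u') ^ l)⁻¹ = u' := by
  set r := u * u' with hrdef
  have hui : u⁻¹ = u := by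
    rw [inv_eq_iff_mul_eq_one, ← pow_two, hu]
  have hui' : u'⁻¹ = u' := by
    rw [inv_eq_iff_mul_eq_one, ← pow_two, hu']
  have hrinv : r⁻¹ = u' * u := by
    rw [hrdef, mul_inv_rev, hui, hui']
  have h1 : u * (r ^ l)⁻¹ = r ^ l * u := by
    have huu : u * u = 1 := by rw [← pow_two, hu]
    have hs2 : SemiconjBy u r⁻¹ r := by
      unfold SemiconjBy
      rw [hrinv, hrdef]
      exact (mul_assoc u u' u).symm
    have := (hs2.pow_right l).eq
    rw [inv_pow] at this
    exact this
  calc r ^ l * u * (r ^ l)⁻¹ = r ^ l * (u * (r ^ l)⁻¹) := by group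
    _ = r ^ l * (r ^ l * u) := by rw [h1]
    _ = r ^ (2 * l) * u := by rw [two_mul, pow_add, mul_assoc]
    _ = r⁻¹ * u := by
      congr 1
      rw [eq_inv_iff_mul_eq_one, ← pow_succ, hr]
    _ = u' := by
      rw [hrinv, mul_assoc, ← pow_two, hu, mul_one]

/-- If `c` is an involution and `u` an involution such that `r = u * (c u c)` has odd order, then
`r ^ l * u` is an involution commuting with `c`. -/
theorem dihedral_comm (u c : G) (hu : u ^ 2 = 1) (hc : c ^ 2 = 1) (l : ℕ)
    (hr : (u * (c * u * c)) ^ (2 * l + 1) = 1) :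
    ((u * (c * u * c)) ^ l * u) ^ 2 = 1 ∧
      c * ((u * (c * u * c)) ^ l * u) = ((u * (c * u * c)) ^ l * u) * c := by
  set u' := c * u * c with hu'def
  set r := u * u' with hrdef
  have hui : u⁻¹ = u := by
    rw [inv_eq_iff_mul_eq_one, ← pow_two, hu]
  have hci : c⁻¹ = c := by
    rw [inv_eq_iff_mul_eq_one, ← pow_two, hc]
  have hcc : c * c = 1 := by rw [← pow_two, hc]
  have huu : u * u = 1 := by rw [← pow_two, hu]
  have hu'2 : u' * u' = 1 := by
    rw [hu'def]
    calc c * u * c * (c * u * c) = c * u * (c * c) * u * c := by group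
      _ = 1 := by rw [hcc, mul_one, mul_assoc c u u, huu, mul_one, hcc]
  have hu'i : u'⁻¹ = u' := by
    rw [inv_eq_iff_mul_eq_one, hu'2]
  have hrinv : r⁻¹ = u' * u := by
    rw [hrdef, mul_inv_rev, hui, hu'i]
  have hur : u * r = r⁻¹ * u := by
    rw [hrinv, hrdef, ← mul_assoc, huu, one_mul, mul_assoc, huu, mul_one]
  have hcr : c * r * c = r⁻¹ := by
    rw [hrinv, hrdef, hu'def]
    calc c * (u * (c * u * c)) * c = c * u * (c * u * (c * c)) := by group
      _ = c * u * c * u := by rw [hcc, mul_one]; group
  have hcrl : ∀ n : ℕ, c * r ^ n * c = (r⁻¹) ^ n := by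
    intro n
    have hs : SemiconjBy c r r⁻¹ := by
      unfold SemiconjBy
      calc c * r = (c * r * c) * c := by rw [mul_assoc, mul_assoc, hcc, mul_one]
        _ = r⁻¹ * c := by rw [hcr]
    have := (hs.pow_right n).eq
    rw [this, mul_assoc, hcc, mul_one]
  have hur_pow : ∀ n : ℕ, u * r ^ n = (r⁻¹) ^ n * u := fun n => by
    have hs : SemiconjBy u r r⁻¹ := hur
    exact (hs.pow_right n).eq
  have h1 : r ^ (2 * l) * r = 1 := by rw [← pow_succ]; exact hr
  have hrl : (r⁻¹) ^ l = r ^ (l + 1) := by
    rw [inv_pow, inv_eq_iff_mul_eq_one, ← pow_add]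
    rw [show l + (l + 1) = 2 * l + 1 by ring]; exact hr
  constructor
  · rw [pow_two]
    calc r ^ l * u * (r ^ l * u) = r ^ l * (u * r ^ l) * u := by group
      _ = r ^ l * ((r⁻¹) ^ l * u) * u := by rw [hur_pow]
      _ = 1 := by
        rw [inv_pow, mul_assoc, mul_assoc, huu, mul_one, mul_inv_cancel]
  · have hk : c * (r ^ l * u) * c = r ^ l * u := by
      calc c * (r ^ l * u) * c = (c * r ^ l * c) * (c * u * c) := by
            simp only [mul_assoc]
            rw [← mul_assoc c c, hcc, one_mul]
        _ = (r⁻¹) ^ l * u' := by rw [hcrl]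
        _ = (r⁻¹) ^ l * (u * r) := by
            rw [hrdef, ← mul_assoc u u, huu, one_mul]
        _ = (r⁻¹) ^ l * (r⁻¹ * u) := by rw [hur]
        _ = (r⁻¹) ^ (l + 1) * u := by rw [pow_succ, mul_assoc]
        _ = r ^ l * u := by
            congr 1
            rw [inv_pow, inv_eq_iff_mul_eq_one, ← pow_add]
            rw [show l + 1 + l = 2 * l + 1 by ring]; exact hr
    calc c * (r ^ l * u) = (c * (r ^ l * u) * c) * c := by
          rw [mul_assoc (c * _), hcc, mul_one]
      _ = r ^ l * u * c := by rw [hk]

/-- A group of even order with an involutive operation fixing the identity and preserving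
the elements of order at most two has a nontrivial element of order two fixed by it. -/
theorem exists_fixed_involution {A : Type*} [Group A] [Finite A] (heven : Even (Nat.card A))
    (φ : A → A) (hφ : ∀ y, φ (φ y) = y) (hφ1 : φ 1 = 1) (hφ2 : ∀ y, y ^ 2 = 1 → φ y ^ 2 = 1) :
    ∃ y, y ≠ 1 ∧ y ^ 2 = 1 ∧ φ y = y := by
  classical
  haveI : Fact (Nat.Prime 2) := ⟨Nat.prime_two⟩
  haveI : Fintype A := Fintype.ofFinite A
  -- the elements of order at most two
  let I := {y : A // y ^ 2 = 1}
  have h1 : Fintype.card A ≡ Fintype.card I [MOD 2] := by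
    let f : Function.End A := fun y => y⁻¹
    have hf : f ^ 2 ^ 1 = 1 := by
      funext y
      change y⁻¹⁻¹ = y
      simp
    have h := Equiv.Perm.card_fixedPoints_modEq (f := f) (p := 2) (n := 1) hf
    have h2 : Fintype.card (Function.fixedPoints f) = Fintype.card I := by
      refine Fintype.card_congr ⟨fun y => ⟨y.1, ?_⟩, fun y => ⟨y.1, ?_⟩, fun _ => rfl, fun _ => rfl⟩
      · have : y.1⁻¹ = y.1 := y.2
        rw [pow_two]
        nth_rewrite 1 [← this]
        simp
      · change y.1⁻¹ = y.1
        rw [inv_eq_iff_mul_eq_one, ← pow_two]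
        exact y.2
    rw [h2] at h
    exact h
  let f' : Function.End I := fun y => ⟨φ y.1, hφ2 y.1 y.2⟩
  have hf' : f' ^ 2 ^ 1 = 1 := by
    funext y
    apply Subtype.ext
    change φ (φ y.1) = y.1
    exact hφ _
  have h2 := Equiv.Perm.card_fixedPoints_modEq (f := f') (p := 2) (n := 1) hf'
  have hev : Fintype.card (Function.fixedPoints f') % 2 = 0 := by
    have h3 := (h1.trans h2)
    have h4 : Fintype.card A % 2 = 0 := by
      rw [← Nat.card_eq_fintype_card]; exact Nat.even_iff.mp heven
    unfold Nat.ModEq at h3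
    omega
  let one' : Function.fixedPoints f' := ⟨⟨1, one_pow 2⟩, by
    change f' _ = _
    apply Subtype.ext
    exact hφ1⟩
  have hpos : 0 < Fintype.card (Function.fixedPoints f') := Fintype.card_pos_iff.mpr ⟨one'⟩
  have hgt : 1 < Fintype.card (Function.fixedPoints f') := by omega
  obtain ⟨y, hy⟩ := Fintype.exists_ne_of_one_lt_card hgt one'
  refine ⟨y.1.1, ?_, y.1.2, ?_⟩
  · intro h
    apply hy
    apply Subtype.ext
    apply Subtype.ext
    exact h
  · have := y.2
    exact congrArg Subtype.val this

end Dihedral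

section Kneser

variable {β : Type*} [Fintype β] [DecidableEq β]

/-- Connectivity of the Kneser graph of pairs on at least five points. -/
theorem kneser_closed (hβ : 5 ≤ Fintype.card β) (P : β → β → Prop)
    (hP : ∀ u v k l : β, u ≠ v → k ≠ l → u ≠ k → u ≠ l → v ≠ k → v ≠ l → P u v → P k l)
    {a b : β} (hab : a ≠ b) (h : P a b) : ∀ k l : β, k ≠ l → P k l := by
  intro k l hkl
  by_cases hd : a ≠ k ∧ a ≠ l ∧ b ≠ k ∧ b ≠ l
  · exact hP a b k l hab hkl hd.1 hd.2.1 hd.2.2.1 hd.2.2.2 h
  · -- the union of the two pairs has at most three elements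
    have hcard : (({a, b, k, l} : Finset β)).card ≤ 3 := by
      have : ({a, b, k, l} : Finset β) = {a, b, k} ∨ ({a, b, k, l} : Finset β) = {a, b, l} := by
        by_cases h1 : a = k
        · right; subst h1; ext z; simp only [Finset.mem_insert, Finset.mem_singleton]; tauto
        by_cases h2 : a = l
        · left; subst h2; ext z; simp only [Finset.mem_insert, Finset.mem_singleton]; tauto
        by_cases h3 : b = k
        · right; subst h3; ext z; simp only [Finset.mem_insert, Finset.mem_singleton]; tauto
        by_cases h4 : b = l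
        · left; subst h4; ext z; simp only [Finset.mem_insert, Finset.mem_singleton]; tauto
        exact absurd ⟨h1, h2, h3, h4⟩ hd
      rcases this with e | e <;> rw [e] <;> exact Finset.card_le_three
    have hlt : 2 ≤ (({a, b, k, l} : Finset β)ᶜ).card := by
      rw [Finset.card_compl]; omega
    obtain ⟨p, hp, q, hq, hpq⟩ := Finset.one_lt_card.mp hlt
    simp only [Finset.mem_compl, Finset.mem_insert, Finset.mem_singleton, not_or] at hp hq
    have h1 : P p q := hP a b p q hab hpq (Ne.symm hp.1) (Ne.symm hq.1) (Ne.symm hp.2.1)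
      (Ne.symm hq.2.1) h
    exact hP p q k l hpq hkl hp.2.2.1 hp.2.2.2 hq.2.2.1 hq.2.2.2 h1

/-- A subgroup containing all transpositions is everything. -/
theorem perm_top_of_swaps (M : Subgroup (Perm β)) (h : ∀ k l : β, k ≠ l → swap k l ∈ M) :
    M = ⊤ := by
  rw [eq_top_iff]
  intro σ _
  induction σ using Equiv.Perm.swap_induction_on with
  | one => exact M.one_mem
  | swap_mul f x y hxy hf => exact M.mul_mem (h x y hxy) (hf trivial)

/-- A subgroup of a symmetric group containing a transposition and a fixed-point free involution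
on every 4-subset is everything. -/
theorem perm_top_of_swap_double (hβ : 5 ≤ Fintype.card β) (M : Subgroup (Perm β)) {a b : β}
    (hab : a ≠ b) (hsw : swap a b ∈ M)
    (hδ : ∀ B : Finset β, B.card = 4 → ∃ σ ∈ M, σ ^ 2 = 1 ∧ (∀ i, i ∉ B → σ i = i) ∧
      ∀ i ∈ B, σ i ≠ i) : M = ⊤ := by
  apply perm_top_of_swaps
  refine kneser_closed hβ (fun k l => swap k l ∈ M) ?_ hab hsw
  intro u v r s huv hrs hur hus hvr hvs hP
  have hcard : ({u, v, r, s} : Finset β).card = 4 := by
    rw [Finset.card_insert_of_notMem (by simp [huv, hur, hus]),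
      Finset.card_insert_of_notMem (by simp [hvr, hvs]), Finset.card_pair hrs]
  obtain ⟨σ, hσM, hσ2, hσo, hσB⟩ := hδ _ hcard
  have hinv : ∀ i, σ (σ i) = i := by
    intro i
    have := congrArg (fun f : Perm β => f i) hσ2
    simpa [pow_two] using this
  have hmem : ∀ i ∈ ({u, v, r, s} : Finset β), σ i ∈ ({u, v, r, s} : Finset β) := by
    intro i hi
    by_contra hc
    have h1 := hσo _ hc
    rw [hinv] at h1
    exact hσB i hi h1.symm
  have mu := hmem u (by simp)
  have mv := hmem v (by simp)
  have mr := hmem r (by simp)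
  have hu := hσB u (by simp)
  have hv := hσB v (by simp)
  have hr := hσB r (by simp)
  have hs := hσB s (by simp)
  have ms := hmem s (by simp)
  simp only [Finset.mem_insert, Finset.mem_singleton] at mu mv mr ms
  rcases mu with h1 | h1 | h1 | h1
  · exact absurd h1 hu
  · -- `σ u = v`
    have h2 : σ v = u := by rw [← h1, hinv]
    have h3 : σ r = s := by
      rcases mr with h | h | h | h
      · exact absurd (by rw [← h, hinv] : r = σ u) (by rw [h1]; exact Ne.symm hvr)
      · exact absurd (by rw [← h, hinv] : r = σ v) (by rw [h2]; exact Ne.symm hur)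
      · exact absurd h hr
      · exact h
    have h4 : σ s = r := by rw [← h3, hinv]
    have : swap r s = σ * swap u v := by
      ext i
      simp only [Perm.mul_apply]
      by_cases iu : i = u
      · subst iu
        rw [swap_apply_left, h2, swap_apply_of_ne_of_ne hur hus]
      by_cases iv : i = v
      · subst iv
        rw [swap_apply_right, h1, swap_apply_of_ne_of_ne hvr hvs]
      by_cases ir : i = r
      · subst ir
        rw [swap_apply_left, swap_apply_of_ne_of_ne iu iv, h3]
      by_cases is : i = s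
      · subst is
        rw [swap_apply_right, swap_apply_of_ne_of_ne iu iv, h4]
      rw [swap_apply_of_ne_of_ne ir is, swap_apply_of_ne_of_ne iu iv, hσo]
      simp [iu, iv, ir, is]
    rw [this]
    exact M.mul_mem hσM hP
  · -- `σ u = r`
    have h2 : σ r = u := by rw [← h1, hinv]
    have h3 : σ v = s := by
      rcases mv with h | h | h | h
      · exact absurd (by rw [← h, hinv] : v = σ u) (by rw [h1]; exact hvr)
      · exact absurd h hv
      · exact absurd (by rw [← h, hinv] : v = σ r) (by rw [h2]; exact Ne.symm huv)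
      · exact h
    have : swap r s = σ * swap u v * σ⁻¹ := by
      rw [← Equiv.swap_apply_apply, h1, h3]
    rw [this]
    exact M.mul_mem (M.mul_mem hσM hP) (M.inv_mem hσM)
  · -- `σ u = s`
    have h2 : σ s = u := by rw [← h1, hinv]
    have h3 : σ v = r := by
      rcases mv with h | h | h | h
      · exact absurd (by rw [← h, hinv] : v = σ u) (by rw [h1]; exact hvs)
      · exact absurd h hv
      · exact h
      · exact absurd (by rw [← h, hinv] : v = σ s) (by rw [h2]; exact Ne.symm huv)
    have : swap r s = σ * swap u v * σ⁻¹ := by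
      rw [← Equiv.swap_apply_apply, h1, h3, swap_comm]
    rw [this]
    exact M.mul_mem (M.mul_mem hσM hP) (M.inv_mem hσM)

end Kneser

end Cfsg.Agent.Lib.Perm
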