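import Cfsg.Agent.Lib.Perm.LWBasic

/-!
Livingstone–Wagner: the context of a `t`-transitive group with trivial `(t+1)`-point stabilisers,
and the case where `t`-point stabilisers have even order.
-/

set_option autoImplicit false

namespace Cfsg.Agent.Lib.Perm

open MulAction Equiv Finset

variable {G α : Type*} [Group G] [MulAction G α] [Fintype α] [DecidableEq α] {t w : ℕ}

/-- A `t`-transitive group with trivial `(t+1)`-point stabilisers and `t`-point stabilisers of
order `w`. -/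
structure LWCtx (G α : Type*) [Group G] [MulAction G α] [Fintype α] [DecidableEq α]
    (t w : ℕ) : Prop where
  lift : ∀ (s : Finset α) (f : α → α), s.card = t → Set.InjOn f s → ∃ g : G, ∀ v ∈ s, g • v = f v
  rigid : ∀ (s : Finset α) (g : G), s.card = t + 1 → (∀ v ∈ s, g • v = v) → g = 1
  card : ∀ (s : Finset α), s.card = t → Nat.card (fixingSubgroup G (s : Set α)) = w

namespace LWCtx

theorem rigid' (C : LWCtx G α t w) {s : Finset α} {g : G} {ξ : α} (hs : s.card = t) (hξ : ξ ∉ s)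
    (hg : ∀ v ∈ s, g • v = v) (hgξ : g • ξ = ξ) : g = 1 := by
  refine C.rigid (insert ξ s) g (by rw [card_insert_of_notMem hξ, hs]) ?_
  intro v hv
  rcases mem_insert.mp hv with rfl | hv
  · exact hgξ
  · exact hg v hv

theorem pow (C : LWCtx G α t w) {s : Finset α} {g : G} (hs : s.card = t)
    (hg : ∀ v ∈ s, g • v = v) : g ^ w = 1 := by
  have hmem : g ∈ fixingSubgroup G (s : Set α) := by
    rw [mem_fixingSubgroup_iff]
    intro v hv
    exact hg v hv
  have h1 : (⟨g, hmem⟩ : fixingSubgroup G (s : Set α)) ^ w = 1 := by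
    rw [← C.card s hs]
    exact pow_card_eq_one'
  have := congrArg Subtype.val h1
  simpa using this

/-- Fixed point sets in `t`-sets. -/
theorem fix_exact (C : LWCtx G α t w) {s : Finset α} {z : G} (hs : s.card = t)
    (hz : ∀ v ∈ s, z • v = v) (hz1 : z ≠ 1) (v : α) : z • v = v ↔ v ∈ s := by
  constructor
  · intro h
    by_contra hv
    exact hz1 (C.rigid' hs hv hz h)
  · exact hz v

theorem sq_eq_one_of_tuple (C : LWCtx G α t w) (x : Fin (t + 1) ↪ α) (g : G) (σ : Perm (Fin (t + 1)))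
    (hσ : ∀ i, σ (σ i) = i) (hg : ∀ i, g • x i = x (σ i)) : g ^ 2 = 1 := by
  refine C.rigid (univ.map x) _ (by simp) ?_
  intro v hv
  obtain ⟨i, -, rfl⟩ := mem_map.mp hv
  rw [pow_two, mul_smul, hg, hg, hσ]

variable [Finite G]

/-- A normalising involution centralises an involution of the `t`-point stabiliser. -/
theorem even_comm (C : LWCtx G α t w) (hw : Even w) {s : Finset α} (hs : s.card = t) (c : G)
    (hc : c ^ 2 = 1) (hcs : ∀ v ∈ s, c • v ∈ s) :
    ∃ y : G, (∀ v ∈ s, y • v = v) ∧ y ≠ 1 ∧ y ^ 2 = 1 ∧ y * c = c * y := by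
  classical
  have hcc : c * c = 1 := by rw [← pow_two, hc]
  have hci : c⁻¹ = c := by rw [inv_eq_iff_mul_eq_one, hcc]
  have hcs2 : ∀ v : α, c • c • v = v := fun v => by rw [← mul_smul, hcc, one_smul]
  let A := fixingSubgroup G (s : Set α)
  have hconj : ∀ y : A, c * (y : G) * c ∈ A := by
    intro y
    change _ ∈ fixingSubgroup G (s : Set α)
    rw [mem_fixingSubgroup_iff]
    intro v hv
    have hy : ∀ u ∈ s, (y : G) • u = u := fun u hu => (mem_fixingSubgroup_iff G).mp y.2 u hu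
    rw [mul_smul, mul_smul, hy (c • v) (hcs v hv), hcs2]
  let φ : A → A := fun y => ⟨c * (y : G) * c, hconj y⟩
  obtain ⟨y, hy1, hy2, hy3⟩ := exists_fixed_involution (A := A) (by
      rw [C.card s hs]; exact hw) φ
    (by
      intro y
      apply Subtype.ext
      change c * (c * (y : G) * c) * c = y
      calc c * (c * (y : G) * c) * c = (c * c) * (y : G) * (c * c) := by group
        _ = y := by rw [hcc, one_mul, mul_one])
    (by
      apply Subtype.ext
      change c * 1 * c = 1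
      rw [mul_one, hcc])
    (by
      intro y hy
      apply Subtype.ext
      change (c * (y : G) * c) ^ 2 = 1
      have hy' : (y : G) ^ 2 = 1 := by
        have := congrArg Subtype.val hy
        simpa using this
      rw [pow_two]
      calc c * (y : G) * c * (c * (y : G) * c) = c * (y : G) * (c * c) * (y : G) * c := by group
        _ = c * ((y : G) * (y : G)) * c := by rw [hcc, mul_one]; group
        _ = 1 := by rw [← pow_two, hy', mul_one, hcc])
  refine ⟨(y : G), ?_, ?_, ?_, ?_⟩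
  · intro v hv
    exact (mem_fixingSubgroup_iff G).mp y.2 v hv
  · intro h
    exact hy1 (Subtype.ext h)
  · have := congrArg Subtype.val hy2
    simpa using this
  · have h1 : c * (y : G) * c = y := congrArg Subtype.val hy3
    calc (y : G) * c = (c * (y : G) * c) * c := by rw [h1]
      _ = c * (y : G) := by rw [mul_assoc, hcc, mul_one]

theorem even_inv (C : LWCtx G α t w) (hw : Even w) {s : Finset α} (hs : s.card = t) :
    ∃ z : G, (∀ v ∈ s, z • v = v) ∧ z ≠ 1 ∧ z ^ 2 = 1 := by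
  obtain ⟨y, h1, h2, h3, -⟩ := C.even_comm hw hs 1 (one_pow 2) (fun v hv => by simpa using hv)
  exact ⟨y, h1, h2, h3⟩

omit [Finite G] in
/-- Transport of an involution with a given fixed point set. -/
theorem transport (C : LWCtx G α t w) (h₀ : G) (h₀2 : h₀ ^ 2 = 1) (F₁ : Finset α) {a b : α}
    (ha : a ∉ F₁) (hb : b ∉ F₁) (hab : a ≠ b)
    (hc : (univ.filter (fun v : α => h₀ • v = v)).card = F₁.card) (hc2 : F₁.card + 2 = t)
    (hmove : ∃ a₀ : α, h₀ • a₀ ≠ a₀) :
    ∃ h : G, h ^ 2 = 1 ∧ h • a = b ∧ h • b = a ∧ ∀ v, h • v = v ↔ v ∈ F₁ := by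
  classical
  obtain ⟨a₀, ha₀⟩ := hmove
  set F₀ := univ.filter (fun v : α => h₀ • v = v) with hF₀
  have hmem : ∀ v, v ∈ F₀ ↔ h₀ • v = v := fun v => by simp [hF₀]
  have hinv : ∀ v : α, h₀ • h₀ • v = v := fun v => by
    rw [← mul_smul, ← pow_two, h₀2, one_smul]
  set b₀ := h₀ • a₀ with hb₀
  have hb₀a : h₀ • b₀ = a₀ := hinv a₀
  have h1 : a₀ ∉ F₀ := fun h => ha₀ ((hmem _).mp h)
  have h2 : b₀ ∉ F₀ := fun h => ha₀ (by
    have h5 := (hmem _).mp h
    rw [hb₀a] at h5
    exact h5.symm)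
  have h3 : a₀ ≠ b₀ := fun h => ha₀ h.symm
  let e : F₀ ≃ F₁ := Finset.equivOfCardEq hc
  let f : α → α := fun v => if v = a₀ then a else if v = b₀ then b else
    if h : v ∈ F₀ then (e ⟨v, h⟩ : α) else v
  have fa : f a₀ = a := by simp [f]
  have fb : f b₀ = b := by simp [f, h3.symm]
  have fF : ∀ v (hv : v ∈ F₀), f v = e ⟨v, hv⟩ := by
    intro v hv
    have n1 : v ≠ a₀ := fun h => h1 (h ▸ hv)
    have n2 : v ≠ b₀ := fun h => h2 (h ▸ hv)
    simp [f, n1, n2, hv]
  have hscard : (insert a₀ (insert b₀ F₀)).card = t := by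
    rw [card_insert_of_notMem (by simp [h3, h1]), card_insert_of_notMem h2, hc]
    omega
  have hinj : Set.InjOn f (insert a₀ (insert b₀ F₀) : Finset α) := by
    intro v hv v' hv' hvv
    simp only [coe_insert, Set.mem_insert_iff, mem_coe] at hv hv'
    rcases hv with rfl | rfl | hv <;> rcases hv' with rfl | rfl | hv'
    · rfl
    · rw [fa, fb] at hvv; exact absurd hvv hab
    · rw [fa, fF _ hv'] at hvv; exact absurd (hvv ▸ (e ⟨v', hv'⟩).2) ha
    · rw [fa, fb] at hvv; exact absurd hvv.symm hab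
    · rfl
    · rw [fb, fF _ hv'] at hvv; exact absurd (hvv ▸ (e ⟨v', hv'⟩).2) hb
    · rw [fa, fF _ hv] at hvv; exact absurd (hvv.symm ▸ (e ⟨v, hv⟩).2) ha
    · rw [fb, fF _ hv] at hvv; exact absurd (hvv.symm ▸ (e ⟨v, hv⟩).2) hb
    · rw [fF _ hv, fF _ hv'] at hvv
      have := e.injective (Subtype.ext hvv)
      exact congrArg Subtype.val this
  obtain ⟨g, hg⟩ := C.lift _ f hscard hinj
  have ga : g • a₀ = a := by rw [hg _ (by simp), fa]
  have gb : g • b₀ = b := by rw [hg _ (by simp), fb]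
  have gF : ∀ v (hv : v ∈ F₀), g • v = e ⟨v, hv⟩ := by
    intro v hv
    rw [hg _ (by simp [hv]), fF _ hv]
  refine ⟨g * h₀ * g⁻¹, ?_, ?_, ?_, ?_⟩
  · rw [conj_pow, h₀2]; simp
  · rw [← ga, mul_smul, mul_smul, inv_smul_smul, ← hb₀, gb]
  · rw [← gb, mul_smul, mul_smul, inv_smul_smul, hb₀a, ga]
  · intro v
    constructor
    · intro hv
      rw [mul_smul, mul_smul] at hv
      have h4 : h₀ • g⁻¹ • v = g⁻¹ • v := by
        rw [eq_inv_smul_iff]
        exact hv
      have h5 := (hmem _).mpr h4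
      have h6 := gF _ h5
      rw [smul_inv_smul] at h6
      rw [h6]
      exact (e ⟨_, h5⟩).2
    · intro hv
      let u := e.symm ⟨v, hv⟩
      have h4 : g • (u : α) = v := by
        rw [gF _ u.2]
        simp [u]
      have h5 : h₀ • (u : α) = u := (hmem _).mp u.2
      rw [← h4, mul_smul, mul_smul, inv_smul_smul, h5]

/-- Case (a): an involution with exactly `t - 2` fixed points forces all transpositions. -/
theorem even_a (C : LWCtx G α t w) (hw : Even w) (ht : 4 ≤ t) (h₀ : G) (h₀2 : h₀ ^ 2 = 1)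
    (hF : (univ.filter (fun v : α => h₀ • v = v)).card = t - 2) (hmove : ∃ a₀ : α, h₀ • a₀ ≠ a₀)
    (x : Fin (t + 1) ↪ α) {i j : Fin (t + 1)} (hij : i ≠ j) : swap i j ∈ tupM G x := by
  classical
  have hcompl : 2 < (({i, j} : Finset (Fin (t + 1)))ᶜ).card := by
    rw [card_compl, card_pair hij, Fintype.card_fin]; omega
  obtain ⟨p, hp, q, hq, r, hr, hpq, hpr, hqr⟩ := Finset.two_lt_card.mp hcompl
  simp only [mem_compl, mem_insert, mem_singleton, not_or] at hp hq hr
  set P3 : Finset (Fin (t + 1)) := {p, q, r} with hP3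
  have hP3c : P3.card = 3 := by
    rw [hP3, card_insert_of_notMem (by simp [hpq, hpr]), card_pair hqr]
  set F₁ := P3ᶜ.map x with hF₁
  have hF₁c : F₁.card = t - 2 := by
    rw [hF₁, card_map, card_compl, hP3c, Fintype.card_fin]; omega
  have hxF : ∀ l, x l ∈ F₁ ↔ l ∉ P3 := fun l => by
    rw [hF₁, mem_map' x, mem_compl]
  have hxpq : x p ≠ x q := fun h => hpq (x.injective h)
  have hxpr : x p ≠ x r := fun h => hpr (x.injective h)
  have hxqr : x q ≠ x r := fun h => hqr (x.injective h)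
  have hpP : p ∈ P3 := by simp [hP3]
  have hqP : q ∈ P3 := by simp [hP3]
  have hrP : r ∈ P3 := by simp [hP3]
  obtain ⟨h, h2, hab, hba, hfix⟩ := C.transport h₀ h₀2 F₁ (a := x q) (b := x r)
    (by rw [hxF]; simpa using hqP) (by rw [hxF]; simpa using hrP) hxqr
    (by rw [hF, hF₁c]) (by omega) hmove
  have hinv : ∀ v : α, h • h • v = v := fun v => by rw [← mul_smul, ← pow_two, h2, one_smul]
  set ξ := x p with hξ
  set ξ' := h • ξ with hξ'
  have hξ'ξ : ξ' ≠ ξ := by
    intro he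
    have := (hfix ξ).mp he
    exact (hxF p).mp this hpP
  have hhξ' : h • ξ' = ξ := hinv ξ
  have hξ'F : ξ' ∉ F₁ := by
    intro hm
    have := (hfix ξ').mpr hm
    rw [hhξ'] at this
    exact hξ'ξ this.symm
  have hξ'a : ξ' ≠ x q := by
    intro he
    have h3 : ξ = x r := by rw [← hhξ', he, hab]
    exact hxpr h3
  have hξ'b : ξ' ≠ x r := by
    intro he
    have h3 : ξ = x q := by rw [← hhξ', he, hba]
    exact hxpq h3
  set S := ({i, j} : Finset (Fin (t + 1)))ᶜ with hS
  have hxS : ∀ l, l ∈ S ↔ l ≠ i ∧ l ≠ j := fun l => by simp [hS]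
  have hξ'S : ξ' ∉ S.map x := by
    intro hm
    obtain ⟨l, hl, hle⟩ := mem_map.mp hm
    have hl' : x l = ξ' := hle
    by_cases hlP : l ∈ P3
    · simp only [hP3, mem_insert, mem_singleton] at hlP
      rcases hlP with rfl | rfl | rfl
      · exact hξ'ξ hl'.symm
      · exact hξ'a hl'.symm
      · exact hξ'b hl'.symm
    · exact hξ'F (hl' ▸ (hxF l).mpr hlP)
  have hs'c : (insert ξ' (S.map x)).card = t := by
    rw [card_insert_of_notMem hξ'S, card_map, hS, card_compl, card_pair hij, Fintype.card_fin]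
    omega
  have hpres : ∀ v ∈ insert ξ' (S.map x), h • v ∈ insert ξ' (S.map x) := by
    intro v hv
    rcases mem_insert.mp hv with rfl | hv
    · rw [hhξ']
      exact mem_insert_of_mem ((mem_map' x).mpr ((hxS p).mpr ⟨hp.1, hp.2⟩))
    · obtain ⟨l, hl, rfl⟩ := mem_map.mp hv
      change h • x l ∈ _
      by_cases hlp : l = p
      · subst hlp; exact mem_insert_self _ _
      by_cases hlq : l = q
      · subst hlq; rw [hab]
        exact mem_insert_of_mem ((mem_map' x).mpr ((hxS r).mpr ⟨hr.1, hr.2⟩))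
      by_cases hlr : l = r
      · subst hlr; rw [hba]
        exact mem_insert_of_mem ((mem_map' x).mpr ((hxS q).mpr ⟨hq.1, hq.2⟩))
      have hlP : l ∉ P3 := by simp [hP3, hlp, hlq, hlr]
      rw [(hfix _).mpr ((hxF l).mpr hlP)]
      exact mem_insert_of_mem ((mem_map' x).mpr hl)
  obtain ⟨y, hys, hy1, hy2, hyh⟩ := C.even_comm hw hs'c h h2 hpres
  have hyinv : ∀ v : α, y • y • v = v := fun v => by rw [← mul_smul, ← pow_two, hy2, one_smul]
  have hy_other : ∀ l, l ≠ i → l ≠ j → y • x l = x l := fun l h1 h2 =>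
    hys _ (mem_insert_of_mem ((mem_map' x).mpr ((hxS l).mpr ⟨h1, h2⟩)))
  have hiP : i ∉ P3 := by
    simp only [hP3, mem_insert, mem_singleton, not_or]
    exact ⟨Ne.symm hp.1, Ne.symm hq.1, Ne.symm hr.1⟩
  have hjP : j ∉ P3 := by
    simp only [hP3, mem_insert, mem_singleton, not_or]
    exact ⟨Ne.symm hp.2, Ne.symm hq.2, Ne.symm hr.2⟩
  have hnots : ∀ l, l ∉ P3 → (l = i ∨ l = j) → x l ∉ insert ξ' (S.map x) := by
    intro l hl hlij hm
    rcases mem_insert.mp hm with he | he
    · exact hξ'F (he ▸ (hxF l).mpr hl)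
    · have := (mem_map' x).mp he
      rw [hxS] at this
      rcases hlij with rfl | rfl
      · exact this.1 rfl
      · exact this.2 rfl
  have hkey : ∀ c d : Fin (t + 1), (c = i ∧ d = j ∨ c = j ∧ d = i) → y • x c = x d := by
    intro c d hcd
    have hc : c ∉ P3 := by
      rcases hcd with ⟨rfl, -⟩ | ⟨rfl, -⟩ <;> assumption
    have hfixy : h • (y • x c) = y • x c := by
      rw [← mul_smul, ← hyh, mul_smul, (hfix _).mpr ((hxF c).mpr hc)]
    have hmemF := (hfix _).mp hfixy
    obtain ⟨l, hl, hle⟩ := mem_map.mp hmemF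
    have hl' : x l = y • x c := hle
    have hlP : l ∉ P3 := mem_compl.mp hl
    by_cases hli : l = i
    · by_cases hci : c = i
      · exfalso
        subst hli
        subst hci
        refine hy1 (C.rigid' hs'c (hnots _ hc (Or.inl rfl)) hys hl'.symm)
      · have hcj : c = j := by rcases hcd with ⟨h, -⟩ | ⟨h, -⟩ <;> first | exact absurd h hci | exact h
        have hdi : d = i := by
          rcases hcd with ⟨h, -⟩ | ⟨-, h⟩
          · exact absurd h hci
          · exact h
        rw [hdi, ← hli, hl']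
    by_cases hlj : l = j
    · by_cases hcj : c = j
      · exfalso
        subst hlj
        subst hcj
        refine hy1 (C.rigid' hs'c (hnots _ hc (Or.inr rfl)) hys hl'.symm)
      · have hdj : d = j := by
          rcases hcd with ⟨-, h⟩ | ⟨h, -⟩
          · exact h
          · exact absurd h hcj
        rw [hdj, ← hlj, hl']
    · exfalso
      have h3 := hy_other l hli hlj
      rw [hl'] at h3
      have h4 : y • x c = x c := by
        have := smul_left_cancel y h3
        exact this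
      have hcc : c = l := x.injective (by rw [hl', h4])
      rcases hcd with ⟨rfl, -⟩ | ⟨rfl, -⟩
      · exact hli hcc.symm
      · exact hlj hcc.symm
  refine ⟨y, fun l => ?_⟩
  by_cases hli : l = i
  · subst hli
    rw [swap_apply_left]
    exact hkey _ _ (Or.inl ⟨rfl, rfl⟩)
  by_cases hlj : l = j
  · subst hlj
    rw [swap_apply_right]
    exact hkey _ _ (Or.inr ⟨rfl, rfl⟩)
  rw [swap_apply_of_ne_of_ne hli hlj]
  exact hy_other l hli hlj

/-- Case (b): no involution has exactly `t - 2` fixed points. -/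
theorem even_b (C : LWCtx G α t w) (hw : Even w) (ht : 4 ≤ t) (hN : t + 4 ≤ Fintype.card α)
    (hnoA : ∀ h : G, h ^ 2 = 1 → (∃ a : α, h • a ≠ a) →
      (univ.filter (fun v : α => h • v = v)).card ≠ t - 2)
    (hhom : ∀ x y : Fin (t + 1) ↪ α, ∃ (g : G) (ρ : Perm (Fin (t + 1))), ∀ i, g • x i = y (ρ i))
    (x : Fin (t + 1) ↪ α) : tupM G x = ⊤ := by
  classical
  -- some transposition is realised
  have hsw : ∃ a' b' : Fin (t + 1), a' ≠ b' ∧ swap a' b' ∈ tupM G x := by
    have hu : 2 < (univ : Finset (Fin (t + 1))).card := by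
      rw [card_univ, Fintype.card_fin]; omega
    obtain ⟨p, -, i, -, j, -, hpi, hpj, hij⟩ := Finset.two_lt_card.mp hu
    set Γ := (univ.erase p).map x with hΓ
    have hΓc : Γ.card = t := by
      rw [hΓ, card_map, card_erase_of_mem (mem_univ p), card_univ, Fintype.card_fin]; omega
    have hxΓ : ∀ l, x l ∈ Γ ↔ l ≠ p := fun l => by
      rw [hΓ, mem_map' x]; simp
    obtain ⟨z, hzs, hz1, hz2⟩ := C.even_inv hw hΓc
    have zinv : ∀ v : α, z • z • v = v := fun v => by rw [← mul_smul, ← pow_two, hz2, one_smul]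
    have hzfix := C.fix_exact hΓc hzs hz1
    set ξ := x p with hξ
    have hξΓ : ξ ∉ Γ := fun h => (hxΓ p).mp h rfl
    set ζ := z • ξ with hζ
    have hζξ : ζ ≠ ξ := fun h => hξΓ ((hzfix ξ).mp h)
    have hzζ : z • ζ = ξ := zinv ξ
    have hζΓ : ζ ∉ Γ := by
      intro h
      have := (hzfix ζ).mpr h
      rw [hzζ] at this
      exact hζξ this.symm
    set a := x i with ha
    set b := x j with hb
    have hab : a ≠ b := fun h => hij (x.injective h)
    have hξa : ξ ≠ a := fun h => hpi (x.injective h)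
    have hξb : ξ ≠ b := fun h => hpj (x.injective h)
    have haΓ : a ∈ Γ := (hxΓ i).mpr (Ne.symm hpi)
    have hbΓ : b ∈ Γ := (hxΓ j).mpr (Ne.symm hpj)
    have hζa : ζ ≠ a := fun h => hζΓ (h ▸ haΓ)
    have hζb : ζ ≠ b := fun h => hζΓ (h ▸ hbΓ)
    set P3 : Finset (Fin (t + 1)) := {p, i, j} with hP3
    have hP3c : P3.card = 3 := by
      rw [hP3, card_insert_of_notMem (by simp [hpi, hpj]), card_pair hij]
    set G₂ := P3ᶜ.map x with hG₂
    have hG₂c : G₂.card = t - 2 := by
      rw [hG₂, card_map, card_compl, hP3c, Fintype.card_fin]; omega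
    have hxG₂ : ∀ l, x l ∈ G₂ ↔ l ≠ p ∧ l ≠ i ∧ l ≠ j := fun l => by
      rw [hG₂, mem_map' x, mem_compl, hP3]; simp
    have hG₂Γ : ∀ v ∈ G₂, v ∈ Γ := by
      intro v hv
      obtain ⟨l, -, rfl⟩ := mem_map.mp hv
      exact (hxΓ l).mpr ((hxG₂ l).mp hv).1
    have hξG : ξ ∉ G₂ := fun h => hξΓ (hG₂Γ _ h)
    have hζG : ζ ∉ G₂ := fun h => hζΓ (hG₂Γ _ h)
    have hs''c : (insert ξ (insert ζ G₂)).card = t := by
      rw [card_insert_of_notMem (by simp [hζξ.symm, hξG]), card_insert_of_notMem hζG, hG₂c]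
      omega
    set π : Perm α := swap ξ a * swap ζ b with hπ
    have hπξ : π ξ = a := by
      rw [hπ, Perm.mul_apply, swap_apply_of_ne_of_ne hζξ.symm hξb, swap_apply_left]
    have hπζ : π ζ = b := by
      rw [hπ, Perm.mul_apply, swap_apply_left, swap_apply_of_ne_of_ne hξb.symm hab.symm]
    have hπv : ∀ v ∈ G₂, π v = v := by
      intro v hv
      obtain ⟨l, -, rfl⟩ := mem_map.mp hv
      have hl := (hxG₂ l).mp hv
      have n1 : x l ≠ ζ := fun h => hζG (h ▸ hv)
      have n2 : x l ≠ b := fun h => hl.2.2 (x.injective h)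
      have n3 : x l ≠ ξ := fun h => hl.1 (x.injective h)
      have n4 : x l ≠ a := fun h => hl.2.1 (x.injective h)
      rw [hπ, Perm.mul_apply]
      change swap ξ a (swap ζ b (x l)) = x l
      rw [swap_apply_of_ne_of_ne n1 n2, swap_apply_of_ne_of_ne n3 n4]
    obtain ⟨g, hg⟩ := C.lift _ π hs''c (π.injective.injOn)
    have gξ : g • ξ = a := by rw [hg _ (by simp), hπξ]
    have gζ : g • ζ = b := by rw [hg _ (by simp), hπζ]
    have gv : ∀ v ∈ G₂, g • v = v := by
      intro v hv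
      rw [hg _ (by simp [hv]), hπv v hv]
    set h := g * z * g⁻¹ with hh
    have hh2 : h ^ 2 = 1 := by rw [hh, conj_pow, hz2]; simp
    have hha : h • a = b := by
      rw [← gξ, hh, mul_smul, mul_smul, inv_smul_smul, ← hζ, gζ]
    have hhb : h • b = a := by
      rw [← gζ, hh, mul_smul, mul_smul, inv_smul_smul, hzζ, gξ]
    have hhv : ∀ v ∈ G₂, h • v = v := by
      intro v hv
      have e1 : g⁻¹ • v = v := by rw [inv_smul_eq_iff, gv v hv]
      rw [hh, mul_smul, mul_smul, e1, hzs v (hG₂Γ v hv), gv v hv]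
    have hex : ∃ ε, ε ∉ Γ ∧ h • ε = ε := by
      by_contra hcon
      push Not at hcon
      apply hnoA h hh2 ⟨a, by rw [hha]; exact hab.symm⟩
      rw [← hG₂c]
      congr 1
      ext v
      simp only [mem_filter, mem_univ, true_and]
      constructor
      · intro hv
        by_contra hvG
        by_cases hvΓ : v ∈ Γ
        · obtain ⟨l, hl, rfl⟩ := mem_map.mp hvΓ
          change h • x l = x l at hv
          change x l ∉ G₂ at hvG
          have hlp : l ≠ p := ((hxΓ l).mp hvΓ)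
          by_cases hli : l = i
          · subst hli
            rw [← ha, hha] at hv
            exact hab hv.symm
          by_cases hlj : l = j
          · subst hlj
            rw [← hb, hhb] at hv
            exact hab hv
          exact hvG ((hxG₂ l).mpr ⟨hlp, hli, hlj⟩)
        · exact hcon v hvΓ hv
      · exact hhv v
    obtain ⟨ε, hεΓ, hε⟩ := hex
    let x' : Fin (t + 1) ↪ α := ⟨fun l => if l = p then ε else x l, by
      intro l l' hll
      simp only at hll
      by_cases h1 : l = p <;> by_cases h2 : l' = p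
      · rw [h1, h2]
      · rw [if_pos h1, if_neg h2] at hll
        exact absurd (hll ▸ (hxΓ l').mpr h2) hεΓ
      · rw [if_neg h1, if_pos h2] at hll
        exact absurd (hll ▸ (hxΓ l).mpr h1) hεΓ
      · rw [if_neg h1, if_neg h2] at hll
        exact x.injective hll⟩
    have hx'p : x' p = ε := by
      change (if p = p then ε else x p) = ε
      rw [if_pos rfl]
    have hx'l : ∀ l, l ≠ p → x' l = x l := fun l hl => by
      change (if l = p then ε else x l) = x l
      rw [if_neg hl]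
    have hsw' : swap i j ∈ tupM G x' := by
      refine ⟨h, fun l => ?_⟩
      by_cases hlp : l = p
      · subst hlp
        rw [swap_apply_of_ne_of_ne hpi hpj, hx'p, hε]
      by_cases hli : l = i
      · subst hli
        rw [swap_apply_left, hx'l _ hlp, hx'l _ (Ne.symm hpj), hha]
      by_cases hlj : l = j
      · subst hlj
        rw [swap_apply_right, hx'l _ hlp, hx'l _ (Ne.symm hpi), hhb]
      rw [swap_apply_of_ne_of_ne hli hlj, hx'l _ hlp]
      exact hhv _ ((hxG₂ l).mpr ⟨hlp, hli, hlj⟩)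
    obtain ⟨g', ρ, hg'⟩ := hhom x' x
    have h3 := tup_transfer hg' hsw'
    rw [← Equiv.swap_apply_apply] at h3
    exact ⟨ρ i, ρ j, fun h => hij (ρ.injective h), h3⟩
  obtain ⟨a', b', hab', hsw'⟩ := hsw
  refine perm_top_of_swap_double (by rw [Fintype.card_fin]; omega) _ hab' hsw' ?_
  intro B hB
  have hlt : B.card < (univ : Finset (Fin (t + 1))).card := by
    rw [card_univ, Fintype.card_fin]; omega
  obtain ⟨p, -, hpB⟩ := Finset.exists_mem_notMem_of_card_lt_card hlt
  set Γ := (univ.erase p).map x with hΓ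
  have hΓc : Γ.card = t := by
    rw [hΓ, card_map, card_erase_of_mem (mem_univ p), card_univ, Fintype.card_fin]; omega
  have hxΓ : ∀ l, x l ∈ Γ ↔ l ≠ p := fun l => by
    rw [hΓ, mem_map' x]; simp
  obtain ⟨z, hzs, hz1, hz2⟩ := C.even_inv hw hΓc
  have zinv : ∀ v : α, z • z • v = v := fun v => by rw [← mul_smul, ← pow_two, hz2, one_smul]
  have hzfix := C.fix_exact hΓc hzs hz1
  set ξ := x p with hξ
  have hξΓ : ξ ∉ Γ := fun h => (hxΓ p).mp h rfl
  set ζ := z • ξ with hζ
  have hζξ : ζ ≠ ξ := fun h => hξΓ ((hzfix ξ).mp h)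
  have hzζ : z • ζ = ξ := zinv ξ
  have hζΓ : ζ ∉ Γ := by
    intro h
    have := (hzfix ζ).mpr h
    rw [hzζ] at this
    exact hζξ this.symm
  have hlt2 : (insert ξ (insert ζ Γ)).card < (univ : Finset α).card := by
    rw [card_univ, card_insert_of_notMem (by simp [hζξ.symm, hξΓ]), card_insert_of_notMem hζΓ, hΓc]
    omega
  obtain ⟨ξ₂, -, hξ₂⟩ := Finset.exists_mem_notMem_of_card_lt_card hlt2
  simp only [mem_insert, not_or] at hξ₂
  obtain ⟨h1, h2, hξ₂Γ⟩ := hξ₂
  set ζ₂ := z • ξ₂ with hζ₂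
  have hζ₂ξ₂ : ζ₂ ≠ ξ₂ := fun h => hξ₂Γ ((hzfix ξ₂).mp h)
  have hzζ₂ : z • ζ₂ = ξ₂ := zinv ξ₂
  have hζ₂Γ : ζ₂ ∉ Γ := by
    intro h
    have := (hzfix ζ₂).mpr h
    rw [hzζ₂] at this
    exact hζ₂ξ₂ this.symm
  have hζ₂ξ : ζ₂ ≠ ξ := by
    intro h
    apply h2
    rw [hζ, ← h, hzζ₂]
  have hζ₂ζ : ζ₂ ≠ ζ := fun h => h1 (smul_left_cancel z h)
  set Q := insert p B with hQ
  have hQc : Q.card = 5 := by rw [hQ, card_insert_of_notMem hpB, hB]
  set G₃ := Qᶜ.map x with hG₃
  have hG₃c : G₃.card = t - 4 := by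
    rw [hG₃, card_map, card_compl, hQc, Fintype.card_fin]; omega
  have hxG₃ : ∀ l, x l ∈ G₃ ↔ l ≠ p ∧ l ∉ B := fun l => by
    rw [hG₃, mem_map' x, mem_compl, hQ]; simp
  have hG₃Γ : ∀ v ∈ G₃, v ∈ Γ := by
    intro v hv
    obtain ⟨l, -, rfl⟩ := mem_map.mp hv
    exact (hxΓ l).mpr ((hxG₃ l).mp hv).1
  have hξG : ξ ∉ G₃ := fun h => hξΓ (hG₃Γ _ h)
  have hζG : ζ ∉ G₃ := fun h => hζΓ (hG₃Γ _ h)
  have hξ₂G : ξ₂ ∉ G₃ := fun h => hξ₂Γ (hG₃Γ _ h)
  have hζ₂G : ζ₂ ∉ G₃ := fun h => hζ₂Γ (hG₃Γ _ h)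
  set s' := insert ξ (insert ζ (insert ξ₂ (insert ζ₂ G₃))) with hs'
  have hs'c : s'.card = t := by
    rw [hs', card_insert_of_notMem (by simp [hζξ.symm, Ne.symm h1, hζ₂ξ.symm, hξG]),
      card_insert_of_notMem (by simp [Ne.symm h2, hζ₂ζ.symm, hζG]),
      card_insert_of_notMem (by simp [hζ₂ξ₂.symm, hξ₂G]), card_insert_of_notMem hζ₂G, hG₃c]
    omega
  have hpres : ∀ v ∈ s', z • v ∈ s' := by
    intro v hv
    simp only [hs', mem_insert] at hv ⊢
    rcases hv with rfl | rfl | rfl | rfl | hv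
    · right; left; rfl
    · left; exact hzζ
    · right; right; right; left; rfl
    · right; right; left; exact hzζ₂
    · right; right; right; right
      rw [hzs v (hG₃Γ v hv)]; exact hv
  obtain ⟨y, hys, hy1, hy2, hyz⟩ := C.even_comm hw hs'c z hz2 hpres
  have hyinv : ∀ v : α, y • y • v = v := fun v => by rw [← mul_smul, ← pow_two, hy2, one_smul]
  have hyξ : y • ξ = ξ := hys ξ (by simp [hs'])
  have hyG₃ : ∀ v ∈ G₃, y • v = v := fun v hv => hys v (by simp [hs', hv])
  have hyΓ : ∀ v ∈ Γ, y • v ∈ Γ := by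
    intro v hv
    apply (hzfix _).mp
    rw [← mul_smul, ← hyz, mul_smul, hzs v hv]
  have hex : ∀ l, ∃ l', y • x l = x l' := by
    intro l
    by_cases hl : l = p
    · subst hl; exact ⟨_, hyξ⟩
    · obtain ⟨l', -, hl'⟩ := mem_map.mp (hyΓ _ ((hxΓ l).mpr hl))
      exact ⟨l', hl'.symm⟩
  obtain ⟨σ, hσ⟩ := tup_perm_of_preserve x y hex
  refine ⟨σ, ⟨y, hσ⟩, ?_, ?_, ?_⟩
  · ext l
    have h3 : x (σ (σ l)) = x l := by
      rw [← hσ, ← hσ, hyinv]
    have := x.injective h3
    simp [pow_two, this]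
  · intro i hi
    by_cases hip : i = p
    · subst hip
      exact x.injective (by rw [← hσ]; exact hyξ)
    · exact x.injective (by rw [← hσ]; exact hyG₃ _ ((hxG₃ i).mpr ⟨hip, hi⟩))
  · intro i hi hσi
    have hip : i ≠ p := fun h => hpB (h ▸ hi)
    have hfix : y • x i = x i := by rw [hσ, hσi]
    have hxiΓ : x i ∈ Γ := (hxΓ i).mpr hip
    have hnot : x i ∉ s' := by
      simp only [hs', mem_insert, not_or]
      refine ⟨fun h => hξΓ (h ▸ hxiΓ), fun h => hζΓ (h ▸ hxiΓ), fun h => hξ₂Γ (h ▸ hxiΓ),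
        fun h => hζ₂Γ (h ▸ hxiΓ), fun h => ((hxG₃ i).mp h).2 hi⟩
    exact hy1 (C.rigid' hs'c hnot hys hfix)

/-- The even case of the Livingstone–Wagner theorem. -/
theorem even_top (C : LWCtx G α t w) (hw : Even w) (ht : 4 ≤ t) (hN : t + 4 ≤ Fintype.card α)
    (hhom : ∀ x y : Fin (t + 1) ↪ α, ∃ (g : G) (ρ : Perm (Fin (t + 1))), ∀ i, g • x i = y (ρ i))
    (x : Fin (t + 1) ↪ α) : tupM G x = ⊤ := by
  classical
  by_cases hA : ∃ h : G, h ^ 2 = 1 ∧ (∃ a : α, h • a ≠ a) ∧
      (univ.filter (fun v : α => h • v = v)).card = t - 2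
  · obtain ⟨h₀, h1, h2, h3⟩ := hA
    apply perm_top_of_swaps
    intro k l hkl
    exact C.even_a hw ht h₀ h1 h3 h2 x hkl
  · push Not at hA
    exact C.even_b hw ht hN (fun h h1 h2 h3 => hA h h1 h2 h3) hhom x

end LWCtx

end Cfsg.Agent.Lib.Perm
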