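import Cfsg.Agent.Lib.Perm.LWEven

/-!
Livingstone–Wagner: the case where `t`-point stabilisers have odd order, and the large `t` theorem.
-/

set_option autoImplicit false

namespace Cfsg.Agent.Lib.Perm

open MulAction Equiv Finset

variable {G α : Type*} [Group G] [MulAction G α] [Fintype α] [DecidableEq α] {t w l : ℕ}

theorem lw_pow_fix {g : G} {v : α} (hg : g • v = v) (n : ℕ) : g ^ n • v = v := by
  induction n with
  | zero => simp
  | succ n ih => rw [pow_succ, mul_smul, hg, ih]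

/-- Parity of the number of fixed points of an involution. -/
theorem lw_fix_parity (g : G) (hg : g ^ 2 = 1) :
    (univ.filter (fun v : α => g • v = v)).card ≡ Fintype.card α [MOD 2] := by
  classical
  have hp : Fact (Nat.Prime 2) := ⟨Nat.prime_two⟩
  let f : Function.End α := fun x => g • x
  have hf : f ^ 2 ^ 1 = 1 := by
    funext x
    change (g • g • x) = x
    rw [← mul_smul, ← pow_two, hg, one_smul]
  have h := Equiv.Perm.card_fixedPoints_modEq (α := α) (f := f) (p := 2) (n := 1) hf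
  have e : (univ.filter (fun v : α => g • v = v)).card = Fintype.card (Function.fixedPoints f) := by
    rw [Fintype.card_ofFinset]
    congr 1
  rw [e]
  exact h.symm

namespace LWCtx

theorem eq_one_of_odd (C : LWCtx G α t w) (hl : w = 2 * l + 1) {s : Finset α} {g : G}
    (hs : s.card = t) (hg : ∀ v ∈ s, g • v = v) (hg2 : g ^ 2 = 1) : g = 1 := by
  have h1 := C.pow hs hg
  rw [hl, pow_succ, pow_mul, hg2, one_pow, one_mul] at h1
  exact h1

/-- Lifting an involutive action on a `t`-set to an involution. -/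
theorem odd_lift (C : LWCtx G α t w) (hl : w = 2 * l + 1) {s : Finset α} (hs : s.card = t)
    (f : α → α) (hinj : Set.InjOn f s) (hfs : ∀ v ∈ s, f v ∈ s) (hff : ∀ v ∈ s, f (f v) = v) :
    ∃ h : G, h ^ 2 = 1 ∧ ∀ v ∈ s, h • v = f v := by
  obtain ⟨g, hg⟩ := C.lift s f hs hinj
  have hgg : ∀ v ∈ s, g • g • v = v := by
    intro v hv
    rw [hg v hv, hg _ (hfs v hv), hff v hv]
  have hodd : ∀ n : ℕ, ∀ v ∈ s, g ^ (2 * n + 1) • v = f v := by
    intro n
    induction n with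
    | zero =>
      intro v hv
      simpa using hg v hv
    | succ n ih =>
      intro v hv
      have : 2 * (n + 1) + 1 = (2 * n + 1) + 2 := by ring
      rw [this, pow_add, mul_smul, pow_two, mul_smul, hgg v hv, ih v hv]
  refine ⟨g ^ w, ?_, ?_⟩
  · rw [← pow_mul, mul_comm, pow_mul]
    refine C.pow hs ?_
    intro v hv
    rw [pow_two, mul_smul, hgg v hv]
  · intro v hv
    rw [hl]
    exact hodd l v hv

/-- The class of a tuple invariant under a transposition of positions is unique. -/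
theorem odd_unique (C : LWCtx G α t w) (hl : w = 2 * l + 1) (x y : Fin (t + 1) ↪ α)
    {i j q : Fin (t + 1)} (hij : i ≠ j) (hqi : q ≠ i) (hqj : q ≠ j)
    (hx : swap i j ∈ tupM G x) (hy : swap i j ∈ tupM G y) : ∃ g : G, ∀ a, g • x a = y a := by
  classical
  have hE : ((univ.erase q).map x).card = t := by
    rw [card_map, card_erase_of_mem (mem_univ q), card_univ, Fintype.card_fin]; omega
  have hE' : ((univ.erase q).map y).card = t := by
    rw [card_map, card_erase_of_mem (mem_univ q), card_univ, Fintype.card_fin]; omega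
  set f : α → α := fun v => y (Function.invFun x v) with hf
  have hfx : ∀ a, f (x a) = y a := fun a => by
    rw [hf]
    simp only
    rw [Function.leftInverse_invFun x.injective a]
  have hfinj : Set.InjOn f ((univ.erase q).map x : Finset α) := by
    intro v hv v' hv' hvv
    obtain ⟨a, -, rfl⟩ := mem_map.mp (mem_coe.mp hv)
    obtain ⟨a', -, rfl⟩ := mem_map.mp (mem_coe.mp hv')
    change f (x a) = f (x a') at hvv
    rw [hfx, hfx] at hvv
    change x a = x a'
    rw [y.injective hvv]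
  obtain ⟨g₁, hg₁⟩ := C.lift _ f hE hfinj
  have hg₁' : ∀ a, a ≠ q → g₁ • x a = y a := by
    intro a ha
    rw [hg₁ _ ((mem_map' x).mpr (by simp [ha])), hfx]
  set σ : Perm (Fin (t + 1)) := swap i j with hσ
  have hσq : σ q = q := swap_apply_of_ne_of_ne hqi hqj
  have hσσ : ∀ a, σ (σ a) = a := fun a => swap_apply_self i j a
  have hσne : ∀ a, a ≠ q → σ a ≠ q := by
    intro a ha h
    apply ha
    rw [← hσσ a, h, hσq]
  obtain ⟨hx₀, hhx⟩ := hx
  obtain ⟨hy₀, hhy⟩ := hy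
  have hx2 : hx₀ ^ 2 = 1 := C.sq_eq_one_of_tuple x hx₀ σ hσσ hhx
  have hy2 : hy₀ ^ 2 = 1 := C.sq_eq_one_of_tuple y hy₀ σ hσσ hhy
  set u := g₁ * hx₀ * g₁⁻¹ with hu
  have hu2 : u ^ 2 = 1 := by rw [hu, conj_pow, hx2]; simp
  have huact : ∀ a, u • (g₁ • x a) = g₁ • x (σ a) := by
    intro a
    rw [hu, mul_smul, mul_smul, inv_smul_smul, hhx]
  set r := u * hy₀ with hr
  have hrfix : ∀ a, a ≠ q → r • y a = y a := by
    intro a ha
    rw [hr, mul_smul, hhy, ← hg₁' _ (hσne a ha), huact, hσσ, hg₁' a ha]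
  have hrpow : r ^ (2 * l + 1) = 1 := by
    rw [← hl]
    refine C.pow hE' ?_
    intro v hv
    obtain ⟨a, ha, rfl⟩ := mem_map.mp hv
    exact hrfix a (by simpa using ha)
  set v := r ^ l with hv
  have hvfix : ∀ a, a ≠ q → v • y a = y a := fun a ha => lw_pow_fix (hrfix a ha) l
  have hconj : v * u * v⁻¹ = hy₀ := dihedral_conj u hy₀ hu2 hy2 l hrpow
  set ξ₁ := g₁ • x q with hξ₁
  have huξ : u • ξ₁ = ξ₁ := by rw [hξ₁, huact, hσq]
  have hyξ : hy₀ • (v • ξ₁) = v • ξ₁ := by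
    rw [← hconj, mul_smul, mul_smul, inv_smul_smul, huξ]
  have hyq : hy₀ • y q = y q := by rw [hhy, hσq]
  have hξne : ∀ a, a ≠ q → v • ξ₁ ≠ y a := by
    intro a ha he
    rw [← hvfix a ha] at he
    have h3 := smul_left_cancel v he
    rw [hξ₁, ← hg₁' a ha] at h3
    exact ha (x.injective (smul_left_cancel g₁ h3)).symm
  have hmain : v • ξ₁ = y q := by
    by_contra hne
    set P : Finset (Fin (t + 1)) := {q, i, j} with hP
    have hPc : P.card = 3 := by
      rw [hP, card_insert_of_notMem (by simp [hqi, hqj]), card_pair hij]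
    have hnq : y q ∉ Pᶜ.map y := by
      rw [mem_map' y, mem_compl, not_not]; simp [hP]
    have hnv : v • ξ₁ ∉ Pᶜ.map y := by
      intro hm
      obtain ⟨a, ha, he⟩ := mem_map.mp hm
      refine hξne a ?_ he.symm
      intro haq
      rw [haq, mem_compl] at ha
      exact ha (by simp [hP])
    have hcard : (insert (v • ξ₁) (insert (y q) (Pᶜ.map y))).card = t := by
      rw [card_insert_of_notMem (by simp [hne, hnv]), card_insert_of_notMem hnq, card_map,
        card_compl, hPc, Fintype.card_fin]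
      have := P.card_le_univ
      rw [Fintype.card_fin] at this
      omega
    have hone := C.eq_one_of_odd hl hcard (g := hy₀) (by
      intro u hu
      simp only [mem_insert] at hu
      rcases hu with rfl | rfl | hu
      · exact hyξ
      · exact hyq
      · obtain ⟨a, ha, rfl⟩ := mem_map.mp hu
        simp only [hP, mem_compl, mem_insert, mem_singleton, not_or] at ha
        change hy₀ • y a = y a
        rw [hhy, hσ, swap_apply_of_ne_of_ne ha.2.1 ha.2.2]) hy2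
    have h5 := hhy i
    rw [hone, one_smul, hσ, swap_apply_left] at h5
    exact hij (y.injective h5)
  refine ⟨v * g₁, fun a => ?_⟩
  by_cases ha : a = q
  · subst ha
    rw [mul_smul]
    exact hmain
  · rw [mul_smul, hg₁' a ha, hvfix a ha]

/-- If the class of a tuple is invariant under one transposition of positions, then all
transpositions of positions leave it invariant. -/
theorem odd_all_swaps (C : LWCtx G α t w) (hl : w = 2 * l + 1) (ht : 4 ≤ t) (x : Fin (t + 1) ↪ α)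
    {i j : Fin (t + 1)} (hij : i ≠ j) (hx : swap i j ∈ tupM G x) : tupM G x = ⊤ := by
  classical
  apply perm_top_of_swaps
  refine kneser_closed (by rw [Fintype.card_fin]; omega) (fun k l => swap k l ∈ tupM G x) ?_ hij hx
  intro u v k m huv hkm huk hum hvk hvm hP
  set τ : Perm (Fin (t + 1)) := swap k m with hτ
  set y : Fin (t + 1) ↪ α := τ.toEmbedding.trans x with hy
  have hya : ∀ a, y a = x (τ a) := fun a => rfl
  have hcomm : ∀ a, swap u v (τ a) = τ (swap u v a) := by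
    intro a
    have hdis : Equiv.Perm.Disjoint (swap u v) τ := by
      intro b
      by_cases h1 : b = u
      · right; subst h1; exact swap_apply_of_ne_of_ne huk hum
      by_cases h2 : b = v
      · right; subst h2; exact swap_apply_of_ne_of_ne hvk hvm
      · left; exact swap_apply_of_ne_of_ne h1 h2
    have := hdis.commute.eq
    exact congrArg (fun f : Perm (Fin (t + 1)) => f a) this
  have hPy : swap u v ∈ tupM G y := by
    obtain ⟨g, hg⟩ := hP
    refine ⟨g, fun a => ?_⟩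
    rw [hya, hg, hya, hcomm]
  -- a third position
  have hlt : ({u, v} : Finset (Fin (t + 1))).card < (univ : Finset (Fin (t + 1))).card := by
    rw [card_pair huv, card_univ, Fintype.card_fin]; omega
  obtain ⟨q, -, hq⟩ := Finset.exists_mem_notMem_of_card_lt_card hlt
  simp only [mem_insert, mem_singleton, not_or] at hq
  obtain ⟨g, hg⟩ := C.odd_unique hl x y huv hq.1 hq.2 hP hPy
  exact ⟨g, fun a => by rw [hg, hya]⟩

/-- Under the no-transposition hypothesis, an involution inducing a transposition on a `t`-set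
has no other fixed points. -/
theorem no_further
    (hnsw : ∀ (x : Fin (t + 1) ↪ α) (i j : Fin (t + 1)), i ≠ j → swap i j ∉ tupM G x)
    {s : Finset α} {h : G} {a b ξ : α} (hs : s.card = t) (ha : a ∈ s) (hb : b ∈ s) (hab : a ≠ b)
    (h2 : h ^ 2 = 1) (hha : h • a = b) (hother : ∀ v ∈ s, v ≠ a → v ≠ b → h • v = v)
    (hξ : ξ ∉ s) : h • ξ ≠ ξ := by
  classical
  intro hfix
  have hcard : (insert ξ s).card = t + 1 := by rw [card_insert_of_notMem hξ, hs]
  let e := (insert ξ s).equivFinOfCardEq hcard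
  let x : Fin (t + 1) ↪ α := ⟨fun i => (e.symm i : α), fun i j hij => by
    exact e.symm.injective (Subtype.ext hij)⟩
  have hxmem : ∀ i, x i ∈ insert ξ s := fun i => (e.symm i).2
  have hxe : ∀ v (hv : v ∈ insert ξ s), x (e ⟨v, hv⟩) = v := fun v hv => by
    change ((e.symm (e ⟨v, hv⟩) : _) : α) = v
    simp
  set i₀ := e ⟨a, mem_insert_of_mem ha⟩ with hi₀
  set j₀ := e ⟨b, mem_insert_of_mem hb⟩ with hj₀
  have hxi : x i₀ = a := hxe _ _
  have hxj : x j₀ = b := hxe _ _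
  have hij : i₀ ≠ j₀ := fun he => hab (by rw [← hxi, ← hxj, he])
  apply hnsw x i₀ j₀ hij
  refine ⟨h, fun m => ?_⟩
  by_cases hm : m = i₀
  · subst hm
    rw [swap_apply_left, hxi, hxj, hha]
  by_cases hm' : m = j₀
  · subst hm'
    rw [swap_apply_right, hxi, hxj, ← hha, ← mul_smul, ← pow_two, h2, one_smul]
  rw [swap_apply_of_ne_of_ne hm hm']
  have h3 : x m ≠ a := fun he => hm (x.injective (he.trans hxi.symm))
  have h4 : x m ≠ b := fun he => hm' (x.injective (he.trans hxj.symm))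
  rcases mem_insert.mp (hxmem m) with he | he
  · rw [he, hfix]
  · exact hother _ he h3 h4

variable [Finite G]

/-- The number of elements of a `t`-point stabiliser. -/
theorem card_fixers (C : LWCtx G α t w) {s : Finset α} (hs : s.card = t) [Fintype G]
    [DecidablePred (fun τ : G => ∀ p ∈ s, τ • p = p)] :
    (univ.filter (fun τ : G => ∀ p ∈ s, τ • p = p)).card = w := by
  classical
  rw [← C.card s hs]
  haveI : Fintype (fixingSubgroup G (s : Set α)) := Fintype.ofFinite _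
  rw [Nat.card_eq_fintype_card]
  symm
  refine Fintype.card_of_subtype _ ?_
  intro τ
  simp [mem_fixingSubgroup_iff]

/-- The core of the odd case. -/
theorem odd_core (C : LWCtx G α t w) (hl : w = 2 * l + 1)
    (hns : ∀ (s : Finset α) (h : G) (a b ξ : α), s.card = t → a ∈ s → b ∈ s → a ≠ b → h ^ 2 = 1 →
      h • a = b → (∀ v ∈ s, v ≠ a → v ≠ b → h • v = v) → ξ ∉ s → h • ξ ≠ ξ)
    {Γ₀ : Finset α} (hΓ₀ : Γ₀.card + 4 = t) {a b c d : α} (ha : a ∉ Γ₀) (hb : b ∉ Γ₀) (hc : c ∉ Γ₀)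
    (hd : d ∉ Γ₀) (hab : a ≠ b) (hac : a ≠ c) (had : a ≠ d) (hbc : b ≠ c) (hbd : b ≠ d)
    (hcd : c ≠ d) {Γ : Finset α} (hΓ : ∀ v, v ∈ Γ ↔ v ∈ Γ₀ ∨ v = a ∨ v = b ∨ v = c ∨ v = d)
    (hN : 2 * w ≤ (Γᶜ).card) {h : G} (h2 : h ^ 2 = 1) (hhab : h • a = b)
    (hhΓ₀ : ∀ v ∈ Γ₀, h • v = v) (hhc : h • c = c) (hhd : h • d = d) :
    ∃ (u₀ : G) (E : Finset α), u₀ ^ 2 = 1 ∧ u₀ * h = h * u₀ ∧ u₀ • c = d ∧ u₀ • a = a ∧ u₀ • b = b ∧
      (∀ v ∈ Γ₀, u₀ • v = v) ∧ (∀ τ : G, (∀ v ∈ Γ, τ • v = v) → τ * h = h * τ) ∧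
      (∀ v, v ∈ E ↔ v ∉ Γ ∧ (h * u₀) • v = v) ∧ E.card ≤ 2 ∧ (Γᶜ).card ≤ w * E.card := by
  classical
  haveI : Fintype G := Fintype.ofFinite G
  have hΓ' : Γ = insert a (insert b (insert c (insert d Γ₀))) := by
    ext v
    rw [hΓ]
    simp only [mem_insert]
    tauto
  have hΓc : Γ.card = t := by
    rw [hΓ', card_insert_of_notMem (by simp [hab, hac, had, ha]),
      card_insert_of_notMem (by simp [hbc, hbd, hb]), card_insert_of_notMem (by simp [hcd, hc]),
      card_insert_of_notMem hd]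
    omega
  have haΓ : a ∈ Γ := by simp [hΓ]
  have hbΓ : b ∈ Γ := by simp [hΓ]
  have hcΓ : c ∈ Γ := by simp [hΓ]
  have hdΓ : d ∈ Γ := by simp [hΓ]
  have hΓ₀Γ : ∀ v ∈ Γ₀, v ∈ Γ := fun v hv => (hΓ v).mpr (Or.inl hv)
  have hinv : ∀ v : α, h • h • v = v := fun v => by rw [← mul_smul, ← pow_two, h2, one_smul]
  have hhba : h • b = a := by rw [← hhab, hinv]
  have hother : ∀ v ∈ Γ, v ≠ a → v ≠ b → h • v = v := by
    intro v hv h1 h3
    rcases (hΓ v).mp hv with hv | rfl | rfl | rfl | rfl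
    · exact hhΓ₀ v hv
    · exact absurd rfl h1
    · exact absurd rfl h3
    · exact hhc
    · exact hhd
  have hnsh : ∀ ξ, ξ ∉ Γ → h • ξ ≠ ξ := fun ξ hξ =>
    hns Γ h a b ξ hΓc haΓ hbΓ hab h2 hhab hother hξ
  have hpresΓ : ∀ v ∈ Γ, h • v ∈ Γ := by
    intro v hv
    by_cases h1 : v = a
    · subst h1; rw [hhab]; exact hbΓ
    by_cases h3 : v = b
    · subst h3; rw [hhba]; exact haΓ
    rw [hother v hv h1 h3]; exact hv
  have hfixH : ∀ p, h • p = p → p ∈ Γ₀ ∨ p = c ∨ p = d := by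
    intro p hp
    by_cases hpΓ : p ∈ Γ
    · rcases (hΓ p).mp hpΓ with h1 | rfl | rfl | h1
      · exact Or.inl h1
      · rw [hhab] at hp; exact absurd hp.symm hab
      · rw [hhba] at hp; exact absurd hp hab
      · exact Or.inr h1
    · exact absurd hp (hnsh p hpΓ)
  -- step a: an involution for each point off `Γ`
  have key : ∀ ξ, ξ ∉ Γ → ∃ u₁ : G, u₁ ^ 2 = 1 ∧ u₁ * h = h * u₁ ∧ u₁ • c = d ∧ u₁ • d = c ∧
      u₁ • a = a ∧ u₁ • b = b ∧ (∀ v ∈ Γ₀, u₁ • v = v) ∧ u₁ • ξ = h • ξ := by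
    intro ξ hξ
    set ξ' := h • ξ with hξ'
    have hξ'ξ : ξ' ≠ ξ := hnsh ξ hξ
    have hhξ' : h • ξ' = ξ := hinv ξ
    have hξ'Γ : ξ' ∉ Γ := fun hm => hξ (hhξ' ▸ hpresΓ ξ' hm)
    have nΓ : ∀ p ∈ Γ, p ≠ ξ ∧ p ≠ ξ' := fun p hp =>
      ⟨fun he => hξ (he ▸ hp), fun he => hξ'Γ (he ▸ hp)⟩
    set Γ' := insert a (insert b (insert ξ (insert ξ' Γ₀))) with hΓ'def
    have hξΓ₀ : ξ ∉ Γ₀ := fun hm => hξ (hΓ₀Γ ξ hm)
    have hξ'Γ₀ : ξ' ∉ Γ₀ := fun hm => hξ'Γ (hΓ₀Γ ξ' hm)
    have hΓ'c : Γ'.card = t := by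
      rw [hΓ'def, card_insert_of_notMem (by simp [hab, (nΓ a haΓ).1, (nΓ a haΓ).2, ha]),
        card_insert_of_notMem (by simp [(nΓ b hbΓ).1, (nΓ b hbΓ).2, hb]),
        card_insert_of_notMem (by simp [hξ'ξ.symm, hξΓ₀]), card_insert_of_notMem hξ'Γ₀]
      omega
    have hmemΓ' : ∀ v, v ∈ Γ' ↔ v = a ∨ v = b ∨ v = ξ ∨ v = ξ' ∨ v ∈ Γ₀ := fun v => by
      simp [hΓ'def]
    have hsw : ∀ v ∈ Γ', swap ξ ξ' v ∈ Γ' := by
      intro v hv
      rcases (hmemΓ' v).mp hv with rfl | rfl | rfl | rfl | hv'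
      · rw [swap_apply_of_ne_of_ne (nΓ _ haΓ).1 (nΓ _ haΓ).2]; exact hv
      · rw [swap_apply_of_ne_of_ne (nΓ _ hbΓ).1 (nΓ _ hbΓ).2]; exact hv
      · rw [swap_apply_left]; exact (hmemΓ' _).mpr (by simp)
      · rw [swap_apply_right]; exact (hmemΓ' _).mpr (by simp)
      · rw [swap_apply_of_ne_of_ne (nΓ _ (hΓ₀Γ _ hv')).1 (nΓ _ (hΓ₀Γ _ hv')).2]; exact hv
    obtain ⟨u, hu2, hu⟩ := C.odd_lift hl hΓ'c (swap ξ ξ') (swap ξ ξ').injective.injOn hsw
      (fun v _ => swap_apply_self _ _ v)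
    have ua : u • a = a := by
      rw [hu a ((hmemΓ' a).mpr (by simp)), swap_apply_of_ne_of_ne (nΓ _ haΓ).1 (nΓ _ haΓ).2]
    have ub : u • b = b := by
      rw [hu b ((hmemΓ' b).mpr (by simp)), swap_apply_of_ne_of_ne (nΓ _ hbΓ).1 (nΓ _ hbΓ).2]
    have uξ : u • ξ = ξ' := by
      rw [hu ξ ((hmemΓ' ξ).mpr (by simp)), swap_apply_left]
    have uξ' : u • ξ' = ξ := by
      rw [hu ξ' ((hmemΓ' ξ').mpr (by simp)), swap_apply_right]
    have uΓ₀ : ∀ v ∈ Γ₀, u • v = v := by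
      intro v hv
      rw [hu v ((hmemΓ' v).mpr (by simp [hv])),
        swap_apply_of_ne_of_ne (nΓ _ (hΓ₀Γ _ hv)).1 (nΓ _ (hΓ₀Γ _ hv)).2]
    set r := u * (h * u * h) with hr
    have hrfix : ∀ v ∈ Γ', r • v = v := by
      intro v hv
      have e : ∀ p : α, r • p = u • h • u • h • p := fun p => by
        rw [hr, mul_smul, mul_smul, mul_smul]
      rcases (hmemΓ' v).mp hv with rfl | rfl | rfl | rfl | hv'
      · rw [e, hhab, ub, hhba, ua]
      · rw [e, hhba, ua, hhab, ub]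
      · rw [e, ← hξ', uξ', ← hξ', uξ']
      · rw [e, hhξ', uξ, hhξ', uξ]
      · rw [e, hhΓ₀ v hv', uΓ₀ v hv', hhΓ₀ v hv', uΓ₀ v hv']
    have hrpow : r ^ (2 * l + 1) = 1 := by
      rw [← hl]; exact C.pow hΓ'c hrfix
    obtain ⟨h5, h6⟩ := dihedral_comm u h hu2 h2 l hrpow
    rw [← hr] at h5 h6
    set u₁ := r ^ l * u with hu₁
    have hu₁act : ∀ v, u • v ∈ Γ' → u₁ • v = u • v := by
      intro v hv
      rw [hu₁, mul_smul]
      exact lw_pow_fix (hrfix _ hv) l
    have u₁a : u₁ • a = a := by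
      rw [hu₁act a (by rw [ua]; exact (hmemΓ' a).mpr (by simp)), ua]
    have u₁b : u₁ • b = b := by
      rw [hu₁act b (by rw [ub]; exact (hmemΓ' b).mpr (by simp)), ub]
    have u₁ξ : u₁ • ξ = ξ' := by
      rw [hu₁act ξ (by rw [uξ]; exact (hmemΓ' ξ').mpr (by simp)), uξ]
    have u₁Γ₀ : ∀ v ∈ Γ₀, u₁ • v = v := by
      intro v hv
      rw [hu₁act v (by rw [uΓ₀ v hv]; exact (hmemΓ' v).mpr (by simp [hv])), uΓ₀ v hv]
    have hu₁inv : ∀ v : α, u₁ • u₁ • v = v := fun v => by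
      rw [← mul_smul, ← pow_two, h5, one_smul]
    have hfixed : ∀ p, h • p = p → u₁ • p ∈ Γ₀ ∨ u₁ • p = c ∨ u₁ • p = d := by
      intro p hp
      apply hfixH
      rw [← mul_smul, h6, mul_smul, hp]
    have hnotΓ₀ : ∀ p, p ∉ Γ₀ → u₁ • p ∉ Γ₀ := by
      intro p hp hm
      have h7 := u₁Γ₀ _ hm
      exact hp ((smul_left_cancel u₁ h7) ▸ hm)
    have hu₁c : u₁ • c = d := by
      rcases hfixed c hhc with h7 | h7 | h7
      · exact absurd h7 (hnotΓ₀ c hc)
      · exfalso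
        rcases hfixed d hhd with h8 | h8 | h8
        · exact absurd h8 (hnotΓ₀ d hd)
        · rw [← h7] at h8
          exact hcd (smul_left_cancel u₁ h8).symm
        · have hone := C.eq_one_of_odd hl hΓc (g := u₁) (by
            intro v hv
            rcases (hΓ v).mp hv with hv | rfl | rfl | rfl | rfl
            · exact u₁Γ₀ v hv
            · exact u₁a
            · exact u₁b
            · exact h7
            · exact h8) h5
          rw [hone, one_smul] at u₁ξ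
          exact hξ'ξ u₁ξ.symm
      · exact h7
    have hu₁d : u₁ • d = c := by rw [← hu₁c, hu₁inv]
    exact ⟨u₁, h5, h6.symm, hu₁c, hu₁d, u₁a, u₁b, u₁Γ₀, u₁ξ⟩
  -- step b
  have hwpos : 0 < w := by omega
  have hne : (Γᶜ).Nonempty := by
    rw [← card_pos]; omega
  obtain ⟨ξ₀, hξ₀⟩ := hne
  obtain ⟨u₀, h0, h0h, h0c, h0d, h0a, h0b, h0Γ₀, -⟩ := key ξ₀ (mem_compl.mp hξ₀)
  have hcomm0 : Commute u₀ h := h0h
  have hconj : ∀ u₁ : G, u₁ ^ 2 = 1 → u₁ * h = h * u₁ → u₁ • c = d → u₁ • d = c → u₁ • a = a →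
      u₁ • b = b → (∀ v ∈ Γ₀, u₁ • v = v) →
      ∃ v : G, (∀ p ∈ Γ, v • p = p) ∧ v * h = h * v ∧ v * u₀ * v⁻¹ = u₁ := by
    intro u₁ h1 h1h h1c h1d h1a h1b h1Γ₀
    set r := u₀ * u₁ with hr
    have hrfix : ∀ p ∈ Γ, r • p = p := by
      intro p hp
      rw [hr, mul_smul]
      rcases (hΓ p).mp hp with hp | rfl | rfl | rfl | rfl
      · rw [h1Γ₀ p hp, h0Γ₀ p hp]
      · rw [h1a, h0a]
      · rw [h1b, h0b]
      · rw [h1c, h0d]
      · rw [h1d, h0c]
    have hrpow : r ^ (2 * l + 1) = 1 := by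
      rw [← hl]; exact C.pow hΓc hrfix
    have hrh : Commute r h := Commute.mul_left hcomm0 h1h
    refine ⟨r ^ l, fun p hp => lw_pow_fix (hrfix p hp) l, (hrh.pow_left l).eq, ?_⟩
    exact dihedral_conj u₀ u₁ h0 h1 l hrpow
  -- step c
  set z := h * u₀ with hz
  have hz2 : z ^ 2 = 1 := by
    rw [hz, (hcomm0.symm).mul_pow, h2, h0, one_mul]
  have zΓ₀ : ∀ v ∈ Γ₀, z • v = v := by
    intro v hv
    rw [hz, mul_smul, h0Γ₀ v hv, hhΓ₀ v hv]
  have za : z • a = b := by rw [hz, mul_smul, h0a, hhab]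
  have zb : z • b = a := by rw [hz, mul_smul, h0b, hhba]
  have zc : z • c = d := by rw [hz, mul_smul, h0c, hhd]
  have zd : z • d = c := by rw [hz, mul_smul, h0d, hhc]
  set E := univ.filter (fun p : α => p ∉ Γ ∧ z • p = p) with hE
  have hEmem : ∀ v, v ∈ E ↔ v ∉ Γ ∧ z • v = v := fun v => by simp [hE]
  have hfixz : univ.filter (fun v : α => z • v = v) = Γ₀ ∪ E := by
    ext v
    simp only [mem_filter, mem_univ, true_and, mem_union, hEmem]
    constructor
    · intro hv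
      by_cases hvΓ : v ∈ Γ
      · rcases (hΓ v).mp hvΓ with h3 | rfl | rfl | rfl | rfl
        · exact Or.inl h3
        · rw [za] at hv; exact absurd hv.symm hab
        · rw [zb] at hv; exact absurd hv hab
        · rw [zc] at hv; exact absurd hv.symm hcd
        · rw [zd] at hv; exact absurd hv hcd
      · exact Or.inr ⟨hvΓ, hv⟩
    · rintro (hv | hv)
      · exact zΓ₀ v hv
      · exact hv.2
  have hfixh : univ.filter (fun v : α => h • v = v) = Γ₀ ∪ {c, d} := by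
    ext v
    simp only [mem_filter, mem_univ, true_and, mem_union, mem_insert, mem_singleton]
    constructor
    · exact hfixH v
    · rintro (hv | rfl | rfl)
      · exact hhΓ₀ v hv
      · exact hhc
      · exact hhd
  have hdisjE : Disjoint Γ₀ E := by
    rw [Finset.disjoint_left]
    intro v hv hvE
    exact ((hEmem v).mp hvE).1 (hΓ₀Γ v hv)
  have hdisjcd : Disjoint Γ₀ {c, d} := by
    rw [Finset.disjoint_left]
    intro v hv hv2
    simp only [mem_insert, mem_singleton] at hv2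
    rcases hv2 with rfl | rfl
    · exact hc hv
    · exact hd hv
  have hEeven : E.card % 2 = 0 := by
    have p1 := lw_fix_parity (α := α) z hz2
    have p2 := lw_fix_parity (α := α) h h2
    rw [hfixz, card_union_of_disjoint hdisjE] at p1
    rw [hfixh, card_union_of_disjoint hdisjcd, card_pair hcd] at p2
    unfold Nat.ModEq at p1 p2
    omega
  have hE2 : E.card ≤ 2 := by
    by_contra hcon
    push Not at hcon
    obtain ⟨E₄, hE₄, hE₄c⟩ := Finset.exists_subset_card_eq (s := E) (n := 4) (by omega)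
    have hdisj : Disjoint Γ₀ E₄ := Finset.disjoint_of_subset_right hE₄ hdisjE
    have hsc : (Γ₀ ∪ E₄).card = t := by
      rw [card_union_of_disjoint hdisj, hE₄c]; omega
    have hone := C.eq_one_of_odd hl hsc (g := z) (by
      intro v hv
      rcases mem_union.mp hv with hv | hv
      · exact zΓ₀ v hv
      · exact ((hEmem v).mp (hE₄ hv)).2) hz2
    rw [hone, one_smul] at za
    exact hab za
  -- step d
  set T := univ.filter (fun τ : G => ∀ p ∈ Γ, τ • p = p) with hT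
  have hTc : T.card = w := C.card_fixers hΓc
  set D₀ := univ.filter (fun τ : G => (∀ p ∈ Γ, τ • p = p) ∧ τ * h = h * τ) with hD₀
  have hD₀T : D₀ ⊆ T := by
    intro τ hτ
    simp only [hD₀, hT, mem_filter, mem_univ, true_and] at hτ ⊢
    exact hτ.1
  have hcover : Γᶜ ⊆ (D₀ ×ˢ E).image (fun q : G × α => q.1 • q.2) := by
    intro ξ hξ
    have hξ' := mem_compl.mp hξ
    obtain ⟨u₁, h1, h1h, h1c, h1d, h1a, h1b, h1Γ₀, h1ξ⟩ := key ξ hξ'
    obtain ⟨v, hvΓ, hvh, hvu⟩ := hconj u₁ h1 h1h h1c h1d h1a h1b h1Γ₀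
    have hvz : v * z * v⁻¹ = h * u₁ := by
      rw [hz, ← mul_assoc, hvh, ← hvu]
      group
    have hfixξ : z • (v⁻¹ • ξ) = v⁻¹ • ξ := by
      have h3 : (v * z * v⁻¹) • ξ = ξ := by
        rw [hvz, mul_smul, h1ξ, hinv]
      rw [mul_smul, mul_smul] at h3
      rw [eq_inv_smul_iff]
      exact h3
    have hnotΓ : v⁻¹ • ξ ∉ Γ := by
      intro hm
      have h3 := hvΓ _ hm
      rw [smul_inv_smul] at h3
      exact hξ' (h3 ▸ hm)
    refine mem_image.mpr ⟨(v, v⁻¹ • ξ), ?_, by simp⟩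
    rw [mem_product]
    refine ⟨?_, (hEmem _).mpr ⟨hnotΓ, hfixξ⟩⟩
    simp only [hD₀, mem_filter, mem_univ, true_and]
    exact ⟨hvΓ, hvh⟩
  have hcardcover : (Γᶜ).card ≤ D₀.card * E.card := by
    calc (Γᶜ).card ≤ ((D₀ ×ˢ E).image (fun q : G × α => q.1 • q.2)).card := card_le_card hcover
      _ ≤ (D₀ ×ˢ E).card := card_image_le
      _ = D₀.card * E.card := card_product _ _
  have hD₀le : D₀.card ≤ w := hTc ▸ card_le_card hD₀T
  have hD₀eq : D₀ = T := by
    apply Finset.eq_of_subset_of_card_le hD₀T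
    rw [hTc]
    by_contra hcon
    push Not at hcon
    have : D₀.card * E.card ≤ D₀.card * 2 := Nat.mul_le_mul_left _ hE2
    omega
  refine ⟨u₀, E, h0, h0h, h0c, h0a, h0b, h0Γ₀, ?_, hEmem, hE2, ?_⟩
  · intro τ hτ
    have h3 : τ ∈ D₀ := by
      rw [hD₀eq]
      simp only [hT, mem_filter, mem_univ, true_and]
      exact hτ
    simp only [hD₀, mem_filter, mem_univ, true_and] at h3
    exact h3.2
  · calc (Γᶜ).card ≤ D₀.card * E.card := hcardcover
      _ ≤ w * E.card := Nat.mul_le_mul_right _ hD₀le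

/-- The conclusion of the odd case. -/
theorem odd_final (C : LWCtx G α t w) (hl : w = 2 * l + 1) (ht : 4 ≤ t) (hn : t ≤ Fintype.card α)
    (hns : ∀ (s : Finset α) (h : G) (a b ξ : α), s.card = t → a ∈ s → b ∈ s → a ≠ b → h ^ 2 = 1 →
      h • a = b → (∀ v ∈ s, v ≠ a → v ≠ b → h • v = v) → ξ ∉ s → h • ξ ≠ ξ)
    (hN : 2 * w ≤ Fintype.card α - t) : w = 1 ∧ Fintype.card α = t + 2 := by
  classical
  haveI : Fintype G := Fintype.ofFinite G
  obtain ⟨Γ, -, hΓc⟩ := Finset.exists_subset_card_eq (s := (univ : Finset α)) (n := t)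
    (by rw [card_univ]; exact hn)
  have hΓcompl : (Γᶜ).card = Fintype.card α - t := by rw [card_compl, hΓc]
  have hN' : 2 * w ≤ (Γᶜ).card := by rw [hΓcompl]; exact hN
  obtain ⟨a, ha⟩ : Γ.Nonempty := by rw [← card_pos]; omega
  have hc1 : (Γ.erase a).card = t - 1 := by rw [card_erase_of_mem ha, hΓc]
  obtain ⟨b, hb⟩ : (Γ.erase a).Nonempty := by rw [← card_pos]; omega
  have hc2 : ((Γ.erase a).erase b).card = t - 2 := by rw [card_erase_of_mem hb, hc1]; omega
  obtain ⟨c, hc⟩ : ((Γ.erase a).erase b).Nonempty := by rw [← card_pos]; omega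
  have hc3 : (((Γ.erase a).erase b).erase c).card = t - 3 := by
    rw [card_erase_of_mem hc, hc2]; omega
  obtain ⟨d, hd⟩ : (((Γ.erase a).erase b).erase c).Nonempty := by rw [← card_pos]; omega
  set Γ₀ := (((Γ.erase a).erase b).erase c).erase d with hΓ₀
  have hΓ₀c : Γ₀.card + 4 = t := by
    rw [hΓ₀, card_erase_of_mem hd, hc3]; omega
  simp only [mem_erase] at hb hc hd
  have hab : a ≠ b := fun h => hb.1 h.symm
  have hac : a ≠ c := fun h => hc.2.1 h.symm
  have hbc : b ≠ c := fun h => hc.1 h.symm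
  have had : a ≠ d := fun h => hd.2.2.1 h.symm
  have hbd : b ≠ d := fun h => hd.2.1 h.symm
  have hcd : c ≠ d := fun h => hd.1 h.symm
  have hmem0 : ∀ v, v ∈ Γ₀ ↔ v ≠ d ∧ v ≠ c ∧ v ≠ b ∧ v ≠ a ∧ v ∈ Γ := fun v => by
    simp only [hΓ₀, mem_erase]
  have haΓ₀ : a ∉ Γ₀ := fun h => ((hmem0 a).mp h).2.2.2.1 rfl
  have hbΓ₀ : b ∉ Γ₀ := fun h => ((hmem0 b).mp h).2.2.1 rfl
  have hcΓ₀ : c ∉ Γ₀ := fun h => ((hmem0 c).mp h).2.1 rfl
  have hdΓ₀ : d ∉ Γ₀ := fun h => ((hmem0 d).mp h).1 rfl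
  have hbΓ : b ∈ Γ := hb.2
  have hcΓ : c ∈ Γ := hc.2.2
  have hdΓ : d ∈ Γ := hd.2.2.2
  have hΓ1 : ∀ v, v ∈ Γ ↔ v ∈ Γ₀ ∨ v = a ∨ v = b ∨ v = c ∨ v = d := by
    intro v
    rw [hmem0]
    constructor
    · intro hv
      by_cases h1 : v = a
      · exact Or.inr (Or.inl h1)
      by_cases h2 : v = b
      · exact Or.inr (Or.inr (Or.inl h2))
      by_cases h3 : v = c
      · exact Or.inr (Or.inr (Or.inr (Or.inl h3)))
      by_cases h4 : v = d
      · exact Or.inr (Or.inr (Or.inr (Or.inr h4)))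
      exact Or.inl ⟨h4, h3, h2, h1, hv⟩
    · rintro (h1 | rfl | rfl | rfl | rfl)
      · exact h1.2.2.2.2
      · exact ha
      · exact hbΓ
      · exact hcΓ
      · exact hdΓ
  have hΓ2 : ∀ v, v ∈ Γ ↔ v ∈ Γ₀ ∨ v = c ∨ v = d ∨ v = a ∨ v = b := by
    intro v
    rw [hΓ1]
    tauto
  have hΓsw : ∀ v ∈ Γ, swap a b v ∈ Γ := by
    intro v hv
    by_cases h1 : v = a
    · subst h1; rw [swap_apply_left]; exact hbΓ
    by_cases h2 : v = b
    · subst h2; rw [swap_apply_right]; exact ha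
    rw [swap_apply_of_ne_of_ne h1 h2]; exact hv
  obtain ⟨h, h2, hh⟩ := C.odd_lift hl hΓc (swap a b) (swap a b).injective.injOn hΓsw
    (fun v _ => swap_apply_self _ _ v)
  have hhab : h • a = b := by rw [hh a ha, swap_apply_left]
  have hhoth : ∀ v ∈ Γ, v ≠ a → v ≠ b → h • v = v := fun v hv h1 h3 => by
    rw [hh v hv, swap_apply_of_ne_of_ne h1 h3]
  have hΓ₀Γ : ∀ v ∈ Γ₀, v ∈ Γ := fun v hv => ((hmem0 v).mp hv).2.2.2.2
  have hhΓ₀ : ∀ v ∈ Γ₀, h • v = v := fun v hv => hhoth v (hΓ₀Γ v hv) ((hmem0 v).mp hv).2.2.2.1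
    ((hmem0 v).mp hv).2.2.1
  obtain ⟨u₀, E, h0, h0h, h0c, h0a, h0b, h0Γ₀, hcomm, hE, hE2, hEN⟩ := C.odd_core hl hns hΓ₀c
    haΓ₀ hbΓ₀ hcΓ₀ hdΓ₀ hab hac had hbc hbd hcd hΓ1 hN' h2 hhab hhΓ₀
    (hhoth c hcΓ (Ne.symm hac) (Ne.symm hbc)) (hhoth d hdΓ (Ne.symm had) (Ne.symm hbd))
  obtain ⟨-, -, -, -, -, -, -, -, hcomm0, -⟩ := C.odd_core hl hns hΓ₀c
    hcΓ₀ hdΓ₀ haΓ₀ hbΓ₀ hcd (Ne.symm hac) (Ne.symm hbc) (Ne.symm had) (Ne.symm hbd) hab hΓ2 hN'
    h0 h0c h0Γ₀ h0a h0b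
  have hwpos : 0 < w := by omega
  have hEc : E.card = 2 := by
    refine le_antisymm hE2 ?_
    by_contra hcon
    push Not at hcon
    have h5 : w * E.card ≤ w * 1 := Nat.mul_le_mul_left _ (by omega)
    omega
  obtain ⟨ε₁, ε₂, hε, hEeq⟩ := Finset.card_eq_two.mp hEc
  have hε₁ : ε₁ ∈ E := by simp [hEeq]
  have hε₂ : ε₂ ∈ E := by simp [hEeq]
  have hτ1 : ∀ τ : G, (∀ v ∈ Γ, τ • v = v) → τ = 1 := by
    intro τ hτ
    have hτz : τ * (h * u₀) = (h * u₀) * τ := by
      have c1 : Commute τ h := hcomm τ hτ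
      have c2 : Commute τ u₀ := hcomm0 τ hτ
      exact (c1.mul_right c2).eq
    have hpresE : ∀ p ∈ E, τ • p ∈ E := by
      intro p hp
      obtain ⟨h3, h4⟩ := (hE p).mp hp
      refine (hE _).mpr ⟨?_, ?_⟩
      · intro hm
        have h5 := hτ _ hm
        exact h3 (smul_left_cancel τ h5 ▸ hm)
      · rw [← mul_smul, ← hτz, mul_smul, h4]
    have hε₁Γ : ε₁ ∉ Γ := ((hE _).mp hε₁).1
    by_cases h1 : τ • ε₁ = ε₁
    · exact C.rigid' hΓc hε₁Γ hτ h1
    · have h3 : τ • ε₁ = ε₂ := by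
        have := hpresE _ hε₁
        rw [hEeq] at this
        simp only [mem_insert, mem_singleton] at this
        rcases this with h4 | h4
        · exact absurd h4 h1
        · exact h4
      have h4 : τ • ε₂ = ε₁ := by
        have := hpresE _ hε₂
        rw [hEeq] at this
        simp only [mem_insert, mem_singleton] at this
        rcases this with h4 | h4
        · exact h4
        · exfalso
          rw [← h3] at h4
          exact h1 (smul_left_cancel τ h4)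
      have hsq : τ ^ 2 = 1 := by
        refine C.rigid' hΓc hε₁Γ ?_ ?_
        · intro v hv
          rw [pow_two, mul_smul, hτ v hv, hτ v hv]
        · rw [pow_two, mul_smul, h3, h4]
      exact C.eq_one_of_odd hl hΓc hτ hsq
  have hTc := C.card_fixers (s := Γ) hΓc
  have hw1 : w = 1 := by
    rw [← hTc]
    have : univ.filter (fun τ : G => ∀ p ∈ Γ, τ • p = p) = {1} := by
      ext τ
      simp only [mem_filter, mem_univ, true_and, mem_singleton]
      constructor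
      · exact hτ1 τ
      · rintro rfl
        simp
    rw [this, card_singleton]
  refine ⟨hw1, ?_⟩
  rw [hΓcompl, hEc, hw1] at hEN
  rw [hw1] at hN
  omega

omit [Fintype α] [DecidableEq α] [Finite G] in
/-- A tuple all of whose position permutations are realised gives `t + 1`-transitivity. -/
theorem trans_of_top {m : ℕ}
    (hhom : ∀ x y : Fin m ↪ α, ∃ (g : G) (ρ : Perm (Fin m)), ∀ i, g • x i = y (ρ i))
    {x₀ : Fin m ↪ α} (h : tupM G x₀ = ⊤) (x y : Fin m ↪ α) : ∃ g : G, ∀ i, g • x i = y i := by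
  have key : ∀ y : Fin m ↪ α, ∃ g : G, ∀ i, g • x₀ i = y i := by
    intro y
    obtain ⟨g, ρ, hg⟩ := hhom x₀ y
    have hmem : ρ⁻¹ ∈ tupM G x₀ := by rw [h]; trivial
    obtain ⟨g', hg'⟩ := hmem
    refine ⟨g * g', fun i => ?_⟩
    rw [mul_smul, hg', hg]
    simp
  obtain ⟨g₁, h1⟩ := key x
  obtain ⟨g₂, h2⟩ := key y
  refine ⟨g₂ * g₁⁻¹, fun i => ?_⟩
  rw [mul_smul, ← h1, inv_smul_smul, h2]

/-- **Livingstone–Wagner for large `t`.** -/
theorem lw_large (C : LWCtx G α t w) (ht : 4 ≤ t) (hn : t + 2 ≤ Fintype.card α)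
    (hN : 2 * w ≤ Fintype.card α - t) (hw0 : 0 < w)
    (hhom : ∀ x y : Fin (t + 1) ↪ α, ∃ (g : G) (ρ : Perm (Fin (t + 1))), ∀ i, g • x i = y (ρ i))
    (hnt : ¬ ∀ x y : Fin (t + 1) ↪ α, ∃ g : G, ∀ i, g • x i = y i) :
    w = 1 ∧ Fintype.card α = t + 2 := by
  classical
  have htop : ∀ x₀ : Fin (t + 1) ↪ α, tupM G x₀ ≠ ⊤ := fun x₀ h => hnt (trans_of_top hhom h)
  obtain ⟨x₀⟩ : Nonempty (Fin (t + 1) ↪ α) :=
    Function.Embedding.nonempty_of_card_le (by rw [Fintype.card_fin]; omega)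
  rcases Nat.even_or_odd w with hw | hw
  · exfalso
    obtain ⟨m, hm⟩ := hw
    refine htop x₀ (C.even_top ⟨m, hm⟩ ht (by omega) hhom x₀)
  · obtain ⟨l, hl⟩ := hw
    have hnsw : ∀ (x : Fin (t + 1) ↪ α) (i j : Fin (t + 1)), i ≠ j → swap i j ∉ tupM G x := by
      intro x i j hij hm
      exact htop x (C.odd_all_swaps hl ht x hij hm)
    exact C.odd_final hl ht (by omega) (fun s h a b ξ hs ha hb hab h2 hha hoth hξ =>
      no_further hnsw hs ha hb hab h2 hha hoth hξ) hN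

end LWCtx

end Cfsg.Agent.Lib.Perm
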