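import Cfsg.Agent.Lib.Perm.LWOdd
import Cfsg.Agent.Lib.Perm.Tuples
import Cfsg.Agent.Lib.Perm.Sharp2
import Cfsg.Agent.S0744

/-! Setup for the Livingstone–Wagner theorem. -/

set_option autoImplicit false

namespace Cfsg.Agent.Lib.Perm

open MulAction Equiv Finset
open scoped Pointwise

variable {α : Type*} [Fintype α] [DecidableEq α]

section General

variable {H : Type*} [Group H] [MulAction H α]

theorem lw_lift {t : ℕ} (htt : IsMultiplyPretransitive H α t) (s : Finset α) (f : α → α)
    (hs : s.card = t) (hf : Set.InjOn f s) : ∃ g : H, ∀ v ∈ s, g • v = f v := by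
  classical
  let e := s.equivFinOfCardEq hs
  let x : Fin t ↪ α := ⟨fun i => (e.symm i : α), fun i j h => e.symm.injective (Subtype.ext h)⟩
  let y : Fin t ↪ α := ⟨fun i => f (e.symm i), fun i j h =>
    e.symm.injective (Subtype.ext (hf (e.symm i).2 (e.symm j).2 h))⟩
  obtain ⟨g, hg⟩ := htt.exists_smul_eq x y
  refine ⟨g, fun v hv => ?_⟩
  have h1 : (g • x) (e ⟨v, hv⟩) = y (e ⟨v, hv⟩) := by rw [hg]
  have h2 : x (e ⟨v, hv⟩) = v := by
    change ((e.symm (e ⟨v, hv⟩) : _) : α) = v
    simp
  have h3 : y (e ⟨v, hv⟩) = f v := by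
    change f ((e.symm (e ⟨v, hv⟩) : _) : α) = f v
    simp
  have h4 : (g • x) (e ⟨v, hv⟩) = g • x (e ⟨v, hv⟩) := rfl
  rw [h4, h2, h3] at h1
  exact h1

theorem lw_card_fix_eq (g : H) (s s' : Finset α) (h : ∀ v, v ∈ s' ↔ g⁻¹ • v ∈ s) :
    Nat.card (fixingSubgroup H (s : Set α)) = Nat.card (fixingSubgroup H (s' : Set α)) := by
  refine Nat.card_congr ⟨fun τ => ⟨g * τ * g⁻¹, ?_⟩, fun τ => ⟨g⁻¹ * τ * g, ?_⟩, ?_, ?_⟩
  · rw [mem_fixingSubgroup_iff]
    intro v hv
    have h1 : (τ : H) • g⁻¹ • v = g⁻¹ • v :=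
      (mem_fixingSubgroup_iff H).mp τ.2 _ ((h v).mp hv)
    rw [mul_smul, mul_smul, h1, smul_inv_smul]
  · rw [mem_fixingSubgroup_iff]
    intro v hv
    have h0 : g • v ∈ s' := by
      rw [h, inv_smul_smul]; exact hv
    have h1 : (τ : H) • g • v = g • v :=
      (mem_fixingSubgroup_iff H).mp τ.2 _ h0
    rw [mul_smul, mul_smul, h1, inv_smul_smul]
  · intro τ
    apply Subtype.ext
    change g⁻¹ * (g * (τ : H) * g⁻¹) * g = τ
    group
  · intro τ
    apply Subtype.ext
    change g * (g⁻¹ * (τ : H) * g) * g⁻¹ = τ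
    group

theorem lw_card_fix_homog {m : ℕ} (hh : IsPretransitive H (Set.powersetCard α m)) (s s' : Finset α)
    (hs : s.card = m) (hs' : s'.card = m) :
    Nat.card (fixingSubgroup H (s : Set α)) = Nat.card (fixingSubgroup H (s' : Set α)) := by
  obtain ⟨g, hg⟩ := hh.exists_smul_eq (⟨s, hs⟩ : Set.powersetCard α m) ⟨s', hs'⟩
  have h1 : ((g • (⟨s, hs⟩ : Set.powersetCard α m) : Set.powersetCard α m) : Finset α) = g • s :=
    Set.powersetCard.coe_smul
  rw [hg] at h1
  refine lw_card_fix_eq g s s' ?_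
  intro v
  change v ∈ s' ↔ _
  have h2 : s' = g • s := h1
  rw [h2, Finset.mem_smul_finset]
  constructor
  · rintro ⟨y, hy, rfl⟩
    rwa [inv_smul_smul]
  · intro hv
    exact ⟨_, hv, smul_inv_smul _ _⟩

theorem lw_hom_tuple {m : ℕ} (hh : IsPretransitive H (Set.powersetCard α m))
    (x y : Fin m ↪ α) : ∃ (g : H) (ρ : Perm (Fin m)), ∀ i, g • x i = y (ρ i) := by
  classical
  have hx : (univ.map x).card = m := by simp
  have hy : (univ.map y).card = m := by simp
  obtain ⟨g, hg⟩ := hh.exists_smul_eq (⟨univ.map x, hx⟩ : Set.powersetCard α m) ⟨univ.map y, hy⟩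
  have h1 : ((g • (⟨univ.map x, hx⟩ : Set.powersetCard α m) : Set.powersetCard α m) : Finset α)
      = g • (univ.map x) := Set.powersetCard.coe_smul
  rw [hg] at h1
  have h2 : univ.map y = g • univ.map x := h1
  have hex : ∀ i, ∃ j, g • x i = y j := by
    intro i
    have h3 : g • x i ∈ g • univ.map x :=
      Finset.smul_mem_smul_finset ((mem_map' x).mpr (mem_univ i))
    rw [← h2] at h3
    obtain ⟨j, -, hj⟩ := mem_map.mp h3
    exact ⟨j, hj.symm⟩
  choose f hf using hex
  have hinj : Function.Injective f := by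
    intro i j hij
    apply x.injective
    apply smul_left_cancel g
    rw [hf, hf, hij]
  exact ⟨g, Equiv.ofBijective f (Finite.injective_iff_bijective.mp hinj), hf⟩

/-- Rigidity from the Wielandt-type lemma. -/
theorem lw_rigid (G : Subgroup (Perm α)) {t : ℕ} (hkn : t + 2 ≤ Fintype.card α)
    (hnt : ¬ IsMultiplyPretransitive G α (t + 1))
    (hh1 : IsPretransitive G (Set.powersetCard α (t + 1)))
    (hh : IsPretransitive G (Set.powersetCard α (t + 2)))
    (s : Finset α) (g : G) (hs : s.card = t + 1) (hg : ∀ v ∈ s, g • v = v) : g = 1 := by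
  classical
  obtain ⟨s₂, -, hs₂⟩ := Finset.exists_subset_card_eq (s := (univ : Finset α)) (n := t + 2)
    (by rw [card_univ]; exact hkn)
  set l := Nat.card (fixingSubgroup G (s : Set α)) with hl
  set m := Nat.card (fixingSubgroup G (s₂ : Set α)) with hm
  have hlpos : 0 < l := Nat.card_pos
  have hl1 : l = 1 := by
    by_contra hne
    have hlt : 1 < l := by omega
    apply hnt
    exact Cfsg.Agent.S0744.result G (k := t + 2) (by omega) hkn l m hlt
      (fun s' hs' => lw_card_fix_homog hh1 s' s hs' hs)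
      (fun s' hs' => lw_card_fix_homog hh s' s₂ hs' hs₂)
  have hmem : g ∈ fixingSubgroup G (s : Set α) := by
    rw [mem_fixingSubgroup_iff]
    exact fun v hv => hg v hv
  have hsub := (Nat.card_eq_one_iff_unique.mp hl1).1
  have : (⟨g, hmem⟩ : fixingSubgroup G (s : Set α)) = 1 := Subsingleton.elim _ _
  exact congrArg Subtype.val this

theorem lw_ctx (G : Subgroup (Perm α)) {t : ℕ} (hkn : t + 2 ≤ Fintype.card α)
    (htt : IsMultiplyPretransitive G α t) (hnt : ¬ IsMultiplyPretransitive G α (t + 1))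
    (hh1 : IsPretransitive G (Set.powersetCard α (t + 1)))
    (hh : IsPretransitive G (Set.powersetCard α (t + 2))) :
    ∃ w, 0 < w ∧ LWCtx G α t w := by
  classical
  obtain ⟨s₀, -, hs₀⟩ := Finset.exists_subset_card_eq (s := (univ : Finset α)) (n := t)
    (by rw [card_univ]; omega)
  refine ⟨Nat.card (fixingSubgroup G (s₀ : Set α)), Nat.card_pos, ?_, ?_, ?_⟩
  · exact fun s f hs hf => lw_lift htt s f hs hf
  · exact fun s g hs hg => lw_rigid G hkn hnt hh1 hh s g hs hg
  · intro s hs
    exact lw_card_fix_homog (Set.powersetCard.isPretransitive_of_isMultiplyPretransitive G htt)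
      s s₀ hs hs₀

end General

section Semi

variable {H : Type*} [Group H] [MulAction H α] [Finite H] {t w : ℕ}

namespace LWCtx

/-- Semiregularity of `t`-point stabilisers. -/
theorem dvd_compl (C : LWCtx H α t w) {Γ : Finset α} (hΓ : Γ.card = t) : w ∣ (Γᶜ).card := by
  classical
  let F := fixingSubgroup H (Γ : Set α)
  let Y : SubMulAction F α :=
    { carrier := {v | v ∉ Γ}
      smul_mem' := by
        intro τ v hv hm
        have h1 : (τ : H) • v ∈ Γ := hm
        have h2 := (mem_fixingSubgroup_iff H).mp τ.2 _ h1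
        have h3 : (τ : H) • v = v := smul_left_cancel (τ : H) h2
        exact hv (h3 ▸ h1) }
  have hY : Nat.card Y = (Γᶜ).card := by
    have : Nat.card Y = Nat.card {v // v ∈ Γᶜ} := by
      refine Nat.card_congr ⟨fun v => ⟨v.1, mem_compl.mpr v.2⟩, fun v => ⟨v.1, mem_compl.mp v.2⟩,
        fun _ => rfl, fun _ => rfl⟩
    rw [this, Nat.card_eq_fintype_card, Fintype.card_coe]
  rw [← hY, ← C.card Γ hΓ]
  refine dvd_card_of_orbits_eq (H := F) (X := Y) (d := Nat.card F) ?_
  intro y
  have hst : stabilizer F y = ⊥ := by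
    rw [eq_bot_iff]
    intro τ hτ
    rw [Subgroup.mem_bot]
    apply Subtype.ext
    have h1 : τ • y = y := hτ
    have h2 : (τ : H) • (y : α) = y := congrArg Subtype.val h1
    exact C.rigid' hΓ y.2 (fun v hv => (mem_fixingSubgroup_iff H).mp τ.2 v hv) h2
  have h := Nat.card_congr (orbitProdStabilizerEquivGroup F y)
  rw [Nat.card_prod, hst, Nat.card_of_subsingleton (1 : (⊥ : Subgroup F)), mul_one] at h
  exact h

/-- If the stabiliser of `t` points is transitive on the rest then the group is
`t + 1`-transitive. -/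
theorem trans_of_eq (C : LWCtx H α t w) (hNw : Fintype.card α - t = w)
    (x y : Fin (t + 1) ↪ α) : ∃ g : H, ∀ i, g • x i = y i := by
  classical
  haveI : Fintype H := Fintype.ofFinite H
  set q := Fin.last t with hq
  have hE : ((univ.erase q).map x).card = t := by
    rw [card_map, card_erase_of_mem (mem_univ q), card_univ, Fintype.card_fin]; omega
  have hE' : ((univ.erase q).map y).card = t := by
    rw [card_map, card_erase_of_mem (mem_univ q), card_univ, Fintype.card_fin]; omega
  set f : α → α := fun v => y (Function.invFun x v) with hf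
  have hfx : ∀ a, f (x a) = y a := fun a => by
    rw [hf]
    simp only
    rw [Function.leftInverse_invFun x.injective a]
  have hfinj : Set.InjOn f ((univ.erase q).map x : Finset α) := by
    intro v hv v' hv' hvv
    obtain ⟨a, -, rfl⟩ := mem_map.mp (mem_coe.mp hv)
    obtain ⟨a', -, rfl⟩ := mem_map.mp (mem_coe.mp hv')
    change f (x a) = f (x a') at hvv
    rw [hfx, hfx] at hvv
    change x a = x a'
    rw [y.injective hvv]
  obtain ⟨g₁, hg₁⟩ := C.lift _ f hE hfinj
  have hg₁' : ∀ a, a ≠ q → g₁ • x a = y a := by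
    intro a ha
    rw [hg₁ _ ((mem_map' x).mpr (by simp [ha])), hfx]
  set Γ := (univ.erase q).map y with hΓ
  have hyq : y q ∉ Γ := by rw [hΓ, mem_map' y]; simp
  have hξ : g₁ • x q ∉ Γ := by
    intro hm
    obtain ⟨a, ha, he⟩ := mem_map.mp hm
    have ha' : a ≠ q := by simpa using ha
    have h3 : y a = g₁ • x q := he
    rw [← hg₁' a ha'] at h3
    exact ha' (x.injective (smul_left_cancel g₁ h3))
  set T := univ.filter (fun τ : H => ∀ p ∈ Γ, τ • p = p) with hT
  have hTc : T.card = w := C.card_fixers hE'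
  set O := T.image (fun τ => τ • (g₁ • x q)) with hO
  have hOc : O.card = w := by
    rw [hO, card_image_of_injOn, hTc]
    intro τ hτ τ' hτ' he
    have hτ1 : ∀ p ∈ Γ, τ • p = p := by simpa [hT] using hτ
    have hτ2 : ∀ p ∈ Γ, τ' • p = p := by simpa [hT] using hτ'
    have h1 : τ'⁻¹ * τ = 1 := by
      refine C.rigid' hE' hξ ?_ ?_
      · intro v hv
        rw [mul_smul, hτ1 v hv, inv_smul_eq_iff, hτ2 v hv]
      · rw [mul_smul, inv_smul_eq_iff]
        exact he
    exact (inv_mul_eq_one.mp h1).symm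
  have hOsub : O ⊆ Γᶜ := by
    intro v hv
    obtain ⟨τ, hτ, rfl⟩ := mem_image.mp hv
    have hτ1 : ∀ p ∈ Γ, τ • p = p := by simpa [hT] using hτ
    rw [mem_compl]
    intro hm
    have h1 := hτ1 _ hm
    exact hξ ((smul_left_cancel τ h1) ▸ hm)
  have hOeq : O = Γᶜ := by
    apply Finset.eq_of_subset_of_card_le hOsub
    rw [card_compl, hE', hOc, hNw]
  have hmem : y q ∈ O := by rw [hOeq, mem_compl]; exact hyq
  obtain ⟨τ, hτ, hτe⟩ := mem_image.mp hmem
  have hτ1 : ∀ p ∈ Γ, τ • p = p := by simpa [hT] using hτ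
  refine ⟨τ * g₁, fun a => ?_⟩
  by_cases ha : a = q
  · subst ha
    rw [mul_smul]
    exact hτe
  · rw [mul_smul, hg₁' a ha]
    exact hτ1 _ ((mem_map' y).mpr (by simp [ha]))

end LWCtx

end Semi

/-- Counting the group: orbit on tuples. -/
theorem lw_card_tuple {H : Type*} [Group H] [MulAction H α] [Finite H] {t w : ℕ}
    (htt : IsMultiplyPretransitive H α t) (C : LWCtx H α t w) (hn : t ≤ Fintype.card α) :
    Nat.card H = (Fintype.card α).descFactorial t * w := by
  classical
  obtain ⟨x⟩ : Nonempty (Fin t ↪ α) :=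
    Function.Embedding.nonempty_of_card_le (by rw [Fintype.card_fin]; omega)
  haveI : IsPretransitive H (Fin t ↪ α) := htt
  have h1 := Subgroup.card_mul_index (stabilizer H x)
  rw [index_stabilizer_of_transitive, Nat.card_eq_fintype_card (α := Fin t ↪ α),
    Fintype.card_embedding_eq, Fintype.card_fin] at h1
  have hst : stabilizer H x = fixingSubgroup H ((univ.map x : Finset α) : Set α) := by
    ext g
    rw [mem_stabilizer_iff, mem_fixingSubgroup_iff]
    constructor
    · intro h v hv
      obtain ⟨i, -, rfl⟩ := mem_map.mp hv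
      have := DFunLike.congr_fun h i
      exact this
    · intro h
      ext i
      exact h _ ((mem_map' x).mpr (mem_univ i))
  rw [hst, C.card _ (by simp)] at h1
  rw [← h1, mul_comm]

/-- Counting the group: orbit on subsets. -/
theorem lw_card_subset {H : Type*} [Group H] [MulAction H α] [Finite H] {m : ℕ}
    (hh : IsPretransitive H (Set.powersetCard α m)) (s : Set.powersetCard α m) :
    Nat.card H = (Fintype.card α).choose m * Nat.card (stabilizer H s) := by
  classical
  have h1 := Subgroup.card_mul_index (stabilizer H s)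
  rw [index_stabilizer_of_transitive, Set.powersetCard.card, Nat.card_eq_fintype_card (α := α)] at h1
  rw [← h1, mul_comm]

/-- The arithmetic of the orders. -/
theorem lw_numbers (n t w K' K c : ℕ) (hn : t + 2 ≤ n) (h1 : c = n.descFactorial t * w)
    (h2 : c = n.choose (t + 1) * K') (h3 : c = n.choose (t + 2) * K) :
    w * (t + 1).factorial = (n - t) * K' ∧ w * (t + 2).factorial = (n - t) * (n - t - 1) * K := by
  have hD : 0 < n.descFactorial t := Nat.descFactorial_pos.mpr (by omega)
  have e1 : n.descFactorial (t + 1) = (n - t) * n.descFactorial t := Nat.descFactorial_succ n t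
  have e2 : n.descFactorial (t + 2) = (n - (t + 1)) * n.descFactorial (t + 1) :=
    Nat.descFactorial_succ n (t + 1)
  have e3 := Nat.descFactorial_eq_factorial_mul_choose n (t + 1)
  have e4 := Nat.descFactorial_eq_factorial_mul_choose n (t + 2)
  have e5 : n - (t + 1) = n - t - 1 := by omega
  constructor
  · apply Nat.eq_of_mul_eq_mul_left hD
    calc n.descFactorial t * (w * (t + 1).factorial)
        = c * (t + 1).factorial := by rw [h1]; ring
      _ = (t + 1).factorial * n.choose (t + 1) * K' := by rw [h2]; ring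
      _ = n.descFactorial t * ((n - t) * K') := by rw [← e3, e1]; ring
  · apply Nat.eq_of_mul_eq_mul_left hD
    calc n.descFactorial t * (w * (t + 2).factorial)
        = c * (t + 2).factorial := by rw [h1]; ring
      _ = (t + 2).factorial * n.choose (t + 2) * K := by rw [h3]; ring
      _ = n.descFactorial t * ((n - t) * (n - t - 1) * K) := by rw [← e4, e2, e1, e5]; ring

end Cfsg.Agent.Lib.Perm
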