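import Cfsg.Agent.Lib.Perm.LWSetup

/-! Livingstone–Wagner: exclusions for small parameters. -/

set_option autoImplicit false

namespace Cfsg.Agent.Lib.Perm

open MulAction Equiv Finset
open scoped Pointwise

variable {α : Type*} [Fintype α] [DecidableEq α]
variable {H : Type*} [Group H] [MulAction H α] [Finite H] {t w : ℕ}

namespace LWCtx

/-- The orbit of a point off `Γ` under the stabiliser of `Γ`. -/
theorem orbit_data (C : LWCtx H α t w) [Fintype H] {Γ : Finset α} (hΓ : Γ.card = t) {ξ : α}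
    (hξ : ξ ∉ Γ) :
    ((univ.filter (fun τ : H => ∀ p ∈ Γ, τ • p = p)).image (fun τ => τ • ξ)).card = w ∧
      (univ.filter (fun τ : H => ∀ p ∈ Γ, τ • p = p)).image (fun τ => τ • ξ) ⊆ Γᶜ := by
  classical
  constructor
  · rw [card_image_of_injOn, C.card_fixers hΓ]
    intro τ hτ τ' hτ' he
    have hτ1 : ∀ p ∈ Γ, τ • p = p := by simpa using hτ
    have hτ2 : ∀ p ∈ Γ, τ' • p = p := by simpa using hτ'
    have h1 : τ'⁻¹ * τ = 1 := by
      refine C.rigid' hΓ hξ ?_ ?_
      · intro v hv
        rw [mul_smul, hτ1 v hv, inv_smul_eq_iff, hτ2 v hv]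
      · rw [mul_smul, inv_smul_eq_iff]
        exact he
    exact (inv_mul_eq_one.mp h1).symm
  · intro v hv
    obtain ⟨τ, hτ, rfl⟩ := mem_image.mp hv
    have hτ1 : ∀ p ∈ Γ, τ • p = p := by simpa using hτ
    rw [mem_compl]
    intro hm
    have h1 := hτ1 _ hm
    exact hξ ((smul_left_cancel τ h1) ▸ hm)

/-- The stabiliser of a `t`-set stabilises a `t+2`-set, if `w` is small. -/
theorem orbit_dvd (C : LWCtx H α t w) (hw2 : 2 ≤ w) (hwk : w ≤ t + 2)
    (hn : t + 1 ≤ Fintype.card α) (K : ℕ)
    (hK : ∀ s : Set.powersetCard α (t + 2), Nat.card (stabilizer H s) = K) : w ∣ K := by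
  classical
  haveI : Fintype H := Fintype.ofFinite H
  obtain ⟨Γ, -, hΓ⟩ := Finset.exists_subset_card_eq (s := (univ : Finset α)) (n := t)
    (by rw [card_univ]; omega)
  have hcompl : (Γᶜ).Nonempty := by
    rw [← card_pos, card_compl, hΓ]; omega
  obtain ⟨ξ, hξ⟩ := hcompl
  have hξ' := mem_compl.mp hξ
  obtain ⟨hOc, hOsub⟩ := C.orbit_data hΓ hξ'
  set T := univ.filter (fun τ : H => ∀ p ∈ Γ, τ • p = p) with hT
  set O := T.image (fun τ => τ • ξ) with hO
  obtain ⟨A, hAΓ, hAc⟩ := Finset.exists_subset_card_eq (s := Γ) (n := t + 2 - w) (by omega)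
  have hdisj : Disjoint A O := by
    rw [Finset.disjoint_left]
    intro v hv hvO
    exact (mem_compl.mp (hOsub hvO)) (hAΓ hv)
  have hsc : (A ∪ O).card = t + 2 := by
    rw [card_union_of_disjoint hdisj, hAc, hOc]; omega
  set S : Set.powersetCard α (t + 2) := ⟨A ∪ O, hsc⟩ with hS
  rw [← hK S, ← C.card Γ hΓ]
  refine Subgroup.card_dvd_of_le ?_
  intro τ hτ
  have hτ' : ∀ p ∈ Γ, τ • p = p := fun p hp => (mem_fixingSubgroup_iff H).mp hτ p hp
  rw [mem_stabilizer_iff]
  apply Subtype.ext
  have h1 : ((τ • S : Set.powersetCard α (t + 2)) : Finset α) = τ • (A ∪ O) :=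
    Set.powersetCard.coe_smul
  change ((τ • S : Set.powersetCard α (t + 2)) : Finset α) = A ∪ O
  rw [h1]
  apply Finset.eq_of_subset_of_card_le
  · intro v hv
    obtain ⟨u, hu, rfl⟩ := Finset.mem_smul_finset.mp hv
    rcases mem_union.mp hu with hu | hu
    · change τ • u ∈ _
      rw [hτ' u (hAΓ hu)]
      exact mem_union_left _ hu
    · obtain ⟨τ', hτ'', rfl⟩ := mem_image.mp hu
      apply mem_union_right
      refine mem_image.mpr ⟨τ * τ', ?_, mul_smul _ _ _⟩
      have hτ3 : ∀ p ∈ Γ, τ' • p = p := by simpa [hT] using hτ''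
      simp only [hT, mem_filter, mem_univ, true_and]
      intro p hp
      rw [mul_smul, hτ3 p hp, hτ' p hp]
  · rw [Finset.card_smul_finset]

/-- Three tuples: two of them lie in one orbit, if the stabiliser of `t` points has at most two
orbits on the remaining points. -/
theorem two_classes (C : LWCtx H α t w) (hNw : Fintype.card α - t ≤ 2 * w) (hw0 : 0 < w)
    (x y z : Fin (t + 1) ↪ α) :
    (∃ g : H, ∀ i, g • x i = y i) ∨ (∃ g : H, ∀ i, g • x i = z i) ∨
      (∃ g : H, ∀ i, g • y i = z i) := by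
  classical
  haveI : Fintype H := Fintype.ofFinite H
  set q := Fin.last t with hq
  have hcard : ∀ u : Fin (t + 1) ↪ α, ((univ.erase q).map u).card = t := by
    intro u
    rw [card_map, card_erase_of_mem (mem_univ q), card_univ, Fintype.card_fin]; omega
  have halign : ∀ u v : Fin (t + 1) ↪ α, ∃ g : H, ∀ a, a ≠ q → g • u a = v a := by
    intro u v
    set f : α → α := fun p => v (Function.invFun u p) with hf
    have hfx : ∀ a, f (u a) = v a := fun a => by
      rw [hf]
      simp only
      rw [Function.leftInverse_invFun u.injective a]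
    have hfinj : Set.InjOn f ((univ.erase q).map u : Finset α) := by
      intro p hp p' hp' hpp
      obtain ⟨a, -, rfl⟩ := mem_map.mp (mem_coe.mp hp)
      obtain ⟨a', -, rfl⟩ := mem_map.mp (mem_coe.mp hp')
      change f (u a) = f (u a') at hpp
      rw [hfx, hfx] at hpp
      change u a = u a'
      rw [v.injective hpp]
    obtain ⟨g, hg⟩ := C.lift _ f (hcard u) hfinj
    refine ⟨g, fun a ha => ?_⟩
    rw [hg _ ((mem_map' u).mpr (by simp [ha])), hfx]
  obtain ⟨g₁, hg₁⟩ := halign y x
  obtain ⟨g₂, hg₂⟩ := halign z x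
  set Γ := (univ.erase q).map x with hΓ
  have hΓc : Γ.card = t := hcard x
  have hoff : ∀ (u : Fin (t + 1) ↪ α) (g : H), (∀ a, a ≠ q → g • u a = x a) → g • u q ∉ Γ := by
    intro u g hg hm
    obtain ⟨a, ha, he⟩ := mem_map.mp hm
    have ha' : a ≠ q := by simpa using ha
    have h3 : x a = g • u q := he
    rw [← hg a ha'] at h3
    exact ha' (u.injective (smul_left_cancel g h3))
  have h1off : x q ∉ Γ := by rw [hΓ, mem_map' x]; simp
  have h2off := hoff y g₁ hg₁
  have h3off := hoff z g₂ hg₂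
  set ξ₂ := g₁ • y q with hξ₂
  set ξ₃ := g₂ • z q with hξ₃
  obtain ⟨c1, s1⟩ := C.orbit_data hΓc h1off
  obtain ⟨c2, s2⟩ := C.orbit_data hΓc h2off
  obtain ⟨c3, s3⟩ := C.orbit_data hΓc h3off
  set T := univ.filter (fun τ : H => ∀ p ∈ Γ, τ • p = p) with hT
  have hTmem : ∀ τ, τ ∈ T ↔ ∀ p ∈ Γ, τ • p = p := fun τ => by simp [hT]
  have hmeet : ∀ ξ ξ' : α, ¬ Disjoint (T.image (fun τ => τ • ξ)) (T.image (fun τ => τ • ξ')) →
      ∃ τ : H, (∀ p ∈ Γ, τ • p = p) ∧ τ • ξ = ξ' := by
    intro ξ ξ' hnd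
    obtain ⟨v, hv, hv'⟩ := Finset.not_disjoint_iff.mp hnd
    obtain ⟨τ, hτ, rfl⟩ := mem_image.mp hv
    obtain ⟨τ', hτ', he⟩ := mem_image.mp hv'
    refine ⟨τ'⁻¹ * τ, ?_, ?_⟩
    · intro p hp
      rw [mul_smul, (hTmem τ).mp hτ p hp, inv_smul_eq_iff, (hTmem τ').mp hτ' p hp]
    · rw [mul_smul, inv_smul_eq_iff]
      exact he.symm
  have hΓmem : ∀ a, a ≠ q → x a ∈ Γ := fun a ha => (mem_map' x).mpr (by simp [ha])
  by_cases d12 : Disjoint (T.image (fun τ => τ • x q)) (T.image (fun τ => τ • ξ₂))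
  · by_cases d13 : Disjoint (T.image (fun τ => τ • x q)) (T.image (fun τ => τ • ξ₃))
    · by_cases d23 : Disjoint (T.image (fun τ => τ • ξ₂)) (T.image (fun τ => τ • ξ₃))
      · exfalso
        have h1 : ((T.image (fun τ => τ • x q)) ∪ (T.image (fun τ => τ • ξ₂)) ∪
            (T.image (fun τ => τ • ξ₃))).card = 3 * w := by
          rw [card_union_of_disjoint (Finset.disjoint_union_left.mpr ⟨d13, d23⟩),
            card_union_of_disjoint d12, c1, c2, c3]
          ring
        have h2 : ((T.image (fun τ => τ • x q)) ∪ (T.image (fun τ => τ • ξ₂)) ∪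
            (T.image (fun τ => τ • ξ₃))) ⊆ Γᶜ :=
          Finset.union_subset (Finset.union_subset s1 s2) s3
        have h3 := card_le_card h2
        rw [h1, card_compl, hΓc] at h3
        omega
      · right; right
        obtain ⟨τ, hτ, he⟩ := hmeet _ _ d23
        refine ⟨g₂⁻¹ * τ * g₁, fun a => ?_⟩
        rw [mul_smul, mul_smul]
        by_cases ha : a = q
        · subst ha
          rw [← hξ₂, he, hξ₃, inv_smul_smul]
        · rw [hg₁ a ha, hτ _ (hΓmem a ha), ← hg₂ a ha, inv_smul_smul]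
    · right; left
      obtain ⟨τ, hτ, he⟩ := hmeet _ _ d13
      refine ⟨g₂⁻¹ * τ, fun a => ?_⟩
      rw [mul_smul]
      by_cases ha : a = q
      · subst ha
        rw [he, hξ₃, inv_smul_smul]
      · rw [hτ _ (hΓmem a ha), ← hg₂ a ha, inv_smul_smul]
  · left
    obtain ⟨τ, hτ, he⟩ := hmeet _ _ d12
    refine ⟨g₁⁻¹ * τ, fun a => ?_⟩
    rw [mul_smul]
    by_cases ha : a = q
    · subst ha
      rw [he, hξ₂, inv_smul_smul]
    · rw [hτ _ (hΓmem a ha), ← hg₁ a ha, inv_smul_smul]

/-- If `t`-point stabilisers have even order, they have at least three orbits on the remaining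
points, unless the group is `t + 1`-transitive. -/
theorem e2 (C : LWCtx H α t w) (hw : Even w) (hw0 : 0 < w) (hNw : Fintype.card α - t ≤ 2 * w)
    (ht : 1 ≤ t) (hn : t + 2 ≤ Fintype.card α)
    (hhom : ∀ x y : Fin (t + 1) ↪ α, ∃ (g : H) (ρ : Perm (Fin (t + 1))), ∀ i, g • x i = y (ρ i))
    (x y : Fin (t + 1) ↪ α) : ∃ g : H, ∀ i, g • x i = y i := by
  classical
  haveI : Fintype H := Fintype.ofFinite H
  obtain ⟨Γ, -, hΓ⟩ := Finset.exists_subset_card_eq (s := (univ : Finset α)) (n := t)
    (by rw [card_univ]; omega)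
  obtain ⟨c, hc⟩ : Γ.Nonempty := by rw [← card_pos]; omega
  obtain ⟨z, hzs, hz1, hz2⟩ := C.even_inv hw hΓ
  have zinv : ∀ v : α, z • z • v = v := fun v => by rw [← mul_smul, ← pow_two, hz2, one_smul]
  have hzfix := C.fix_exact hΓ hzs hz1
  obtain ⟨ξ, hξ⟩ : (Γᶜ).Nonempty := by rw [← card_pos, card_compl, hΓ]; omega
  have hξΓ := mem_compl.mp hξ
  set ζ := z • ξ with hζ
  have hζξ : ζ ≠ ξ := fun h => hξΓ ((hzfix ξ).mp h)
  have hzζ : z • ζ = ξ := zinv ξ
  have hζΓ : ζ ∉ Γ := by
    intro h
    have := (hzfix ζ).mpr h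
    rw [hzζ] at this
    exact hζξ this.symm
  set S := insert ξ (insert ζ (Γ.erase c)) with hS
  have hSc : S.card = t + 1 := by
    rw [hS, card_insert_of_notMem, card_insert_of_notMem, card_erase_of_mem hc, hΓ]
    · omega
    · exact fun h => hζΓ (mem_of_mem_erase h)
    · simp only [mem_insert, not_or]
      exact ⟨hζξ.symm, fun h => hξΓ (mem_of_mem_erase h)⟩
  let e := S.equivFinOfCardEq hSc
  let x₁ : Fin (t + 1) ↪ α := ⟨fun i => (e.symm i : α), fun i j hij => by
    exact e.symm.injective (Subtype.ext hij)⟩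
  have hx₁mem : ∀ i, x₁ i ∈ S := fun i => (e.symm i).2
  have hx₁e : ∀ v (hv : v ∈ S), x₁ (e ⟨v, hv⟩) = v := fun v hv => by
    change ((e.symm (e ⟨v, hv⟩) : _) : α) = v
    simp
  set i₀ := e ⟨ξ, by simp [hS]⟩ with hi₀
  set j₀ := e ⟨ζ, by simp [hS]⟩ with hj₀
  have hxi : x₁ i₀ = ξ := hx₁e _ _
  have hxj : x₁ j₀ = ζ := hx₁e _ _
  have hij : i₀ ≠ j₀ := fun he => hζξ (by rw [← hxi, ← hxj, he])
  set τ : Perm (Fin (t + 1)) := swap i₀ j₀ with hτ
  have hτ₀ : τ ∈ tupM H x₁ := by
    refine ⟨z, fun m => ?_⟩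
    by_cases hm : m = i₀
    · subst hm
      rw [hτ, swap_apply_left, hxi, hxj]
    by_cases hm' : m = j₀
    · subst hm'
      rw [hτ, swap_apply_right, hxi, hxj]
      exact hzζ
    rw [hτ, swap_apply_of_ne_of_ne hm hm']
    have h3 : x₁ m ≠ ξ := fun he => hm (x₁.injective (he.trans hxi.symm))
    have h4 : x₁ m ≠ ζ := fun he => hm' (x₁.injective (he.trans hxj.symm))
    have h5 := hx₁mem m
    simp only [hS, mem_insert, h3, h4, false_or] at h5
    exact hzs _ (mem_of_mem_erase h5)
  -- the transposition fixes every class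
  have hττ : ∀ a, τ (τ a) = a := fun a => swap_apply_self _ _ a
  have hA : ∀ u : Fin (t + 1) ↪ α, τ ∈ tupM H u := by
    intro u
    have hcase : (∃ g : H, ∀ i, g • x₁ i = u i) → τ ∈ tupM H u := by
      rintro ⟨g, hg⟩
      have := tup_transfer (x := x₁) (y := u) (g := g) (ρ := 1) (by simpa using hg) hτ₀
      simpa using this
    set u' : Fin (t + 1) ↪ α := τ.toEmbedding.trans u with hu'
    have hu'a : ∀ a, u' a = u (τ a) := fun a => rfl
    rcases C.two_classes hNw hw0 x₁ u u' with h | h | h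
    · exact hcase h
    · obtain ⟨g, hg⟩ := h
      obtain ⟨h₁, hh₁⟩ := hτ₀
      refine hcase ⟨g * h₁, fun i => ?_⟩
      rw [mul_smul, hh₁, hg, hu'a, hττ]
    · obtain ⟨g, hg⟩ := h
      exact ⟨g, fun i => by rw [hg, hu'a]⟩
  -- all transpositions
  have hB : ∀ k l : Fin (t + 1), k ≠ l → swap k l ∈ tupM H x₁ := by
    intro k l hkl
    -- a permutation moving `i₀, j₀` to `k, l`
    set j' := swap i₀ k j₀ with hj'
    have hj'k : j' ≠ k := by
      intro h
      have h3 : swap i₀ k j₀ = swap i₀ k i₀ := by rw [swap_apply_left]; exact h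
      exact hij ((swap i₀ k).injective h3).symm
    set ρ : Perm (Fin (t + 1)) := swap j' l * swap i₀ k with hρ
    have hρi : ρ i₀ = k := by
      rw [hρ, Perm.mul_apply, swap_apply_left, swap_apply_of_ne_of_ne (Ne.symm hj'k) hkl]
    have hρj : ρ j₀ = l := by
      rw [hρ, Perm.mul_apply, ← hj', swap_apply_left]
    have h3 := hA (ρ.toEmbedding.trans x₁)
    obtain ⟨g, hg⟩ := h3
    have hg' : ∀ a, g • x₁ (ρ a) = x₁ (ρ (τ a)) := hg
    refine ⟨g, fun b => ?_⟩
    have h4 := hg' (ρ⁻¹ b)
    have h5 : ρ (ρ⁻¹ b) = b := by simp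
    rw [h5] at h4
    rw [h4]
    congr 1
    rw [← hρi, ← hρj, Equiv.swap_apply_apply, hτ]
    simp
  exact trans_of_top hhom (perm_top_of_swaps _ hB) x y

omit [Finite H] in
/-- A nontrivial element fixes at most `t` points. -/
theorem fix_le (C : LWCtx H α t w) {g : H} (hg : g ≠ 1) :
    (univ.filter (fun v : α => g • v = v)).card ≤ t := by
  by_contra hcon
  push Not at hcon
  obtain ⟨s, hs, hsc⟩ := Finset.exists_subset_card_eq (s := univ.filter (fun v : α => g • v = v))
    (n := t + 1) hcon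
  exact hg (C.rigid s g hsc (fun v hv => by simpa using hs hv))

/-- The sharply 3-transitive case of degree 7 does not occur. -/
theorem sp1 (C : LWCtx H α 3 1) (htt : IsMultiplyPretransitive H α 3)
    (hn : Fintype.card α = 7) : False := by
  classical
  haveI : IsPretransitive H α := by
    have h1 : IsMultiplyPretransitive H α 1 := by
      refine isMultiplyPretransitive_of_le (n := 3) (by norm_num) ?_
      rw [Nat.card_eq_fintype_card, hn]; norm_num
    exact is_one_pretransitive_iff.mp h1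
  obtain ⟨a⟩ : Nonempty α := Fintype.card_pos_iff.mp (by omega)
  have h2 : IsMultiplyPretransitive (stabilizer H a) (SubMulAction.ofStabilizer H a) 2 :=
    (SubMulAction.ofStabilizer.isMultiplyPretransitive (a := a)).mp htt
  have hcardΩ : Nat.card (SubMulAction.ofStabilizer H a) = 6 := by
    have := SubMulAction.nat_card_ofStabilizer_add_one_eq (G := H) a
    rw [Nat.card_eq_fintype_card (α := α), hn] at this
    omega
  haveI : Finite (SubMulAction.ofStabilizer H a) := inferInstance
  haveI : Fintype (SubMulAction.ofStabilizer H a) := Fintype.ofFinite _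
  haveI : Nontrivial (SubMulAction.ofStabilizer H a) := by
    rw [← Finite.one_lt_card_iff_nontrivial, hcardΩ]; norm_num
  obtain ⟨F, p, j, hp, hj, hcard, -⟩ := sharp2_structure
    (G := stabilizer H a) (Ω := SubMulAction.ofStabilizer H a)
    (fun x y u v hxy huv => is_two_pretransitive_iff.mp h2 hxy huv)
    (by
      intro g x y hxy hx hy
      have hx' : (g : H) • (x : α) = x := congrArg Subtype.val hx
      have hy' : (g : H) • (y : α) = y := congrArg Subtype.val hy
      have ha : (g : H) • a = a := g.2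
      have hxa : (x : α) ≠ a := x.2
      have hya : (y : α) ≠ a := y.2
      have hxy' : (x : α) ≠ y := fun h => hxy (Subtype.ext h)
      have hsc : ({a, (x : α), (y : α)} : Finset α).card = 3 := by
        rw [card_insert_of_notMem (by simp [Ne.symm hxa, Ne.symm hya]), card_pair hxy']
      have := C.pow hsc (g := (g : H)) (by
        intro v hv
        simp only [mem_insert, mem_singleton] at hv
        rcases hv with rfl | rfl | rfl
        · exact ha
        · exact hx'
        · exact hy')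
      rw [pow_one] at this
      exact Subtype.ext this)
  rw [← Nat.card_eq_fintype_card, hcardΩ] at hcard
  have hdvd : p ∣ 6 := by rw [hcard]; exact dvd_pow_self p (by omega)
  have hle : p ≤ 6 := Nat.le_of_dvd (by norm_num) hdvd
  interval_cases p
  · exact absurd hp (by norm_num)
  · exact absurd hp (by norm_num)
  · have : 3 ∣ 2 ^ j := by rw [← hcard]; norm_num
    have := Nat.Prime.dvd_of_dvd_pow Nat.prime_three this
    omega
  · have : 2 ∣ 3 ^ j := by rw [← hcard]; norm_num
    have := Nat.Prime.dvd_of_dvd_pow Nat.prime_two this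
    omega
  · exact absurd hdvd (by norm_num)
  · exact absurd hdvd (by norm_num)
  · exact absurd hp (by norm_num)

/-- Fixed points modulo a prime. -/
theorem _root_.Cfsg.Agent.Lib.Perm.lw_fix_modEq {p : ℕ} (hp : p.Prime) (g : H) (hg : g ^ p = 1) :
    (univ.filter (fun v : α => g • v = v)).card ≡ Fintype.card α [MOD p] := by
  classical
  haveI : Fact p.Prime := ⟨hp⟩
  let σ : Perm α := MulAction.toPermHom H α g
  have hσ : σ ^ p ^ 1 = 1 := by
    rw [pow_one, ← map_pow, hg, map_one]
  have h := Equiv.Perm.card_compl_support_modEq hσ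
  convert h using 2
  ext x
  simp [Equiv.Perm.mem_support, σ]

/-- The case `t = 3`, degree 24, `w = 7` does not occur. -/
theorem sp3 (C : LWCtx H α 3 7) (htt : IsMultiplyPretransitive H α 3)
    (hn : Fintype.card α = 24) : False := by
  classical
  haveI : Fintype H := Fintype.ofFinite H
  haveI : IsPretransitive H α := by
    have h1 : IsMultiplyPretransitive H α 1 := by
      refine isMultiplyPretransitive_of_le (n := 3) (by norm_num) ?_
      rw [Nat.card_eq_fintype_card, hn]; norm_num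
    exact is_one_pretransitive_iff.mp h1
  haveI : Fact (Nat.Prime 23) := ⟨by norm_num⟩
  haveI : Fact (Nat.Prime 7) := ⟨by norm_num⟩
  have hcard : Nat.card H = 85008 := by
    rw [lw_card_tuple htt C (by omega), hn]
    norm_num [Nat.descFactorial]
  obtain ⟨Γ, -, hΓ⟩ := Finset.exists_subset_card_eq (s := (univ : Finset α)) (n := 3)
    (by rw [card_univ]; omega)
  obtain ⟨a, b, c, hab, hac, hbc, hΓeq⟩ := Finset.card_eq_three.mp hΓ
  have hΓmem : ∀ v, v ∈ Γ ↔ v = a ∨ v = b ∨ v = c := fun v => by simp [hΓeq]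
  -- the element of order 7
  obtain ⟨r₀, hr₀⟩ := exists_prime_orderOf_dvd_card' (G := fixingSubgroup H (Γ : Set α)) 7
    (by rw [C.card Γ hΓ])
  set r : H := (r₀ : H) with hr
  have hrfix : ∀ v ∈ Γ, r • v = v := fun v hv => (mem_fixingSubgroup_iff H).mp r₀.2 v hv
  have hro : orderOf r = 7 := by rw [hr, Subgroup.orderOf_coe]; exact hr₀
  have hr7 : r ^ 7 = 1 := by rw [← hro]; exact pow_orderOf_eq_one r
  have hr1 : r ≠ 1 := by
    intro h
    rw [h, orderOf_one] at hro
    omega
  have hrexact := C.fix_exact hΓ hrfix hr1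
  -- the stabiliser
  set S := stabilizer H a with hS
  have hScard : Nat.card S = 3542 := by
    have h1 := Subgroup.card_mul_index (stabilizer H a)
    rw [index_stabilizer_of_transitive, hcard, Nat.card_eq_fintype_card (α := α), hn] at h1
    rw [hS]
    omega
  have hra : r ∈ S := hrfix a (by simp [hΓmem])
  set rS : S := ⟨r, hra⟩ with hrS
  have hrS7 : rS ^ 7 = 1 := Subtype.ext (by simpa [hrS] using hr7)
  -- Sylow
  set Q : Sylow 23 S := default with hQ
  set n := Nat.card (Sylow 23 S) with hn'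
  have hn1 : n ≡ 1 [MOD 23] := card_sylow_modEq_one 23 S
  have hndvd : n ∣ 3542 := by
    rw [hn', Q.card_eq_index_normalizer, ← hScard]
    exact Subgroup.index_dvd_card _
  have hn2 : n = 1 := by
    have hcop : Nat.Coprime n 23 := by
      have h3 : n % 23 = 1 := hn1
      rw [Nat.coprime_comm, (Nat.Prime.coprime_iff_not_dvd (by norm_num))]
      intro h
      have := Nat.mod_eq_zero_of_dvd h
      omega
    have h154 : n ∣ 154 := by
      have : n ∣ 23 * 154 := by norm_num; exact hndvd
      exact hcop.dvd_of_dvd_mul_left this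
    have hle := Nat.le_of_dvd (by norm_num) h154
    have h3 : n % 23 = 1 := hn1
    have hpos : 0 < n := Nat.pos_of_dvd_of_pos h154 (by norm_num)
    interval_cases n <;> first | rfl | (exfalso; omega) | (exfalso; revert h154; decide)
  have hQnorm : (Q : Subgroup S).Normal := by
    have h3 := Q.card_eq_index_normalizer
    rw [← hn', hn2, eq_comm, Subgroup.index_eq_one] at h3
    exact Subgroup.normalizer_eq_top_iff.mp h3
  have hQsub : Subsingleton (Sylow 23 S) := (Nat.card_eq_one_iff_unique.mp hn2).1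
  -- the order of `Q`
  obtain ⟨e, he⟩ := IsPGroup.iff_card.mp Q.isPGroup'
  have hQdvd : Nat.card Q ∣ 3542 := by
    rw [← hScard]; exact Subgroup.card_subgroup_dvd_card _
  obtain ⟨g₀, hg₀⟩ := exists_prime_orderOf_dvd_card' (G := S) 23 (by rw [hScard]; norm_num)
  have hg₀1 : g₀ ≠ 1 := by
    intro h
    rw [h, orderOf_one] at hg₀
    omega
  have hg₀Q : g₀ ∈ (Q : Subgroup S) := by
    have hpg : IsPGroup 23 (Subgroup.zpowers g₀) := by
      rw [IsPGroup.iff_card, Nat.card_zpowers, hg₀]
      exact ⟨1, by norm_num⟩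
    obtain ⟨Q', hQ'⟩ := hpg.exists_le_sylow
    have h3 : Q' = Q := Subsingleton.elim _ _
    rw [← h3]
    exact hQ' (Subgroup.mem_zpowers g₀)
  have he1 : e = 1 := by
    have h0 : e ≠ 0 := by
      rintro rfl
      have h3 : Nat.card Q = 1 := by simpa using he
      have hsub := (Nat.card_eq_one_iff_unique.mp h3).1
      have : (⟨g₀, hg₀Q⟩ : (Q : Subgroup S)) = 1 := Subsingleton.elim _ _
      exact hg₀1 (congrArg Subtype.val this)
    by_contra hne
    have h2 : 2 ≤ e := by omega
    have h3 : 23 ^ 2 ∣ 3542 := by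
      refine dvd_trans (pow_dvd_pow 23 h2) ?_
      rw [← he]; exact hQdvd
    norm_num at h3
  rw [he1, pow_one] at he
  -- conjugation by `r` on `Q`
  haveI := hQnorm
  haveI : Fintype (Q : Subgroup S) := Fintype.ofFinite _
  let π : Perm (Q : Subgroup S) := MulAut.toPerm _ (MulAut.conjNormal rS)
  have hπ7 : π ^ 7 ^ 1 = 1 := by
    rw [pow_one, ← map_pow, ← map_pow, hrS7, map_one, map_one]
  have hmod := Equiv.Perm.card_compl_support_modEq hπ7
  rw [← Nat.card_eq_fintype_card, he] at hmod
  have hπ1 : π 1 = 1 := map_one (MulAut.conjNormal rS)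
  have hone : (1 : (Q : Subgroup S)) ∈ π.supportᶜ := by
    simp [Equiv.Perm.mem_support, hπ1]
  have hgt : 1 < π.supportᶜ.card := by
    have h3 : π.supportᶜ.card % 7 = 23 % 7 := hmod
    have hpos : 0 < π.supportᶜ.card := card_pos.mpr ⟨_, hone⟩
    omega
  obtain ⟨y, hyc, hy⟩ := Finset.exists_mem_ne hgt 1
  have hyfix : π y = y := by
    simpa [Equiv.Perm.mem_support] using hyc
  -- the element `X`
  set X : H := (((y : (Q : Subgroup S)) : S) : H) with hX
  have hX1 : X ≠ 1 := by
    intro h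
    apply hy
    apply Subtype.ext
    apply Subtype.ext
    exact h
  have hXa : X • a = a := ((y : (Q : Subgroup S)) : S).2
  have hXr : r * X = X * r := by
    have h4 : rS * ((y : (Q : Subgroup S)) : S) * rS⁻¹ = y := congrArg Subtype.val hyfix
    have h5 : r * X * r⁻¹ = X := congrArg Subtype.val h4
    rw [mul_inv_eq_iff_eq_mul] at h5
    exact h5
  have hX23 : X ^ 23 = 1 := by
    have h3 : (y : (Q : Subgroup S)) ^ Nat.card (Q : Subgroup S) = 1 := pow_card_eq_one'
    rw [he] at h3
    have h4 := congrArg (fun z : (Q : Subgroup S) => ((z : S) : H)) h3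
    simpa using h4
  have hXpres : ∀ v ∈ Γ, X • v ∈ Γ := by
    intro v hv
    apply (hrexact _).mp
    rw [← mul_smul, hXr, mul_smul, hrfix v hv]
  have hXb : X • b = b ∨ X • b = c := by
    have h3 := (hΓmem _).mp (hXpres b (by simp [hΓmem]))
    rcases h3 with h3 | h3 | h3
    · exfalso
      rw [← hXa] at h3
      exact hab (smul_left_cancel X h3).symm
    · exact Or.inl h3
    · exact Or.inr h3
  have hXc : X • c = b ∨ X • c = c := by
    have h3 := (hΓmem _).mp (hXpres c (by simp [hΓmem]))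
    rcases h3 with h3 | h3 | h3
    · exfalso
      rw [← hXa] at h3
      exact hac (smul_left_cancel X h3).symm
    · exact Or.inl h3
    · exact Or.inr h3
  have hXX : ∀ v ∈ Γ, (X ^ 2) • v = v := by
    intro v hv
    rw [pow_two, mul_smul]
    rcases (hΓmem v).mp hv with rfl | rfl | rfl
    · rw [hXa, hXa]
    · rcases hXb with h3 | h3
      · rw [h3, h3]
      · rcases hXc with h4 | h4
        · rw [h3, h4]
        · exfalso
          rw [← h4] at h3
          exact hbc (smul_left_cancel X h3)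
    · rcases hXc with h4 | h4
      · rcases hXb with h3 | h3
        · exfalso
          rw [← h3] at h4
          exact hbc (smul_left_cancel X h4).symm
        · rw [h4, h3]
      · rw [h4, h4]
  have h14 : X ^ 14 = 1 := by
    have := C.pow hΓ hXX
    rw [← pow_mul] at this
    exact this
  have hgcd : X ^ Nat.gcd 14 23 = 1 := pow_gcd_eq_one.mpr ⟨h14, hX23⟩
  norm_num at hgcd
  exact hX1 hgcd

/-- The case `t = 3`, degree 9, `w = 2` does not occur. -/
theorem sp2 (C : LWCtx H α 3 2) (hn : Fintype.card α = 9) (hcard : Nat.card H = 1008) : False := by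
  classical
  haveI : Fintype H := Fintype.ofFinite H
  haveI : Fact (Nat.Prime 7) := ⟨by norm_num⟩
  obtain ⟨s, hso⟩ := exists_prime_orderOf_dvd_card' (G := H) 7 (by rw [hcard]; norm_num)
  have hs7 : s ^ 7 = 1 := by rw [← hso]; exact pow_orderOf_eq_one s
  have hs1 : s ≠ 1 := by
    intro h
    rw [h, orderOf_one] at hso
    omega
  have hpoweq : ∀ u v : ℕ, s ^ u = s ^ v ↔ u % 7 = v % 7 := by
    intro u v
    rw [pow_eq_pow_iff_modEq, hso]
    rfl
  -- fixed points of `s`
  have hfc : (univ.filter (fun v : α => s • v = v)).card = 2 := by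
    have h1 := lw_fix_modEq (α := α) (by norm_num : Nat.Prime 7) s hs7
    have h2 := C.fix_le hs1
    rw [hn] at h1
    have h3 : (univ.filter (fun v : α => s • v = v)).card % 7 = 9 % 7 := h1
    omega
  obtain ⟨b, c, hbc, hfeq⟩ := Finset.card_eq_two.mp hfc
  have hsfix : ∀ v, s • v = v ↔ v = b ∨ v = c := by
    intro v
    have : v ∈ univ.filter (fun v : α => s • v = v) ↔ v ∈ ({b, c} : Finset α) := by rw [hfeq]
    simpa using this
  have hsb : s • b = b := (hsfix b).mpr (Or.inl rfl)
  have hsc : s • c = c := (hsfix c).mpr (Or.inr rfl)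
  obtain ⟨a, -, ha⟩ := Finset.exists_mem_notMem_of_card_lt_card
    (s := ({b, c} : Finset α)) (t := univ)
    (by rw [card_pair hbc, card_univ, hn]; norm_num)
  simp only [mem_insert, mem_singleton, not_or] at ha
  obtain ⟨hab, hac⟩ := ha
  set Γ : Finset α := {a, b, c} with hΓ
  have hΓc : Γ.card = 3 := by
    rw [hΓ, card_insert_of_notMem (by simp [hab, hac]), card_pair hbc]
  have hΓmem : ∀ v, v ∈ Γ ↔ v = a ∨ v = b ∨ v = c := fun v => by simp [hΓ]
  obtain ⟨t₀, ht₀s, ht₀1, ht₀2⟩ := C.even_inv (by norm_num : Even 2) hΓc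
  have ht₀a : t₀ • a = a := ht₀s a (by simp [hΓmem])
  have ht₀b : t₀ • b = b := ht₀s b (by simp [hΓmem])
  have ht₀c : t₀ • c = c := ht₀s c (by simp [hΓmem])
  have ht₀t₀ : t₀ * t₀ = 1 := by rw [← pow_two, ht₀2]
  have ht₀i : t₀⁻¹ = t₀ := by rw [inv_eq_iff_mul_eq_one, ht₀t₀]
  -- the stabiliser of `a, b, c`
  have hTc := C.card_fixers hΓc
  have hT : ∀ y : H, y • a = a → y • b = b → y • c = c → y = 1 ∨ y = t₀ := by
    intro y h1 h2 h3
    have hsub : ({1, t₀} : Finset H) ⊆ univ.filter (fun τ : H => ∀ p ∈ Γ, τ • p = p) := by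
      intro τ hτ
      simp only [mem_insert, mem_singleton] at hτ
      simp only [mem_filter, mem_univ, true_and]
      rcases hτ with rfl | rfl
      · simp
      · exact ht₀s
    have heq := Finset.eq_of_subset_of_card_le hsub (by rw [hTc, card_pair (Ne.symm ht₀1)])
    have hy : y ∈ univ.filter (fun τ : H => ∀ p ∈ Γ, τ • p = p) := by
      simp only [mem_filter, mem_univ, true_and]
      intro p hp
      rcases (hΓmem p).mp hp with rfl | rfl | rfl
      · exact h1
      · exact h2
      · exact h3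
    rw [← heq] at hy
    simpa using hy
  -- the powers of `s` on `a`
  have hsna : ∀ i : ℕ, i % 7 ≠ 0 → s ^ i • a ≠ a := by
    intro i hi he
    have h1 : (s ^ i) • b = b := lw_pow_fix hsb i
    have h2 : (s ^ i) • c = c := lw_pow_fix hsc i
    have h3 : (s ^ i) ^ 2 = 1 := by
      rcases hT _ he h1 h2 with h4 | h4
      · rw [h4, one_pow]
      · rw [h4, ht₀2]
    rw [← pow_mul] at h3
    have h4 : s ^ (i * 2) = s ^ 0 := by rw [h3, pow_zero]
    rw [hpoweq] at h4
    omega
  have hinj : ∀ i j : ℕ, s ^ i • a = s ^ j • a → i % 7 = j % 7 := by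
    intro i j he
    by_contra hne
    have h1 : i + 7 * (j + 1) - j ≠ 0 := by omega
    set k := i + 7 * (j + 1) - j with hk
    have hk7 : k % 7 ≠ 0 := by omega
    apply hsna k hk7
    have h2 : s ^ i = s ^ (k + j) := by
      rw [hpoweq]
      have : k + j = i + 7 * (j + 1) := by omega
      rw [this]
      omega
    rw [h2, add_comm, pow_add, mul_smul] at he
    exact smul_left_cancel _ he
  have hcover : ∀ p, p ≠ b → p ≠ c → ∃ j : ℕ, s ^ j • a = p := by
    intro p hpb hpc
    set I := (range 7).image (fun i => s ^ i • a) with hI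
    have hIc : I.card = 7 := by
      rw [hI, card_image_of_injOn, card_range]
      intro i hi j hj he
      have h1 := hinj i j he
      have hi' : i < 7 := by simpa using hi
      have hj' : j < 7 := by simpa using hj
      omega
    have hsub : I ⊆ ({b, c} : Finset α)ᶜ := by
      intro v hv
      obtain ⟨i, -, rfl⟩ := mem_image.mp hv
      simp only [mem_compl, mem_insert, mem_singleton, not_or]
      constructor
      · intro he
        have h1 : (s ^ i) • b = b := lw_pow_fix hsb i
        rw [← h1] at he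
        exact hab (smul_left_cancel _ he)
      · intro he
        have h1 : (s ^ i) • c = c := lw_pow_fix hsc i
        rw [← h1] at he
        exact hac (smul_left_cancel _ he)
    have heq := Finset.eq_of_subset_of_card_le hsub
      (by rw [hIc, card_compl, card_pair hbc, hn])
    have hp : p ∈ ({b, c} : Finset α)ᶜ := by
      simp [hpb, hpc]
    rw [← heq] at hp
    obtain ⟨i, -, rfl⟩ := mem_image.mp hp
    exact ⟨i, rfl⟩
  -- elements fixing `b` and `c`
  have hF3 : ∀ x : H, x • b = b → x • c = c → ∃ j : ℕ, x = s ^ j ∨ x = s ^ j * t₀ := by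
    intro x hxb hxc
    have h1 : x • a ≠ b := by
      intro he
      rw [← hxb] at he
      exact hab (smul_left_cancel x he)
    have h2 : x • a ≠ c := by
      intro he
      rw [← hxc] at he
      exact hac (smul_left_cancel x he)
    obtain ⟨j, hj⟩ := hcover _ h1 h2
    refine ⟨j, ?_⟩
    have hsjb : (s ^ j) • b = b := lw_pow_fix hsb j
    have hsjc : (s ^ j) • c = c := lw_pow_fix hsc j
    have hy := hT ((s ^ j)⁻¹ * x) (by rw [mul_smul, ← hj, inv_smul_smul])
      (by rw [mul_smul, hxb, inv_smul_eq_iff, hsjb])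
      (by rw [mul_smul, hxc, inv_smul_eq_iff, hsjc])
    rcases hy with hy | hy
    · left
      exact (inv_mul_eq_one.mp hy).symm
    · right
      rw [inv_mul_eq_iff_eq_mul] at hy
      exact hy
  -- squares modulo 7
  have hsq : ∀ j : ℕ, (j * j) % 7 = 1 → j % 7 = 1 ∨ j % 7 = 6 := by
    intro j hj
    rw [Nat.mul_mod] at hj
    have h1 : j % 7 < 7 := Nat.mod_lt _ (by norm_num)
    interval_cases (j % 7) <;> simp_all
  have hsq6 : ∀ j : ℕ, (j * j) % 7 ≠ 6 := by
    intro j hj
    rw [Nat.mul_mod] at hj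
    have h1 : j % 7 < 7 := Nat.mod_lt _ (by norm_num)
    interval_cases (j % 7) <;> simp_all
  -- `t₀` inverts `s`
  have hconjpow : ∀ (x y : H) (m : ℕ), x * y ^ m * x⁻¹ = (x * y * x⁻¹) ^ m := by
    intro x y m
    rw [conj_pow]
  have hF4 : t₀ * s * t₀ = s ^ 6 := by
    have hb' : (t₀ * s * t₀) • b = b := by
      rw [mul_smul, mul_smul, ht₀b, hsb, ht₀b]
    have hc' : (t₀ * s * t₀) • c = c := by
      rw [mul_smul, mul_smul, ht₀c, hsc, ht₀c]
    obtain ⟨j, hj | hj⟩ := hF3 _ hb' hc'
    · have h1 : s = s ^ (j * j) := by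
        have h2 : t₀ * (t₀ * s * t₀) * t₀⁻¹ = s := by
          rw [ht₀i]
          calc t₀ * (t₀ * s * t₀) * t₀ = (t₀ * t₀) * s * (t₀ * t₀) := by group
            _ = s := by rw [ht₀t₀, one_mul, mul_one]
        rw [hj, hconjpow, ht₀i, hj, ← pow_mul] at h2
        exact h2.symm
      have h2 : s ^ 1 = s ^ (j * j) := by rw [pow_one]; exact h1
      rw [hpoweq] at h2
      rcases hsq j (by omega) with h3 | h3
      · exfalso
        have h4 : s ^ j = s ^ 1 := by rw [hpoweq]; omega
        rw [h4, pow_one] at hj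
        have hcomm : t₀ * s = s * t₀ := by
          calc t₀ * s = (t₀ * s * t₀) * t₀ := by
                rw [mul_assoc, mul_assoc, ht₀t₀, mul_one]
            _ = s * t₀ := by rw [hj]
        have h5 : s • a ∉ Γ := by
          intro hm
          rcases (hΓmem _).mp hm with h6 | h6 | h6
          · rcases (hsfix a).mp h6 with h7 | h7
            · exact hab h7
            · exact hac h7
          · exact hab (by
              have := (hsfix b).mpr (Or.inl rfl)
              rw [← this] at h6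
              exact smul_left_cancel s h6)
          · exact hac (by
              have := (hsfix c).mpr (Or.inr rfl)
              rw [← this] at h6
              exact smul_left_cancel s h6)
        exact ht₀1 (C.rigid' hΓc h5 ht₀s (by
          rw [← mul_smul, hcomm, mul_smul, ht₀a]))
      · rw [hj, hpoweq]; omega
    · exfalso
      have h1 : t₀ * s = s ^ j := by
        calc t₀ * s = (t₀ * s * t₀) * t₀ := by
              rw [mul_assoc, mul_assoc, ht₀t₀, mul_one]
          _ = s ^ j := by rw [hj, mul_assoc, ht₀t₀, mul_one]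
      have h2 : t₀ = s ^ (j + 6) := by
        have h3 : s * s ^ 6 = 1 := by rw [← pow_succ', hs7]
        calc t₀ = t₀ * (s * s ^ 6) := by rw [h3, mul_one]
          _ = (t₀ * s) * s ^ 6 := by group
          _ = s ^ (j + 6) := by rw [h1, pow_add]
      have h3 : t₀ ^ 7 = 1 := by
        rw [h2, ← pow_mul, mul_comm, pow_mul, hs7, one_pow]
      have hgcd : t₀ ^ Nat.gcd 2 7 = 1 := pow_gcd_eq_one.mpr ⟨ht₀2, h3⟩
      norm_num at hgcd
      exact ht₀1 hgcd
  have hF4' : ∀ u : ℕ, t₀ * s ^ u * t₀ = s ^ (6 * u) := by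
    intro u
    have := hconjpow t₀ s u
    rw [ht₀i, hF4, ← pow_mul] at this
    exact this
  -- an element swapping `b` and `c`
  have hswapf : ∀ v ∈ Γ, swap b c v ∈ Γ := by
    intro v hv
    rcases (hΓmem v).mp hv with rfl | rfl | rfl
    · rw [swap_apply_of_ne_of_ne hab hac]; exact hv
    · rw [swap_apply_left]; exact (hΓmem _).mpr (by simp)
    · rw [swap_apply_right]; exact (hΓmem _).mpr (by simp)
  obtain ⟨w₀, hw₀⟩ := C.lift Γ (swap b c) hΓc (swap b c).injective.injOn
  have hw₀b : w₀ • b = c := by rw [hw₀ b (by simp [hΓmem]), swap_apply_left]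
  have hw₀c : w₀ • c = b := by rw [hw₀ c (by simp [hΓmem]), swap_apply_right]
  have hw₀ib : w₀⁻¹ • b = c := by rw [inv_smul_eq_iff, hw₀c]
  have hw₀ic : w₀⁻¹ • c = b := by rw [inv_smul_eq_iff, hw₀b]
  -- the action of `w₀` on `s`
  obtain ⟨j, hj⟩ : ∃ j : ℕ, w₀ * s * w₀⁻¹ = s ^ j := by
    have hb' : (w₀ * s * w₀⁻¹) • b = b := by
      rw [mul_smul, mul_smul, hw₀ib, hsc, hw₀c]
    have hc' : (w₀ * s * w₀⁻¹) • c = c := by
      rw [mul_smul, mul_smul, hw₀ic, hsb, hw₀b]
    obtain ⟨j, hj | hj⟩ := hF3 _ hb' hc'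
    · exact ⟨j, hj⟩
    · exfalso
      have h1 : (w₀ * s * w₀⁻¹) ^ 2 = 1 := by
        rw [hj, pow_two]
        calc s ^ j * t₀ * (s ^ j * t₀) = s ^ j * (t₀ * s ^ j * t₀) := by group
          _ = s ^ j * s ^ (6 * j) := by rw [hF4']
          _ = 1 := by
            rw [← pow_add, show j + 6 * j = 7 * j by ring, pow_mul, hs7, one_pow]
      have h2 : (w₀ * s * w₀⁻¹) ^ 7 = 1 := by
        rw [conj_pow, hs7]; simp
      have hgcd : (w₀ * s * w₀⁻¹) ^ Nat.gcd 2 7 = 1 := pow_gcd_eq_one.mpr ⟨h1, h2⟩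
      norm_num at hgcd
      exact hs1 hgcd
  have hj2 : (j * j) % 7 = 1 := by
    have hb' : (w₀ * w₀) • b = b := by rw [mul_smul, hw₀b, hw₀c]
    have hc' : (w₀ * w₀) • c = c := by rw [mul_smul, hw₀c, hw₀b]
    have hconj2 : (w₀ * w₀) * s * (w₀ * w₀)⁻¹ = s ^ (j * j) := by
      calc (w₀ * w₀) * s * (w₀ * w₀)⁻¹ = w₀ * (w₀ * s * w₀⁻¹) * w₀⁻¹ := by group
        _ = s ^ (j * j) := by rw [hj, hconjpow, hj, ← pow_mul]
    obtain ⟨i, hi | hi⟩ := hF3 _ hb' hc'
    · rw [hi] at hconj2
      have h1 : s ^ i * s * (s ^ i)⁻¹ = s ^ 1 := by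
        rw [pow_one, (Commute.pow_left (Commute.refl s) i).eq]
        group
      rw [h1, hpoweq] at hconj2
      omega
    · rw [hi] at hconj2
      have h1 : s ^ i * t₀ * s * (s ^ i * t₀)⁻¹ = s ^ 6 := by
        have h2 : s ^ i * t₀ * s * (s ^ i * t₀)⁻¹ = s ^ i * (t₀ * s * t₀) * (s ^ i)⁻¹ := by
          rw [mul_inv_rev, ht₀i]; group
        rw [h2, hF4, (Commute.pow_pow (Commute.refl s) i 6).eq]
        group
      rw [h1, hpoweq] at hconj2
      exact absurd (by omega) (hsq6 j)
  -- an element commuting with `s`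
  obtain ⟨W, hWs, hWb⟩ : ∃ W : H, W * s = s * W ∧ W • b = c := by
    have hw₀s : w₀ * s = s ^ j * w₀ := by rw [← hj]; group
    rcases hsq j hj2 with h3 | h3
    · refine ⟨w₀, ?_, hw₀b⟩
      have h4 : s ^ j = s ^ 1 := by rw [hpoweq]; omega
      rw [hw₀s, h4, pow_one]
    · refine ⟨w₀ * t₀, ?_, by rw [mul_smul, ht₀b, hw₀b]⟩
      have h4 : t₀ * s = s ^ 6 * t₀ := by
        calc t₀ * s = (t₀ * s * t₀) * t₀ := by
              rw [mul_assoc, mul_assoc, ht₀t₀, mul_one]
          _ = s ^ 6 * t₀ := by rw [hF4]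
      have h5 : w₀ * s ^ 6 = s ^ (j * 6) * w₀ := by
        have h6 : ∀ m : ℕ, w₀ * s ^ m = s ^ (j * m) * w₀ := by
          intro m
          induction m with
          | zero => simp
          | succ m ih =>
            rw [pow_succ, ← mul_assoc, ih, mul_assoc, hw₀s, ← mul_assoc, ← pow_add]
            ring_nf
        exact h6 6
      have h6 : s ^ (j * 6) = s ^ 1 := by
        rw [hpoweq, Nat.mul_mod, h3]
      calc w₀ * t₀ * s = w₀ * (t₀ * s) := by group
        _ = w₀ * s ^ 6 * t₀ := by rw [h4]; group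
        _ = s * (w₀ * t₀) := by rw [h5, h6, pow_one]; group
  -- the contradiction
  have hWc : W • c = b := by
    have h1 : s • (W • c) = W • c := by
      rw [← mul_smul, ← hWs, mul_smul, hsc]
    rcases (hsfix _).mp h1 with h2 | h2
    · exact h2
    · exfalso
      exact hbc (smul_left_cancel W (h2.trans hWb.symm)).symm
  have hWa1 : W • a ≠ b := by
    intro h
    exact hac (smul_left_cancel W (h.trans hWc.symm))
  have hWa2 : W • a ≠ c := by
    intro h
    exact hab (smul_left_cancel W (h.trans hWb.symm))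
  obtain ⟨j', hj'⟩ := hcover _ hWa1 hWa2
  set W₁ := (s ^ j')⁻¹ * W with hW₁
  have hW₁a : W₁ • a = a := by
    rw [hW₁, mul_smul, ← hj', inv_smul_smul]
  have hW₁s : Commute W₁ s := by
    have h1 : Commute W s := hWs
    have h2 : Commute (s ^ j')⁻¹ s := ((Commute.refl s).pow_left j').inv_left
    exact h2.mul_left h1
  have hW₁fix : ∀ i : ℕ, W₁ • (s ^ i • a) = s ^ i • a := by
    intro i
    rw [← mul_smul, (hW₁s.pow_right i).eq, mul_smul, hW₁a]
  have h4c : ((range 4).image (fun i => s ^ i • a)).card = 4 := by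
    rw [card_image_of_injOn, card_range]
    intro i hi i' hi' he
    have h1 := hinj i i' he
    have hi1 : i < 4 := by simpa using hi
    have hi2 : i' < 4 := by simpa using hi'
    omega
  have hW₁1 : W₁ = 1 := by
    refine C.rigid _ W₁ h4c ?_
    intro v hv
    obtain ⟨i, -, rfl⟩ := mem_image.mp hv
    exact hW₁fix i
  have hWeq : W = s ^ j' := by
    rw [hW₁, inv_mul_eq_one] at hW₁1
    exact hW₁1.symm
  have h5 : (s ^ j') • b = b := lw_pow_fix hsb j'
  rw [hWeq, h5] at hWb
  exact hbc hWb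

end LWCtx

end Cfsg.Agent.Lib.Perm
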