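import Mathlib

/-!
Verified computation: a subgroup of `GL(2,p)` generated by explicit matrices acting regularly on
the non-zero vectors of the plane.  The certificate is a map `σ` commuting with the generators
(giving the second column of a group element from its first), and a distance function.
-/

set_option autoImplicit false

namespace Cfsg.Agent.Perm.MatCheck

set_option linter.style.haveILetI false

open Matrix

variable {p : ℕ} [Fact p.Prime]

local notation "GL2" => Matrix.GeneralLinearGroup (Fin 2) (ZMod p)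
local notation "Vp" => (Fin 2 → ZMod p)

/-- The action on column vectors. -/
def act (g : Matrix.GeneralLinearGroup (Fin 2) (ZMod p)) (v : Fin 2 → ZMod p) : Fin 2 → ZMod p :=
  Matrix.mulVec (g : Matrix (Fin 2) (Fin 2) (ZMod p)) v

lemma act_mul (g h : GL2) (v : Vp) : act (g * h) v = act g (act h v) := by
  unfold act
  rw [Units.val_mul, ← Matrix.mulVec_mulVec]

lemma act_one (v : Vp) : act (1 : GL2) v = v := by
  simp [act]

lemma act_inv_act (g : GL2) (v : Vp) : act g⁻¹ (act g v) = v := by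
  rw [← act_mul, inv_mul_cancel, act_one]

lemma act_act_inv (g : GL2) (v : Vp) : act g (act g⁻¹ v) = v := by
  rw [← act_mul, mul_inv_cancel, act_one]

lemma act_zero (g : GL2) : act g (0 : Vp) = 0 := by
  simp [act]

lemma act_ne_zero (g : GL2) {v : Vp} (hv : v ≠ 0) : act g v ≠ 0 := by
  intro h
  apply hv
  rw [← act_inv_act g v, h, act_zero]

/-- Elements commuting with `σ` on non-zero vectors. -/
def eqvGroup (σ : Vp → Vp) : Subgroup GL2 where
  carrier := {g | ∀ v : Vp, v ≠ 0 → σ (act g v) = act g (σ v)}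
  one_mem' := fun v _ => by rw [act_one, act_one]
  mul_mem' := by
    intro g h hg hh v hv
    rw [act_mul, hg _ (act_ne_zero h hv), hh v hv, act_mul]
  inv_mem' := by
    intro g hg v hv
    have h1 := hg (act g⁻¹ v) (act_ne_zero _ hv)
    rw [act_act_inv] at h1
    rw [h1, act_inv_act]

/-- First basis vector. -/
def e₁ : Fin 2 → ZMod p := ![1, 0]
/-- Second basis vector. -/
def e₂ : Fin 2 → ZMod p := ![0, 1]

lemma e₁_ne_zero : (e₁ : Vp) ≠ 0 := by
  intro h
  have := congrFun h 0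
  simp [e₁] at this

lemma act_e₁ (g : GL2) (i : Fin 2) :
    act g e₁ i = (g : Matrix (Fin 2) (Fin 2) (ZMod p)) i 0 := by
  simp [act, e₁, Matrix.mulVec, dotProduct, Fin.sum_univ_two]

lemma act_e₂ (g : GL2) (i : Fin 2) :
    act g e₂ i = (g : Matrix (Fin 2) (Fin 2) (ZMod p)) i 1 := by
  simp [act, e₂, Matrix.mulVec, dotProduct, Fin.sum_univ_two]

lemma eq_one_of_columns (h : GL2) (h1 : act h e₁ = e₁) (h2 : act h e₂ = e₂) : h = 1 := by
  apply Units.ext
  ext i j
  fin_cases j
  · have := congrFun h1 i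
    rw [act_e₁] at this
    simp only [Fin.zero_eta, Fin.isValue]
    rw [this]
    fin_cases i <;> simp [e₁]
  · have := congrFun h2 i
    rw [act_e₂] at this
    simp only [Fin.mk_one, Fin.isValue]
    rw [this]
    fin_cases i <;> simp [e₂]

section Abstract

variable (s : Set (Matrix.GeneralLinearGroup (Fin 2) (ZMod p))) (σ : (Fin 2 → ZMod p) → (Fin 2 → ZMod p))
  (dist : (Fin 2 → ZMod p) → ℕ)

/-- The group acts freely. -/
lemma free_of_eqv
    (h1 : σ e₁ = e₂)
    (hdet : ∀ v : Vp, v ≠ 0 → v ≠ e₁ → (v 0 - 1) * (σ v 1 - 1) - v 1 * σ v 0 ≠ 0)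
    {h : GL2} (hh : h ∈ eqvGroup σ) {w : Vp} (hw : w ≠ 0) (hfix : act h w = w) : h = 1 := by
  have hcol2 : act h e₂ = σ (act h e₁) := by
    rw [← h1]
    exact (hh e₁ e₁_ne_zero).symm
  by_cases hv : act h e₁ = e₁
  · apply eq_one_of_columns h hv
    rw [hcol2, hv, h1]
  · exfalso
    have hv0 : act h e₁ ≠ 0 := act_ne_zero h e₁_ne_zero
    have hd := hdet _ hv0 hv
    rw [← hcol2] at hd
    simp only [act_e₁, act_e₂] at hd
    set m := (h : Matrix (Fin 2) (Fin 2) (ZMod p)) with hm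
    have e0 : m 0 0 * w 0 + m 0 1 * w 1 = w 0 := by
      have := congrFun hfix 0
      simpa [act, Matrix.mulVec, dotProduct, Fin.sum_univ_two] using this
    have e1 : m 1 0 * w 0 + m 1 1 * w 1 = w 1 := by
      have := congrFun hfix 1
      simpa [act, Matrix.mulVec, dotProduct, Fin.sum_univ_two] using this
    have hd0 : ((m 0 0 - 1) * (m 1 1 - 1) - m 1 0 * m 0 1) * w 0 = 0 := by
      linear_combination (m 1 1 - 1) * e0 - m 0 1 * e1
    have hd1 : ((m 0 0 - 1) * (m 1 1 - 1) - m 1 0 * m 0 1) * w 1 = 0 := by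
      linear_combination (m 0 0 - 1) * e1 - m 1 0 * e0
    have hw' : w 0 ≠ 0 ∨ w 1 ≠ 0 := by
      by_contra hcon
      push Not at hcon
      apply hw
      funext i
      fin_cases i
      · exact hcon.1
      · exact hcon.2
    rcases hw' with h0 | h0
    · exact hd ((mul_eq_zero.mp hd0).resolve_right h0)
    · exact hd ((mul_eq_zero.mp hd1).resolve_right h0)

/-- Transitivity from a distance function. -/
lemma trans_of_dist
    (hdist : ∀ v : Vp, v ≠ 0 → v ≠ e₁ → ∃ g ∈ s, dist (act g v) < dist v) (v : Vp) (hv : v ≠ 0) :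
    ∃ h ∈ Subgroup.closure s, act h e₁ = v := by
  induction hn : dist v using Nat.strong_induction_on generalizing v with
  | _ n ih =>
    by_cases hve : v = e₁
    · exact ⟨1, Subgroup.one_mem _, by rw [act_one, hve]⟩
    · obtain ⟨g, hg, hlt⟩ := hdist v hv hve
      obtain ⟨h, hh, hact⟩ := ih (dist (act g v)) (hn ▸ hlt) (act g v) (act_ne_zero g hv) rfl
      refine ⟨g⁻¹ * h, Subgroup.mul_mem _
        (Subgroup.inv_mem _ (Subgroup.subset_closure hg)) hh, ?_⟩
      rw [act_mul, hact, act_inv_act]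

/-- The main abstract regularity theorem. -/
theorem regular_of_eqv
    (hE : ∀ g ∈ s, g ∈ eqvGroup σ)
    (h1 : σ e₁ = e₂)
    (hdet : ∀ v : Vp, v ≠ 0 → v ≠ e₁ → (v 0 - 1) * (σ v 1 - 1) - v 1 * σ v 0 ≠ 0)
    (hdist : ∀ v : Vp, v ≠ 0 → v ≠ e₁ → ∃ g ∈ s, dist (act g v) < dist v) :
    Nat.card (Subgroup.closure s) = p ^ 2 - 1 ∧
    ∀ v w : Vp, v ≠ 0 → w ≠ 0 → ∃! h : Subgroup.closure s,
      Matrix.mulVec ((h : GL2) : Matrix (Fin 2) (Fin 2) (ZMod p)) v = w := by
  classical
  have hle : Subgroup.closure s ≤ eqvGroup σ := (Subgroup.closure_le _).mpr hE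
  have hfree : ∀ {h : GL2}, h ∈ Subgroup.closure s → ∀ {w : Vp}, w ≠ 0 → act h w = w → h = 1 := by
    intro h hh w hw hfix
    exact free_of_eqv σ h1 hdet (hle hh) hw hfix
  have hinj : ∀ {h h' : GL2}, h ∈ Subgroup.closure s → h' ∈ Subgroup.closure s →
      ∀ {w : Vp}, w ≠ 0 → act h w = act h' w → h = h' := by
    intro h h' hh hh' w hw heq
    have := hfree (Subgroup.mul_mem _ (Subgroup.inv_mem _ hh') hh) hw (by
      rw [act_mul, heq, act_inv_act])
    exact (inv_mul_eq_one.mp this).symm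
  have htr := trans_of_dist s dist hdist
  constructor
  · let f : Subgroup.closure s → {v : Vp // v ≠ 0} :=
      fun h => ⟨act (h : GL2) e₁, act_ne_zero _ e₁_ne_zero⟩
    have hf : Function.Bijective f := by
      constructor
      · intro a b hab
        exact Subtype.ext (hinj a.2 b.2 e₁_ne_zero (congrArg Subtype.val hab))
      · rintro ⟨v, hv⟩
        obtain ⟨h, hh, hact⟩ := htr v hv
        exact ⟨⟨h, hh⟩, Subtype.ext hact⟩
    rw [Nat.card_congr (Equiv.ofBijective f hf), Nat.card_eq_fintype_card,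
      Fintype.card_subtype_compl]
    simp [ZMod.card]
  · intro v w hv hw
    obtain ⟨h₁, hh₁, hv₁⟩ := htr v hv
    obtain ⟨h₂, hh₂, hw₂⟩ := htr w hw
    refine ⟨⟨h₂ * h₁⁻¹, Subgroup.mul_mem _ hh₂ (Subgroup.inv_mem _ hh₁)⟩, ?_, ?_⟩
    · change act (h₂ * h₁⁻¹) v = w
      rw [act_mul, ← hv₁, act_inv_act, hw₂]
    · rintro ⟨h, hh⟩ hhv
      change act h v = w at hhv
      apply Subtype.ext
      apply hinj hh (Subgroup.mul_mem _ hh₂ (Subgroup.inv_mem _ hh₁)) hv
      rw [hhv, act_mul, ← hv₁, act_inv_act, hw₂]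

end Abstract

section NatCheck

/-- Generator data. -/
abbrev NatGen := ℕ × ℕ × ℕ × ℕ

/-- Image of `(x,y)` under the matrix, first coordinate. -/
def gx (p : ℕ) (g : NatGen) (x y : ℕ) : ℕ := (g.1 * x + g.2.1 * y) % p
/-- Image of `(x,y)` under the matrix, second coordinate. -/
def gy (p : ℕ) (g : NatGen) (x y : ℕ) : ℕ := (g.2.2.1 * x + g.2.2.2 * y) % p

/-- One generator is compatible with the table at a point. -/
def chkGen (p : ℕ) (sx sy : ℕ → ℕ → ℕ) (g : NatGen) (x y : ℕ) : Bool :=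
  sx (gx p g x y) (gy p g x y) == gx p g (sx x y) (sy x y) &&
  sy (gx p g x y) (gy p g x y) == gy p g (sx x y) (sy x y)

/-- The non-identity table entries have no eigenvalue `1`. -/
def chkDet (p : ℕ) (sx sy : ℕ → ℕ → ℕ) (x y : ℕ) : Bool :=
  (x == 1 && y == 0) ||
    ((x + (p - 1)) * (sy x y + (p - 1)) + (p - y) * sx x y) % p != 0

/-- Some generator decreases the distance. -/
def chkDist (p : ℕ) (gens : List NatGen) (d : ℕ → ℕ → ℕ) (x y : ℕ) : Bool :=
  (x == 1 && y == 0) || gens.any fun g => decide (d (gx p g x y) (gy p g x y) < d x y)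

/-- The full check. -/
def chkAll (p : ℕ) (gens : List NatGen) (sx sy d : ℕ → ℕ → ℕ) : Bool :=
  sx 1 0 == 0 && sy 1 0 == 1 && (List.range p).all fun x => (List.range p).all fun y =>
    (x == 0 && y == 0) ||
      (gens.all (fun g => chkGen p sx sy g x y) && chkDet p sx sy x y && chkDist p gens d x y)

/-- The matrix of a generator. -/
def natMat (p : ℕ) (g : NatGen) : Matrix (Fin 2) (Fin 2) (ZMod p) :=
  !![(g.1 : ZMod p), (g.2.1 : ZMod p); (g.2.2.1 : ZMod p), (g.2.2.2 : ZMod p)]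

/-- Table-induced map on vectors. -/
noncomputable def sigmaOf (p : ℕ) (sx sy : ℕ → ℕ → ℕ) (v : Fin 2 → ZMod p) : Fin 2 → ZMod p :=
  ![(sx (v 0).val (v 1).val : ZMod p), (sy (v 0).val (v 1).val : ZMod p)]

/-- Table-induced distance on vectors. -/
noncomputable def distOf (p : ℕ) (d : ℕ → ℕ → ℕ) (v : Fin 2 → ZMod p) : ℕ := d (v 0).val (v 1).val

lemma val_gx (g : NatGen) (x y : ℕ) :
    (gx p g x y : ℕ) = (((g.1 : ZMod p) * (x : ZMod p) + (g.2.1 : ZMod p) * (y : ZMod p)) : ZMod p).val := by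
  have hp : (p : ℕ) ≠ 0 := (Fact.out : p.Prime).ne_zero
  unfold gx
  have : (((g.1 : ZMod p) * (x : ZMod p) + (g.2.1 : ZMod p) * (y : ZMod p)) : ZMod p)
      = ((g.1 * x + g.2.1 * y : ℕ) : ZMod p) := by push_cast; ring
  rw [this, ZMod.val_natCast]

lemma val_gy (g : NatGen) (x y : ℕ) :
    (gy p g x y : ℕ) = (((g.2.2.1 : ZMod p) * (x : ZMod p) + (g.2.2.2 : ZMod p) * (y : ZMod p)) : ZMod p).val := by
  unfold gy
  have : (((g.2.2.1 : ZMod p) * (x : ZMod p) + (g.2.2.2 : ZMod p) * (y : ZMod p)) : ZMod p)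
      = ((g.2.2.1 * x + g.2.2.2 * y : ℕ) : ZMod p) := by push_cast; ring
  rw [this, ZMod.val_natCast]

lemma cast_gx (g : NatGen) (x y : ℕ) :
    ((gx p g x y : ℕ) : ZMod p) = (g.1 : ZMod p) * (x : ZMod p) + (g.2.1 : ZMod p) * (y : ZMod p) := by
  rw [val_gx, ZMod.natCast_val, ZMod.cast_id', id]

lemma cast_gy (g : NatGen) (x y : ℕ) :
    ((gy p g x y : ℕ) : ZMod p) = (g.2.2.1 : ZMod p) * (x : ZMod p) + (g.2.2.2 : ZMod p) * (y : ZMod p) := by
  rw [val_gy, ZMod.natCast_val, ZMod.cast_id', id]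

lemma act_natMat_apply (g : GL2) (n : NatGen) (hg : (g : Matrix (Fin 2) (Fin 2) (ZMod p)) = natMat p n)
    (v : Vp) : act g v = ![((gx p n (v 0).val (v 1).val : ℕ) : ZMod p),
        ((gy p n (v 0).val (v 1).val : ℕ) : ZMod p)] := by
  funext i
  rw [cast_gx, cast_gy]
  simp only [ZMod.natCast_val, ZMod.cast_id', id]
  unfold act
  rw [hg]
  fin_cases i <;> simp [natMat, Matrix.mulVec, dotProduct, Fin.sum_univ_two]

lemma val_act0 (g : GL2) (n : NatGen) (hg : (g : Matrix (Fin 2) (Fin 2) (ZMod p)) = natMat p n)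
    (v : Vp) : (act g v 0).val = gx p n (v 0).val (v 1).val := by
  rw [act_natMat_apply g n hg]
  simp only [Matrix.cons_val_zero]
  rw [val_gx]
  simp

lemma val_act1 (g : GL2) (n : NatGen) (hg : (g : Matrix (Fin 2) (Fin 2) (ZMod p)) = natMat p n)
    (v : Vp) : (act g v 1).val = gy p n (v 0).val (v 1).val := by
  rw [act_natMat_apply g n hg]
  simp only [Matrix.cons_val_one, Matrix.cons_val_fin_one]
  rw [val_gy]
  simp

lemma act_natMat_nat (g : GL2) (n : NatGen) (hg : (g : Matrix (Fin 2) (Fin 2) (ZMod p)) = natMat p n)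
    (a b : ℕ) : act g ![(a : ZMod p), (b : ZMod p)] = ![((gx p n a b : ℕ) : ZMod p),
        ((gy p n a b : ℕ) : ZMod p)] := by
  funext i
  rw [cast_gx, cast_gy]
  unfold act
  rw [hg]
  fin_cases i <;> simp [natMat, Matrix.mulVec, dotProduct, Fin.sum_univ_two]

/-- Reading the check. -/
theorem regular_of_check (s : Set GL2) (gens : List NatGen) (sx sy d : ℕ → ℕ → ℕ)
    (hs : ∀ g ∈ s, ∃ n ∈ gens, (g : Matrix (Fin 2) (Fin 2) (ZMod p)) = natMat p n)
    (hs' : ∀ n ∈ gens, ∃ g ∈ s, (g : Matrix (Fin 2) (Fin 2) (ZMod p)) = natMat p n)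
    (hchk : chkAll p gens sx sy d = true) :
    Nat.card (Subgroup.closure s) = p ^ 2 - 1 ∧
    ∀ v w : Vp, v ≠ 0 → w ≠ 0 → ∃! h : Subgroup.closure s,
      Matrix.mulVec ((h : GL2) : Matrix (Fin 2) (Fin 2) (ZMod p)) v = w := by
  classical
  have hp : p.Prime := Fact.out
  have hp1 : 1 < p := hp.one_lt
  haveI : Fact (1 < p) := ⟨hp1⟩
  simp only [chkAll, Bool.and_eq_true, beq_iff_eq, List.all_eq_true, List.mem_range,
    Bool.or_eq_true] at hchk
  obtain ⟨⟨hs1, hs2⟩, hmain⟩ := hchk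
  -- points
  have hpoint : ∀ v : Vp, v ≠ 0 →
      (∀ g ∈ gens, chkGen p sx sy g (v 0).val (v 1).val = true) ∧
        chkDet p sx sy (v 0).val (v 1).val = true ∧ chkDist p gens d (v 0).val (v 1).val = true := by
    intro v hv
    rcases hmain _ (ZMod.val_lt _) _ (ZMod.val_lt _) with h | h
    · exfalso
      apply hv
      funext i
      fin_cases i
      · exact (ZMod.val_eq_zero _).mp h.1
      · exact (ZMod.val_eq_zero _).mp h.2
    · exact ⟨h.1.1, h.1.2, h.2⟩
  have hne1 : ∀ v : Vp, v ≠ e₁ → ¬ ((v 0).val = 1 ∧ (v 1).val = 0) := by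
    rintro v hv ⟨h0, h1⟩
    apply hv
    funext i
    fin_cases i
    · have : (v 0).val = (1 : ZMod p).val := by rw [h0, ZMod.val_one]
      exact ZMod.val_injective p this
    · exact (ZMod.val_eq_zero _).mp h1
  apply regular_of_eqv s (sigmaOf p sx sy) (distOf p d)
  · -- equivariance
    intro g hg v hv
    obtain ⟨n, hn, hgn⟩ := hs g hg
    obtain ⟨h1, -, -⟩ := hpoint v hv
    have h2 := h1 n hn
    simp only [chkGen, Bool.and_eq_true, beq_iff_eq] at h2
    have hsig : act g (sigmaOf p sx sy v) = ![((gx p n (sx (v 0).val (v 1).val) (sy (v 0).val (v 1).val) : ℕ) : ZMod p),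
        ((gy p n (sx (v 0).val (v 1).val) (sy (v 0).val (v 1).val) : ℕ) : ZMod p)] :=
      act_natMat_nat g n hgn _ _
    rw [hsig]
    unfold sigmaOf
    rw [val_act0 g n hgn, val_act1 g n hgn, h2.1, h2.2]
  · -- first basis vector
    unfold sigmaOf
    have h0 : (e₁ 0 : ZMod p).val = 1 := by simp [e₁, ZMod.val_one]
    have h1 : (e₁ 1 : ZMod p).val = 0 := by simp [e₁]
    rw [h0, h1, hs1, hs2]
    funext i
    fin_cases i <;> simp [e₂]
  · -- determinant
    intro v hv hv1
    obtain ⟨-, h1, -⟩ := hpoint v hv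
    simp only [chkDet, Bool.or_eq_true, Bool.and_eq_true, beq_iff_eq, bne_iff_ne] at h1
    rcases h1 with h1 | h1
    · exact absurd h1 (hne1 v hv1)
    · intro h0
      apply h1
      rw [← Nat.dvd_iff_mod_eq_zero, ← ZMod.natCast_eq_zero_iff]
      have hy : (v 1).val ≤ p := (ZMod.val_lt _).le
      have hc1 : ((p - 1 : ℕ) : ZMod p) = -1 := by
        rw [Nat.cast_sub hp1.le]
        simp
      have hc2 : ((p - (v 1).val : ℕ) : ZMod p) = - v 1 := by
        rw [Nat.cast_sub hy]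
        simp
      push_cast only [Nat.cast_add, Nat.cast_mul]
      rw [hc1, hc2]
      simp only [sigmaOf, Matrix.cons_val_zero, Matrix.cons_val_one, Matrix.cons_val_fin_one,
        ZMod.natCast_val, ZMod.cast_id', id] at h0 ⊢
      linear_combination h0
  · -- distance
    intro v hv hv1
    obtain ⟨-, -, h1⟩ := hpoint v hv
    simp only [chkDist, Bool.or_eq_true, Bool.and_eq_true, beq_iff_eq, List.any_eq_true,
      decide_eq_true_eq] at h1
    rcases h1 with h1 | ⟨n, hn, hlt⟩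
    · exact absurd h1 (hne1 v hv1)
    · obtain ⟨g, hg, hgn⟩ := hs' n hn
      refine ⟨g, hg, ?_⟩
      unfold distOf
      rw [val_act0 g n hgn, val_act1 g n hgn]
      exact hlt

end NatCheck

end Cfsg.Agent.Perm.MatCheck
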