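import Mathlib

/-!
Minimal degree of multiply transitive groups.
-/

set_option autoImplicit false
set_option linter.style.haveILetI false

namespace Cfsg.Agent.Lib.Perm

open MulAction SubMulAction Subgroup Equiv.Perm

variable {α : Type*} [Fintype α] [DecidableEq α]

/-- A multiply transitive group agrees with any permutation on few points. -/
lemma exists_agree_of_multTrans {G : Subgroup (Equiv.Perm α)} {k : ℕ}
    (hG : IsMultiplyPretransitive G α k) (hkn : k ≤ Fintype.card α) (A : Finset α)
    (hA : A.card ≤ k) (τ : Equiv.Perm α) : ∃ h ∈ G, ∀ w ∈ A, h w = τ w := by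
  classical
  haveI : IsMultiplyPretransitive G α A.card :=
    isMultiplyPretransitive_of_le (n := k) hA (by rwa [Nat.card_eq_fintype_card])
  let e : A ≃ Fin A.card := A.equivFin
  let ι : Fin A.card ↪ α := e.symm.toEmbedding.trans (Function.Embedding.subtype _)
  let ι' : Fin A.card ↪ α := ι.trans τ.toEmbedding
  obtain ⟨x, hx⟩ := exists_smul_eq G ι ι'
  refine ⟨x, x.2, fun z hz => ?_⟩
  have h1 := congrArg (fun f : Fin A.card ↪ α => f (e ⟨z, hz⟩)) hx
  have h2 : ι (e ⟨z, hz⟩) = z := by simp [ι]
  have h3 : ι' (e ⟨z, hz⟩) = τ z := by simp [ι', h2]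
  have h4 : (x • ι) (e ⟨z, hz⟩) = x • ι (e ⟨z, hz⟩) := rfl
  change (x • ι) (e ⟨z, hz⟩) = ι' (e ⟨z, hz⟩) at h1
  rw [h3, h4, h2] at h1
  exact h1

/-- The support of a commutator. -/
lemma comm_support_bound {g h : Equiv.Perm α} {S : Finset α} (hST : S ⊆ g.support)
    (hh : ∀ w ∈ S, h w = w) {y : α} (hy : y ∈ S) (hgy : g y ∉ S) (hhz : h (g y) ≠ g y) :
    g⁻¹ * h⁻¹ * g * h ≠ 1 ∧ (g⁻¹ * h⁻¹ * g * h).support.card ≤ (g.support \ S).card +
      (S.filter fun w => g w ∉ S).card + ((g.support \ S).erase (h (g y))).card := by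
  classical
  set c := g⁻¹ * h⁻¹ * g * h with hc
  have hcw : ∀ w, c w = g⁻¹ (h⁻¹ (g (h w))) := fun _ => rfl
  constructor
  · intro h1
    have h2 : c y = y := by rw [h1]; rfl
    rw [hcw, hh y hy, Equiv.Perm.inv_eq_iff_eq, Equiv.Perm.inv_eq_iff_eq] at h2
    exact hhz h2.symm
  · have hsub : c.support ⊆ ((g.support \ S) ∪ (S.filter fun w => g w ∉ S)) ∪
        ((g.support \ S).erase (h (g y))).image (fun x => (h⁻¹ : Equiv.Perm α) x) := by
      intro w hw
      rw [Equiv.Perm.mem_support] at hw
      by_cases hwT : w ∈ g.support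
      · by_cases hwS : w ∈ S
        · by_cases hgw : g w ∈ S
          · exfalso
            apply hw
            rw [hcw, hh w hwS, Equiv.Perm.inv_eq_iff_eq, Equiv.Perm.inv_eq_iff_eq, hh _ hgw]
          · exact Finset.mem_union_left _ (Finset.mem_union_right _
              (Finset.mem_filter.mpr ⟨hwS, hgw⟩))
        · exact Finset.mem_union_left _ (Finset.mem_union_left _
            (Finset.mem_sdiff.mpr ⟨hwT, hwS⟩))
      · have hgw : g w = w := by simpa using hwT
        have hhT : h w ∈ g.support := by
          by_contra hcon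
          have h1 : g (h w) = h w := by simpa using hcon
          apply hw
          have h5 : (h⁻¹ : Equiv.Perm α) (h w) = w := by simp
          rw [hcw, h1, h5]
          exact Equiv.Perm.inv_eq_iff_eq.mpr hgw.symm
        have hhS : h w ∉ S := by
          intro hcon
          have h1 := hh _ hcon
          have h2 : h w = w := h.injective h1
          rw [h2] at hcon
          exact hwT (hST hcon)
        have hne : h w ≠ h (g y) := by
          intro hcon
          have h1 : w = g y := h.injective hcon
          apply hwT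
          rw [h1]
          exact Equiv.Perm.apply_mem_support.mpr (hST hy)
        refine Finset.mem_union_right _ (Finset.mem_image.mpr ⟨h w, ?_, by simp⟩)
        exact Finset.mem_erase.mpr ⟨hne, Finset.mem_sdiff.mpr ⟨hhT, hhS⟩⟩
    calc c.support.card ≤ _ := Finset.card_le_card hsub
      _ ≤ ((g.support \ S) ∪ (S.filter fun w => g w ∉ S)).card +
          (((g.support \ S).erase (h (g y))).image (fun x => (h⁻¹ : Equiv.Perm α) x)).card :=
          Finset.card_union_le _ _
      _ ≤ _ := by
        refine Nat.add_le_add (Finset.card_union_le _ _) Finset.card_image_le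

/-- Subsets with at most one exit. -/
lemma exists_subset_one_exit (g : Equiv.Perm α) (s : ℕ) (hs : s ≤ g.support.card) :
    ∃ S ⊆ g.support, S.card = s ∧ (S.filter fun w => g w ∉ S).card ≤ 1 := by
  classical
  induction s with
  | zero => exact ⟨∅, Finset.empty_subset _, rfl, by simp⟩
  | succ s ih =>
    obtain ⟨S, hST, hcard, hE⟩ := ih (by omega)
    -- choice of the next point
    obtain ⟨z, hzT, hzS, hz⟩ : ∃ z, z ∈ g.support ∧ z ∉ S ∧
        ∀ w ∈ S, g w ∉ S → g w = z := by
      by_cases hemp : (S.filter fun w => g w ∉ S) = ∅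
      · have hlt : S.card < g.support.card := by omega
        obtain ⟨z, hz1, hz2⟩ := Finset.exists_mem_notMem_of_card_lt_card hlt
        refine ⟨z, hz1, hz2, fun w hw hgw => ?_⟩
        exfalso
        have : w ∈ (S.filter fun w => g w ∉ S) := Finset.mem_filter.mpr ⟨hw, hgw⟩
        rw [hemp] at this
        simp at this
      · obtain ⟨y, hy⟩ := Finset.nonempty_iff_ne_empty.mpr hemp
        have hy' := Finset.mem_filter.mp hy
        refine ⟨g y, Equiv.Perm.apply_mem_support.mpr (hST hy'.1), hy'.2, fun w hw hgw => ?_⟩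
        have hw' : w ∈ (S.filter fun w => g w ∉ S) := Finset.mem_filter.mpr ⟨hw, hgw⟩
        have := Finset.card_le_one.mp hE w hw' y hy
        rw [this]
    refine ⟨insert z S, Finset.insert_subset hzT hST, by rw [Finset.card_insert_of_notMem hzS, hcard], ?_⟩
    have hsub : ((insert z S).filter fun w => g w ∉ insert z S) ⊆ {z} := by
      intro w hw
      rw [Finset.mem_filter, Finset.mem_insert] at hw
      obtain ⟨hw1, hw2⟩ := hw
      rw [Finset.mem_insert, not_or] at hw2
      rcases hw1 with rfl | hw1
      · exact Finset.mem_singleton_self _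
      · exact absurd (hz w hw1 hw2.2) hw2.1
    calc _ ≤ ({z} : Finset α).card := Finset.card_le_card hsub
      _ = 1 := Finset.card_singleton z

/-- Invariant subsets of the support of an element acting freely. -/
lemma orderOf_dvd_card_of_invariant (g : Equiv.Perm α)
    (hfree : ∀ z ∈ g.support, ∀ j : ℕ, (g ^ j) z = z → g ^ j = 1) (S : Finset α)
    (hST : S ⊆ g.support) (hinv : ∀ w ∈ S, g w ∈ S) : orderOf g ∣ S.card := by
  classical
  have hpow : ∀ (j : ℕ), ∀ w ∈ S, (g ^ j) w ∈ S := by
    intro j
    induction j with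
    | zero => intro w hw; simpa using hw
    | succ j ih =>
      intro w hw
      rw [pow_succ']
      exact hinv _ (ih w hw)
  let K := Subgroup.zpowers g
  have hK : ∀ k : K, ∃ j : ℕ, (k : Equiv.Perm α) = g ^ j := by
    intro k
    have h1 : (k : Equiv.Perm α) ∈ Submonoid.powers g :=
      mem_powers_iff_mem_zpowers.mpr k.2
    obtain ⟨j, hj⟩ := h1
    exact ⟨j, hj.symm⟩
  let N : SubMulAction K α :=
    { carrier := (S : Set α)
      smul_mem' := by
        intro k x hx
        obtain ⟨j, hj⟩ := hK k
        change (k : Equiv.Perm α) x ∈ S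
        rw [hj]
        exact hpow j x hx }
  have hst : ∀ b : N, MulAction.stabilizer K b = ⊥ := by
    intro b
    rw [eq_bot_iff]
    intro k hk
    rw [Subgroup.mem_bot]
    obtain ⟨j, hj⟩ := hK k
    have h1 : (k : Equiv.Perm α) (b : α) = b := congrArg Subtype.val (MulAction.mem_stabilizer_iff.mp hk)
    rw [hj] at h1
    have h2 := hfree _ (hST b.2) j h1
    exact Subtype.ext (hj.trans h2)
  have hd : Nat.card K ∣ Nat.card N := by
    rw [Nat.card_congr (MulAction.selfEquivOrbitsQuotientProd hst), Nat.card_prod]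
    exact dvd_mul_left _ _
  have hN : Nat.card N = S.card := by
    have e : N ≃ S := Equiv.subtypeEquivRight fun x => Iff.rfl
    rw [Nat.card_congr e, Nat.card_eq_fintype_card, Fintype.card_coe]
  rwa [hN, Nat.card_zpowers] at hd

/-- **Minimal degree theorem**: the core. -/
theorem minDegree_core {G : Subgroup (Equiv.Perm α)} {k : ℕ} (hk : 3 ≤ k)
    (hkn : k ≤ Fintype.card α) (hG : IsMultiplyPretransitive G α k) (g : Equiv.Perm α)
    (hg : g ∈ G) (hg1 : g ≠ 1) (hsupp : g.support.card < 2 * k - 2) :
    ∃ h : Equiv.Perm α, h ∈ G ∧ h ≠ 1 ∧ h.support.card ≤ 3 := by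
  classical
  obtain ⟨g₀, hg₀, hmin⟩ := (Finset.univ.filter fun h : Equiv.Perm α => h ∈ G ∧ h ≠ 1).exists_min_image
    (fun h => h.support.card) ⟨g, Finset.mem_filter.mpr ⟨Finset.mem_univ _, hg, hg1⟩⟩
  obtain ⟨hg₀G, hg₀1⟩ := (Finset.mem_filter.mp hg₀).2
  have hmin' : ∀ h ∈ G, h ≠ 1 → g₀.support.card ≤ h.support.card := fun h h1 h2 =>
    hmin h (Finset.mem_filter.mpr ⟨Finset.mem_univ _, h1, h2⟩)
  have hmg : g₀.support.card ≤ g.support.card := hmin' g hg hg1
  by_contra hcon
  push Not at hcon
  have hm4 : 4 ≤ g₀.support.card := by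
    have := hcon g₀ hg₀G hg₀1
    omega
  set T := g₀.support with hT
  set m := T.card with hm
  -- freeness
  have hfree : ∀ z ∈ T, ∀ j : ℕ, (g₀ ^ j) z = z → g₀ ^ j = 1 := by
    intro z hz j hj
    by_contra hne
    have h1 := hmin' _ (G.pow_mem hg₀G j) hne
    have h2 : (g₀ ^ j).support ⊂ T := by
      refine ⟨Equiv.Perm.support_pow_le g₀ j, fun h3 => ?_⟩
      have h4 := h3 hz
      rw [Equiv.Perm.mem_support] at h4
      exact h4 hj
    have h3 := Finset.card_lt_card h2
    omega
  have hord : 2 ≤ orderOf g₀ := by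
    have h1 : orderOf g₀ ≠ 1 := fun h => hg₀1 (orderOf_eq_one_iff.mp h)
    have h2 : 0 < orderOf g₀ := orderOf_pos g₀
    omega
  have hdT : orderOf g₀ ∣ m := orderOf_dvd_card_of_invariant g₀ hfree T subset_rfl
    (fun w hw => Equiv.Perm.apply_mem_support.mpr hw)
  -- from a subset and a partner point to the contradiction
  have key : ∀ (S : Finset α) (y z' : α), S ⊆ T → y ∈ S → g₀ y ∉ S → z' ∉ S → z' ≠ g₀ y →
      S.card + 1 ≤ k → ∃ c ∈ G, c ≠ 1 ∧ c.support.card ≤ (T \ S).card +
      (S.filter fun w => g₀ w ∉ S).card + ((T \ S).erase z').card := by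
    intro S y z' hST hy hgy hz' hne hcard
    have hA : (insert (g₀ y) S).card ≤ k := by
      rw [Finset.card_insert_of_notMem hgy]
      exact hcard
    obtain ⟨h, hhG, hh⟩ := exists_agree_of_multTrans hG hkn (insert (g₀ y) S) hA
      (Equiv.swap (g₀ y) z')
    have hfix : ∀ w ∈ S, h w = w := by
      intro w hw
      rw [hh w (Finset.mem_insert_of_mem hw)]
      apply Equiv.swap_apply_of_ne_of_ne
      · rintro rfl
        exact hgy hw
      · rintro rfl
        exact hz' hw
    have hz : h (g₀ y) = z' := by
      rw [hh _ (Finset.mem_insert_self _ _), Equiv.swap_apply_left]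
    have hne' : h (g₀ y) ≠ g₀ y := by
      rw [hz]
      exact hne
    have := comm_support_bound hST hfix hy hgy hne'
    rw [hz] at this
    exact ⟨g₀⁻¹ * h⁻¹ * g₀ * h, G.mul_mem (G.mul_mem (G.mul_mem (G.inv_mem hg₀G) (G.inv_mem hhG)) hg₀G) hhG,
      this.1, this.2⟩
  by_cases hmk : m ≤ k
  · -- few moved points
    obtain ⟨z, hz⟩ : T.Nonempty := by
      rw [← Finset.card_pos]
      omega
    by_cases huniv : T = Finset.univ
    · -- `G` is everything
      have hmn : m = Fintype.card α := by
        rw [hm, huniv, Finset.card_univ]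
      have hkeq : k = Fintype.card α := by omega
      have h1 : IsMultiplyPretransitive G α (Nat.card α - 1) := by
        rw [Nat.card_eq_fintype_card, ← hkeq]
        exact isMultiplyPretransitive_of_le (n := k) (by omega) (by rw [Nat.card_eq_fintype_card]; omega)
      have htop := eq_top_of_isMultiplyPretransitive h1
      obtain ⟨a, b, hab⟩ : ∃ a b : α, a ≠ b := by
        have : Nontrivial α := by
          apply Fintype.one_lt_card_iff_nontrivial.mp
          omega
        exact exists_pair_ne α
      have hswne : Equiv.swap a b ≠ 1 := by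
        intro h
        have h3 := congrArg (fun f : Equiv.Perm α => f a) h
        simp only [Equiv.swap_apply_left, Equiv.Perm.coe_one, id_eq] at h3
        exact hab h3.symm
      have h2 := hmin' (Equiv.swap a b) (by rw [htop]; trivial) hswne
      rw [Equiv.Perm.card_support_swap hab] at h2
      omega
    · obtain ⟨z', hz'⟩ : ∃ z', z' ∉ T := by
        by_contra hall
        push Not at hall
        exact huniv (Finset.eq_univ_iff_forall.mpr hall)
      set y := g₀⁻¹ z with hy
      have hgy : g₀ y = z := by simp [hy]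
      have hyT : y ∈ T := Equiv.Perm.apply_mem_support.mp (by rw [hgy]; exact hz)
      have hyz : y ≠ z := by
        intro h
        rw [h] at hgy
        rw [hT, Equiv.Perm.mem_support] at hz
        exact hz hgy
      set S := T.erase z with hS
      have hcardS : S.card = m - 1 := Finset.card_erase_of_mem hz
      obtain ⟨c, hcG, hc1, hcb⟩ := key S y z' (Finset.erase_subset _ _) (Finset.mem_erase.mpr ⟨hyz, hyT⟩)
        (by rw [hgy]; exact Finset.notMem_erase _ _) (fun h => hz' (Finset.mem_of_mem_erase h))
        (by rw [hgy]; rintro rfl; exact hz' hz) (by omega)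
      have h1 : (T \ S).card ≤ 1 := by
        have : T \ S ⊆ {z} := by
          intro w hw
          rw [Finset.mem_sdiff] at hw
          by_contra hne
          exact hw.2 (Finset.mem_erase.mpr ⟨by simpa using hne, hw.1⟩)
        simpa using Finset.card_le_card this
      have h2 : (S.filter fun w => g₀ w ∉ S).card ≤ 1 := by
        have : (S.filter fun w => g₀ w ∉ S) ⊆ {y} := by
          intro w hw
          rw [Finset.mem_filter] at hw
          obtain ⟨hw1, hw2⟩ := hw
          have hwT : w ∈ T := Finset.mem_of_mem_erase hw1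
          have h3 : g₀ w = z := by
            by_contra hne
            exact hw2 (Finset.mem_erase.mpr ⟨hne, Equiv.Perm.apply_mem_support.mpr hwT⟩)
          rw [Finset.mem_singleton]
          exact g₀.injective (h3.trans hgy.symm)
        simpa using Finset.card_le_card this
      have h3 : ((T \ S).erase z').card ≤ 1 := (Finset.card_le_card (Finset.erase_subset _ _)).trans h1
      have h4 := hmin' c hcG hc1
      omega
  · -- many moved points
    push Not at hmk
    have hmlt : m < 2 * k - 2 := lt_of_le_of_lt hmg hsupp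
    obtain ⟨S, hST, hcard, hE⟩ : ∃ S ⊆ T, S.card = k - 1 ∧ (S.filter fun w => g₀ w ∉ S).card ≤ 1 :=
      exists_subset_one_exit g₀ (k - 1) (by change k - 1 ≤ m; omega)
    have hU : (T \ S).card = m - (k - 1) := by
      rw [Finset.card_sdiff_of_subset hST, hcard]
    by_cases hemp : (S.filter fun w => g₀ w ∉ S) = ∅
    · -- the invariant case
      have hinv : ∀ w ∈ S, g₀ w ∈ S := by
        intro w hw
        by_contra hcon'
        have : w ∈ (S.filter fun w => g₀ w ∉ S) := Finset.mem_filter.mpr ⟨hw, hcon'⟩
        rw [hemp] at this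
        simp at this
      have hdS : orderOf g₀ ∣ k - 1 := by
        rw [← hcard]
        exact orderOf_dvd_card_of_invariant g₀ hfree S hST hinv
      have himg : S.image g₀ = S := by
        apply Finset.eq_of_subset_of_card_le
        · intro w hw
          obtain ⟨v, hv, rfl⟩ := Finset.mem_image.mp hw
          exact hinv v hv
        · rw [Finset.card_image_of_injective _ g₀.injective]
      obtain ⟨x, hx⟩ : S.Nonempty := by
        rw [← Finset.card_pos]
        omega
      obtain ⟨w, hw⟩ : (T \ S).Nonempty := by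
        rw [← Finset.card_pos]
        omega
      obtain ⟨hwT, hwS⟩ := Finset.mem_sdiff.mp hw
      obtain ⟨y, hyS, hgy⟩ : ∃ y ∈ S, g₀ y = x := by
        rw [← himg] at hx
        exact Finset.mem_image.mp hx
      have hxT : x ∈ T := hST hx
      have hyx : y ≠ x := by
        rintro rfl
        have h5 : y ∈ g₀.support := hxT
        rw [Equiv.Perm.mem_support] at h5
        exact h5 hgy
      have hxw : x ≠ w := by
        rintro rfl
        exact hwS hx
      set S₂ := insert w (S.erase x) with hS₂
      have hS₂card : S₂.card = k - 1 := by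
        rw [hS₂, Finset.card_insert_of_notMem (fun h => hwS (Finset.mem_of_mem_erase h)),
          Finset.card_erase_of_mem hx, hcard]
        have : 1 ≤ k - 1 := by omega
        omega
      have hS₂T : S₂ ⊆ T := by
        intro v hv
        rcases Finset.mem_insert.mp hv with rfl | hv
        · exact hwT
        · exact hST (Finset.mem_of_mem_erase hv)
      have hxS₂ : x ∉ S₂ := by
        intro h
        rcases Finset.mem_insert.mp h with h | h
        · exact hxw h
        · exact Finset.notMem_erase _ _ h
      have hU₂ : (T \ S₂).card = m - (k - 1) := by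
        rw [Finset.card_sdiff_of_subset hS₂T, hS₂card]
      have hxU : x ∈ T \ S₂ := Finset.mem_sdiff.mpr ⟨hxT, hxS₂⟩
      obtain ⟨z', hz'U, hz'⟩ := Finset.exists_mem_ne (by omega : 1 < (T \ S₂).card) x
      have hyS₂ : y ∈ S₂ := Finset.mem_insert_of_mem (Finset.mem_erase.mpr ⟨hyx, hyS⟩)
      obtain ⟨c, hcG, hc1, hcb⟩ := key S₂ y z' hS₂T hyS₂ (by rw [hgy]; exact hxS₂)
        (Finset.mem_sdiff.mp hz'U).2 (by rw [hgy]; exact hz') (by omega)
      have h2 : (S₂.filter fun v => g₀ v ∉ S₂).card ≤ 2 := by
        have : (S₂.filter fun v => g₀ v ∉ S₂) ⊆ {y, w} := by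
          intro v hv
          rw [Finset.mem_filter] at hv
          obtain ⟨hv1, hv2⟩ := hv
          rcases Finset.mem_insert.mp hv1 with rfl | hv1
          · simp
          · have hvS := Finset.mem_of_mem_erase hv1
            have h3 : g₀ v = x := by
              by_contra hne
              exact hv2 (Finset.mem_insert_of_mem (Finset.mem_erase.mpr ⟨hne, hinv v hvS⟩))
            have h4 : v = y := g₀.injective (h3.trans hgy.symm)
            simp [h4]
        exact (Finset.card_le_card this).trans Finset.card_le_two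
      have h3 : ((T \ S₂).erase z').card = (T \ S₂).card - 1 := Finset.card_erase_of_mem hz'U
      have h4 := hmin' c hcG hc1
      have hmeq : m = 2 * (k - 1) - 1 := by omega
      have hd2 : orderOf g₀ ∣ 2 * (k - 1) := Dvd.dvd.mul_left hdS 2
      have hd3 : orderOf g₀ ∣ 2 * (k - 1) - m := Nat.dvd_sub hd2 hdT
      have hd4 : 2 * (k - 1) - m = 1 := by omega
      rw [hd4] at hd3
      have := Nat.le_of_dvd one_pos hd3
      omega
    · -- one exit
      obtain ⟨y, hy⟩ := Finset.nonempty_iff_ne_empty.mpr hemp
      obtain ⟨hyS, hgy⟩ := Finset.mem_filter.mp hy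
      have hzU : g₀ y ∈ T \ S := Finset.mem_sdiff.mpr ⟨Equiv.Perm.apply_mem_support.mpr (hST hyS), hgy⟩
      obtain ⟨z', hz'U, hz'⟩ := Finset.exists_mem_ne (by omega : 1 < (T \ S).card) (g₀ y)
      obtain ⟨c, hcG, hc1, hcb⟩ := key S y z' hST hyS hgy (Finset.mem_sdiff.mp hz'U).2 hz' (by omega)
      have h3 : ((T \ S).erase z').card = (T \ S).card - 1 := Finset.card_erase_of_mem hz'U
      have h4 := hmin' c hcG hc1
      omega

end Cfsg.Agent.Lib.Perm
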