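import Mathlib
import Cfsg.Prelude.Def_Perm

/-!
Basic lemmas on near-fields (in the sense of `Cfsg.NearField`).
-/

namespace Cfsg.Agent.Perm.NearFieldLib

variable {F : Type*} [Cfsg.NearField F]

/-- Right multiplication by a fixed element as an additive homomorphism. -/
def rmulHom (c : F) : F →+ F :=
  AddMonoidHom.mk' (fun x => x * c) (fun a b => Cfsg.NearField.right_distrib a b c)

lemma nf_zero_mul (c : F) : (0 : F) * c = 0 := (rmulHom c).map_zero

lemma nf_mul_zero (a : F) : a * (0 : F) = 0 := Cfsg.NearField.mul_zero a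

lemma nf_add_mul (a b c : F) : (a + b) * c = a * c + b * c := Cfsg.NearField.right_distrib a b c

lemma nf_neg_mul (a c : F) : (-a) * c = -(a * c) := (rmulHom c).map_neg a

lemma nf_sub_mul (a b c : F) : (a - b) * c = a * c - b * c := (rmulHom c).map_sub a b

lemma nf_nsmul_mul (n : ℕ) (a c : F) : (n • a) * c = n • (a * c) := (rmulHom c).map_nsmul n a

lemma nf_zero_ne_one : (0 : F) ≠ 1 := Cfsg.NearField.zero_ne_one

lemma nf_one_ne_zero : (1 : F) ≠ 0 := fun h => nf_zero_ne_one h.symm

lemma nf_exists_inv {a : F} (h : a ≠ 0) : ∃ b : F, a * b = 1 ∧ b * a = 1 :=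
  Cfsg.NearField.exists_inv a h

/-- A chosen inverse. -/
noncomputable def nfInv (a : F) : F := by
  classical exact if h : a ≠ 0 then (nf_exists_inv h).choose else 0

lemma nfInv_mul_cancel {a : F} (h : a ≠ 0) : nfInv a * a = 1 := by
  classical
  unfold nfInv
  rw [dif_pos h]
  exact (nf_exists_inv h).choose_spec.2

lemma mul_nfInv_cancel {a : F} (h : a ≠ 0) : a * nfInv a = 1 := by
  classical
  unfold nfInv
  rw [dif_pos h]
  exact (nf_exists_inv h).choose_spec.1

lemma nfInv_ne_zero {a : F} (h : a ≠ 0) : nfInv a ≠ 0 := by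
  intro h0
  have := mul_nfInv_cancel h
  rw [h0, nf_mul_zero] at this
  exact nf_zero_ne_one this

lemma nf_mul_ne_zero {a b : F} (ha : a ≠ 0) (hb : b ≠ 0) : a * b ≠ 0 := by
  intro h0
  have h1 : a * b * nfInv b = 0 := by rw [h0, nf_zero_mul]
  rw [mul_assoc, mul_nfInv_cancel hb, mul_one] at h1
  exact ha h1

lemma nf_mul_left_cancel {a b c : F} (ha : a ≠ 0) (h : a * b = a * c) : b = c := by
  have := congrArg (fun x => nfInv a * x) h
  simpa [← mul_assoc, nfInv_mul_cancel ha] using this

lemma nf_mul_right_cancel {a b c : F} (hc : c ≠ 0) (h : a * c = b * c) : a = b := by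
  have := congrArg (fun x => x * nfInv c) h
  simpa [mul_assoc, mul_nfInv_cancel hc] using this

/-- Right multiplication by a non-zero element is an additive automorphism. -/
noncomputable def rmulEquiv (c : F) (hc : c ≠ 0) : F ≃+ F where
  toFun x := x * c
  invFun x := x * nfInv c
  left_inv x := by simp only [mul_assoc, mul_nfInv_cancel hc, mul_one]
  right_inv x := by simp only [mul_assoc, nfInv_mul_cancel hc, mul_one]
  map_add' a b := nf_add_mul a b c

@[simp] lemma rmulEquiv_apply (c : F) (hc : c ≠ 0) (x : F) : rmulEquiv c hc x = x * c := rfl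

end Cfsg.Agent.Perm.NearFieldLib
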