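import Mathlib

/-!
Automorphisms of powers of a non-abelian simple group are monomial; Scott's lemma.
-/

set_option autoImplicit false

namespace Cfsg.Agent.Perm.ONS

variable {ι T : Type*} [Group T]

lemma center_trivial_of_simple [IsSimpleGroup T] (hna : ∃ a b : T, a * b ≠ b * a) (z : T)
    (hz : ∀ t : T, z * t = t * z) : z = 1 := by
  have hc : Subgroup.center T = ⊥ ∨ Subgroup.center T = ⊤ :=
    (inferInstance : (Subgroup.center T).Normal).eq_bot_or_eq_top
  rcases hc with h | h
  · have : z ∈ Subgroup.center T := by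
      rw [Subgroup.mem_center_iff]
      intro t
      exact (hz t).symm
    rw [h, Subgroup.mem_bot] at this
    exact this
  · exfalso
    obtain ⟨a, b, hab⟩ := hna
    have : a ∈ Subgroup.center T := by rw [h]; trivial
    rw [Subgroup.mem_center_iff] at this
    exact hab (this b).symm

lemma exists_ne_one_of_nonabelian (hna : ∃ a b : T, a * b ≠ b * a) : ∃ t : T, t ≠ 1 := by
  obtain ⟨a, b, hab⟩ := hna
  refine ⟨a, ?_⟩
  rintro rfl
  simp at hab

/-- A normal subgroup of `T` given by a predicate closed under everything and nontrivial is all. -/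
lemma normal_eq_top_of_ne_one [IsSimpleGroup T] (E : Subgroup T) (hE : E.Normal) {x : T}
    (hx : x ∈ E) (hx1 : x ≠ 1) : E = ⊤ := by
  rcases hE.eq_bot_or_eq_top with h | h
  · rw [h, Subgroup.mem_bot] at hx
    exact absurd hx hx1
  · exact h

variable [DecidableEq ι]

/-- The subgroup of `t` with `mulSingle j t ∈ X`. -/
def singleSub (X : Subgroup (ι → T)) (j : ι) : Subgroup T :=
  X.comap (MonoidHom.mulSingle (fun _ : ι => T) j)

lemma mem_singleSub {X : Subgroup (ι → T)} {j : ι} {t : T} :
    t ∈ singleSub X j ↔ Pi.mulSingle j t ∈ X := Iff.rfl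

lemma singleSub_normal {X : Subgroup (ι → T)} (hX : X.Normal) (j : ι) :
    (singleSub X j).Normal := by
  constructor
  intro n hn g
  rw [mem_singleSub] at hn ⊢
  have := hX.conj_mem _ hn (Pi.mulSingle j g)
  have e : Pi.mulSingle j (g * n * g⁻¹) =
      (Pi.mulSingle j g : ι → T) * Pi.mulSingle j n * (Pi.mulSingle j g)⁻¹ := by
    rw [← Pi.mulSingle_mul, ← Pi.mulSingle_inv, ← Pi.mulSingle_mul]
  rw [e]
  exact this

/-- If a normal subgroup `X` of `T^ι` has a member non-trivial at `j`, it contains the whole `j`-th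
factor. -/
lemma single_mem_of_ne_one [IsSimpleGroup T] (hna : ∃ a b : T, a * b ≠ b * a)
    {X : Subgroup (ι → T)} (hX : X.Normal) {x : ι → T} (hx : x ∈ X) {j : ι} (hxj : x j ≠ 1) (u : T) :
    Pi.mulSingle j u ∈ X := by
  have hnc : ∃ t : T, x j * t ≠ t * x j := by
    by_contra hcon
    push Not at hcon
    exact hxj (center_trivial_of_simple hna _ hcon)
  obtain ⟨t, ht⟩ := hnc
  have hS : singleSub X j = ⊤ := by
    refine normal_eq_top_of_ne_one _ (singleSub_normal hX j) (x := x j * (t * (x j)⁻¹ * t⁻¹)) ?_ ?_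
    · rw [mem_singleSub]
      have h1 : x * ((Pi.mulSingle j t : ι → T) * x⁻¹ * (Pi.mulSingle j t)⁻¹) ∈ X :=
        X.mul_mem hx (hX.conj_mem _ (X.inv_mem hx) _)
      have e : Pi.mulSingle j (x j * (t * (x j)⁻¹ * t⁻¹)) =
          x * ((Pi.mulSingle j t : ι → T) * x⁻¹ * (Pi.mulSingle j t)⁻¹) := by
        ext i
        by_cases hi : i = j
        · subst hi
          simp
        · simp [Pi.mulSingle_eq_of_ne hi]
      rw [e]
      exact h1
    · intro h
      apply ht
      have h2 : x j * t * (x j)⁻¹ * t⁻¹ = 1 := by rw [← h]; group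
      have h3 : x j * t = (x j * t * (x j)⁻¹ * t⁻¹) * (t * x j) := by group
      rw [h3, h2, one_mul]
  have : u ∈ singleSub X j := by rw [hS]; trivial
  exact this

/-- Monomial automorphism. -/
def IsMono (τ : MulAut (ι → T)) (σ : Equiv.Perm ι) (θ : ι → (T ≃* T)) : Prop :=
  ∀ (f : ι → T) (i : ι), τ f (σ i) = θ i (f i)

/-- The image of the `i`-th factor under an automorphism of `T^ι` is a factor. -/
lemma exists_factor_image [IsSimpleGroup T] (hna : ∃ a b : T, a * b ≠ b * a)
    (τ : MulAut (ι → T)) (i : ι) :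
    ∃ j : ι, (∀ t : T, ∃ u : T, τ (Pi.mulSingle i t) = Pi.mulSingle j u) ∧
      (∀ u : T, ∃ t : T, τ (Pi.mulSingle i t) = Pi.mulSingle j u) := by
  obtain ⟨t₀, ht₀⟩ := exists_ne_one_of_nonabelian hna
  -- the image of the factor
  set F : Subgroup (ι → T) := (MonoidHom.mulSingle (fun _ : ι => T) i).range with hF
  have hFmem : ∀ g : ι → T, g ∈ F ↔ ∃ t, g = Pi.mulSingle i t := by
    intro g
    simp only [hF, MonoidHom.mem_range, MonoidHom.mulSingle_apply]
    constructor
    · rintro ⟨t, rfl⟩; exact ⟨t, rfl⟩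
    · rintro ⟨t, rfl⟩; exact ⟨t, rfl⟩
  have hFn : F.Normal := by
    constructor
    intro n hn g
    rw [hFmem] at hn ⊢
    obtain ⟨t, rfl⟩ := hn
    refine ⟨g i * t * (g i)⁻¹, ?_⟩
    ext l
    by_cases hl : l = i
    · subst hl; simp
    · simp [Pi.mulSingle_eq_of_ne hl]
  set X : Subgroup (ι → T) := F.map τ.toMonoidHom with hX
  have hXn : X.Normal := hFn.map _ τ.surjective
  have hxne : τ (Pi.mulSingle i t₀) ≠ 1 := by
    intro h
    have h2 : (Pi.mulSingle i t₀ : ι → T) = 1 := by
      apply τ.injective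
      rw [h, map_one]
    have := congrFun h2 i
    simp at this
    exact ht₀ this
  have hex : ∃ j, τ (Pi.mulSingle i t₀) j ≠ 1 := by
    by_contra hcon
    push Not at hcon
    exact hxne (funext hcon)
  obtain ⟨j, hj⟩ := hex
  have hxX : τ (Pi.mulSingle i t₀) ∈ X :=
    ⟨_, (hFmem _).2 ⟨t₀, rfl⟩, rfl⟩
  have hsingle : ∀ u : T, (Pi.mulSingle j u : ι → T) ∈ X := fun u =>
    single_mem_of_ne_one hna hXn hxX hj u
  have hsurj : ∀ u : T, ∃ t : T, τ (Pi.mulSingle i t) = Pi.mulSingle j u := by
    intro u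
    obtain ⟨g, hg, hgu⟩ := hsingle u
    obtain ⟨t, rfl⟩ := (hFmem _).1 hg
    exact ⟨t, hgu⟩
  refine ⟨j, ?_, hsurj⟩
  -- the reverse inclusion
  obtain ⟨u₀, hu₀⟩ := exists_ne_one_of_nonabelian hna
  obtain ⟨t₁, ht₁⟩ := hsurj u₀
  have ht₁ne : t₁ ≠ 1 := by
    rintro rfl
    have h := ht₁
    rw [Pi.mulSingle_one, map_one] at h
    have := congrFun h j
    simp at this
    exact hu₀ this.symm
  -- the preimage of the `j`-th factor
  set Fj : Subgroup (ι → T) := (MonoidHom.mulSingle (fun _ : ι => T) j).range with hFj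
  have hFjmem : ∀ g : ι → T, g ∈ Fj ↔ ∃ t, g = Pi.mulSingle j t := by
    intro g
    simp only [hFj, MonoidHom.mem_range, MonoidHom.mulSingle_apply]
    constructor
    · rintro ⟨t, rfl⟩; exact ⟨t, rfl⟩
    · rintro ⟨t, rfl⟩; exact ⟨t, rfl⟩
  have hFjn : Fj.Normal := by
    constructor
    intro n hn g
    rw [hFjmem] at hn ⊢
    obtain ⟨t, rfl⟩ := hn
    refine ⟨g j * t * (g j)⁻¹, ?_⟩
    ext l
    by_cases hl : l = j
    · subst hl; simp
    · simp [Pi.mulSingle_eq_of_ne hl]
  set Y : Subgroup (ι → T) := Fj.comap τ.toMonoidHom with hY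
  have hYn : Y.Normal := hFjn.comap _
  have hYmem : (Pi.mulSingle i t₁ : ι → T) ∈ Y := by
    change τ (Pi.mulSingle i t₁) ∈ Fj
    rw [ht₁]
    exact (hFjmem _).2 ⟨u₀, rfl⟩
  have hall : ∀ t : T, (Pi.mulSingle i t : ι → T) ∈ Y := fun t =>
    single_mem_of_ne_one hna hYn hYmem (by simpa using ht₁ne) t
  intro t
  have := hall t
  change τ (Pi.mulSingle i t) ∈ Fj at this
  obtain ⟨u, hu⟩ := (hFjmem _).1 this
  exact ⟨u, hu⟩

/-- Every automorphism of `T^ι` is monomial. -/
theorem exists_isMono [Finite ι] [IsSimpleGroup T] (hna : ∃ a b : T, a * b ≠ b * a)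
    (τ : MulAut (ι → T)) : ∃ (σ : Equiv.Perm ι) (θ : ι → (T ≃* T)), IsMono τ σ θ := by
  classical
  obtain ⟨t₀, ht₀⟩ := exists_ne_one_of_nonabelian hna
  have hex := exists_factor_image hna τ
  choose s hs1 hs2 using hex
  have hinj : Function.Injective s := by
    intro i i' hii'
    by_contra hne
    obtain ⟨u, hu⟩ := hs1 i t₀
    obtain ⟨t, ht⟩ := hs2 i' u
    have h : (Pi.mulSingle i' t : ι → T) = Pi.mulSingle i t₀ := by
      apply τ.injective
      rw [ht, hu, hii']
    have h2 := congrFun h i
    rw [Pi.mulSingle_eq_same, Pi.mulSingle_eq_of_ne hne] at h2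
    exact ht₀ h2.symm
  have hbij : Function.Bijective s := Finite.injective_iff_bijective.1 hinj
  set σ : Equiv.Perm ι := Equiv.ofBijective s hbij with hσ
  have hσa : ∀ i, σ i = s i := fun i => rfl
  -- the maps
  have hfac : ∀ (i : ι) (t : T), τ (Pi.mulSingle i t) =
      Pi.mulSingle (s i) (τ (Pi.mulSingle i t) (s i)) := by
    intro i t
    obtain ⟨u, hu⟩ := hs1 i t
    rw [hu]
    simp
  let θh : ι → (T →* T) := fun i =>
    { toFun := fun t => τ (Pi.mulSingle i t) (s i)
      map_one' := by simp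
      map_mul' := fun a b => by simp [Pi.mulSingle_mul] }
  have hθinj : ∀ i, Function.Injective (θh i) := by
    intro i
    rw [injective_iff_map_eq_one]
    intro t ht
    have h1 : τ (Pi.mulSingle i t) = 1 := by
      rw [hfac i t]
      have : τ (Pi.mulSingle i t) (s i) = 1 := ht
      rw [this, Pi.mulSingle_one]
    have h2 : (Pi.mulSingle i t : ι → T) = 1 := by
      apply τ.injective
      rw [h1, map_one]
    simpa using congrFun h2 i
  have hθsurj : ∀ i, Function.Surjective (θh i) := by
    intro i u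
    obtain ⟨t, ht⟩ := hs2 i u
    refine ⟨t, ?_⟩
    change τ (Pi.mulSingle i t) (s i) = u
    rw [ht]
    simp
  refine ⟨σ, fun i => MulEquiv.ofBijective (θh i) ⟨hθinj i, hθsurj i⟩, ?_⟩
  intro f i
  change τ f (s i) = τ (Pi.mulSingle i (f i)) (s i)
  -- split `f`
  set f' : ι → T := Function.update f i 1 with hf'
  have hsplit : f = Pi.mulSingle i (f i) * f' := by
    ext l
    by_cases hl : l = i
    · subst hl; simp [hf']
    · simp [hf', Pi.mulSingle_eq_of_ne hl, Function.update_of_ne hl]
  have hcomm : ∀ u : T, τ f' (s i) * u = u * τ f' (s i) := by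
    intro u
    obtain ⟨t, ht⟩ := hs2 i u
    have hc : f' * Pi.mulSingle i t = Pi.mulSingle i t * f' := by
      ext l
      by_cases hl : l = i
      · subst hl; simp [hf']
      · simp [hf', Pi.mulSingle_eq_of_ne hl, Function.update_of_ne hl]
    have h2 := congrArg τ hc
    rw [map_mul, map_mul, ht] at h2
    have h3 := congrFun h2 (s i)
    simpa using h3
  have hone : τ f' (s i) = 1 := center_trivial_of_simple hna _ hcomm
  conv_lhs => rw [hsplit]
  rw [map_mul, Pi.mul_apply, hone, mul_one]

omit [DecidableEq ι] in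
/-- A surjective homomorphism from a power of `T` to `T` factors through one coordinate by an
automorphism. -/
theorem hom_power_eq_coord [Finite ι] [IsSimpleGroup T] (hna : ∃ a b : T, a * b ≠ b * a)
    (Ψ : (ι → T) →* T) (hΨ : Function.Surjective Ψ) :
    ∃ (s : ι) (φ : T ≃* T), ∀ y : ι → T, Ψ y = φ (y s) := by
  classical
  haveI := Fintype.ofFinite ι
  obtain ⟨t₀, ht₀⟩ := exists_ne_one_of_nonabelian hna
  -- some coordinate is not killed
  have hex : ∃ s : ι, ∃ t : T, Ψ (Pi.mulSingle s t) ≠ 1 := by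
    by_contra hcon
    push Not at hcon
    have hall : ∀ (Q : Finset ι) (y : ι → T), Ψ (Q.piecewise y 1) = 1 := by
      intro Q y
      induction Q using Finset.induction_on with
      | empty => simp
      | insert q Q hq ih =>
        have e : (insert q Q).piecewise y 1 = Pi.mulSingle q (y q) * Q.piecewise y 1 := by
          ext l
          by_cases hl : l = q
          · subst hl; simp [Finset.piecewise, hq]
          · by_cases hlQ : l ∈ Q <;> simp [Finset.piecewise, hl, hlQ, Pi.mulSingle_eq_of_ne hl]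
        rw [e, map_mul, ih, hcon, one_mul]
    obtain ⟨y, hy⟩ := hΨ t₀
    have := hall Finset.univ y
    rw [Finset.piecewise_univ, hy] at this
    exact ht₀ this
  obtain ⟨s, t₁, ht₁⟩ := hex
  let θ : T →* T :=
    { toFun := fun t => Ψ (Pi.mulSingle s t)
      map_one' := by simp
      map_mul' := fun a b => by simp [Pi.mulSingle_mul] }
  have hrange : θ.range = ⊤ := by
    refine normal_eq_top_of_ne_one _ ?_ (x := Ψ (Pi.mulSingle s t₁)) ⟨t₁, rfl⟩ ht₁
    constructor
    rintro _ ⟨t, rfl⟩ g
    obtain ⟨y, rfl⟩ := hΨ g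
    refine ⟨y s * t * (y s)⁻¹, ?_⟩
    change Ψ (Pi.mulSingle s (y s * t * (y s)⁻¹)) = Ψ y * Ψ (Pi.mulSingle s t) * (Ψ y)⁻¹
    rw [← map_inv, ← map_mul, ← map_mul]
    congr 1
    ext l
    by_cases hl : l = s
    · subst hl; simp
    · simp [Pi.mulSingle_eq_of_ne hl]
  have hθsurj : Function.Surjective θ := MonoidHom.range_eq_top.1 hrange
  have hθinj : Function.Injective θ := by
    rw [injective_iff_map_eq_one]
    have hk : θ.ker = ⊥ ∨ θ.ker = ⊤ := (inferInstance : θ.ker.Normal).eq_bot_or_eq_top
    rcases hk with h | h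
    · intro t ht
      have : t ∈ θ.ker := ht
      rw [h, Subgroup.mem_bot] at this
      exact this
    · exfalso
      have : t₁ ∈ θ.ker := by rw [h]; trivial
      exact ht₁ this
  refine ⟨s, MulEquiv.ofBijective θ ⟨hθinj, hθsurj⟩, ?_⟩
  intro y
  change Ψ y = Ψ (Pi.mulSingle s (y s))
  set y' : ι → T := Function.update y s 1 with hy'
  have hsplit : y = Pi.mulSingle s (y s) * y' := by
    ext l
    by_cases hl : l = s
    · subst hl; simp [hy']
    · simp [hy', Pi.mulSingle_eq_of_ne hl, Function.update_of_ne hl]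
  have hcomm : ∀ u : T, Ψ y' * u = u * Ψ y' := by
    intro u
    obtain ⟨t, ht⟩ := hθsurj u
    rw [← ht]
    change Ψ y' * Ψ (Pi.mulSingle s t) = Ψ (Pi.mulSingle s t) * Ψ y'
    rw [← map_mul, ← map_mul]
    congr 1
    ext l
    by_cases hl : l = s
    · subst hl; simp [hy']
    · simp [hy', Pi.mulSingle_eq_of_ne hl, Function.update_of_ne hl]
  have hone : Ψ y' = 1 := center_trivial_of_simple hna _ hcomm
  conv_lhs => rw [hsplit]
  rw [map_mul, hone, mul_one]

/-- Scott's lemma: a subgroup of `T^ι` projecting onto each coordinate projects onto `T^S` for each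
set `S` of coordinates that are pairwise unrelated by an automorphism. -/
theorem scott_surj [IsSimpleGroup T] (hna : ∃ a b : T, a * b ≠ b * a)
    (A : Subgroup (ι → T)) (hsurj : ∀ (i : ι) (t : T), ∃ f ∈ A, f i = t) (S : Finset ι)
    (hS : ∀ s ∈ S, ∀ r ∈ S, s ≠ r → ¬ ∃ φ : T ≃* T, ∀ f ∈ A, f r = φ (f s)) :
    ∀ x : ι → T, ∃ f ∈ A, ∀ i ∈ S, f i = x i := by
  induction S using Finset.induction_on with
  | empty =>
    intro x
    exact ⟨1, A.one_mem, by simp⟩
  | insert r S' hr ih =>
    have ih' := ih (fun s hs r' hr' hne => hS s (Finset.mem_insert_of_mem hs) r'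
      (Finset.mem_insert_of_mem hr') hne)
    intro x
    -- the elements trivial on `S'`
    let C : Subgroup (ι → T) :=
      { carrier := {f | f ∈ A ∧ ∀ s ∈ S', f s = 1}
        mul_mem' := by
          rintro a b ⟨ha, ha'⟩ ⟨hb, hb'⟩
          exact ⟨A.mul_mem ha hb, fun s hs => by simp [ha' s hs, hb' s hs]⟩
        one_mem' := ⟨A.one_mem, fun s _ => rfl⟩
        inv_mem' := by
          rintro a ⟨ha, ha'⟩
          exact ⟨A.inv_mem ha, fun s hs => by simp [ha' s hs]⟩ }
    let E : Subgroup T := C.map (Pi.evalMonoidHom (fun _ : ι => T) r)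
    have hEn : E.Normal := by
      constructor
      rintro _ ⟨f, ⟨hfA, hf⟩, rfl⟩ t
      obtain ⟨g, hgA, hg⟩ := hsurj r t
      refine ⟨g * f * g⁻¹, ⟨A.mul_mem (A.mul_mem hgA hfA) (A.inv_mem hgA), fun s hs => ?_⟩, ?_⟩
      · simp [hf s hs]
      · simp [hg]
    rcases hEn.eq_bot_or_eq_top with hE | hE
    · -- `f r` is determined by the restriction to `S'`: a contradiction
      exfalso
      -- restriction
      let res : A →* (↥S' → T) :=
        { toFun := fun f s => (f : ι → T) s
          map_one' := rfl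
          map_mul' := fun a b => rfl }
      have hres : Function.Surjective res := by
        intro y
        let y' : ι → T := fun i => if h : i ∈ S' then y ⟨i, h⟩ else 1
        obtain ⟨f, hf, hfy⟩ := ih' y'
        refine ⟨⟨f, hf⟩, ?_⟩
        ext ⟨s, hs⟩
        change f s = y ⟨s, hs⟩
        rw [hfy s hs]
        simp [y', hs]
      let pr : A →* T :=
        { toFun := fun f => (f : ι → T) r
          map_one' := rfl
          map_mul' := fun a b => rfl }
      have hker : ∀ f : A, res f = 1 → pr f = 1 := by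
        intro f hf
        have hmem : (f : ι → T) r ∈ E := by
          refine ⟨f, ⟨f.2, fun s hs => ?_⟩, rfl⟩
          have := congrFun hf ⟨s, hs⟩
          exact this
        rw [hE, Subgroup.mem_bot] at hmem
        exact hmem
      let Ψ : (↥S' → T) →* T :=
        { toFun := fun y => pr (Function.surjInv hres y)
          map_one' := by
            apply hker
            exact Function.surjInv_eq hres 1
          map_mul' := fun a b => by
            rw [← map_mul]
            have : pr (Function.surjInv hres (a * b) *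
                (Function.surjInv hres a * Function.surjInv hres b)⁻¹) = 1 := by
              apply hker
              rw [map_mul, map_inv, map_mul, Function.surjInv_eq hres, Function.surjInv_eq hres,
                Function.surjInv_eq hres, mul_inv_cancel]
            rw [map_mul, map_inv] at this
            exact mul_inv_eq_one.1 this }
      have hΨres : ∀ f : A, Ψ (res f) = pr f := by
        intro f
        change pr (Function.surjInv hres (res f)) = pr f
        have : pr (Function.surjInv hres (res f) * f⁻¹) = 1 := by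
          apply hker
          rw [map_mul, map_inv, Function.surjInv_eq hres, mul_inv_cancel]
        rw [map_mul, map_inv] at this
        exact mul_inv_eq_one.1 this
      have hΨsurj : Function.Surjective Ψ := by
        intro t
        obtain ⟨f, hf, hft⟩ := hsurj r t
        exact ⟨res ⟨f, hf⟩, by rw [hΨres]; exact hft⟩
      obtain ⟨⟨s, hs⟩, φ, hφ⟩ := hom_power_eq_coord hna Ψ hΨsurj
      refine hS s (Finset.mem_insert_of_mem hs) r (Finset.mem_insert_self _ _) ?_ ⟨φ, ?_⟩
      · rintro rfl
        exact hr hs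
      · intro f hf
        have h1 := hΨres ⟨f, hf⟩
        rw [hφ] at h1
        exact h1.symm
    · -- lift
      obtain ⟨f, hf, hfx⟩ := ih' x
      have hm : (f r)⁻¹ * x r ∈ E := by rw [hE]; trivial
      obtain ⟨h, ⟨hhA, hh⟩, hhr⟩ := hm
      refine ⟨f * h, A.mul_mem hf hhA, ?_⟩
      intro i hi
      rcases Finset.mem_insert.1 hi with rfl | hi
      · have hhr' : h i = (f i)⁻¹ * x i := hhr
        simp [hhr']
      · simp [hh i hi, hfx i hi]

end Cfsg.Agent.Perm.ONS
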