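import Mathlib
import Cfsg.Agent.Lib.Perm.ONanScottA

/-!
The subgroup of `T^ι` stabilised by a transitive family of monomial automorphisms and maximal
among such: product of proper subgroups or product of diagonals.
-/

set_option autoImplicit false

namespace Cfsg.Agent.Perm.ONS

variable {ι T : Type*} [Group T] [DecidableEq ι]

theorem mid_main [Fintype ι] [IsSimpleGroup T] (hna : ∃ a b : T, a * b ≠ b * a)
    (A : Subgroup (ι → T)) (Γ : Subgroup (MulAut (ι → T)))
    (hΓA : ∀ τ ∈ Γ, ∀ f ∈ A, τ f ∈ A)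
    (hΓt : ∀ i j : ι, ∃ τ ∈ Γ, ∃ (σ : Equiv.Perm ι) (θ : ι → (T ≃* T)), IsMono τ σ θ ∧ σ i = j)
    (hmax : ∀ D : Subgroup (ι → T), A ≤ D → (∀ τ ∈ Γ, ∀ f ∈ D, τ f ∈ D) → D = A ∨ D = ⊤)
    (hA : A ≠ ⊤) :
    (∃ K : ι → Subgroup T, (∀ i, K i ≠ ⊤) ∧ ∀ f : ι → T, f ∈ A ↔ ∀ i, f i ∈ K i) ∨
    (∃ (k : ℕ) (c : ι → ι) (φ : ι → (T ≃* T)), 2 ≤ k ∧
      (∀ j : ι, Nat.card {i : ι // c i = j} = k ∨ Nat.card {i : ι // c i = j} = 0) ∧
      ∀ f : ι → T, f ∈ A ↔ ∀ i j : ι, c i = c j → (φ i).symm (f i) = (φ j).symm (f j)) := by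
  classical
  obtain ⟨t₀, ht₀⟩ := exists_ne_one_of_nonabelian hna
  have hne : Nonempty ι := by
    by_contra hemp
    rw [not_nonempty_iff] at hemp
    apply hA
    rw [eq_top_iff]
    intro f _
    have : f = 1 := by
      funext i
      exact hemp.elim i
    rw [this]
    exact A.one_mem
  obtain ⟨i₀⟩ := hne
  -- the projections
  let L : ι → Subgroup T := fun i => A.map (Pi.evalMonoidHom (fun _ : ι => T) i)
  have hLmem : ∀ i t, t ∈ L i ↔ ∃ f ∈ A, f i = t := by
    intro i t
    constructor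
    · rintro ⟨f, hf, rfl⟩; exact ⟨f, hf, rfl⟩
    · rintro ⟨f, hf, rfl⟩; exact ⟨f, hf, rfl⟩
  have hθL : ∀ τ ∈ Γ, ∀ (σ : Equiv.Perm ι) (θ : ι → (T ≃* T)), IsMono τ σ θ → ∀ i t, t ∈ L i →
      θ i t ∈ L (σ i) := by
    intro τ hτ σ θ hm i t ht
    obtain ⟨f, hf, rfl⟩ := (hLmem _ _).1 ht
    exact (hLmem _ _).2 ⟨τ f, hΓA τ hτ f hf, hm f i⟩
  have hLtop : (∃ i, L i = ⊤) → ∀ j, L j = ⊤ := by
    rintro ⟨i, hi⟩ j
    obtain ⟨τ, hτ, σ, θ, hm, hσ⟩ := hΓt i j
    rw [eq_top_iff]
    intro t _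
    have h1 : (θ i).symm t ∈ L i := by rw [hi]; trivial
    have h2 := hθL τ hτ σ θ hm i _ h1
    rw [hσ] at h2
    simpa using h2
  by_cases hcase : ∃ i, L i = ⊤
  · -- the diagonal case
    right
    have hLall := hLtop hcase
    have hsurj : ∀ (i : ι) (t : T), ∃ f ∈ A, f i = t := by
      intro i t
      have : t ∈ L i := by rw [hLall]; trivial
      exact (hLmem _ _).1 this
    -- the relation
    let Rel : ι → ι → Prop := fun i j => ∃ φ : T ≃* T, ∀ f ∈ A, f j = φ (f i)
    have hrefl : ∀ i, Rel i i := fun i => ⟨MulEquiv.refl T, fun f _ => rfl⟩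
    have hsymm : ∀ {i j}, Rel i j → Rel j i := by
      rintro i j ⟨φ, hφ⟩
      exact ⟨φ.symm, fun f hf => by rw [hφ f hf]; simp⟩
    have htrans : ∀ {i j l}, Rel i j → Rel j l → Rel i l := by
      rintro i j l ⟨φ, hφ⟩ ⟨ψ, hψ⟩
      exact ⟨φ.trans ψ, fun f hf => by rw [hψ f hf, hφ f hf]; rfl⟩
    let st : Setoid ι := ⟨Rel, ⟨hrefl, hsymm, htrans⟩⟩
    let c : ι → ι := fun i => (Quotient.mk st i).out
    have hc : ∀ i, Rel (c i) i := fun i => Quotient.mk_out (s := st) i
    have hceq : ∀ i j, c i = c j ↔ Rel i j := by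
      intro i j
      constructor
      · intro h
        have h1 := hc i
        rw [h] at h1
        exact htrans (hsymm h1) (hc j)
      · intro h
        have : Quotient.mk st i = Quotient.mk st j := Quotient.sound h
        change (Quotient.mk st i).out = (Quotient.mk st j).out
        rw [this]
    have hcc : ∀ i, c (c i) = c i := by
      intro i
      rw [hceq]
      exact hc i
    choose φ hφ using hc
    -- Scott's lemma on the representatives
    have hscott := scott_surj hna A hsurj (Finset.univ.image c) (by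
      intro s hs r hr hsr hrel
      obtain ⟨i, -, rfl⟩ := Finset.mem_image.1 hs
      obtain ⟨j, -, rfl⟩ := Finset.mem_image.1 hr
      apply hsr
      have : c (c i) = c (c j) := (hceq _ _).2 hrel
      rwa [hcc, hcc] at this)
    have hchar : ∀ f : ι → T, f ∈ A ↔
        ∀ i j : ι, c i = c j → (φ i).symm (f i) = (φ j).symm (f j) := by
      intro f
      constructor
      · intro hf i j hij
        rw [hφ i f hf, hφ j f hf, hij]
        simp
      · intro hf
        let f' : ι → T := fun i => (φ i).symm (f i)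
        obtain ⟨g, hg, hgf⟩ := hscott f'
        have : f = g := by
          funext i
          rw [hφ i g hg, hgf _ (Finset.mem_image_of_mem c (Finset.mem_univ i))]
          have h2 : f' (c i) = f' i := hf _ _ (hcc i)
          rw [h2]
          simp [f']
        rw [this]
        exact hg
    -- sizes of blocks
    have hσ : ∀ τ ∈ Γ, ∀ (σ : Equiv.Perm ι) (θ : ι → (T ≃* T)), IsMono τ σ θ → ∀ i j, Rel i j →
        Rel (σ i) (σ j) := by
      rintro τ hτ σ θ hm i j ⟨ψ, hψ⟩
      refine ⟨(θ i).symm.trans (ψ.trans (θ j)), ?_⟩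
      intro g hg
      have hf : τ⁻¹ g ∈ A := hΓA _ (Γ.inv_mem hτ) g hg
      have h1 := hm (τ⁻¹ g)
      have h2 : τ (τ⁻¹ g) = g := by
        change (τ * τ⁻¹) g = g
        rw [mul_inv_cancel]
        rfl
      rw [h2] at h1
      rw [h1 i, h1 j, hψ _ hf]
      simp
    have hle : ∀ i j, Nat.card {l : ι // c l = c i} ≤ Nat.card {l : ι // c l = c j} := by
      intro i j
      obtain ⟨τ, hτ, σ, θ, hm, hσj⟩ := hΓt i j
      refine Nat.card_le_card_of_injective
        (fun x : {l : ι // c l = c i} => (⟨σ x.1, ?_⟩ : {l : ι // c l = c j})) ?_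
      · rw [← hσj, hceq]
        exact hσ τ hτ σ θ hm _ _ ((hceq _ _).1 x.2)
      · rintro ⟨x, hx⟩ ⟨y, hy⟩ hxy
        have : σ x = σ y := congrArg Subtype.val hxy
        exact Subtype.ext (σ.injective this)
    refine ⟨Nat.card {l : ι // c l = c i₀}, c, φ, ?_, ?_, hchar⟩
    · -- `k ≥ 2`
      by_contra hk
      have hpos : 0 < Nat.card {l : ι // c l = c i₀} := by
        rw [Nat.card_pos_iff]
        exact ⟨⟨⟨i₀, rfl⟩⟩, inferInstance⟩
      have h1 : Nat.card {l : ι // c l = c i₀} = 1 := by omega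
      have hall1 : ∀ i, Nat.card {l : ι // c l = c i} = 1 := fun i =>
        le_antisymm (h1 ▸ hle i i₀) (h1 ▸ hle i₀ i)
      have hcid : ∀ i, c i = i := by
        intro i
        have hss : Subsingleton {l : ι // c l = c i} := by
          rw [← Finite.card_le_one_iff_subsingleton, hall1]
        have := hss.elim ⟨i, rfl⟩ ⟨c i, hcc i⟩
        exact (congrArg Subtype.val this).symm
      apply hA
      rw [eq_top_iff]
      intro f _
      rw [hchar]
      intro i j hij
      rw [hcid, hcid] at hij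
      subst hij
      rfl
    · intro j
      by_cases hj : ∃ i, c i = j
      · left
        obtain ⟨i, rfl⟩ := hj
        exact le_antisymm (hle i i₀) (hle i₀ i)
      · right
        have : IsEmpty {i : ι // c i = j} := ⟨fun x => hj ⟨x.1, x.2⟩⟩
        exact Nat.card_of_isEmpty
  · -- the product case
    left
    push Not at hcase
    refine ⟨L, hcase, ?_⟩
    let D : Subgroup (ι → T) := Subgroup.pi Set.univ L
    have hDmem : ∀ f : ι → T, f ∈ D ↔ ∀ i, f i ∈ L i := by
      intro f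
      simp [D, Subgroup.mem_pi]
    have hAD : A ≤ D := by
      intro f hf
      rw [hDmem]
      intro i
      exact (hLmem _ _).2 ⟨f, hf, rfl⟩
    have hinv : ∀ τ ∈ Γ, ∀ f ∈ D, τ f ∈ D := by
      intro τ hτ f hf
      rw [hDmem] at hf ⊢
      intro j
      obtain ⟨σ, θ, hm⟩ := exists_isMono hna τ
      obtain ⟨i, rfl⟩ := σ.surjective j
      rw [hm]
      exact hθL τ hτ σ θ hm i _ (hf i)
    rcases hmax D hAD hinv with h | h
    · intro f
      rw [← hDmem, h]
    · exfalso
      apply hcase i₀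
      rw [eq_top_iff]
      intro t _
      have hm : (Pi.mulSingle i₀ t : ι → T) ∈ D := by rw [h]; trivial
      have := (hDmem _).1 hm i₀
      simpa using this

end Cfsg.Agent.Perm.ONS
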