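import Mathlib
import Cfsg.Agent.Lib.Perm.ONanScottB
import Cfsg.Agent.Lib.Perm.MinNormalPower

/-!
The abstract group form of the O'Nan–Scott analysis.
-/

set_option autoImplicit false

namespace Cfsg.Agent.Perm.ONS

variable {H ι T : Type*} [Group H] [Group T] [DecidableEq ι]

/-- The induced action on the power. -/
noncomputable def conjHom (N : Subgroup H) [N.Normal] (e₀ : N ≃* (ι → T)) : H →* MulAut (ι → T) :=
  (MulAut.congr e₀).toMonoidHom.comp (MulAut.conjNormal (G := H) (H := N))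

lemma conjHom_apply (N : Subgroup H) [N.Normal] (e₀ : N ≃* (ι → T)) (h : H) (f : ι → T) :
    ((e₀.symm (conjHom N e₀ h f) : N) : H) = h * (e₀.symm f : N) * h⁻¹ := by
  have : conjHom N e₀ h f = e₀ (MulAut.conjNormal h (e₀.symm f)) := rfl
  rw [this, MulEquiv.symm_apply_apply, MulAut.conjNormal_apply]

lemma conjHom_of_mem (N : Subgroup H) [N.Normal] (e₀ : N ≃* (ι → T)) (n : N) (f : ι → T) (i : ι) :
    conjHom N e₀ (n : H) f i = e₀ n i * f i * (e₀ n i)⁻¹ := by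
  have h1 : conjHom N e₀ (n : H) f = e₀ n * f * (e₀ n)⁻¹ := by
    apply e₀.symm.injective
    apply Subtype.ext
    rw [conjHom_apply]
    simp
  rw [h1]
  simp

theorem abs_main [Finite ι] [Fintype ι] [IsSimpleGroup T] (hna : ∃ a b : T, a * b ≠ b * a)
    (N K : Subgroup H) [N.Normal]
    (hK : ∀ K' : Subgroup H, K ≤ K' → K' = K ∨ K' = ⊤)
    (hKN : ∀ h : H, ∃ n ∈ N, ∃ k ∈ K, h = n * k)
    (hNK : ¬ N ≤ K)
    (hmin : ∀ M : Subgroup H, M.Normal → M ≤ N → M = ⊥ ∨ M = N)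
    (e₀ : N ≃* (ι → T)) :
    (∃ L : ι → Subgroup T, (∀ i, L i ≠ ⊤) ∧ ∀ n : N, (n : H) ∈ K ↔ ∀ i, e₀ n i ∈ L i) ∨
    (∃ (k : ℕ) (c : ι → ι) (φ : ι → (T ≃* T)), 2 ≤ k ∧
      (∀ j : ι, Nat.card {i : ι // c i = j} = k ∨ Nat.card {i : ι // c i = j} = 0) ∧
      ∀ n : N, (n : H) ∈ K ↔ ∀ i j : ι, c i = c j → (φ i).symm (e₀ n i) = (φ j).symm (e₀ n j)) := by
  classical
  obtain ⟨t₀, ht₀⟩ := exists_ne_one_of_nonabelian hna
  let A : Subgroup (ι → T) := (K.subgroupOf N).comap e₀.symm.toMonoidHom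
  have hAmem : ∀ f, f ∈ A ↔ ((e₀.symm f : N) : H) ∈ K := fun f => Iff.rfl
  have hAmem' : ∀ n : N, e₀ n ∈ A ↔ (n : H) ∈ K := by
    intro n
    rw [hAmem, MulEquiv.symm_apply_apply]
  let Γ : Subgroup (MulAut (ι → T)) := K.map (conjHom N e₀)
  have hΓA : ∀ τ ∈ Γ, ∀ f ∈ A, τ f ∈ A := by
    rintro _ ⟨k, hk, rfl⟩ f hf
    rw [hAmem] at hf ⊢
    rw [conjHom_apply]
    exact K.mul_mem (K.mul_mem hk hf) (K.inv_mem hk)
  -- transitivity on coordinates
  have hΓt : ∀ i j : ι, ∃ τ ∈ Γ, ∃ (σ : Equiv.Perm ι) (θ : ι → (T ≃* T)), IsMono τ σ θ ∧ σ i = j := by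
    intro i
    let S : Set ι := {j | ∃ τ ∈ Γ, ∃ (σ : Equiv.Perm ι) (θ : ι → (T ≃* T)), IsMono τ σ θ ∧ σ i = j}
    have hiS : i ∈ S := ⟨1, Γ.one_mem, 1, fun _ => MulEquiv.refl T, fun f l => rfl, rfl⟩
    have hSinv : ∀ τ ∈ Γ, ∀ (σ : Equiv.Perm ι) (θ : ι → (T ≃* T)), IsMono τ σ θ → ∀ j, j ∈ S →
        σ j ∈ S := by
      rintro τ hτ σ θ hm j ⟨τ', hτ', σ', θ', hm', rfl⟩
      refine ⟨τ * τ', Γ.mul_mem hτ hτ', σ * σ', fun l => (θ' l).trans (θ (σ' l)), ?_, rfl⟩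
      intro f l
      change τ (τ' f) (σ (σ' l)) = θ (σ' l) (θ' l (f l))
      rw [hm, hm']
    let M' : Subgroup (ι → T) :=
      { carrier := {f | ∀ j, j ∉ S → f j = 1}
        mul_mem' := fun {a b} ha hb j hj => by simp [ha j hj, hb j hj]
        one_mem' := fun j _ => rfl
        inv_mem' := fun {a} ha j hj => by simp [ha j hj] }
    let M : Subgroup H := (M'.comap e₀.toMonoidHom).map N.subtype
    have hMle : M ≤ N := by
      rintro _ ⟨n, _, rfl⟩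
      exact n.2
    have hMmem : ∀ n : N, (n : H) ∈ M ↔ e₀ n ∈ M' := by
      intro n
      constructor
      · rintro ⟨n', hn', hnn'⟩
        have : n' = n := Subtype.ext hnn'
        rw [← this]
        exact hn'
      · intro hn
        exact ⟨n, hn, rfl⟩
    have hMn : M.Normal := by
      constructor
      rintro x hx h
      have hxN : x ∈ N := hMle hx
      obtain ⟨n, hn, k, hk, rfl⟩ := hKN h
      have hx' : e₀ ⟨x, hxN⟩ ∈ M' := (hMmem ⟨x, hxN⟩).1 hx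
      -- conjugate by `k`
      have h1 : conjHom N e₀ k (e₀ ⟨x, hxN⟩) ∈ M' := by
        intro j hj
        obtain ⟨σ, θ, hm⟩ := exists_isMono hna (conjHom N e₀ k)
        obtain ⟨j', rfl⟩ := σ.surjective j
        rw [hm]
        have hj' : j' ∉ S := fun hh => hj (hSinv _ ⟨k, hk, rfl⟩ σ θ hm _ hh)
        rw [hx' j' hj', map_one]
      have h2 : conjHom N e₀ n (conjHom N e₀ k (e₀ ⟨x, hxN⟩)) ∈ M' := by
        intro j hj
        have := conjHom_of_mem N e₀ ⟨n, hn⟩ (conjHom N e₀ k (e₀ ⟨x, hxN⟩)) j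
        change conjHom N e₀ n (conjHom N e₀ k (e₀ ⟨x, hxN⟩)) j = _ at this
        rw [this, h1 j hj]
        simp
      have h3 : conjHom N e₀ n (conjHom N e₀ k (e₀ ⟨x, hxN⟩)) =
          e₀ (e₀.symm (conjHom N e₀ n (conjHom N e₀ k (e₀ ⟨x, hxN⟩)))) := by simp
      have h4 : ((e₀.symm (conjHom N e₀ n (conjHom N e₀ k (e₀ ⟨x, hxN⟩))) : N) : H) =
          n * k * x * (n * k)⁻¹ := by
        rw [conjHom_apply, conjHom_apply, MulEquiv.symm_apply_apply]
        group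
      rw [← h4, hMmem, ← h3]
      exact h2
    have hMne : M ≠ ⊥ := by
      intro h
      have h1 : e₀ (e₀.symm (Pi.mulSingle i t₀)) ∈ M' := by
        rw [MulEquiv.apply_symm_apply]
        intro j hj
        have hji : j ≠ i := fun h => hj (h ▸ hiS)
        exact Pi.mulSingle_eq_of_ne hji _
      have h2 := (hMmem _).2 h1
      rw [h, Subgroup.mem_bot] at h2
      have h3 : e₀.symm (Pi.mulSingle i t₀) = 1 := Subtype.ext h2
      have h4 : (Pi.mulSingle i t₀ : ι → T) = 1 := by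
        have := congrArg e₀ h3
        simpa using this
      have h5 := congrFun h4 i
      simp at h5
      exact ht₀ h5
    have hMN : M = N := (hmin M hMn hMle).resolve_left hMne
    intro j
    by_contra hjS
    have hjS' : j ∉ S := hjS
    have hm : ((e₀.symm (Pi.mulSingle j t₀) : N) : H) ∈ M := by
      rw [hMN]
      exact (e₀.symm _).2
    have h1 := (hMmem _).1 hm
    rw [MulEquiv.apply_symm_apply] at h1
    have h2 := h1 j hjS'
    simp at h2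
    exact ht₀ h2
  -- maximality
  have hmax : ∀ D : Subgroup (ι → T), A ≤ D → (∀ τ ∈ Γ, ∀ f ∈ D, τ f ∈ D) → D = A ∨ D = ⊤ := by
    intro D hAD hinv
    -- the group K D̃
    let Dh : Set H := {x | ∃ hx : x ∈ N, e₀ ⟨x, hx⟩ ∈ D}
    have hDh : ∀ n : N, (n : H) ∈ Dh ↔ e₀ n ∈ D := by
      intro n
      constructor
      · rintro ⟨_, h⟩; exact h
      · intro h; exact ⟨n.2, h⟩
    have hDone : (1 : H) ∈ Dh := ⟨N.one_mem, by
      have : e₀ (⟨1, N.one_mem⟩ : N) = 1 := map_one e₀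
      rw [this]; exact D.one_mem⟩
    have hDmul : ∀ {x y : H}, x ∈ Dh → y ∈ Dh → x * y ∈ Dh := by
      rintro x y ⟨hx, hx'⟩ ⟨hy, hy'⟩
      refine ⟨N.mul_mem hx hy, ?_⟩
      have : e₀ (⟨x * y, N.mul_mem hx hy⟩ : N) = e₀ ⟨x, hx⟩ * e₀ ⟨y, hy⟩ := by
        rw [← map_mul]; rfl
      rw [this]
      exact D.mul_mem hx' hy'
    have hDinv : ∀ {x : H}, x ∈ Dh → x⁻¹ ∈ Dh := by
      rintro x ⟨hx, hx'⟩
      refine ⟨N.inv_mem hx, ?_⟩
      have : e₀ (⟨x⁻¹, N.inv_mem hx⟩ : N) = (e₀ ⟨x, hx⟩)⁻¹ := by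
        rw [← map_inv]; rfl
      rw [this]
      exact D.inv_mem hx'
    have hDconj : ∀ k ∈ K, ∀ x ∈ Dh, k * x * k⁻¹ ∈ Dh := by
      rintro k hk x ⟨hx, hx'⟩
      have hmemN : k * x * k⁻¹ ∈ N := (inferInstance : N.Normal).conj_mem x hx k
      refine ⟨hmemN, ?_⟩
      have h1 := hinv (conjHom N e₀ k) ⟨k, hk, rfl⟩ _ hx'
      have h2 : conjHom N e₀ k (e₀ ⟨x, hx⟩) = e₀ ⟨k * x * k⁻¹, hmemN⟩ := by
        apply e₀.symm.injective
        apply Subtype.ext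
        rw [conjHom_apply]
        simp
      rwa [h2] at h1
    let K' : Subgroup H :=
      { carrier := {h | ∃ k ∈ K, ∃ d ∈ Dh, h = k * d}
        mul_mem' := by
          rintro _ _ ⟨k₁, hk₁, d₁, hd₁, rfl⟩ ⟨k₂, hk₂, d₂, hd₂, rfl⟩
          refine ⟨k₁ * k₂, K.mul_mem hk₁ hk₂, k₂⁻¹ * d₁ * k₂ * d₂, hDmul ?_ hd₂, by group⟩
          have := hDconj k₂⁻¹ (K.inv_mem hk₂) d₁ hd₁
          simpa using this
        one_mem' := ⟨1, K.one_mem, 1, hDone, by simp⟩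
        inv_mem' := by
          rintro _ ⟨k, hk, d, hd, rfl⟩
          refine ⟨k⁻¹, K.inv_mem hk, k * d⁻¹ * k⁻¹, hDconj k hk _ (hDinv hd), by group⟩ }
    have hKK' : K ≤ K' := fun k hk => ⟨k, hk, 1, hDone, by simp⟩
    have hDK' : ∀ d ∈ Dh, d ∈ K' := fun d hd => ⟨1, K.one_mem, d, hd, by simp⟩
    rcases hK K' hKK' with h | h
    · left
      apply le_antisymm _ hAD
      intro f hf
      rw [hAmem]
      have : ((e₀.symm f : N) : H) ∈ K' := hDK' _ ((hDh _).2 (by simpa using hf))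
      rwa [h] at this
    · right
      rw [eq_top_iff]
      intro f _
      have hmem : ((e₀.symm f : N) : H) ∈ K' := by rw [h]; trivial
      obtain ⟨k, hk, d, ⟨hdN, hd⟩, hkd⟩ := hmem
      have hkN : k ∈ N := by
        have : k = ((e₀.symm f : N) : H) * d⁻¹ := by rw [hkd]; group
        rw [this]
        exact N.mul_mem (e₀.symm f).2 (N.inv_mem hdN)
      have hkA : e₀ ⟨k, hkN⟩ ∈ D := hAD ((hAmem' ⟨k, hkN⟩).2 hk)
      have : f = e₀ ⟨k, hkN⟩ * e₀ ⟨d, hdN⟩ := by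
        rw [← map_mul]
        apply e₀.symm.injective
        rw [MulEquiv.symm_apply_apply]
        exact Subtype.ext hkd
      rw [this]
      exact D.mul_mem hkA hd
  have hA : A ≠ ⊤ := by
    intro h
    apply hNK
    intro n hn
    have : e₀ ⟨n, hn⟩ ∈ A := by rw [h]; trivial
    exact (hAmem' _).1 this
  rcases mid_main hna A Γ hΓA hΓt hmax hA with ⟨L, hL, hchar⟩ | ⟨k, c, φ, hk, hfib, hchar⟩
  · left
    refine ⟨L, hL, ?_⟩
    intro n
    rw [← hAmem', hchar]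
  · right
    refine ⟨k, c, φ, hk, hfib, ?_⟩
    intro n
    rw [← hAmem', hchar]

end Cfsg.Agent.Perm.ONS
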