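import Mathlib
import Cfsg.Agent.Lib.Basic.Frobenius

/-!
Linear groups acting regularly on the non-zero vectors: Schur's lemma in elementary form,
minimal invariant subspaces.
-/

set_option autoImplicit false
set_option linter.style.haveILetI false

namespace Cfsg.Agent.Lib.Perm

section Schur

variable {k U : Type*} [Field k] [AddCommGroup U] [Module k U]

/-- Schur: a non-zero endomorphism commuting with an irreducible set is injective. -/
lemma schur_injective {𝒮 : Set (Module.End k U)}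
    (hirr : ∀ W : Submodule k U, (∀ s ∈ 𝒮, ∀ v ∈ W, s v ∈ W) → W = ⊥ ∨ W = ⊤)
    {θ : Module.End k U} (hθ : ∀ s ∈ 𝒮, Commute θ s) (hne : θ ≠ 0) :
    Function.Injective θ := by
  have hker : LinearMap.ker θ = ⊥ ∨ LinearMap.ker θ = ⊤ := by
    apply hirr
    intro s hs v hv
    rw [LinearMap.mem_ker] at hv ⊢
    have := (hθ s hs).eq
    have h2 : (θ * s) v = (s * θ) v := by rw [this]
    change θ (s v) = s (θ v) at h2
    rw [h2, hv, map_zero]
  rcases hker with h | h
  · exact LinearMap.ker_eq_bot.mp h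
  · exfalso
    apply hne
    exact LinearMap.ker_eq_top.mp h

/-- The centraliser subalgebra is a domain. -/
lemma schur_isDomain [Nontrivial U] {𝒮 : Set (Module.End k U)}
    (hirr : ∀ W : Submodule k U, (∀ s ∈ 𝒮, ∀ v ∈ W, s v ∈ W) → W = ⊥ ∨ W = ⊤) :
    IsDomain (Subalgebra.centralizer k 𝒮) := by
  haveI : Nontrivial (Subalgebra.centralizer k 𝒮) := by
    refine ⟨⟨0, 1, fun h => ?_⟩⟩
    have h1 : (0 : Module.End k U) = 1 := congrArg Subtype.val h
    obtain ⟨v, hv⟩ := exists_ne (0 : U)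
    apply hv
    have := congrArg (fun f : Module.End k U => f v) h1
    simpa using this.symm
  haveI : NoZeroDivisors (Subalgebra.centralizer k 𝒮) := by
    constructor
    intro a b hab
    by_contra hcon
    push Not at hcon
    obtain ⟨ha, hb⟩ := hcon
    have hcomm : ∀ s ∈ 𝒮, Commute (a : Module.End k U) s := fun s hs =>
      ((Subalgebra.mem_centralizer_iff k).mp a.2 s hs).symm
    have hinj := schur_injective hirr hcomm (fun h => ha (Subtype.ext h))
    apply hb
    apply Subtype.ext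
    ext v
    apply hinj
    have h1 : ((a * b : Subalgebra.centralizer k 𝒮) : Module.End k U) = 0 := by
      rw [hab]
      rfl
    have h2 := congrArg (fun f : Module.End k U => f v) h1
    simpa using h2
  exact NoZeroDivisors.to_isDomain _

/-- Schur and Wedderburn: the centraliser of an irreducible set on a finite module is commutative. -/
lemma schur_comm [Nontrivial U] [Finite k] [Finite U] [Module.Finite k U] {𝒮 : Set (Module.End k U)}
    (hirr : ∀ W : Submodule k U, (∀ s ∈ 𝒮, ∀ v ∈ W, s v ∈ W) → W = ⊥ ∨ W = ⊤)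
    {θ θ' : Module.End k U} (hθ : ∀ s ∈ 𝒮, Commute θ s) (hθ' : ∀ s ∈ 𝒮, Commute θ' s) :
    Commute θ θ' := by
  haveI := schur_isDomain hirr
  haveI : Finite (Module.End k U) := Module.finite_of_finite k
  have hf := Finite.isDomain_to_isField (Subalgebra.centralizer k 𝒮)
  have hmem : ∀ t : Module.End k U, (∀ s ∈ 𝒮, Commute t s) → t ∈ Subalgebra.centralizer k 𝒮 :=
    fun t ht => (Subalgebra.mem_centralizer_iff k).mpr fun s hs => (ht s hs).symm
  have := hf.mul_comm ⟨θ, hmem θ hθ⟩ ⟨θ', hmem θ' hθ'⟩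
  exact congrArg Subtype.val this

end Schur

section Reg

variable {p : ℕ} [Fact p.Prime] {V : Type*} [AddCommGroup V] [Module (ZMod p) V]
variable {H : Subgroup (V ≃ₗ[ZMod p] V)}

/-- Invariance of a subspace under a subgroup of `H`. -/
def RegInv (A : Subgroup H) (W : Submodule (ZMod p) V) : Prop :=
  ∀ a ∈ A, ∀ v ∈ W, ((a : H) : V ≃ₗ[ZMod p] V) v ∈ W

lemma reg_free (hreg : ∀ v w : V, v ≠ 0 → w ≠ 0 → ∃! h : H, (h : V ≃ₗ[ZMod p] V) v = w)
    (h : H) (v : V) (hv : v ≠ 0) (hhv : (h : V ≃ₗ[ZMod p] V) v = v) : h = 1 := by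
  obtain ⟨u, -, hu⟩ := hreg v v hv hv
  rw [hu h hhv, hu 1 rfl]

lemma exists_min_regInv [Finite V] {A : Subgroup H} {W₀ : Submodule (ZMod p) V} (hne : W₀ ≠ ⊥)
    (hinv : RegInv A W₀) :
    ∃ W ≤ W₀, W ≠ ⊥ ∧ RegInv A W ∧ ∀ W' ≤ W, RegInv A W' → W' = ⊥ ∨ W' = W := by
  haveI : Finite (Submodule (ZMod p) V) :=
    Finite.of_injective (fun W => (W : Set V)) SetLike.coe_injective
  obtain ⟨W, ⟨hW1, hW2, hW3⟩, hmin⟩ := (Set.toFinite
    {W : Submodule (ZMod p) V | W ≤ W₀ ∧ W ≠ ⊥ ∧ RegInv A W}).exists_minimal ⟨W₀, le_rfl, hne, hinv⟩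
  refine ⟨W, hW1, hW2, hW3, fun W' hle hinv' => ?_⟩
  by_cases hb : W' = ⊥
  · exact Or.inl hb
  · right
    exact le_antisymm hle (hmin ⟨hle.trans hW1, hb, hinv'⟩ hle)

/-- An abelian group acting freely and irreducibly is cyclic of order dividing `p^k - 1`. -/
theorem cyclic_of_irreducible [Finite V]
    (hfree : ∀ (h : H) (v : V), v ≠ 0 → (h : V ≃ₗ[ZMod p] V) v = v → h = 1)
    (A : Subgroup H) (hAc : IsMulCommutative A) {W : Submodule (ZMod p) V} (hne : W ≠ ⊥)
    (hinv : RegInv A W) (hmin : ∀ W' ≤ W, RegInv A W' → W' = ⊥ ∨ W' = W) :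
    IsCyclic A ∧ Nat.card A ∣ p ^ Module.finrank (ZMod p) W - 1 := by
  classical
  haveI : Finite H := Finite.of_injective (fun h : H => fun v : V => (h : V ≃ₗ[ZMod p] V) v)
    (fun h h' e => Subtype.ext (LinearEquiv.ext fun v => congrFun e v))
  haveI : Nontrivial W := (Submodule.nontrivial_iff_ne_bot).mpr hne
  let f : A →* Module.End (ZMod p) W :=
    { toFun := fun a => LinearMap.restrict ((a : H) : V ≃ₗ[ZMod p] V).toLinearMap
        (fun v hv => hinv a a.2 v hv)
      map_one' := by ext; rfl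
      map_mul' := fun a b => by ext; rfl }
  have hfv : ∀ (a : A) (v : W), ((f a v : W) : V) = ((a : H) : V ≃ₗ[ZMod p] V) v := fun _ _ => rfl
  let 𝒮 : Set (Module.End (ZMod p) W) := Set.range f
  have hirr : ∀ X : Submodule (ZMod p) W, (∀ s ∈ 𝒮, ∀ v ∈ X, s v ∈ X) → X = ⊥ ∨ X = ⊤ := by
    intro X hX
    have h1 : X.map W.subtype ≤ W := by
      rintro _ ⟨y, _, rfl⟩
      exact y.2
    have h2 : RegInv A (X.map W.subtype) := by
      rintro a ha _ ⟨y, hy, rfl⟩
      exact ⟨f ⟨a, ha⟩ y, hX _ ⟨⟨a, ha⟩, rfl⟩ y hy, rfl⟩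
    rcases hmin _ h1 h2 with h | h
    · left
      rw [eq_bot_iff]
      intro y hy
      have h3 : (y : V) ∈ X.map W.subtype := ⟨y, hy, rfl⟩
      rw [h, Submodule.mem_bot] at h3
      exact (Submodule.mem_bot _).mpr (Subtype.ext h3)
    · right
      rw [eq_top_iff]
      intro y _
      have : (y : V) ∈ X.map W.subtype := by rw [h]; exact y.2
      obtain ⟨z, hz, hzy⟩ := this
      have : z = y := Subtype.ext hzy
      rwa [← this]
  obtain ⟨w₀, hw₀⟩ := exists_ne (0 : W)
  have hw₀' : (w₀ : V) ≠ 0 := fun h => hw₀ (Subtype.ext h)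
  have hinj : Function.Injective f := by
    intro a b hab
    have h1 : ((a : H) : V ≃ₗ[ZMod p] V) w₀ = ((b : H) : V ≃ₗ[ZMod p] V) w₀ := by
      have := congrArg (fun g : Module.End (ZMod p) W => ((g w₀ : W) : V)) hab
      exact this
    have h2 : ((b⁻¹ * a : A) : H) = 1 := by
      apply hfree _ w₀ hw₀'
      change ((b : H) : V ≃ₗ[ZMod p] V)⁻¹ (((a : H) : V ≃ₗ[ZMod p] V) w₀) = w₀
      rw [h1]
      exact ((b : H) : V ≃ₗ[ZMod p] V).symm_apply_apply _
    have h3 : b⁻¹ * a = 1 := Subtype.ext h2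
    exact (inv_mul_eq_one.mp h3).symm
  constructor
  · -- cyclic
    have hcomm : ∀ a b : A, Commute (f a) (f b) := fun a b => by
      have := hAc.is_comm.comm a b
      exact (f.map_mul a b).symm.trans ((congrArg f this).trans (f.map_mul b a))
    have hmemD : ∀ a : A, f a ∈ Subalgebra.centralizer (ZMod p) 𝒮 := by
      intro a
      rw [Subalgebra.mem_centralizer_iff]
      rintro _ ⟨b, rfl⟩
      exact (hcomm b a).eq
    haveI : Finite (ZMod p) := inferInstance
    haveI : Finite W := inferInstance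
    haveI hdom := schur_isDomain hirr
    have hmc : ∀ x y : Subalgebra.centralizer (ZMod p) 𝒮, x * y = y * x := by
      intro x y
      have hx : ∀ s ∈ 𝒮, Commute (x : Module.End (ZMod p) W) s := fun s hs =>
        ((Subalgebra.mem_centralizer_iff (ZMod p)).mp x.2 s hs).symm
      have hy : ∀ s ∈ 𝒮, Commute (y : Module.End (ZMod p) W) s := fun s hs =>
        ((Subalgebra.mem_centralizer_iff (ZMod p)).mp y.2 s hs).symm
      exact Subtype.ext (schur_comm hirr hx hy).eq
    letI cr : CommRing (Subalgebra.centralizer (ZMod p) 𝒮) :=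
      { (inferInstance : Ring (Subalgebra.centralizer (ZMod p) 𝒮)) with mul_comm := hmc }
    let f' : A →* Subalgebra.centralizer (ZMod p) 𝒮 :=
      { toFun := fun a => ⟨f a, hmemD a⟩
        map_one' := Subtype.ext f.map_one
        map_mul' := fun a b => Subtype.ext (f.map_mul a b) }
    have hf' : Function.Injective f' := fun a b h => hinj (congrArg Subtype.val h)
    exact isCyclic_of_injective_ringHom f' hf'
  · -- divisibility
    letI : MulAction A {v : W // v ≠ 0} :=
      { smul := fun a v => ⟨f a v, fun h => v.2 (by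
          have hcoe := hfv a v
          have h0 : ((a : H) : V ≃ₗ[ZMod p] V) v = 0 := by rw [← hcoe, h]; rfl
          have h1 : ((v : W) : V) = 0 := (LinearEquiv.map_eq_zero_iff _).mp h0
          exact Subtype.ext h1)⟩
        one_smul := fun v => Subtype.ext (by
          change f 1 (v : W) = v
          rw [f.map_one]; rfl)
        mul_smul := fun a b v => Subtype.ext (by
          change f (a * b) (v : W) = f a (f b v)
          rw [f.map_mul]; rfl) }
    have hst : ∀ v : {v : W // v ≠ 0}, MulAction.stabilizer A v = ⊥ := by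
      intro v
      rw [eq_bot_iff]
      intro a ha
      rw [Subgroup.mem_bot]
      have h1 : f a (v : W) = v := congrArg Subtype.val (MulAction.mem_stabilizer_iff.mp ha)
      have h2 : ((a : H) : V ≃ₗ[ZMod p] V) ((v : W) : V) = ((v : W) : V) := by
        rw [← hfv a v, h1]
      have hv0 : ((v : W) : V) ≠ 0 := fun h => v.2 (Subtype.ext h)
      exact Subtype.ext (hfree a _ hv0 h2)
    have hd := Cfsg.Agent.Lib.Basic.card_dvd_of_free hst
    letI : Fintype W := Fintype.ofFinite W
    have hc : Nat.card {v : W // v ≠ 0} = p ^ Module.finrank (ZMod p) W - 1 := by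
      rw [Nat.card_eq_fintype_card, Fintype.card_subtype_compl, Fintype.card_subtype_eq,
        @Module.card_eq_pow_finrank (ZMod p) W _ _ _ _ _, ZMod.card]
    rwa [hc] at hd

/-- The cyclic module generated by `v`. -/
def regCyc (N : Subgroup H) (v : V) : Submodule (ZMod p) V :=
  Submodule.span (ZMod p) {x | ∃ n ∈ N, x = ((n : H) : V ≃ₗ[ZMod p] V) v}

lemma mem_regCyc_self (N : Subgroup H) (v : V) : v ∈ regCyc N v :=
  Submodule.subset_span ⟨1, N.one_mem, rfl⟩

lemma regCyc_inv (N : Subgroup H) (v : V) : RegInv N (regCyc N v) := by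
  intro a ha x hx
  have h1 : regCyc N v ≤ (regCyc N v).comap (((a : H) : V ≃ₗ[ZMod p] V) : V →ₗ[ZMod p] V) := by
    refine Submodule.span_le.mpr ?_
    rintro _ ⟨n, hn, rfl⟩
    exact Submodule.subset_span ⟨a * n, N.mul_mem ha hn, rfl⟩
  exact h1 hx

lemma regCyc_le {N : Subgroup H} {v : V} {X : Submodule (ZMod p) V} (hX : RegInv N X)
    (hv : v ∈ X) : regCyc N v ≤ X := by
  refine Submodule.span_le.mpr ?_
  rintro _ ⟨n, hn, rfl⟩
  exact hX n hn v hv

lemma finrank_regCyc_le [Finite V] {N : Subgroup H} (hN : N.Normal) (v : V) (h : H) :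
    Module.finrank (ZMod p) (regCyc N v) ≤
      Module.finrank (ZMod p) (regCyc N ((h : V ≃ₗ[ZMod p] V) v)) := by
  have h1 : (regCyc N v).map (((h : V ≃ₗ[ZMod p] V)) : V →ₗ[ZMod p] V) ≤
      regCyc N ((h : V ≃ₗ[ZMod p] V) v) := by
    rw [Submodule.map_le_iff_le_comap]
    refine Submodule.span_le.mpr ?_
    rintro _ ⟨n, hn, rfl⟩
    refine Submodule.subset_span ⟨h * n * h⁻¹, hN.conj_mem n hn h, ?_⟩
    have h2 : (h * n * h⁻¹ * h : H) = h * n := by group
    have h3 := congrArg (fun g : H => (g : V ≃ₗ[ZMod p] V) v) h2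
    exact h3.symm
  calc Module.finrank (ZMod p) (regCyc N v)
      = Module.finrank (ZMod p) ((regCyc N v).map (((h : V ≃ₗ[ZMod p] V)) : V →ₗ[ZMod p] V)) :=
        (LinearEquiv.finrank_map_eq (h : V ≃ₗ[ZMod p] V) _).symm
    _ ≤ _ := Submodule.finrank_mono h1

lemma finrank_regCyc_eq [Finite V]
    (hreg : ∀ v w : V, v ≠ 0 → w ≠ 0 → ∃! h : H, (h : V ≃ₗ[ZMod p] V) v = w)
    {N : Subgroup H} (hN : N.Normal) {v w : V} (hv : v ≠ 0) (hw : w ≠ 0) :
    Module.finrank (ZMod p) (regCyc N v) = Module.finrank (ZMod p) (regCyc N w) := by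
  obtain ⟨h, hh, -⟩ := hreg v w hv hw
  obtain ⟨h', hh', -⟩ := hreg w v hw hv
  apply le_antisymm
  · have := finrank_regCyc_le hN v h
    rwa [hh] at this
  · have := finrank_regCyc_le hN w h'
    rwa [hh'] at this

lemma regCyc_irr [Finite V]
    (hreg : ∀ v w : V, v ≠ 0 → w ≠ 0 → ∃! h : H, (h : V ≃ₗ[ZMod p] V) v = w)
    {N : Subgroup H} (hN : N.Normal) {v : V} (hv : v ≠ 0) {X : Submodule (ZMod p) V}
    (hle : X ≤ regCyc N v) (hX : RegInv N X) : X = ⊥ ∨ X = regCyc N v := by
  by_cases hb : X = ⊥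
  · exact Or.inl hb
  · right
    obtain ⟨x, hx, hx0⟩ := (Submodule.ne_bot_iff X).mp hb
    have h1 : regCyc N x ≤ X := regCyc_le hX hx
    have h2 := finrank_regCyc_eq hreg hN hx0 hv
    have h3 : regCyc N x = regCyc N v :=
      Submodule.eq_of_le_of_finrank_le (h1.trans hle) h2.ge
    exact le_antisymm hle (h3 ▸ h1)

/-- A non-abelian normal subgroup of a linear group regular on the non-zero vectors is
irreducible. -/
theorem reg_normal_irreducible [Finite V]
    (hreg : ∀ v w : V, v ≠ 0 → w ≠ 0 → ∃! h : H, (h : V ≃ₗ[ZMod p] V) v = w)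
    (N : Subgroup H) (hN : N.Normal) (hna : ¬ IsMulCommutative N) (W : Submodule (ZMod p) V)
    (hW : RegInv N W) : W = ⊥ ∨ W = ⊤ := by
  classical
  by_contra hcon
  push Not at hcon
  obtain ⟨hW0, hWt⟩ := hcon
  apply hna
  have hfree := reg_free hreg
  obtain ⟨u, huW, hu0⟩ := (Submodule.ne_bot_iff W).mp hW0
  obtain ⟨w, hwW⟩ : ∃ w, w ∉ W := by
    by_contra h
    push Not at h
    exact hWt (eq_top_iff.mpr fun x _ => h x)
  have hw0 : w ≠ 0 := fun h => hwW (h ▸ W.zero_mem)
  set U := regCyc N u with hU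
  set U' := regCyc N w with hU'
  have hUW : U ≤ W := regCyc_le hW huW
  have hUi := regCyc_inv N u
  have hU'i := regCyc_inv N w
  have hdisj : U ⊓ U' = ⊥ := by
    have hi : RegInv N (U ⊓ U') := fun a ha x hx => ⟨hUi a ha x hx.1, hU'i a ha x hx.2⟩
    rcases regCyc_irr hreg hN hu0 (inf_le_left) hi with h | h
    · exact h
    · exfalso
      have h' : U ⊓ U' = U := h
      have hle : U ≤ U' := by
        rw [← h']
        exact inf_le_right
      have heq : U = U' := Submodule.eq_of_le_of_finrank_le hle (finrank_regCyc_eq hreg hN hw0 hu0).le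
      exact hwW (hUW (heq ▸ mem_regCyc_self N w))
  have hmemdisj : ∀ x, x ∈ U → x ∈ U' → x = 0 := fun x h1 h2 => by
    have : x ∈ U ⊓ U' := ⟨h1, h2⟩
    rwa [hdisj, Submodule.mem_bot] at this
  -- the mixed modules
  have hmix : ∀ x ∈ U, x ≠ 0 → x + w ≠ 0 ∧ regCyc N (x + w) ⊓ U' = ⊥ ∧ regCyc N (x + w) ⊓ U = ⊥ := by
    intro x hx hx0
    have hwU' : w ∈ U' := mem_regCyc_self N w
    have hne : x + w ≠ 0 := by
      intro h
      have h1 : w = -x := by
        rw [eq_neg_iff_add_eq_zero, add_comm]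
        exact h
      have h2 : w ∈ U := h1 ▸ U.neg_mem hx
      exact hw0 (hmemdisj w h2 hwU')
    have hMi := regCyc_inv N (x + w)
    refine ⟨hne, ?_, ?_⟩
    · have hi : RegInv N (regCyc N (x + w) ⊓ U') :=
        fun a ha y hy => ⟨hMi a ha y hy.1, hU'i a ha y hy.2⟩
      rcases regCyc_irr hreg hN hne inf_le_left hi with h | h
      · exact h
      · exfalso
        have h1 : x + w ∈ U' := by
          have h2 : x + w ∈ regCyc N (x + w) ⊓ U' := by
            rw [h]
            exact mem_regCyc_self N _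
          exact h2.2
        have h2 : x ∈ U' := by
          have := U'.sub_mem h1 hwU'
          simpa using this
        exact hx0 (hmemdisj x hx h2)
    · have hi : RegInv N (regCyc N (x + w) ⊓ U) :=
        fun a ha y hy => ⟨hMi a ha y hy.1, hUi a ha y hy.2⟩
      rcases regCyc_irr hreg hN hne inf_le_left hi with h | h
      · exact h
      · exfalso
        have h1 : x + w ∈ U := by
          have h2 : x + w ∈ regCyc N (x + w) ⊓ U := by
            rw [h]
            exact mem_regCyc_self N _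
          exact h2.2
        have h2 : w ∈ U := by
          have := U.sub_mem h1 hx
          simpa using this
        exact hw0 (hmemdisj w h2 hwU')
  -- the enveloping algebra
  let gens : Set (Module.End (ZMod p) V) :=
    Set.range fun n : N => (((n : H) : V ≃ₗ[ZMod p] V) : V →ₗ[ZMod p] V)
  let R := Algebra.adjoin (ZMod p) gens
  have hRinv : ∀ r ∈ R, ∀ X : Submodule (ZMod p) V, RegInv N X → ∀ v ∈ X, r v ∈ X := by
    intro r hr X hX
    induction hr using Algebra.adjoin_induction with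
    | mem x hx =>
      obtain ⟨n, rfl⟩ := hx
      exact fun v hv => hX n n.2 v hv
    | algebraMap c =>
      intro v hv
      have : (algebraMap (ZMod p) (Module.End (ZMod p) V) c) v = c • v := rfl
      rw [this]
      exact X.smul_mem c hv
    | add x y _ _ hx hy =>
      intro v hv
      exact X.add_mem (hx v hv) (hy v hv)
    | mul x y _ _ hx hy =>
      intro v hv
      exact hx _ (hy v hv)
  -- killing one vector kills everything
  have hkill : ∀ r ∈ R, ∀ x ∈ U, x ≠ 0 → r x = 0 → ∀ y ∈ U, r y = 0 := by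
    intro r hr x hx hx0 hrx y hy
    by_cases hy0 : y = 0
    · rw [hy0, map_zero]
    obtain ⟨-, h1, -⟩ := hmix x hx hx0
    obtain ⟨-, -, h2⟩ := hmix y hy hy0
    have hrw : r w = 0 := by
      have h3 : r (x + w) ∈ regCyc N (x + w) :=
        hRinv r hr _ (regCyc_inv N _) _ (mem_regCyc_self N _)
      rw [map_add, hrx, zero_add] at h3
      have h4 : r w ∈ U' := hRinv r hr _ hU'i _ (mem_regCyc_self N w)
      have h5 : r w ∈ regCyc N (x + w) ⊓ U' := ⟨h3, h4⟩
      rwa [h1, Submodule.mem_bot] at h5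
    have h3 : r (y + w) ∈ regCyc N (y + w) :=
      hRinv r hr _ (regCyc_inv N _) _ (mem_regCyc_self N _)
    rw [map_add, hrw, add_zero] at h3
    have h4 : r y ∈ U := hRinv r hr _ hUi _ hy
    have h5 : r y ∈ regCyc N (y + w) ⊓ U := ⟨h3, h4⟩
    rwa [h2, Submodule.mem_bot] at h5
  -- restriction
  let ρ : R →ₐ[ZMod p] Module.End (ZMod p) U :=
    { toFun := fun r => LinearMap.restrict (r : Module.End (ZMod p) V)
        (fun v hv => hRinv r r.2 U hUi v hv)
      map_one' := by ext; rfl
      map_mul' := fun a b => by ext; rfl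
      map_zero' := by ext; rfl
      map_add' := fun a b => by ext; rfl
      commutes' := fun c => by ext; rfl }
  have hρv : ∀ (r : R) (x : U), ((ρ r x : U) : V) = (r : Module.End (ZMod p) V) x := fun _ _ => rfl
  haveI : Nontrivial U := by
    refine ⟨⟨⟨u, mem_regCyc_self N u⟩, 0, fun h => hu0 (congrArg Subtype.val h)⟩⟩
  haveI : Nontrivial ρ.range := by
    refine ⟨⟨0, 1, fun h => ?_⟩⟩
    have h1 : (0 : Module.End (ZMod p) U) = 1 := congrArg Subtype.val h
    have h2 := congrArg (fun f : Module.End (ZMod p) U => f ⟨u, mem_regCyc_self N u⟩) h1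
    exact hu0 (congrArg Subtype.val h2.symm)
  haveI : NoZeroDivisors ρ.range := by
    constructor
    rintro ⟨_, a, rfl⟩ ⟨_, b, rfl⟩ hab
    by_cases hb : ρ b = 0
    · right
      exact Subtype.ext hb
    · left
      apply Subtype.ext
      change ρ a = 0
      obtain ⟨y, hy⟩ : ∃ y : U, ρ b y ≠ 0 := by
        by_contra hcon
        push Not at hcon
        exact hb (LinearMap.ext hcon)
      have h1 : (ρ a * ρ b : Module.End (ZMod p) U) = 0 := congrArg Subtype.val hab
      have h2 : ρ a (ρ b y) = 0 := by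
        have := congrArg (fun f : Module.End (ZMod p) U => f y) h1
        exact this
      have h3 : (a : Module.End (ZMod p) V) ((ρ b y : U) : V) = 0 := by
        have := congrArg Subtype.val h2
        exact this
      have h4 : ((ρ b y : U) : V) ≠ 0 := fun h => hy (Subtype.ext h)
      have h5 := hkill a a.2 _ (ρ b y).2 h4 h3
      ext z
      exact h5 z z.2
  haveI hdom : IsDomain ρ.range := NoZeroDivisors.to_isDomain _
  haveI : Finite (Module.End (ZMod p) U) := Module.finite_of_finite (ZMod p)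
  have hfield := Finite.isDomain_to_isField ρ.range
  have hgen : ∀ n : N, (((n : H) : V ≃ₗ[ZMod p] V) : V →ₗ[ZMod p] V) ∈ R := fun n =>
    Algebra.subset_adjoin ⟨n, rfl⟩
  refine ⟨⟨fun n n' => ?_⟩⟩
  have hc := hfield.mul_comm (⟨_, ⟨_, hgen n⟩, rfl⟩ : ρ.range) (⟨_, ⟨_, hgen n'⟩, rfl⟩ : ρ.range)
  have hc' := congrArg (fun f : ρ.range => (((f : Module.End (ZMod p) U) ⟨u, mem_regCyc_self N u⟩ : U) : V)) hc
  have hc'' : ((n : H) : V ≃ₗ[ZMod p] V) (((n' : H) : V ≃ₗ[ZMod p] V) u) =
      ((n' : H) : V ≃ₗ[ZMod p] V) (((n : H) : V ≃ₗ[ZMod p] V) u) := hc'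
  have hab : (((n' : H) * (n : H) : H) : V ≃ₗ[ZMod p] V) u = (((n : H) * (n' : H) : H) : V ≃ₗ[ZMod p] V) u :=
    hc''.symm
  have hfix : ((n' : H) * (n : H))⁻¹ * ((n : H) * (n' : H)) = 1 := by
    apply hfree _ u hu0
    change (((n' : H) * (n : H) : H) : V ≃ₗ[ZMod p] V).symm
      ((((n : H) * (n' : H) : H) : V ≃ₗ[ZMod p] V) u) = u
    rw [← hab]
    exact LinearEquiv.symm_apply_apply _ _
  have h9 : (n : H) * (n' : H) = (n' : H) * (n : H) := (inv_mul_eq_one.mp hfix).symm
  exact Subtype.ext h9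

end Reg

end Cfsg.Agent.Lib.Perm
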