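import Mathlib
import Cfsg.Agent.Lib.Perm.ZFCyc

/-!
The quaternion relations over a prime field: the action is two-dimensional.
-/

set_option autoImplicit false
set_option linter.style.haveILetI false

namespace Cfsg.Agent.Lib.Perm

variable {p : ℕ} [Fact p.Prime] {V : Type*} [AddCommGroup V] [Module (ZMod p) V]

/-- Two anticommuting "square roots of `-1`" acting irreducibly over the prime field: the space is
spanned by two vectors, and the commutant consists of scalars. -/
theorem rq_linear [Nontrivial V] (hp2 : p ≠ 2) (I J : V →ₗ[ZMod p] V)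
    (hI : ∀ v, I (I v) = -v) (hJ : ∀ v, J (J v) = -v) (hIJ : ∀ v, I (J v) = -J (I v))
    (hirr : ∀ W : Submodule (ZMod p) V, (∀ v ∈ W, I v ∈ W) → (∀ v ∈ W, J v ∈ W) → W = ⊥ ∨ W = ⊤) :
    ∃ v : V, v ≠ 0 ∧ (∀ x, ∃ s t : ZMod p, s • v + t • I (J v) = x) ∧
      ∀ C : V →ₗ[ZMod p] V, (∀ x, C (I x) = I (C x)) → (∀ x, C (J x) = J (C x)) →
        ∃ l : ZMod p, ∀ x, C x = l • x := by
  classical
  have h2ne : (2 : ZMod p) ≠ 0 := by
    intro h
    have h1 : ((2 : ℕ) : ZMod p) = 0 := by exact_mod_cast h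
    rw [ZMod.natCast_eq_zero_iff] at h1
    have hp := (Fact.out : p.Prime)
    have := (Nat.prime_dvd_prime_iff_eq hp Nat.prime_two).mp h1
    exact hp2 this
  obtain ⟨a, b, hab⟩ := ZMod.sq_add_sq p (-1)
  have hJI : ∀ v, J (I v) = -I (J v) := fun v => by rw [hIJ, neg_neg]
  let U : V →ₗ[ZMod p] V := a • I + b • J
  have hU : ∀ x, U x = a • I x + b • J x := fun x => rfl
  let K : V →ₗ[ZMod p] V := I ∘ₗ J
  have hK : ∀ x, K x = I (J x) := fun x => rfl
  have hKK : ∀ x, K (K x) = -x := by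
    intro x
    simp only [hK]
    rw [hJI, map_neg, hI, hJ]
    simp
  have hsq : ∀ x : V, (a ^ 2 + b ^ 2) • x = -x := fun x => by rw [hab, neg_one_smul]
  have hUU : ∀ x, U (U x) = x := by
    intro x
    have h1 : U (U x) = -((a ^ 2 + b ^ 2) • x) := by
      simp only [hU, map_add, map_smul, map_neg, hI, hJ, hJI]
      module
    rw [h1, hsq, neg_neg]
  have hUK1 : ∀ x, U (K x) = -a • J x + b • I x := by
    intro x
    simp only [hU, hK, map_add, map_smul, map_neg, hI, hJ, hJI]
    module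
  have hKU : ∀ x, K (U x) = a • J x - b • I x := by
    intro x
    simp only [hU, hK, map_add, map_smul, map_neg, hI, hJ, hJI]
    module
  have hUK : ∀ x, U (K x) = -K (U x) := by
    intro x
    rw [hUK1, hKU]
    module
  have hIU : ∀ x, I x = -(a • U x + b • U (K x)) := by
    intro x
    have h1 : a • U x + b • U (K x) = (a ^ 2 + b ^ 2) • I x := by
      rw [hUK1, hU]
      module
    rw [h1, hsq, neg_neg]
  have hJU : ∀ x, J x = -(b • U x - a • U (K x)) := by
    intro x
    have h1 : b • U x - a • U (K x) = (a ^ 2 + b ^ 2) • J x := by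
      rw [hUK1, hU]
      module
    rw [h1, hsq, neg_neg]
  obtain ⟨x₀, hx₀⟩ := exists_ne (0 : V)
  obtain ⟨v, hv, ε, hε, hUv⟩ : ∃ v : V, v ≠ 0 ∧ ∃ ε : ZMod p, ε * ε = 1 ∧ U v = ε • v := by
    by_cases hy : U x₀ + x₀ = 0
    · refine ⟨x₀, hx₀, -1, by ring, ?_⟩
      rw [neg_one_smul]
      exact eq_neg_of_add_eq_zero_left hy
    · refine ⟨U x₀ + x₀, hy, 1, by ring, ?_⟩
      rw [one_smul, map_add, hUU, add_comm]
  have hUKv : U (K v) = -(ε • K v) := by
    rw [hUK, hUv, map_smul]
  have hUKKv : U (K (K v)) = -(ε • v) := by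
    rw [hKK, map_neg, hUv]
  let W : Submodule (ZMod p) V := Submodule.span (ZMod p) {v, K v}
  have hvW : v ∈ W := Submodule.subset_span (by simp)
  have hKvW : K v ∈ W := Submodule.subset_span (by simp)
  have hIv : I v ∈ W := by
    rw [hIU, hUv, hUKv]
    have e : -(a • ε • v + b • -(ε • K v)) = (-(a * ε)) • v + (b * ε) • K v := by module
    rw [e]
    exact W.add_mem (W.smul_mem _ hvW) (W.smul_mem _ hKvW)
  have hIKv : I (K v) ∈ W := by
    rw [hIU, hUKv, hUKKv]
    have e : -(a • -(ε • K v) + b • -(ε • v)) = (a * ε) • K v + (b * ε) • v := by module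
    rw [e]
    exact W.add_mem (W.smul_mem _ hKvW) (W.smul_mem _ hvW)
  have hJv : J v ∈ W := by
    rw [hJU, hUv, hUKv]
    have e : -(b • ε • v - a • -(ε • K v)) = (-(b * ε)) • v + (-(a * ε)) • K v := by module
    rw [e]
    exact W.add_mem (W.smul_mem _ hvW) (W.smul_mem _ hKvW)
  have hJKv : J (K v) ∈ W := by
    rw [hJU, hUKv, hUKKv]
    have e : -(b • -(ε • K v) - a • -(ε • v)) = (b * ε) • K v + (-(a * ε)) • v := by module
    rw [e]
    exact W.add_mem (W.smul_mem _ hKvW) (W.smul_mem _ hvW)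
  have hWtop : W = ⊤ := by
    have hinv : ∀ L : V →ₗ[ZMod p] V, L v ∈ W → L (K v) ∈ W → ∀ x ∈ W, L x ∈ W := by
      intro L h1 h2 x hx
      obtain ⟨s, t, rfl⟩ := Submodule.mem_span_pair.mp hx
      rw [map_add, map_smul, map_smul]
      exact W.add_mem (W.smul_mem _ h1) (W.smul_mem _ h2)
    rcases hirr W (hinv I hIv hIKv) (hinv J hJv hJKv) with h | h
    · exfalso
      rw [h, Submodule.mem_bot] at hvW
      exact hv hvW
    · exact h
  have hspan : ∀ x, ∃ s t : ZMod p, s • v + t • K v = x := fun x =>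
    Submodule.mem_span_pair.mp (by
      change x ∈ W
      rw [hWtop]
      trivial)
  refine ⟨v, hv, hspan, ?_⟩
  intro C hCI hCJ
  have hCU : ∀ x, C (U x) = U (C x) := by
    intro x
    simp only [hU, map_add, map_smul, hCI, hCJ]
  have hCK : ∀ x, C (K x) = K (C x) := by
    intro x
    simp only [hK, hCI, hCJ]
  obtain ⟨s, t, hst⟩ := hspan (C v)
  have hεne : ε ≠ 0 := by
    rintro rfl
    simp at hε
  have hKvne : K v ≠ 0 := by
    intro h
    have := hKK v
    rw [h, map_zero] at this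
    exact hv (neg_eq_zero.mp this.symm)
  have ht : t = 0 := by
    have h1 : U (C v) = ε • C v := by rw [← hCU, hUv, map_smul]
    rw [← hst, map_add, map_smul, map_smul, hUv, hUKv] at h1
    have h2 : ((2 : ZMod p) * t * ε) • K v = 0 := by
      linear_combination (norm := module) (-1 : ZMod p) • h1
    rcases smul_eq_zero.mp h2 with h3 | h3
    · rcases mul_eq_zero.mp h3 with h4 | h4
      · rcases mul_eq_zero.mp h4 with h5 | h5
        · exact absurd h5 h2ne
        · exact h5
      · exact absurd h4 hεne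
    · exact absurd h3 hKvne
  refine ⟨s, fun x => ?_⟩
  obtain ⟨s₁, t₁, rfl⟩ := hspan x
  rw [ht, zero_smul, add_zero] at hst
  rw [map_add, map_smul, map_smul, hCK, ← hst, map_smul]
  module

end Cfsg.Agent.Lib.Perm
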