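import Mathlib
import Cfsg.Agent.Lib.Perm.RegQ8
import Cfsg.Agent.Lib.Perm.RegQ8Lin
import Cfsg.Agent.Lib.Perm.RegLin
import Cfsg.Agent.Lib.Perm.ZFSign
import Cfsg.Agent.Lib.OddLocal.UniqueP2
import Cfsg.Agent.S0684
import Cfsg.Agent.S0685
import Cfsg.Agent.S0687

/-!
Linear groups regular on the non-zero vectors: the quaternion case, the perfect case, and existence
of subgroups of index two.
-/

set_option autoImplicit false
set_option linter.style.haveILetI false

namespace Cfsg.Agent.Lib.Perm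

open QuaternionGroup Cfsg.Agent.Lib.OddLocal
open scoped commutatorElement

variable {p : ℕ} [Fact p.Prime] {V : Type*} [AddCommGroup V] [Module (ZMod p) V]
variable {H : Subgroup (V ≃ₗ[ZMod p] V)}

lemma rq_finite [Finite V] : Finite H :=
  Finite.of_injective (fun h : H => fun v : V => (h : V ≃ₗ[ZMod p] V) v)
    (fun h h' e => Subtype.ext (LinearEquiv.ext fun v => congrFun e v))

lemma rq_card [Finite V] [Nontrivial V]
    (hreg : ∀ v w : V, v ≠ 0 → w ≠ 0 → ∃! h : H, (h : V ≃ₗ[ZMod p] V) v = w) :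
    Nat.card H + 1 = Nat.card V := by
  classical
  haveI := Fintype.ofFinite V
  obtain ⟨v₀, hv₀⟩ := exists_ne (0 : V)
  have hne : ∀ h : H, (h : V ≃ₗ[ZMod p] V) v₀ ≠ 0 := fun h e =>
    hv₀ ((LinearEquiv.map_eq_zero_iff _).mp e)
  let φ : H → {x : V // x ≠ 0} := fun h => ⟨(h : V ≃ₗ[ZMod p] V) v₀, hne h⟩
  have hφ : Function.Bijective φ := by
    constructor
    · intro h k hk
      have h1 : (h : V ≃ₗ[ZMod p] V) v₀ = (k : V ≃ₗ[ZMod p] V) v₀ := congrArg Subtype.val hk
      obtain ⟨u, -, hu⟩ := hreg v₀ ((k : V ≃ₗ[ZMod p] V) v₀) hv₀ (hne k)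
      exact (hu h h1).trans (hu k rfl).symm
    · rintro ⟨w, hw⟩
      obtain ⟨u, hu, -⟩ := hreg v₀ w hv₀ hw
      exact ⟨u, Subtype.ext hu⟩
  rw [Nat.card_congr (Equiv.ofBijective φ hφ), Nat.card_eq_fintype_card, Nat.card_eq_fintype_card,
    Fintype.card_subtype_compl, Fintype.card_subtype_eq]
  have : 0 < Fintype.card V := Fintype.card_pos_iff.mpr ⟨0⟩
  omega

/-- Two is invertible on a space of odd characteristic. -/
lemma rq_two_smul (hp2 : p ≠ 2) {v : V} (hv : v ≠ 0) : v + v ≠ 0 := by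
  intro h
  have h2ne : (2 : ZMod p) ≠ 0 := by
    intro h
    have h1 : ((2 : ℕ) : ZMod p) = 0 := by exact_mod_cast h
    rw [ZMod.natCast_eq_zero_iff] at h1
    have hp := (Fact.out : p.Prime)
    exact hp2 ((Nat.prime_dvd_prime_iff_eq hp Nat.prime_two).mp h1)
  have h3 : (2 : ZMod p) • v = 0 := by rw [two_smul, h]
  rcases smul_eq_zero.mp h3 with h4 | h4
  · exact h2ne h4
  · exact hv h4

/-- An involution acts as `-1`. -/
lemma rq_neg (hfree : ∀ (h : H) (v : V), v ≠ 0 → (h : V ≃ₗ[ZMod p] V) v = v → h = 1)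
    {z : H} (hz1 : z ≠ 1) (hz2 : z * z = 1) (v : V) : (z : V ≃ₗ[ZMod p] V) v = -v := by
  by_contra hcon
  have hy : (z : V ≃ₗ[ZMod p] V) v + v ≠ 0 := fun h => hcon (eq_neg_of_add_eq_zero_left h)
  apply hz1
  apply hfree z _ hy
  rw [map_add]
  have h1 : (z : V ≃ₗ[ZMod p] V) ((z : V ≃ₗ[ZMod p] V) v) = v := by
    have : ((z * z : H) : V ≃ₗ[ZMod p] V) v = v := by rw [hz2]; rfl
    exact this
  rw [h1, add_comm]

/-- There is an involution. -/
lemma rq_exists_invol [Nontrivial V] (hp2 : p ≠ 2)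
    (hreg : ∀ v w : V, v ≠ 0 → w ≠ 0 → ∃! h : H, (h : V ≃ₗ[ZMod p] V) v = w) :
    ∃ z : H, z ≠ 1 ∧ z * z = 1 := by
  obtain ⟨x, hx⟩ := exists_ne (0 : V)
  obtain ⟨z, hz, -⟩ := hreg x (-x) hx (neg_ne_zero.mpr hx)
  refine ⟨z, ?_, ?_⟩
  · rintro rfl
    apply rq_two_smul hp2 hx
    have : x = -x := hz
    nth_rw 1 [this]
    simp
  · apply reg_free hreg _ x hx
    change (z : V ≃ₗ[ZMod p] V) ((z : V ≃ₗ[ZMod p] V) x) = x
    rw [hz, map_neg, hz, neg_neg]

/-- Subgroups of prime-power order have a unique subgroup of prime order. -/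
lemma rq_uniqueP [Finite V] [Nontrivial V]
    (hfree : ∀ (h : H) (v : V), v ≠ 0 → (h : V ≃ₗ[ZMod p] V) v = v → h = 1)
    {q : ℕ} [Fact q.Prime] (D : Subgroup H) (hD : IsPGroup q D) : UniqueP q D := by
  classical
  haveI := rq_finite (H := H)
  let φ : H →* MulAut (Multiplicative V) :=
    { toFun := fun h => ((h : V ≃ₗ[ZMod p] V).toAddEquiv).toMultiplicative
      map_one' := rfl
      map_mul' := fun _ _ => rfl }
  have hφ : ∀ (h : H) (v : V), φ h (Multiplicative.ofAdd v) =
      Multiplicative.ofAdd ((h : V ≃ₗ[ZMod p] V) v) := fun _ _ => rfl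
  let G := SemidirectProduct (Multiplicative V) H φ
  haveI : Finite G := Finite.of_equiv _ SemidirectProduct.equivProd.symm
  let inl : Multiplicative V →* G := SemidirectProduct.inl
  let inr : H →* G := SemidirectProduct.inr
  let K : Subgroup G := inl.range
  haveI hKn : K.Normal := by
    have : K = (SemidirectProduct.rightHom : G →* H).ker :=
      SemidirectProduct.range_inl_eq_ker_rightHom
    rw [this]
    infer_instance
  obtain ⟨x₀, hx₀⟩ := exists_ne (0 : V)
  have hKne : K ≠ ⊥ := by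
    intro h
    have h1 : inl (Multiplicative.ofAdd x₀) ∈ K := ⟨_, rfl⟩
    rw [h, Subgroup.mem_bot] at h1
    have h2 : Multiplicative.ofAdd x₀ = 1 := SemidirectProduct.inl_injective (h1.trans (map_one inl).symm)
    exact hx₀ h2
  let T : Subgroup G := D.map inr
  have hT : IsPGroup q T := hD.map inr
  have hU : UniqueP q T := by
    apply uniqueP_of_fpf hKne hT
    rintro _ ⟨d, hd, rfl⟩ hne
    rw [eq_bot_iff]
    rintro x ⟨⟨n, rfl⟩, hc⟩
    rw [Subgroup.mem_bot]
    by_contra hn
    apply hne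
    have hd1 : d = 1 := by
      have hn' : Multiplicative.toAdd n ≠ 0 := by
        intro h
        apply hn
        have : n = 1 := h
        rw [this, map_one]
      apply hfree d _ hn'
      have hc' : inl n ∈ Subgroup.centralizer ({inr d} : Set G) := hc
      rw [Subgroup.mem_centralizer_iff] at hc'
      have h2 := hc' (inr d) rfl
      have h3 : (SemidirectProduct.inl (φ d n) : G) = inr d * inl n * (inr d)⁻¹ := by
        rw [← map_inv]
        exact SemidirectProduct.inl_aut d n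
      have h4 : inl (φ d n) = inl n := by
        change (SemidirectProduct.inl (φ d n) : G) = inl n
        rw [h3]
        change inr d * inl n * (inr d)⁻¹ = inl n
        rw [h2]
        exact mul_inv_cancel_right _ _
      have h5 : φ d n = n := SemidirectProduct.inl_injective h4
      exact h5
    rw [hd1, map_one]
  have he : ∀ (A : Subgroup D), Nat.card (A.map (D.equivMapOfInjective inr SemidirectProduct.inr_injective).toMonoidHom) = Nat.card A :=
    fun A => Subgroup.card_map_of_injective (D.equivMapOfInjective inr SemidirectProduct.inr_injective).injective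
  intro A B hA hB
  have h1 := hU _ _ ((he A).trans hA) ((he B).trans hB)
  exact Subgroup.map_injective (D.equivMapOfInjective inr SemidirectProduct.inr_injective).injective h1

/-- Odd Sylow subgroups are cyclic. -/
lemma rq_cyc_odd [Finite V] [Nontrivial V]
    (hfree : ∀ (h : H) (v : V), v ≠ 0 → (h : V ≃ₗ[ZMod p] V) v = v → h = 1)
    {q : ℕ} (hq : q.Prime) (hq2 : q ≠ 2) (D : Subgroup H) (hD : IsPGroup q D) : IsCyclic D := by
  haveI := rq_finite (H := H)
  haveI : Fact q.Prime := ⟨hq⟩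
  exact isCyclic_of_uniqueP_odd hq2 _ D rfl hD (rq_uniqueP hfree D hD)

/-- 2-subgroups are cyclic or generalised quaternion. -/
lemma rq_cyc_quat [Finite V] [Nontrivial V]
    (hfree : ∀ (h : H) (v : V), v ≠ 0 → (h : V ≃ₗ[ZMod p] V) v = v → h = 1)
    (D : Subgroup H) (hD : IsPGroup 2 D) :
    IsCyclic D ∨ ∃ n : ℕ, Nonempty (D ≃* QuaternionGroup (2 ^ n)) := by
  haveI := rq_finite (H := H)
  haveI : Fact (Nat.Prime 2) := ⟨Nat.prime_two⟩
  exact cyclic_or_quaternion hD (rq_uniqueP hfree D hD)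

/-- The perfect case cannot occur when there is at most one subgroup of order three. -/
theorem rq_perfect_absurd [Finite V] [Nontrivial V]
    (hfree : ∀ (h : H) (v : V), v ≠ 0 → (h : V ≃ₗ[ZMod p] V) v = v → h = 1)
    (N : Subgroup H) (hNne : N ≠ ⊥) (hperf : ⁅N, N⁆ = N)
    (h3 : ∀ A B : Subgroup H, Nat.card A = 3 → Nat.card B = 3 → A = B) : False := by
  classical
  haveI := rq_finite (H := H)
  haveI : Nontrivial N := (Subgroup.nontrivial_iff_ne_bot N).mpr hNne
  have hcomm : commutator N = ⊤ := by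
    have h1 : (commutator N).map N.subtype = ⁅N, N⁆ := Subgroup.map_subtype_commutator N
    rw [hperf] at h1
    rw [eq_top_iff]
    intro x _
    have h2 : (x : H) ∈ (commutator N).map N.subtype := by
      rw [h1]
      exact x.2
    obtain ⟨y, hy, hyx⟩ := h2
    have : y = x := Subtype.ext hyx
    rwa [← this]
  have hmap : ∀ D : Subgroup N, D ≃* D.map N.subtype := fun D =>
    D.equivMapOfInjective N.subtype N.subtype_injective
  refine rq_perfect (X := N) hcomm ?_ ?_ ?_
  · intro q hq hq2 D hD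
    have h1 := rq_cyc_odd hfree hq hq2 (D.map N.subtype) (hD.map N.subtype)
    exact isCyclic_of_surjective (hmap D).symm (hmap D).symm.surjective
  · intro D hD
    rcases rq_cyc_quat hfree (D.map N.subtype) (hD.map N.subtype) with h1 | ⟨n, ⟨e⟩⟩
    · left
      exact isCyclic_of_surjective (hmap D).symm (hmap D).symm.surjective
    · right
      exact ⟨n, ⟨(hmap D).trans e⟩⟩
  · intro A B hA hB
    have hc : ∀ A : Subgroup N, Nat.card (A.map N.subtype) = Nat.card A := fun A =>
      Subgroup.card_map_of_injective N.subtype_injective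
    have := h3 _ _ ((hc A).trans hA) ((hc B).trans hB)
    exact Subgroup.map_injective N.subtype_injective this

lemma rq_q_noncomm (n : ℕ) (h : ∀ x y : QuaternionGroup (2 ^ (n + 1)), x * y = y * x) : False := by
  have h1 := h (a 1) (xa 0)
  rw [a_mul_xa, xa_mul_a] at h1
  have h2 : ((0 : ZMod (2 * 2 ^ (n + 1))) - 1) = 0 + 1 := xa.inj h1
  have h3 : ((2 : ℕ) : ZMod (2 * 2 ^ (n + 1))) = 0 := by
    push_cast
    linear_combination -h2
  rw [ZMod.natCast_eq_zero_iff] at h3
  have h4 := Nat.le_of_dvd (by norm_num) h3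
  have h5 : 2 * 2 ^ (n + 1) = 4 * 2 ^ n := by ring
  have h6 : 0 < 2 ^ n := by positivity
  omega

/-- The class-two condition in a generalised quaternion group. -/
lemma rq_q_class (n : ℕ)
    (h : ∀ x y z : QuaternionGroup (2 ^ n), ⁅x, y⁆ * z = z * ⁅x, y⁆) : n ≤ 1 := by
  haveI : NeZero (2 ^ n) := ⟨by positivity⟩
  let x : QuaternionGroup (2 ^ n) := xa 0
  let y : QuaternionGroup (2 ^ n) := a 1
  have hxy : x * y = y⁻¹ * x := by
    have : (a 1 : QuaternionGroup (2 ^ n))⁻¹ = a (-1) := rfl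
    simp only [x, y, this, xa_mul_a, a_mul_xa]
    congr 1
    ring
  have h1 := h x y x
  have hc : ⁅x, y⁆ = y⁻¹ * y⁻¹ := by
    rw [commutatorElement_def, hxy]
    group
  rw [hc] at h1
  have h2 : x * y⁻¹ = y * x := by
    have : x * y * y⁻¹ = y⁻¹ * x * y⁻¹ := by rw [hxy]
    rw [mul_inv_cancel_right] at this
    have h3 : y * x = y * (y⁻¹ * x * y⁻¹) := by rw [← this]
    rw [h3]
    group
  have h4 : y⁻¹ * y⁻¹ * x = y * y * x := by
    rw [h1, ← mul_assoc, h2, mul_assoc, h2, ← mul_assoc]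
  have h5 : y⁻¹ * y⁻¹ = y * y := mul_right_cancel h4
  have h6 : y ^ 4 = 1 := by
    have : y * y * (y * y) = 1 := by
      nth_rw 1 [← h5]
      group
    rw [← this]
    simp only [pow_succ, pow_zero, one_mul, mul_assoc]
  have h7 : orderOf y ∣ 4 := orderOf_dvd_of_pow_eq_one h6
  rw [show orderOf y = 2 * 2 ^ n from orderOf_a_one] at h7
  by_contra hn
  have hn2 : 2 ≤ n := by omega
  have h8 : 2 ^ 2 ≤ 2 ^ n := Nat.pow_le_pow_right (by norm_num) hn2
  have := Nat.le_of_dvd (by norm_num) h7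
  omega

end Cfsg.Agent.Lib.Perm
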