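import Mathlib
import Cfsg.Agent.Lib.Perm.RegQuat

/-!
Linear groups regular on the non-zero vectors, second part.
-/

set_option autoImplicit false
set_option linter.style.haveILetI false

namespace Cfsg.Agent.Lib.Perm

open QuaternionGroup Cfsg.Agent.Lib.OddLocal
open scoped commutatorElement

variable {p : ℕ} [Fact p.Prime] {V : Type*} [AddCommGroup V] [Module (ZMod p) V]
variable {H : Subgroup (V ≃ₗ[ZMod p] V)}

/-- The commutator subgroup centralises a cyclic normal subgroup. -/
lemma rq_commutator_le_centralizer {X : Type*} [Group X] (A : Subgroup X) (hAn : A.Normal)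
    (hAc : IsCyclic A) : commutator X ≤ Subgroup.centralizer (A : Set X) := by
  classical
  haveI := hAn
  let _ := (IsCyclic.mulAutMulEquiv A).toMonoidHom.commGroupOfInjective
    (IsCyclic.mulAutMulEquiv A).injective
  have h := Abelianization.commutator_subset_ker (MulAut.conjNormal : X →* MulAut A)
  refine h.trans ?_
  intro x hx
  rw [Subgroup.mem_centralizer_iff]
  intro y hy
  have h1 : (MulAut.conjNormal x) ⟨y, hy⟩ = ⟨y, hy⟩ := by
    rw [MonoidHom.mem_ker.mp hx]
    rfl
  have h2 : x * y * x⁻¹ = y := congrArg Subtype.val h1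
  calc y * x = (x * y * x⁻¹) * x := by rw [h2]
    _ = x * y := by group

/-- Existence of a subgroup of index two when there is an irreducible cyclic normal subgroup. -/
theorem rq_index_two_of_irr [Finite V] [Nontrivial V] (hp2 : p ≠ 2)
    (hreg : ∀ v w : V, v ≠ 0 → w ≠ 0 → ∃! h : H, (h : V ≃ₗ[ZMod p] V) v = w)
    (A : Subgroup H) (hAn : A.Normal) (hAc : IsCyclic A)
    (hirr : ∀ W : Submodule (ZMod p) V, (∀ a ∈ A, ∀ v ∈ W, ((a : H) : V ≃ₗ[ZMod p] V) v ∈ W) →
      W = ⊥ ∨ W = ⊤) : ∃ N : Subgroup H, N.index = 2 := by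
  classical
  haveI := rq_finite (H := H)
  haveI hp2' : Fact (Nat.Prime 2) := ⟨Nat.prime_two⟩
  have hfree := reg_free hreg
  have hcle := rq_commutator_le_centralizer A hAn hAc
  let 𝒮 : Set (Module.End (ZMod p) V) :=
    Set.range fun n : A => (((n : H) : V ≃ₗ[ZMod p] V) : V →ₗ[ZMod p] V)
  have hirr' : ∀ W : Submodule (ZMod p) V, (∀ s ∈ 𝒮, ∀ v ∈ W, s v ∈ W) → W = ⊥ ∨ W = ⊤ := by
    intro W hW
    exact hirr W fun n hn v hv => hW _ ⟨⟨n, hn⟩, rfl⟩ v hv
  haveI : Module.Finite (ZMod p) V := Module.Finite.of_finite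
  have hCcomm : ∀ x ∈ Subgroup.centralizer (A : Set H), ∀ y ∈ Subgroup.centralizer (A : Set H),
      x * y = y * x := by
    intro x hx y hy
    have hcm : ∀ x ∈ Subgroup.centralizer (A : Set H), ∀ s ∈ 𝒮,
        Commute (((x : H) : V ≃ₗ[ZMod p] V) : V →ₗ[ZMod p] V) s := by
      rintro x hx _ ⟨n, rfl⟩
      have h1 := Subgroup.mem_centralizer_iff.mp hx n n.2
      ext v
      have h2 := congrArg (fun g : H => (g : V ≃ₗ[ZMod p] V) v) h1
      exact h2.symm
    have hc := (schur_comm hirr' (hcm x hx) (hcm y hy)).eq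
    apply Subtype.ext
    apply LinearEquiv.ext
    intro v
    exact congrArg (fun f : Module.End (ZMod p) V => f v) hc
  rcases rq_index_two_or_commutator (H := H) with h | h2el
  · exact h
  obtain ⟨T⟩ : Nonempty (Sylow 2 H) := inferInstance
  have hTC : ∀ x ∈ (T : Subgroup H), x ∈ Subgroup.centralizer (A : Set H) := by
    intro x hx
    obtain ⟨k, hk⟩ := T.isPGroup' ⟨x, hx⟩
    apply hcle
    apply h2el
    exact ⟨k, congrArg Subtype.val hk⟩
  have hTcomm : ∀ x y : (T : Subgroup H), x * y = y * x := by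
    intro x y
    apply Subtype.ext
    exact hCcomm _ (hTC _ x.2) _ (hTC _ y.2)
  have hTcyc : IsCyclic (T : Subgroup H) := by
    rcases rq_cyc_quat hfree T T.isPGroup' with h | ⟨n, ⟨e⟩⟩
    · exact h
    · rcases n with _ | n
      · haveI := rq_q1_cyclic
        have e' : (T : Subgroup H) ≃* QuaternionGroup 1 := e
        exact isCyclic_of_surjective e'.symm e'.symm.surjective
      · exfalso
        apply rq_q_noncomm n
        intro x y
        have h1 := hTcomm (e.symm x) (e.symm y)
        apply e.symm.injective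
        rw [map_mul, map_mul, h1]
  obtain ⟨g, hg⟩ := hTcyc.exists_generator
  have hgo : orderOf ((g : (T : Subgroup H)) : H) = Nat.card (T : Subgroup H) := by
    rw [Subgroup.orderOf_coe]
    exact orderOf_eq_card_of_forall_mem_zpowers hg
  obtain ⟨z, hz1, hz2⟩ := rq_exists_invol (H := H) hp2 hreg
  have h2H : 2 ∣ Nat.card H := by
    have hz3 : orderOf z = 2 := orderOf_eq_prime (by rw [pow_two, hz2]) hz1
    rw [← hz3]
    exact orderOf_dvd_natCard z
  have hidx : ¬ 2 ∣ (T : Subgroup H).index := T.not_dvd_index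
  have hcardH : Nat.card H = Nat.card (T : Subgroup H) * (T : Subgroup H).index :=
    (Subgroup.card_mul_index (T : Subgroup H)).symm
  have hTeven : Even (Nat.card (T : Subgroup H)) := by
    rw [even_iff_two_dvd]
    rw [hcardH] at h2H
    exact (Nat.Prime.dvd_mul Nat.prime_two).mp h2H |>.resolve_right hidx
  obtain ⟨N, hN, -⟩ := zf_index_two_char ((g : (T : Subgroup H)) : H) (by rw [hgo]; exact hTeven)
    (T : Subgroup H).index (by rw [hgo]; exact hcardH) (Nat.not_even_iff_odd.mp (by
      rw [even_iff_two_dvd]; exact hidx))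
  exact ⟨N, hN⟩

/-- Non-abelian nilpotent groups have a non-abelian Sylow subgroup. -/
lemma rq_exists_sylow {X : Type*} [Group X] [Finite X] (hnil : Group.IsNilpotent X)
    (hna : ¬ ∀ x y : X, x * y = y * x) :
    ∃ (q : ℕ) (_ : Fact q.Prime) (P : Sylow q X), (P : Subgroup X).Normal ∧
      ¬ ∀ x y : (P : Subgroup X), x * y = y * x := by
  classical
  have h := (Group.isNilpotent_of_finite_tfae (G := X)).out 0 3
  have h4 := (Group.isNilpotent_of_finite_tfae (G := X)).out 0 4
  by_contra hcon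
  push Not at hcon
  obtain ⟨e⟩ := h4.mp hnil
  apply hna
  intro x y
  apply e.symm.injective
  rw [map_mul, map_mul]
  funext q P
  have hf : Fact (q : ℕ).Prime := ⟨Nat.prime_of_mem_primeFactors q.2⟩
  exact hcon (q : ℕ) hf P (h.mp hnil (q : ℕ) hf P) _ _

/-- A minimal non-abelian normal subgroup which is not perfect is the quaternion group. -/
theorem rq_nonperfect_quat [Finite V] [Nontrivial V]
    (hfree : ∀ (h : H) (v : V), v ≠ 0 → (h : V ≃ₗ[ZMod p] V) v = v → h = 1)
    (A N : Subgroup H) (hAn : A.Normal) (hAc : IsMulCommutative A)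
    (hAmax : ∀ B : Subgroup H, B.Normal → IsMulCommutative B → A ≤ B → B = A)
    (hNn : N.Normal) (hNle : N ≤ Subgroup.centralizer (A : Set H)) (hNna : ¬ IsMulCommutative N)
    (hNmin : ∀ M : Subgroup H, M.Normal → M ≤ N → ¬ IsMulCommutative M → M = N)
    (hnp : ⁅N, N⁆ ≠ N) : Nonempty (N ≃* QuaternionGroup 2) := by
  classical
  haveI := rq_finite (H := H)
  haveI := hNn
  haveI hp2' : Fact (Nat.Prime 2) := ⟨Nat.prime_two⟩
  set D : Subgroup H := ⁅N, N⁆ with hD
  have hDn : D.Normal := Subgroup.commutator_normal N N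
  have hDle : D ≤ N := Subgroup.commutator_le_left N N
  have hDc : IsMulCommutative D := by
    by_contra h
    exact hnp (hNmin D hDn hDle h)
  haveI := hDn
  have hNA : ∀ n ∈ N, ∀ a ∈ A, n * a = a * n := by
    intro n hn a ha
    exact (Subgroup.mem_centralizer_iff.mp (hNle hn) a ha).symm
  have hDA : D ≤ A := by
    have hBn : (D ⊔ A).Normal := Subgroup.sup_normal D A
    have hBc : IsMulCommutative (D ⊔ A : Subgroup H) := by
      refine ⟨⟨fun x y => Subtype.ext ?_⟩⟩
      have hx : (x : H) ∈ ((D ⊔ A : Subgroup H) : Set H) := x.2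
      have hy : (y : H) ∈ ((D ⊔ A : Subgroup H) : Set H) := y.2
      rw [Subgroup.mul_normal] at hx hy
      obtain ⟨d, hd, a, ha, hda⟩ := Set.mem_mul.mp hx
      obtain ⟨d', hd', a', ha', hda'⟩ := Set.mem_mul.mp hy
      change (x : H) * y = y * x
      rw [← hda, ← hda']
      have c1 : Commute d d' := congrArg Subtype.val (hDc.is_comm.comm ⟨d, hd⟩ ⟨d', hd'⟩)
      have c2 : Commute a a' := congrArg Subtype.val (hAc.is_comm.comm ⟨a, ha⟩ ⟨a', ha'⟩)
      have c3 : Commute d a' := hNA d (hDle hd) a' ha'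
      have c4 : Commute a d' := (hNA d' (hDle hd') a ha).symm
      exact Commute.mul_left (Commute.mul_right c1 c3) (Commute.mul_right c4 c2)
    have h1 := hAmax _ hBn hBc le_sup_right
    rw [← h1]
    exact le_sup_left
  have hNcentral : ∀ x y z : N, ⁅x, y⁆ * z = z * ⁅x, y⁆ := by
    intro x y z
    have h1 : ((⁅x, y⁆ : N) : H) ∈ D := by
      have : ((⁅x, y⁆ : N) : H) = ⁅(x : H), (y : H)⁆ := rfl
      rw [this]
      exact Subgroup.commutator_mem_commutator x.2 y.2
    exact Subtype.ext (hNA z z.2 _ (hDA h1)).symm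
  have hnil : Group.IsNilpotent N := by
    rw [nilpotent_iff_lowerCentralSeries]
    refine ⟨2, ?_⟩
    rw [Subgroup.lowerCentralSeries_succ, Subgroup.top_lowerCentralSeries_one,
      Subgroup.commutator_eq_bot_iff_le_centralizer]
    intro x hx
    rw [Subgroup.mem_centralizer_iff]
    intro g _
    have h1 : (x : H) ∈ D := by
      have h2 := Subgroup.map_subtype_commutator N
      rw [hD, ← h2]
      exact ⟨x, hx, rfl⟩
    exact Subtype.ext (hNA g g.2 _ (hDA h1))
  have hna' : ¬ ∀ x y : N, x * y = y * x := fun h => hNna ⟨⟨h⟩⟩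
  obtain ⟨q, hq, P, hPn, hPna⟩ := rq_exists_sylow hnil hna'
  haveI := hq
  have hPc : (P : Subgroup N).Characteristic := Sylow.characteristic_of_normal P hPn
  have hMn : ((P : Subgroup N).map N.subtype).Normal := inferInstance
  let M : Subgroup H := (P : Subgroup N).map N.subtype
  have hMle : M ≤ N := by
    rintro _ ⟨x, -, rfl⟩
    exact x.2
  have hMna : ¬ IsMulCommutative M := by
    intro h
    apply hPna
    intro x y
    have h1 := h.is_comm.comm ⟨((x : N) : H), ⟨x, x.2, rfl⟩⟩ ⟨((y : N) : H), ⟨y, y.2, rfl⟩⟩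
    apply Subtype.ext
    apply Subtype.ext
    have h2 := congrArg Subtype.val h1
    exact h2
  have hMN : M = N := hNmin M hMn hMle hMna
  have hNq : IsPGroup q N := by
    intro x
    have hx : (x : H) ∈ M := by rw [hMN]; exact x.2
    obtain ⟨y, hy, hyx⟩ := hx
    have hyx' : y = x := Subtype.ext hyx
    subst hyx'
    obtain ⟨k, hk⟩ := P.isPGroup' ⟨y, hy⟩
    exact ⟨k, congrArg Subtype.val hk⟩
  by_cases hq2 : q = 2
  · subst hq2
    rcases rq_cyc_quat hfree N hNq with h | ⟨n, ⟨e⟩⟩
    · exfalso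
      letI := h
      apply hna'
      exact fun x y => (IsCyclic.isMulCommutative (α := N)).is_comm.comm x y
    · have hn1 : n ≤ 1 := by
        apply rq_q_class n
        intro x y z
        have h1 := hNcentral (e.symm x) (e.symm y) (e.symm z)
        apply e.symm.injective
        rw [map_mul, map_mul, map_commutatorElement, h1]
      have hn0 : n ≠ 0 := by
        rintro rfl
        haveI := rq_q1_cyclic
        have e' : N ≃* QuaternionGroup 1 := e
        haveI : IsCyclic N := isCyclic_of_surjective e'.symm e'.symm.surjective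
        apply hna'
        exact fun x y => (IsCyclic.isMulCommutative (α := N)).is_comm.comm x y
      have hn : n = 1 := by omega
      subst hn
      exact ⟨e⟩
  · exfalso
    haveI := rq_cyc_odd hfree hq.out hq2 N hNq
    apply hna'
    exact fun x y => (IsCyclic.isMulCommutative (α := N)).is_comm.comm x y

set_option maxRecDepth 100000 in
lemma rq_q8_ii : (a 1 : QuaternionGroup 2) * a 1 = a 2 := by decide

set_option maxRecDepth 100000 in
lemma rq_q8_jj : (xa 0 : QuaternionGroup 2) * xa 0 = a 2 := by decide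

set_option maxRecDepth 100000 in
lemma rq_q8_ij : (a 1 : QuaternionGroup 2) * xa 0 = a 2 * (xa 0 * a 1) := by decide

set_option maxRecDepth 100000 in
lemma rq_q8_words : ∀ x : QuaternionGroup 2, x = 1 ∨ x = a 1 ∨ x = a 1 * a 1 ∨ x = a 1 * a 1 * a 1 ∨
    x = xa 0 ∨ x = a 1 * xa 0 ∨ x = a 1 * a 1 * xa 0 ∨ x = a 1 * a 1 * a 1 * xa 0 := by decide

/-- The structure in the non-perfect case. -/
theorem rq_structure [Finite V] [Nontrivial V]
    (hreg : ∀ v w : V, v ≠ 0 → w ≠ 0 → ∃! h : H, (h : V ≃ₗ[ZMod p] V) v = w)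
    (hI : ∀ A : Subgroup H, A.Normal → IsCyclic A → ∃ W : Submodule (ZMod p) V, W ≠ ⊥ ∧ W ≠ ⊤ ∧
      ∀ a ∈ A, ∀ v ∈ W, ((a : H) : V ≃ₗ[ZMod p] V) v ∈ W)
    (A N : Subgroup H) (hAn : A.Normal) (hAc : IsMulCommutative A)
    (hAmax : ∀ B : Subgroup H, B.Normal → IsMulCommutative B → A ≤ B → B = A)
    (hNn : N.Normal) (hNle : N ≤ Subgroup.centralizer (A : Set H)) (hNna : ¬ IsMulCommutative N)
    (hNmin : ∀ M : Subgroup H, M.Normal → M ≤ N → ¬ IsMulCommutative M → M = N)
    (hnp : ⁅N, N⁆ ≠ N) :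
    p ≠ 2 ∧ Nat.card V = p ^ 2 ∧ Nat.card A ∣ p - 1 ∧ A.index ∣ 24 ∧ (p + 1) ∣ 24 ∧
      Subgroup.centralizer (N : Set H) = A ∧ Nonempty (N ≃* QuaternionGroup 2) := by
  classical
  haveI := rq_finite (H := H)
  haveI := hNn
  have hfree := reg_free hreg
  have hp : p.Prime := Fact.out
  obtain ⟨e⟩ := rq_nonperfect_quat hfree A N hAn hAc hAmax hNn hNle hNna hNmin hnp
  obtain ⟨hirr, hcen⟩ := Cfsg.Agent.S0687.result H hreg hI A hAn hAc hAmax N hNn hNle hNna hNmin
  haveI : Module.Finite (ZMod p) V := Module.Finite.of_finite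
  have hVcard : Nat.card V = p ^ Module.finrank (ZMod p) V := by
    rw [Module.natCard_eq_pow_finrank (K := ZMod p), Nat.card_zmod]
  set f := Module.finrank (ZMod p) V with hf
  have hf0 : f ≠ 0 := by
    rintro h0
    rw [h0, pow_zero] at hVcard
    have := Finite.one_lt_card (α := V)
    omega
  have hHcard := rq_card hreg
  have hNcard : Nat.card N = 8 := by
    rw [Nat.card_congr e.toEquiv, Nat.card_eq_fintype_card, QuaternionGroup.card]
  have hp2 : p ≠ 2 := by
    rintro rfl
    have h1 : 8 ∣ Nat.card H := by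
      rw [← hNcard]
      exact Subgroup.card_subgroup_dvd_card N
    have h2 : 2 ∣ Nat.card V := by
      rw [hVcard]
      exact dvd_pow_self 2 hf0
    omega
  let i : N := e.symm (a 1)
  let j : N := e.symm (xa 0)
  let z : N := e.symm (a 2)
  have hii : i * i = z := by
    simp only [i, z]
    rw [← map_mul, rq_q8_ii]
  have hjj : j * j = z := by
    simp only [j, z]
    rw [← map_mul, rq_q8_jj]
  have hij : i * j = z * (j * i) := by
    simp only [i, j, z]
    rw [← map_mul, ← map_mul, ← map_mul, rq_q8_ij]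
  have hz1 : ((z : N) : H) ≠ 1 := by
    intro h
    have h1 : z = 1 := Subtype.ext h
    have h2 : (a 2 : QuaternionGroup 2) = 1 := by
      apply e.symm.injective
      rw [map_one]
      exact h1
    exact rq_q8_a2ne h2
  have hz2 : ((z : N) : H) * z = 1 := by
    have h1 : z * z = 1 := by
      simp only [z]
      rw [← map_mul, rq_q8_a2, map_one]
    exact congrArg Subtype.val h1
  have hzneg := rq_neg hfree hz1 hz2
  let I : V →ₗ[ZMod p] V := (((i : N) : H) : V ≃ₗ[ZMod p] V).toLinearMap
  let J : V →ₗ[ZMod p] V := (((j : N) : H) : V ≃ₗ[ZMod p] V).toLinearMap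
  have hIa : ∀ v, I v = (((i : N) : H) : V ≃ₗ[ZMod p] V) v := fun _ => rfl
  have hJa : ∀ v, J v = (((j : N) : H) : V ≃ₗ[ZMod p] V) v := fun _ => rfl
  have hmul : ∀ (x y : N) (v : V), (((x * y : N) : H) : V ≃ₗ[ZMod p] V) v =
      (((x : N) : H) : V ≃ₗ[ZMod p] V) ((((y : N) : H) : V ≃ₗ[ZMod p] V) v) := fun _ _ _ => rfl
  have hI' : ∀ v, I (I v) = -v := by
    intro v
    rw [hIa, hIa, ← hmul, hii, hzneg]
  have hJ' : ∀ v, J (J v) = -v := by
    intro v
    rw [hJa, hJa, ← hmul, hjj, hzneg]
  have hIJ' : ∀ v, I (J v) = -J (I v) := by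
    intro v
    rw [hIa, hJa, ← hmul, hij, hmul, hzneg, hmul]
    rfl
  have hirr' : ∀ W : Submodule (ZMod p) V, (∀ v ∈ W, I v ∈ W) → (∀ v ∈ W, J v ∈ W) →
      W = ⊥ ∨ W = ⊤ := by
    intro W hWI hWJ
    apply hirr W
    intro n hn v hv
    have h1 : ∀ x : QuaternionGroup 2, (∀ v ∈ W, (((e.symm x : N) : H) : V ≃ₗ[ZMod p] V) v ∈ W) →
        ∀ v ∈ W, (((e.symm (a 1 * x) : N) : H) : V ≃ₗ[ZMod p] V) v ∈ W := by
      intro x hx v hv
      rw [map_mul, hmul]
      exact hWI _ (hx v hv)
    have h0 : ∀ v ∈ W, (((e.symm (1 : QuaternionGroup 2) : N) : H) : V ≃ₗ[ZMod p] V) v ∈ W := by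
      intro v hv
      rw [map_one]
      exact hv
    have hj0 : ∀ v ∈ W, (((e.symm (xa 0 : QuaternionGroup 2) : N) : H) : V ≃ₗ[ZMod p] V) v ∈ W :=
      fun v hv => hWJ v hv
    have hall : ∀ x : QuaternionGroup 2, ∀ v ∈ W,
        (((e.symm x : N) : H) : V ≃ₗ[ZMod p] V) v ∈ W := by
      intro x
      rcases rq_q8_words x with h | h | h | h | h | h | h | h <;> rw [h]
      · exact h0
      · have := h1 1 h0
        rwa [mul_one] at this
      · have h2 := h1 1 h0
        rw [mul_one] at h2
        exact h1 _ h2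
      · have h2 := h1 1 h0
        rw [mul_one] at h2
        have h3 := h1 _ h2
        have h4 := h1 _ h3
        rwa [← mul_assoc] at h4
      · exact hj0
      · exact h1 _ hj0
      · have h2 := h1 _ (h1 _ hj0)
        rwa [← mul_assoc] at h2
      · have h2 := h1 _ (h1 _ (h1 _ hj0))
        rwa [← mul_assoc, ← mul_assoc] at h2
    have := hall (e ⟨n, hn⟩) v hv
    rwa [MulEquiv.symm_apply_apply] at this
  obtain ⟨v, hv, hspan, hscal⟩ := rq_linear hp2 I J hI' hJ' hIJ' hirr'
  have hle : Nat.card V ≤ p ^ 2 := by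
    let φ : ZMod p × ZMod p → V := fun st => st.1 • v + st.2 • I (J v)
    have hφ : Function.Surjective φ := by
      intro x
      obtain ⟨s, t, hst⟩ := hspan x
      exact ⟨(s, t), hst⟩
    have := Nat.card_le_card_of_surjective φ hφ
    rwa [Nat.card_prod, Nat.card_zmod, ← pow_two] at this
  have hfe : Even f := by
    let X : AddMonoid.End V := I.toAddMonoidHom
    let Y : AddMonoid.End V := J.toAddMonoidHom
    have hXb : Function.Bijective X := (((i : N) : H) : V ≃ₗ[ZMod p] V).bijective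
    have hYb : Function.Bijective Y := (((j : N) : H) : V ≃ₗ[ZMod p] V).bijective
    exact zf_even_aux hp2 hVcard X Y hXb hYb hIJ'
  have hf2 : f = 2 := by
    have h1 : f ≤ 2 := by
      rw [hVcard] at hle
      exact (Nat.pow_le_pow_iff_right hp.one_lt).mp hle
    obtain ⟨m, hm⟩ := hfe
    omega
  have hV2 : Nat.card V = p ^ 2 := by rw [hVcard, hf2]
  have hscal' : ∀ c : H, c ∈ Subgroup.centralizer (N : Set H) → ∃ l : ZMod p, ∀ x,
      (c : V ≃ₗ[ZMod p] V) x = l • x := by
    intro c hc
    have hcomm : ∀ n : N, ∀ x, (c : V ≃ₗ[ZMod p] V) (((n : H) : V ≃ₗ[ZMod p] V) x) =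
        ((n : H) : V ≃ₗ[ZMod p] V) ((c : V ≃ₗ[ZMod p] V) x) := by
      intro n x
      have h1 := Subgroup.mem_centralizer_iff.mp hc n n.2
      have h2 := congrArg (fun g : H => (g : V ≃ₗ[ZMod p] V) x) h1
      exact h2.symm
    exact hscal (c : V ≃ₗ[ZMod p] V).toLinearMap (hcomm i) (hcomm j)
  have hAdvd : Nat.card A ∣ p - 1 := by
    have hl : ∀ b : A, ∃ l : (ZMod p)ˣ, ∀ x, ((b : H) : V ≃ₗ[ZMod p] V) x = (l : ZMod p) • x := by
      intro b
      have hb : (b : H) ∈ Subgroup.centralizer (N : Set H) := by rw [hcen]; exact b.2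
      obtain ⟨l, hl⟩ := hscal' _ hb
      have hl0 : l ≠ 0 := by
        rintro rfl
        have h1 := hl v
        rw [zero_smul] at h1
        exact hv ((LinearEquiv.map_eq_zero_iff _).mp h1)
      exact ⟨Units.mk0 l hl0, hl⟩
    choose l hl using hl
    have hcancel : ∀ s t : ZMod p, s • v = t • v → s = t := fun s t h =>
      smul_left_injective (ZMod p) hv h
    let χ : A →* (ZMod p)ˣ := MonoidHom.mk' l (by
      intro b c
      apply Units.ext
      apply hcancel
      rw [← hl, Units.val_mul, mul_smul, ← hl, ← hl]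
      rfl)
    have hχ : Function.Injective χ := by
      intro b c hbc
      have h1 : l b = l c := hbc
      apply Subtype.ext
      apply Subtype.ext
      apply LinearEquiv.ext
      intro x
      rw [hl, hl, h1]
    have h1 := Subgroup.card_dvd_of_injective χ hχ
    rwa [Nat.card_eq_fintype_card (α := (ZMod p)ˣ), ZMod.card_units p] at h1
  have hidx : A.index ∣ 24 := by
    let g : H →* MulAut N := MulAut.conjNormal
    have hker : g.ker = A := by
      rw [← hcen]
      ext x
      rw [MonoidHom.mem_ker, Subgroup.mem_centralizer_iff]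
      constructor
      · intro h n hn
        have h1 : g x ⟨n, hn⟩ = ⟨n, hn⟩ := by rw [h]; rfl
        have h2 : x * n * x⁻¹ = n := congrArg Subtype.val h1
        calc n * x = (x * n * x⁻¹) * x := by rw [h2]
          _ = x * n := by group
      · intro h
        apply MulEquiv.ext
        intro n
        apply Subtype.ext
        change x * n * x⁻¹ = n
        rw [← h n n.2]
        group
    rw [← hker, Subgroup.index_ker]
    refine (Subgroup.card_subgroup_dvd_card g.range).trans ?_
    rw [Nat.card_congr (MulAut.congr e).toEquiv]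
    exact rq_q8_aut_dvd
  have hnum : (p + 1) ∣ 24 := by
    have h1 := A.card_mul_index
    obtain ⟨m, hm⟩ := hAdvd
    obtain ⟨q, hq⟩ : ∃ q, p = q + 1 := ⟨p - 1, by have := hp.pos; omega⟩
    have hc : 0 < Nat.card A := Nat.card_pos
    have h2 : Nat.card A * A.index + 1 = (q + 1) ^ 2 := by
      rw [h1, hHcard, hV2, hq]
    have hm' : q = Nat.card A * m := by
      have h5 : p - 1 = q := by omega
      rw [h5] at hm
      exact hm
    have h3 : Nat.card A * A.index = Nat.card A * (m * (q + 1 + 1)) := by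
      have : (q + 1) ^ 2 = q * (q + 2) + 1 := by ring
      rw [this] at h2
      have h4 : Nat.card A * A.index = q * (q + 2) := by omega
      rw [h4]
      nth_rw 1 [hm']
      ring
    have h4 := Nat.eq_of_mul_eq_mul_left hc h3
    rw [hq]
    refine dvd_trans ?_ hidx
    rw [h4]
    exact Dvd.intro_left _ rfl
  exact ⟨hp2, hV2, hAdvd, hidx, hnum, hcen, ⟨e⟩⟩

end Cfsg.Agent.Lib.Perm
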