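import Mathlib
import Cfsg.Agent.Lib.Perm.RegQuat2

/-!
Linear groups regular on the non-zero vectors: existence of subgroups of index two, and the soluble
exceptional degrees.
-/

set_option autoImplicit false
set_option linter.style.haveILetI false

namespace Cfsg.Agent.Lib.Perm

open QuaternionGroup Cfsg.Agent.Lib.OddLocal
open scoped commutatorElement

variable {p : ℕ} [Fact p.Prime] {V : Type*} [AddCommGroup V] [Module (ZMod p) V]
variable {H : Subgroup (V ≃ₗ[ZMod p] V)}

lemma rq_numeric_nine : ∀ r : ℕ, r < 24 → 2 ≤ r → (r + 1) ∣ 24 → 9 ∣ r ^ 2 - 1 → False := by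
  decide

/-- The choice of `A` and `N`. -/
lemma rq_select [Finite V]
    (hreg : ∀ v w : V, v ≠ 0 → w ≠ 0 → ∃! h : H, (h : V ≃ₗ[ZMod p] V) v = w)
    (hI : ∀ A : Subgroup H, A.Normal → IsCyclic A → ∃ W : Submodule (ZMod p) V, W ≠ ⊥ ∧ W ≠ ⊤ ∧
      ∀ a ∈ A, ∀ v ∈ W, ((a : H) : V ≃ₗ[ZMod p] V) v ∈ W) :
    ∃ A N : Subgroup H, A.Normal ∧ IsMulCommutative A ∧
      (∀ B : Subgroup H, B.Normal → IsMulCommutative B → A ≤ B → B = A) ∧
      N.Normal ∧ N ≤ Subgroup.centralizer (A : Set H) ∧ ¬ IsMulCommutative N ∧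
      (∀ M : Subgroup H, M.Normal → M ≤ N → ¬ IsMulCommutative M → M = N) := by
  classical
  haveI := rq_finite (H := H)
  obtain ⟨A, hA⟩ := (Set.toFinite {M : Subgroup H | M.Normal ∧ IsMulCommutative M}).exists_maximal
    ⟨⊥, inferInstance, inferInstance⟩
  obtain ⟨hAn, hAc⟩ := hA.prop
  have hAmax : ∀ B : Subgroup H, B.Normal → IsMulCommutative B → A ≤ B → B = A := by
    intro B hB hBc hAB
    exact le_antisymm (hA.le_of_ge ⟨hB, hBc⟩ hAB) hAB
  obtain ⟨-, hCna⟩ := Cfsg.Agent.S0685.result H hreg hI A hAn hAc hAmax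
  haveI := hAn
  obtain ⟨N, hN⟩ := (Set.toFinite {M : Subgroup H | M.Normal ∧ M ≤ Subgroup.centralizer (A : Set H) ∧
    ¬ IsMulCommutative M}).exists_minimal ⟨Subgroup.centralizer (A : Set H), inferInstance, le_rfl, hCna⟩
  obtain ⟨hNn, hNle, hNna⟩ := hN.prop
  refine ⟨A, N, hAn, hAc, hAmax, hNn, hNle, hNna, ?_⟩
  intro M hMn hMle hMna
  exact le_antisymm hMle (hN.le_of_le ⟨hMn, hMle.trans hNle, hMna⟩ hMle)

/-- The existence of subgroups of index two if there is at most one subgroup of order three. -/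
theorem rq_index_two [Finite V] [Nontrivial V] (hp2 : p ≠ 2)
    (hreg : ∀ v w : V, v ≠ 0 → w ≠ 0 → ∃! h : H, (h : V ≃ₗ[ZMod p] V) v = w)
    (h3 : ∀ A B : Subgroup H, Nat.card A = 3 → Nat.card B = 3 → A = B) :
    ∃ N : Subgroup H, N.index = 2 := by
  classical
  haveI := rq_finite (H := H)
  have hfree := reg_free hreg
  have hp : p.Prime := Fact.out
  by_cases hI : ∀ A : Subgroup H, A.Normal → IsCyclic A → ∃ W : Submodule (ZMod p) V, W ≠ ⊥ ∧ W ≠ ⊤ ∧
      ∀ a ∈ A, ∀ v ∈ W, ((a : H) : V ≃ₗ[ZMod p] V) v ∈ W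
  · obtain ⟨A, N, hAn, hAc, hAmax, hNn, hNle, hNna, hNmin⟩ := rq_select hreg hI
    haveI := hAn
    by_cases hnp : ⁅N, N⁆ = N
    · exfalso
      have hne : N ≠ ⊥ := by
        rintro rfl
        apply hNna
        exact ⟨⟨fun x y => Subsingleton.elim _ _⟩⟩
      exact rq_perfect_absurd hfree N hne hnp h3
    · obtain ⟨-, hV2, hAdvd, hidx, hnum, hcen, ⟨e⟩⟩ :=
        rq_structure hreg hI A N hAn hAc hAmax hNn hNle hNna hNmin hnp
      have hHcard := rq_card hreg
      have hNcard : Nat.card N = 8 := by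
        rw [Nat.card_congr e.toEquiv, Nat.card_eq_fintype_card, QuaternionGroup.card]
      have hcardA := A.card_mul_index
      have hp3 : ¬ 3 ∣ A.index := by
        intro h3d
        haveI hp3' : Fact (Nat.Prime 3) := ⟨Nat.prime_three⟩
        have h3H : 3 ∣ Nat.card H := by
          rw [← hcardA]
          exact h3d.trans (Nat.dvd_mul_left _ _)
        obtain ⟨w, hw⟩ := exists_prime_orderOf_dvd_card' (G := H) 3 h3H
        let W := Subgroup.zpowers w
        have hWc : Nat.card W = 3 := by rw [Nat.card_zpowers, hw]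
        have hWconj : ∀ g : H, g * w * g⁻¹ ∈ W := by
          intro g
          let W' : Subgroup H := W.map (MulAut.conj g).toMonoidHom
          have hW'c : Nat.card W' = 3 := by
            rw [← hWc]
            exact Subgroup.card_map_of_injective (MulAut.conj g).injective
          have hWW : W' = W := h3 _ _ hW'c hWc
          rw [← hWW]
          exact ⟨w, Subgroup.mem_zpowers w, by simp [MulAut.conj_apply]⟩
        have hwN : w ∈ Subgroup.centralizer (N : Set H) := by
          rw [Subgroup.mem_centralizer_iff]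
          intro n hn
          have h1 : n * w * n⁻¹ * w⁻¹ ∈ W := W.mul_mem (hWconj n) (W.inv_mem (Subgroup.mem_zpowers w))
          have h2 : n * w * n⁻¹ * w⁻¹ ∈ N := by
            have h3 : n * w * n⁻¹ * w⁻¹ = n * (w * n⁻¹ * w⁻¹) := by group
            rw [h3]
            exact N.mul_mem hn (hNn.conj_mem _ (N.inv_mem hn) w)
          have h4 : orderOf (n * w * n⁻¹ * w⁻¹) ∣ 3 := by
            rw [← hWc]
            have := orderOf_dvd_natCard (⟨_, h1⟩ : W)
            rwa [Subgroup.orderOf_mk] at this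
          have h5 : orderOf (n * w * n⁻¹ * w⁻¹) ∣ 8 := by
            rw [← hNcard]
            have := orderOf_dvd_natCard (⟨_, h2⟩ : N)
            rwa [Subgroup.orderOf_mk] at this
          have h6 : orderOf (n * w * n⁻¹ * w⁻¹) ∣ 1 := by
            have := Nat.dvd_gcd h4 h5
            simpa using this
          have h7 : n * w * n⁻¹ * w⁻¹ = 1 := orderOf_eq_one_iff.mp (Nat.dvd_one.mp h6)
          have h8 : n * w * n⁻¹ = w := mul_inv_eq_one.mp h7
          calc n * w = (n * w * n⁻¹) * n := by group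
            _ = w * n := by rw [h8]
        rw [hcen] at hwN
        have h3A : 3 ∣ Nat.card A := by
          rw [← hw]
          have := orderOf_dvd_natCard (⟨w, hwN⟩ : A)
          rwa [Subgroup.orderOf_mk] at this
        have h9 : 9 ∣ Nat.card H := by
          rw [← hcardA]
          exact Nat.mul_dvd_mul h3A h3d
        have h10 : Nat.card H = p ^ 2 - 1 := by omega
        rw [h10] at h9
        have hple : p + 1 ≤ 24 := Nat.le_of_dvd (by norm_num) hnum
        have hp2' := hp.two_le
        have hplt : p < 24 := by omega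
        exact rq_numeric_nine p hplt hp2' hnum h9
      have hidx8 : A.index ∣ 8 := by
        have hc : Nat.Coprime A.index 3 := by
          apply Nat.Coprime.symm
          exact (Nat.Prime.coprime_iff_not_dvd Nat.prime_three).mpr hp3
        exact hc.dvd_of_dvd_mul_right (by simpa using hidx)
      have hpow8 : ∀ x : H, x ^ 8 ∈ A := by
        intro x
        obtain ⟨k, hk⟩ := hidx8
        rw [hk, pow_mul]
        exact A.pow_mem (Subgroup.pow_index_mem A x) k
      -- the odd part of `A`
      set e₂ := (Nat.card A).factorization 2 with he₂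
      set m := ordCompl[2] (Nat.card A) with hm
      have hAne : Nat.card A ≠ 0 := Nat.card_pos.ne'
      have hem : 2 ^ e₂ * m = Nat.card A := Nat.ordProj_mul_ordCompl_eq_self _ 2
      have hmodd : Nat.Coprime 2 m := Nat.coprime_ordCompl Nat.prime_two hAne
      have hAcomm : ∀ x ∈ A, ∀ y ∈ A, x * y = y * x := fun x hx y hy =>
        congrArg Subtype.val (hAc.is_comm.comm ⟨x, hx⟩ ⟨y, hy⟩)
      let M : Subgroup H :=
        { carrier := {x | x ∈ A ∧ x ^ m = 1}
          one_mem' := ⟨A.one_mem, one_pow m⟩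
          mul_mem' := by
            rintro x y ⟨hx, hx1⟩ ⟨hy, hy1⟩
            refine ⟨A.mul_mem hx hy, ?_⟩
            rw [(show Commute x y from hAcomm x hx y hy).mul_pow, hx1, hy1, one_mul]
          inv_mem' := by
            rintro x ⟨hx, hx1⟩
            exact ⟨A.inv_mem hx, by rw [inv_pow, hx1, inv_one]⟩ }
      have hMmem : ∀ x, x ∈ M ↔ x ∈ A ∧ x ^ m = 1 := fun x => Iff.rfl
      haveI hMn : M.Normal := by
        refine ⟨fun x hx g => ?_⟩
        obtain ⟨h1, h2⟩ := (hMmem x).mp hx
        refine (hMmem _).mpr ⟨hAn.conj_mem x h1 g, ?_⟩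
        rw [conj_pow, h2]
        group
      obtain ⟨z, hz1, hz2⟩ := rq_exists_invol (H := H) hp2 hreg
      have hMtop : M ≠ ⊤ := by
        intro h
        have h1 : z ∈ M := by rw [h]; trivial
        have h2 : z ^ m = 1 := ((hMmem z).mp h1).2
        have hz3 : orderOf z = 2 := orderOf_eq_prime (by rw [pow_two, hz2]) hz1
        have h4 : 2 ∣ m := by
          rw [← hz3]
          exact orderOf_dvd_of_pow_eq_one h2
        have := Nat.Coprime.eq_one_of_dvd hmodd h4
        omega
      refine rq_index_two_of_pquot M (fun x => ⟨3 + e₂, ?_⟩) hMtop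
      have hx8 := hpow8 x
      have e1 : x ^ (2 ^ (3 + e₂)) = (x ^ 8) ^ (2 ^ e₂) := by
        rw [pow_add, pow_mul]
        norm_num
      rw [e1]
      refine (hMmem _).mpr ⟨A.pow_mem hx8 _, ?_⟩
      rw [← pow_mul, hem]
      have := pow_card_eq_one' (x := (⟨x ^ 8, hx8⟩ : A))
      exact congrArg Subtype.val this
  · push Not at hI
    obtain ⟨A, hAn, hAc, hAW⟩ := hI
    apply rq_index_two_of_irr hp2 hreg A hAn hAc
    intro W hW
    by_contra hcon
    push Not at hcon
    obtain ⟨a, ha, v, hv, hav⟩ := hAW W hcon.1 hcon.2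
    exact hav (hW a ha v hv)

lemma rq_zmod3 : ∀ μ : ZMod 3, μ * μ + 1 ≠ 0 := by decide

lemma rq_numeric_values (r : ℕ) (hr : r.Prime) (hd : (r + 1) ∣ 24) (h2 : r ≠ 2) (h3 : r ≠ 3) :
    r = 5 ∨ r = 7 ∨ r = 11 ∨ r = 23 := by
  have h1 : r + 1 ≤ 24 := Nat.le_of_dvd (by norm_num) hd
  have h4 : r < 24 := by omega
  interval_cases r <;> first
    | omega
    | (exfalso; revert hd; decide)
    | (exfalso; revert hr; norm_num)

lemma rq_line [Finite V] (hV2 : Nat.card V = p ^ 2) {x y : V} (hx : x ≠ 0)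
    (W : Submodule (ZMod p) V) (hxW : x ∈ W) (hyW : y ∈ W) (hW : W ≠ ⊤) : ∃ μ : ZMod p, y = μ • x := by
  classical
  by_contra hno
  push Not at hno
  let φ : ZMod p × ZMod p → V := fun st => st.1 • x + st.2 • y
  have hinj : Function.Injective φ := by
    rintro ⟨s, t⟩ ⟨s', t'⟩ h
    have h1 : (s - s') • x + (t - t') • y = 0 := by
      have h2 : s • x + t • y = s' • x + t' • y := h
      have : (s - s') • x + (t - t') • y = (s • x + t • y) - (s' • x + t' • y) := by module
      rw [this, h2, sub_self]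
    by_cases ht : t - t' = 0
    · rw [ht, zero_smul, add_zero] at h1
      have hs : s - s' = 0 := (smul_eq_zero.mp h1).resolve_right hx
      exact Prod.ext (sub_eq_zero.mp hs) (sub_eq_zero.mp ht)
    · exfalso
      apply hno (-(s - s') / (t - t'))
      have h3 : (t - t') • y = (-(s - s')) • x := by
        have : (t - t') • y = -((s - s') • x) := eq_neg_of_add_eq_zero_right h1
        rw [this, neg_smul]
      calc y = (t - t')⁻¹ • ((t - t') • y) := by rw [smul_smul, inv_mul_cancel₀ ht, one_smul]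
        _ = (-(s - s') / (t - t')) • x := by
          rw [h3, smul_smul]
          congr 1
          field_simp
  have hcard : Nat.card V ≤ Nat.card (ZMod p × ZMod p) := by
    rw [hV2, Nat.card_prod, Nat.card_zmod, pow_two]
  have hbij := hinj.bijective_of_nat_card_le hcard
  apply hW
  rw [eq_top_iff]
  intro v _
  obtain ⟨⟨s, t⟩, hst⟩ := hbij.2 v
  rw [← hst]
  exact W.add_mem (W.smul_mem _ hxW) (W.smul_mem _ hyW)

/-- The soluble exceptional degrees. -/
theorem rq_soluble_degrees [Finite V]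
    (hreg : ∀ v w : V, v ≠ 0 → w ≠ 0 → ∃! h : H, (h : V ≃ₗ[ZMod p] V) v = w)
    (hI : ∀ A : Subgroup H, A.Normal → IsCyclic A → ∃ W : Submodule (ZMod p) V, W ≠ ⊥ ∧ W ≠ ⊤ ∧
      ∀ a ∈ A, ∀ v ∈ W, ((a : H) : V ≃ₗ[ZMod p] V) v ∈ W)
    (hsolv : Group.IsSolvable H) :
    Nat.card V = 25 ∨ Nat.card V = 49 ∨ Nat.card V = 121 ∨ Nat.card V = 529 := by
  classical
  haveI := rq_finite (H := H)
  have hfree := reg_free hreg
  have hp : p.Prime := Fact.out
  haveI : Nontrivial V := by
    obtain ⟨W, hW, -, -⟩ := hI ⊥ inferInstance inferInstance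
    exact (Submodule.ne_bot_iff W).mp hW |>.elim fun x hx => ⟨⟨x, 0, hx.2⟩⟩
  obtain ⟨A, N, hAn, hAc, hAmax, hNn, hNle, hNna, hNmin⟩ := rq_select hreg hI
  have hne : N ≠ ⊥ := by
    rintro rfl
    apply hNna
    exact ⟨⟨fun x y => Subsingleton.elim _ _⟩⟩
  have hnp : ⁅N, N⁆ ≠ N := (Group.IsSolvable.commutator_lt_of_ne_bot hne).ne
  obtain ⟨hp2, hV2, -, -, hnum, -, ⟨e⟩⟩ :=
    rq_structure hreg hI A N hAn hAc hAmax hNn hNle hNna hNmin hnp
  have hp3 : p ≠ 3 := by
    rintro rfl
    have hHcard := rq_card hreg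
    have hH8 : Nat.card H = 8 := by
      rw [hV2] at hHcard
      omega
    let i : N := e.symm (a 1)
    let z : N := e.symm (a 2)
    have hii : i * i = z := by
      simp only [i, z]
      rw [← map_mul, rq_q8_ii]
    have hz1 : ((z : N) : H) ≠ 1 := by
      intro h
      have h1 : z = 1 := Subtype.ext h
      have h2 : (a 2 : QuaternionGroup 2) = 1 := by
        apply e.symm.injective
        rw [map_one]
        exact h1
      exact rq_q8_a2ne h2
    have hz2 : ((z : N) : H) * z = 1 := by
      have h1 : z * z = 1 := by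
        simp only [z]
        rw [← map_mul, rq_q8_a2, map_one]
      exact congrArg Subtype.val h1
    have hzneg := rq_neg hfree hz1 hz2
    have hord : orderOf ((i : N) : H) = 4 := by
      rw [Subgroup.orderOf_coe, show i = e.symm (a 1) from rfl, MulEquiv.orderOf_eq,
        QuaternionGroup.orderOf_a_one]
    let T : Subgroup H := Subgroup.zpowers ((i : N) : H)
    have hTc : Nat.card T = 4 := by rw [Nat.card_zpowers, hord]
    have hTi : T.index = 2 := by
      have h1 := T.card_mul_index
      rw [hTc, hH8] at h1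
      omega
    have hTn : T.Normal := Subgroup.normal_of_index_eq_two hTi
    obtain ⟨W, hW0, hWt, hWi⟩ := hI T hTn inferInstance
    obtain ⟨x, hxW, hx0⟩ := (Submodule.ne_bot_iff W).mp hW0
    have hyW := hWi _ (Subgroup.mem_zpowers _) x hxW
    obtain ⟨μ, hμ⟩ := rq_line hV2 hx0 W hxW hyW hWt
    have h1 : ((i : N) : H).1 (((i : N) : H).1 x) = -x := by
      have : ((i * i : N) : H).1 x = ((i : N) : H).1 (((i : N) : H).1 x) := rfl
      rw [← this, hii, hzneg]
    rw [hμ, map_smul, hμ, smul_smul] at h1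
    have h2 : (μ * μ + 1) • x = 0 := by
      rw [add_smul, h1, one_smul, neg_add_cancel]
    have h3 : μ * μ + 1 = 0 := (smul_eq_zero.mp h2).resolve_right hx0
    exact rq_zmod3 μ h3
  rcases rq_numeric_values p hp hnum hp2 hp3 with h | h | h | h <;> rw [hV2, h]
  · norm_num
  · right; left; norm_num
  · right; right; left; norm_num
  · right; right; right; norm_num

end Cfsg.Agent.Lib.Perm
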