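import Mathlib
import Cfsg.Agent.Lib.Perm.RegQuat3
import Cfsg.Agent.Lib.Perm.ZFSharp

/-!
Sharply triply transitive groups of even degree: the two-point stabiliser has a subgroup of index two
invariant under the element interchanging the two points.
-/

set_option autoImplicit false
set_option linter.style.haveILetI false

namespace Cfsg.Agent.Lib.Perm

open MulAction

universe u v

/-- An invariant subgroup of index two. -/
lemma rq_invariant_index_two {E : Type*} [Group E] [Finite E] (σ : E →* E) (hσ : ∀ x, σ (σ x) = x)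
    (N₁ : Subgroup E) (h1 : N₁.index = 2) : ∃ N : Subgroup E, N.index = 2 ∧ ∀ x ∈ N, σ x ∈ N := by
  classical
  have hsurj : Function.Surjective σ := fun x => ⟨σ x, hσ x⟩
  let N₂ : Subgroup E := N₁.comap σ
  have h2 : N₂.index = 2 := by rw [Subgroup.index_comap_of_surjective _ hsurj, h1]
  have hmem₂ : ∀ x, x ∈ N₂ ↔ σ x ∈ N₁ := fun x => Iff.rfl
  by_cases heq : N₂ = N₁
  · refine ⟨N₁, h1, fun x hx => ?_⟩
    rw [← hmem₂, heq]
    exact hx
  obtain ⟨c, hc1, hc2⟩ : ∃ c, c ∈ N₁ ∧ c ∉ N₂ := by
    by_contra hcon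
    push Not at hcon
    apply heq
    have hle : N₁ ≤ N₂ := hcon
    symm
    apply Subgroup.eq_of_le_of_card_ge hle
    have e1 := N₁.card_mul_index
    have e2 := N₂.card_mul_index
    rw [h1] at e1
    rw [h2] at e2
    omega
  let N₃ : Subgroup E :=
    { carrier := {x | x ∈ N₁ ↔ x ∈ N₂}
      one_mem' := by simp [N₁.one_mem, N₂.one_mem]
      mul_mem' := by
        intro x y hx hy
        change (x * y ∈ N₁ ↔ x * y ∈ N₂)
        rw [Subgroup.mul_mem_iff_of_index_two h1, Subgroup.mul_mem_iff_of_index_two h2]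
        have hx' : x ∈ N₁ ↔ x ∈ N₂ := hx
        have hy' : y ∈ N₁ ↔ y ∈ N₂ := hy
        tauto
      inv_mem' := by
        intro x hx
        change (x⁻¹ ∈ N₁ ↔ x⁻¹ ∈ N₂)
        rw [inv_mem_iff, inv_mem_iff]
        exact hx }
  have hmem₃ : ∀ x, x ∈ N₃ ↔ (x ∈ N₁ ↔ x ∈ N₂) := fun x => Iff.rfl
  refine ⟨N₃, ?_, ?_⟩
  · rw [Subgroup.index_eq_two_iff]
    refine ⟨c, fun b => ?_⟩
    rw [hmem₃, hmem₃, Subgroup.mul_mem_iff_of_index_two h1, Subgroup.mul_mem_iff_of_index_two h2]
    by_cases h3 : b ∈ N₁ <;> by_cases h4 : b ∈ N₂ <;> simp [h3, h4, hc1, hc2]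
  · intro x hx
    rw [hmem₃] at hx ⊢
    rw [hmem₂ (σ x), hσ, ← hmem₂]
    exact hx.symm

section Abs

variable {E : Type*} {C : Type*} [Group E] [Finite E] [CommGroup C] [Finite C] [Nontrivial C]
  {p : ℕ} [Fact p.Prime]

/-- The module version. -/
theorem rq_index_two_mod [Module (ZMod p) (Additive C)] (hp2 : p ≠ 2) (ρ : E →* MulAut C)
    (hreg : ∀ v w : C, v ≠ 1 → w ≠ 1 → ∃! e : E, ρ e v = w)
    (h3 : ∀ A B : Subgroup E, Nat.card A = 3 → Nat.card B = 3 → A = B) :
    ∃ N : Subgroup E, N.index = 2 := by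
  classical
  let ρa : E → (Additive C ≃+ Additive C) := fun e => MulEquiv.toAdditive (ρ e)
  have hρa : ∀ e v, Additive.toMul (ρa e v) = ρ e (Additive.toMul v) := fun _ _ => rfl
  let ρ' : E →* (Additive C ≃ₗ[ZMod p] Additive C) :=
    { toFun := fun e =>
        { toFun := ρa e
          invFun := (ρa e).symm
          left_inv := (ρa e).left_inv
          right_inv := (ρa e).right_inv
          map_add' := (ρa e).map_add
          map_smul' := fun c x =>
            (AddMonoidHom.toZModLinearMap p (ρa e).toAddMonoidHom).map_smul c x }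
      map_one' := by
        apply LinearEquiv.ext
        intro v
        apply Additive.toMul.injective
        change Additive.toMul (ρa 1 v) = Additive.toMul v
        rw [hρa, map_one]
        rfl
      map_mul' := fun e f => by
        apply LinearEquiv.ext
        intro v
        apply Additive.toMul.injective
        change Additive.toMul (ρa (e * f) v) = Additive.toMul (ρa e (ρa f v))
        rw [hρa, hρa, hρa, map_mul]
        rfl }
  have hρ' : ∀ e v, Additive.toMul (ρ' e v) = ρ e (Additive.toMul v) := fun _ _ => rfl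
  haveI : Finite (Additive C) := inferInstanceAs (Finite C)
  haveI : Nontrivial (Additive C) := inferInstanceAs (Nontrivial C)
  obtain ⟨v₀, hv₀⟩ := exists_ne (1 : C)
  have hinj : Function.Injective ρ' := by
    intro e f hef
    have h1 : ρ e v₀ = ρ f v₀ := by
      have := congrArg (fun g : Additive C ≃ₗ[ZMod p] Additive C => Additive.toMul (g (Additive.ofMul v₀))) hef
      exact this
    have hne : ρ f v₀ ≠ 1 := fun h => hv₀ ((map_eq_one_iff (ρ f) (ρ f).injective).mp h)
    obtain ⟨g, -, hg⟩ := hreg v₀ (ρ f v₀) hv₀ hne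
    exact (hg e h1).trans (hg f rfl).symm
  let H : Subgroup (Additive C ≃ₗ[ZMod p] Additive C) := ρ'.range
  let φ : E ≃* H := MonoidHom.ofInjective hinj
  have hφ : ∀ (e : E) (v : Additive C), ((φ e : H) : Additive C ≃ₗ[ZMod p] Additive C) v = ρ' e v :=
    fun _ _ => rfl
  have hreg' : ∀ v w : Additive C, v ≠ 0 → w ≠ 0 →
      ∃! h : H, (h : Additive C ≃ₗ[ZMod p] Additive C) v = w := by
    intro v w hv hw
    obtain ⟨e, he, heu⟩ := hreg (Additive.toMul v) (Additive.toMul w) hv hw
    refine ⟨φ e, Additive.toMul.injective he, ?_⟩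
    intro h hh
    obtain ⟨f, rfl⟩ := φ.surjective h
    rw [heu f (congrArg Additive.toMul hh)]
  have h3' : ∀ A B : Subgroup H, Nat.card A = 3 → Nat.card B = 3 → A = B := by
    intro A B hA hB
    have hc : ∀ A : Subgroup H, Nat.card (A.map φ.symm.toMonoidHom) = Nat.card A := fun A =>
      Subgroup.card_map_of_injective φ.symm.injective
    exact Subgroup.map_injective φ.symm.injective (h3 _ _ ((hc A).trans hA) ((hc B).trans hB))
  obtain ⟨N, hN⟩ := rq_index_two hp2 hreg' h3'
  exact ⟨N.comap φ.toMonoidHom, (N.index_comap_of_surjective (f := φ.toMonoidHom) φ.surjective).trans hN⟩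

/-- The abstract version. -/
theorem rq_index_two_abs (hp2 : p ≠ 2) (hW : ∀ v : C, v ^ p = 1) (ρ : E →* MulAut C)
    (hreg : ∀ v w : C, v ≠ 1 → w ≠ 1 → ∃! e : E, ρ e v = w)
    (h3 : ∀ A B : Subgroup E, Nat.card A = 3 → Nat.card B = 3 → A = B) :
    ∃ N : Subgroup E, N.index = 2 := by
  letI : Module (ZMod p) (Additive C) := AddCommGroup.zmodModule (fun v => hW (Additive.toMul v))
  exact rq_index_two_mod hp2 ρ hreg h3

end Abs

variable {G : Type u} {Ω : Type v} [Group G] [Finite G] [MulAction G Ω] [Fintype Ω] [DecidableEq Ω]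

/-- Uniqueness of subgroups of order three, for abstract groups. -/
theorem sh3_unique_three (hS : Sh3 G Ω) (hfaith : ∀ g : G, (∀ x : Ω, g • x = x) → g = 1)
    (hc : 3 ≤ Fintype.card Ω) {a b : Ω} (hab : a ≠ b) (A B : Subgroup G)
    (hA : A ≤ stabilizer G a ⊓ stabilizer G b) (hB : B ≤ stabilizer G a ⊓ stabilizer G b)
    (hA3 : Nat.card A = 3) (hB3 : Nat.card B = 3) : A = B := by
  classical
  let f : G →* Equiv.Perm Ω := MulAction.toPermHom G Ω
  have hinj : Function.Injective f := by
    intro x y hxy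
    have h1 : x⁻¹ * y = 1 := by
      apply hfaith
      intro z
      rw [mul_smul, inv_smul_eq_iff]
      exact (congrArg (fun g : Equiv.Perm Ω => g z) hxy).symm
    exact (inv_mul_eq_one.mp h1)
  let P : Subgroup (Equiv.Perm Ω) := f.range
  let e : G ≃* P := MonoidHom.ofInjective hinj
  have he : ∀ (g : G) (x : Ω), (e g : P) • x = g • x := fun _ _ => rfl
  have h3 : IsMultiplyPretransitive P Ω 3 := by
    refine ⟨fun x y => ?_⟩
    have hne : ∀ (t : Fin 3 ↪ Ω) (i j : Fin 3), i ≠ j → t i ≠ t j := fun t i j hij h =>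
      hij (t.injective h)
    obtain ⟨g, h0, h1, h2⟩ := hS.trans (x 0) (x 1) (x 2) (y 0) (y 1) (y 2)
      (hne x 0 1 (by decide)) (hne x 0 2 (by decide)) (hne x 1 2 (by decide))
      (hne y 0 1 (by decide)) (hne y 0 2 (by decide)) (hne y 1 2 (by decide))
    refine ⟨e g, ?_⟩
    ext i
    change (e g : P) • x i = y i
    rw [he]
    fin_cases i
    · exact h0
    · exact h1
    · exact h2
  have hsharp : ∀ x : Fin 3 ↪ Ω, stabilizer P x = ⊥ := by
    intro x
    rw [eq_bot_iff]
    intro p hp
    obtain ⟨g, rfl⟩ := e.surjective p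
    have hne : ∀ (i j : Fin 3), i ≠ j → x i ≠ x j := fun i j hij h => hij (x.injective h)
    have hfix : ∀ i, g • x i = x i := by
      intro i
      have h1 : (e g) • x = x := hp
      have h2 := congrArg (fun t : Fin 3 ↪ Ω => t i) h1
      exact h2
    have : g = 1 := hS.fix g (x 0) (x 1) (x 2) (hne 0 1 (by decide)) (hne 0 2 (by decide))
      (hne 1 2 (by decide)) (hfix 0) (hfix 1) (hfix 2)
    rw [this, map_one, Subgroup.mem_bot]
  have hcc : ∀ A : Subgroup G, Nat.card (A.map e.toMonoidHom) = Nat.card A := fun A =>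
    Subgroup.card_map_of_injective e.injective
  have hle : ∀ A : Subgroup G, A ≤ stabilizer G a ⊓ stabilizer G b →
      A.map e.toMonoidHom ≤ stabilizer P a ⊓ stabilizer P b := by
    rintro A hA _ ⟨g, hg, rfl⟩
    exact ⟨(hA hg).1, (hA hg).2⟩
  have := sharp3_unique_order_three hc P h3 hsharp hab _ _ (hle A hA) (hle B hB)
    ((hcc A).trans hA3) ((hcc B).trans hB3)
  exact Subgroup.map_injective e.injective this

/-- The two-point stabiliser of a sharply triply transitive group of even degree has a subgroup of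
index two. -/
theorem sh3_index_two (hS : Sh3 G Ω) (hfaith : ∀ g : G, (∀ x : Ω, g • x = x) → g = 1)
    (heven : Even (Fintype.card Ω)) (hc : 3 ≤ Fintype.card Ω) {a b : Ω} (hab : a ≠ b) :
    ∃ N : Subgroup ↥(stabilizer G a ⊓ stabilizer G b), N.index = 2 := by
  classical
  obtain ⟨F, p, j, hp, hj, hcardj, hFa, hFn, hFc, hFp, hFreg⟩ := sh3_kernel hS a hc
  haveI : Fact p.Prime := ⟨hp⟩
  have hj0 : j ≠ 0 := by omega
  have hp2 : p ≠ 2 := by
    rintro rfl
    rw [hcardj] at heven
    have h1 : Even (2 ^ j) := (Nat.even_pow.mpr ⟨even_two, hj0⟩)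
    have h2 : Odd (2 ^ j + 1) := h1.add_one
    exact (Nat.not_even_iff_odd.mpr h2) heven
  letI iC : CommGroup F :=
    { (inferInstance : Group F) with
      mul_comm := fun u v => Subtype.ext (hFc u u.2 v v.2) }
  let E : Subgroup G := stabilizer G a ⊓ stabilizer G b
  have hEa : ∀ e : E, (e : G) • a = a := fun e => e.2.1
  have hEb : ∀ e : E, (e : G) • b = b := fun e => e.2.2
  let conjE : E → (F ≃* F) := fun e =>
    { toFun := fun u => ⟨(e : G) * u * (e : G)⁻¹, hFn e (hEa e) u u.2⟩
      invFun := fun u => ⟨(e : G)⁻¹ * u * (e : G), by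
        have h1 := hFn ((e : G)⁻¹) (by rw [inv_smul_eq_iff, hEa]) u u.2
        simpa using h1⟩
      left_inv := fun u => by
        apply Subtype.ext
        simp [mul_assoc]
      right_inv := fun u => by
        apply Subtype.ext
        simp [mul_assoc]
      map_mul' := fun u v => by
        apply Subtype.ext
        change (e : G) * ((u : G) * v) * (e : G)⁻¹ = ((e : G) * u * (e : G)⁻¹) * ((e : G) * v * (e : G)⁻¹)
        group }
  have hconjE : ∀ (e : E) (u : F), ((conjE e u : F) : G) = (e : G) * u * (e : G)⁻¹ := fun _ _ => rfl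
  let ρ : E →* MulAut F :=
    { toFun := fun e => conjE e
      map_one' := by
        apply MulEquiv.ext
        intro u
        apply Subtype.ext
        change (1 : G) * _ * (1 : G)⁻¹ = _
        simp
      map_mul' := fun e f => by
        apply MulEquiv.ext
        intro u
        apply Subtype.ext
        change ((e * f : E) : G) * _ * ((e * f : E) : G)⁻¹ = (e : G) * ((f : G) * _ * (f : G)⁻¹) * (e : G)⁻¹
        simp only [Subgroup.coe_mul]
        group }
  have hρ : ∀ (e : E) (u : F), ((ρ e u : F) : G) = (e : G) * (u : F) * (e : G)⁻¹ := fun _ _ => rfl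
  have hFcard : Nat.card F + 1 = Fintype.card Ω := by
    have hne : ∀ u : F, (u : G) • b ≠ a := by
      intro u h
      have h8 : (u : G) • a = a := hFa u u.2
      exact hab ((smul_left_cancel (u : G) (h.trans h8.symm))).symm
    let φ : F → {x : Ω // x ≠ a} := fun u => ⟨(u : G) • b, hne u⟩
    have hbij : Function.Bijective φ := by
      constructor
      · intro u w huw
        have h1 : (u : G) • b = (w : G) • b := congrArg Subtype.val huw
        obtain ⟨x, -, hx⟩ := hFreg b ((w : G) • b) hab.symm (hne w)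
        exact (hx u h1).trans (hx w rfl).symm
      · rintro ⟨c, hc⟩
        obtain ⟨x, hx, -⟩ := hFreg b c hab.symm hc
        exact ⟨x, Subtype.ext hx⟩
    have hc2 : Nat.card F = Nat.card {x : Ω // x ≠ a} := Nat.card_congr (Equiv.ofBijective φ hbij)
    rw [hc2, Nat.card_eq_fintype_card, Fintype.card_subtype_compl, Fintype.card_subtype_eq]
    have : 0 < Fintype.card Ω := Fintype.card_pos_iff.mpr ⟨a⟩
    omega
  haveI : Nontrivial F := by
    have h1 : 1 < Nat.card F := by
      have : 1 ≤ p ^ j := Nat.one_le_pow _ _ hp.pos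
      have h2 : p ^ j ≠ 1 := by
        intro h
        rw [h] at hcardj
        omega
      omega
    exact (Finite.one_lt_card_iff_nontrivial).mp h1
  have hW : ∀ v : F, v ^ p = 1 := by
    intro v
    apply Subtype.ext
    have h1 := hFp _ v.2
    change ((v ^ p : F) : G) = 1
    rw [Subgroup.coe_pow]
    exact h1
  have hfree : ∀ u : F, (u : G) • b = b → u = 1 := by
    intro u hu
    obtain ⟨x, -, hx⟩ := hFreg b b hab.symm hab.symm
    exact (hx u hu).trans (hx 1 (one_smul _ _)).symm
  have hreg : ∀ u t : F, u ≠ 1 → t ≠ 1 → ∃! e : E, ρ e u = t := by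
    intro u t hu1 ht1
    have hne : ∀ r : F, r ≠ 1 → (r : G) • b ≠ b ∧ (r : G) • b ≠ a := by
      intro r hr
      constructor
      · exact fun h => hr (hfree r h)
      · intro h
        have h8 : (r : G) • a = a := hFa r r.2
        exact hab ((smul_left_cancel (r : G) (h.trans h8.symm))).symm
    obtain ⟨e, he1, he2, he3⟩ := hS.trans a b ((u : G) • b) a b ((t : G) • b) hab (hne u hu1).2.symm
      (hne u hu1).1.symm hab (hne t ht1).2.symm (hne t ht1).1.symm
    let e' : E := ⟨e, he1, he2⟩
    have hgood : ∀ g : E, (g : G) • ((u : G) • b) = (t : G) • b ↔ ρ g u = t := by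
      intro g
      constructor
      · intro h
        obtain ⟨x, -, hx⟩ := hFreg b ((t : G) • b) hab.symm (hne t ht1).2
        have h1 := hx t rfl
        rw [h1]
        apply hx
        change ((ρ g u : F) : G) • b = (t : G) • b
        rw [hρ]
        have : (g : G)⁻¹ • b = b := by rw [inv_smul_eq_iff, hEb]
        rw [mul_smul, mul_smul, this, h]
      · intro h
        have h1 : ((g : G) * u * (g : G)⁻¹) = t := congrArg Subtype.val h
        rw [← h1]
        have : (g : G)⁻¹ • b = b := by rw [inv_smul_eq_iff, hEb]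
        simp only [mul_smul]
        rw [this]
    refine ⟨e', (hgood e').mp he3, ?_⟩
    intro g hg
    have h1 := (hgood g).mpr hg
    apply Subtype.ext
    have h2 : (e'⁻¹ * g : E) = 1 := by
      apply Subtype.ext
      apply hS.fix _ a b ((u : G) • b) hab (hne u hu1).2.symm (hne u hu1).1.symm
      · change ((e : G)⁻¹ * g) • a = a
        rw [mul_smul, hEa, inv_smul_eq_iff, he1]
      · change ((e : G)⁻¹ * g) • b = b
        rw [mul_smul, hEb, inv_smul_eq_iff, he2]
      · change ((e : G)⁻¹ * g) • ((u : G) • b) = (u : G) • b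
        rw [mul_smul, h1, inv_smul_eq_iff, he3]
    have h3 : g = e' := (inv_mul_eq_one.mp h2).symm
    rw [h3]
  have h3 : ∀ A B : Subgroup E, Nat.card A = 3 → Nat.card B = 3 → A = B := by
    intro A B hA hB
    have hc' : ∀ A : Subgroup E, Nat.card (A.map E.subtype) = Nat.card A := fun A =>
      Subgroup.card_map_of_injective E.subtype_injective
    have hle : ∀ A : Subgroup E, A.map E.subtype ≤ stabilizer G a ⊓ stabilizer G b := by
      rintro A _ ⟨x, -, rfl⟩
      exact x.2
    exact Subgroup.map_injective E.subtype_injective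
      (sh3_unique_three hS hfaith hc hab _ _ (hle A) (hle B) ((hc' A).trans hA) ((hc' B).trans hB))
  exact rq_index_two_abs hp2 hW ρ hreg h3

/-- The two-point stabiliser of a sharply triply transitive group of even degree has a subgroup of
index two invariant under the element interchanging the two points. -/
theorem sh3_index_two_s (hS : Sh3 G Ω) (hfaith : ∀ g : G, (∀ x : Ω, g • x = x) → g = 1)
    (heven : Even (Fintype.card Ω)) (hc : 3 ≤ Fintype.card Ω) {a b c : Ω} (hab : a ≠ b) (hac : a ≠ c)
    (hbc : b ≠ c) (s : G) (hsa : s • a = b) (hsb : s • b = a) (hsc : s • c = c) :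
    ∃ N : Subgroup G, N ≤ stabilizer G a ⊓ stabilizer G b ∧
      (N.subgroupOf (stabilizer G a ⊓ stabilizer G b)).Normal ∧
      N.relIndex (stabilizer G a ⊓ stabilizer G b) = 2 ∧ ∀ n ∈ N, s * n * s⁻¹ ∈ N := by
  classical
  obtain ⟨N₁, hN₁⟩ := sh3_index_two hS hfaith heven hc hab
  have hss : s * s = 1 := by
    apply hS.fix _ a b c hab hac hbc
    · rw [mul_smul, hsa, hsb]
    · rw [mul_smul, hsb, hsa]
    · rw [mul_smul, hsc, hsc]
  have hsinv : s⁻¹ = s := inv_eq_of_mul_eq_one_left hss
  let E : Subgroup G := stabilizer G a ⊓ stabilizer G b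
  have hEn : ∀ u ∈ E, s * u * s⁻¹ ∈ E := by
    rintro u ⟨h1, h2⟩
    have h1' : u • a = a := h1
    have h2' : u • b = b := h2
    constructor
    · change (s * u * s⁻¹) • a = a
      rw [hsinv, mul_smul, mul_smul, hsa, h2', hsb]
    · change (s * u * s⁻¹) • b = b
      rw [hsinv, mul_smul, mul_smul, hsb, h1', hsa]
  let σ : E →* E :=
    { toFun := fun u => ⟨s * u * s⁻¹, hEn u u.2⟩
      map_one' := by
        apply Subtype.ext
        simp
      map_mul' := fun u v => by
        apply Subtype.ext
        simp only [Subgroup.coe_mul]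
        group }
  have hσ : ∀ x, σ (σ x) = x := by
    intro x
    apply Subtype.ext
    change s * (s * (x : G) * s⁻¹) * s⁻¹ = x
    calc s * (s * (x : G) * s⁻¹) * s⁻¹ = (s * s) * x * (s * s)⁻¹ := by group
      _ = x := by rw [hss]; group
  obtain ⟨N, hN, hNσ⟩ := rq_invariant_index_two σ hσ N₁ hN₁
  have hsub : (N.map E.subtype).subgroupOf E = N :=
    Subgroup.comap_map_eq_self_of_injective E.subtype_injective N
  refine ⟨N.map E.subtype, ?_, ?_, ?_, ?_⟩
  · rintro _ ⟨x, -, rfl⟩
    exact x.2
  · rw [hsub]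
    exact Subgroup.normal_of_index_eq_two hN
  · change ((N.map E.subtype).subgroupOf E).index = 2
    rw [hsub, hN]
  · rintro _ ⟨x, hx, rfl⟩
    exact ⟨σ x, hNσ x hx, rfl⟩

end Cfsg.Agent.Lib.Perm
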