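import Cfsg.Agent.Lib.Perm.Centralizer
import Cfsg.Agent.Lib.Char.Galois
import Cfsg.Agent.S0669

/-!
Divisibility of subdegrees by the degrees of the constituents of the permutation character.
-/

set_option autoImplicit false
set_option linter.unusedSectionVars false

namespace Cfsg.Agent.Lib.Perm

open Cfsg Module Cfsg.Agent.Lib.Char Cfsg.Agent.Perm.PermModule
open scoped ComplexConjugate

universe u v w

variable {G : Type u} [Group G] [Fintype G] {Ω : Type w} [Fintype Ω] [MulAction G Ω]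
  {V : Type v} [AddCommGroup V] [Module ℂ V]

open Classical in
/-- The fibre operator. -/
noncomputable def fibOp (ρ : Representation ℂ G V) (a w : Ω) : V →ₗ[ℂ] V :=
  (Nat.card (MulAction.stabilizer G a) : ℂ)⁻¹ •
    ∑ x ∈ Finset.univ.filter (fun x : G => x • a = w), ρ x

/-- The operator of a set of points. -/
noncomputable def setOp (ρ : Representation ℂ G V) (a : Ω) (Δ : Finset Ω) : V →ₗ[ℂ] V :=
  ∑ y ∈ Δ, fibOp ρ a y

theorem rep_comp_fibOp (ρ : Representation ℂ G V) (a w : Ω) (g : G) :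
    ρ g ∘ₗ fibOp ρ a w = fibOp ρ a (g • w) := by
  classical
  unfold fibOp
  rw [LinearMap.comp_smul, ctr_comp_sum]
  congr 1
  refine Finset.sum_equiv (Equiv.mulLeft g) ?_ ?_
  · intro x
    simp [mul_smul]
  · intro x _
    simp only [Equiv.coe_mulLeft, map_mul]
    rfl

open Classical in
theorem card_fib_self (a : Ω) :
    (Finset.univ.filter (fun x : G => x • a = a)).card = Nat.card (MulAction.stabilizer G a) := by
  classical
  rw [Nat.card_eq_fintype_card, ← Fintype.card_subtype]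
  refine Fintype.card_congr (Equiv.subtypeEquivRight fun x => ?_)
  simp [MulAction.mem_stabilizer_iff]

open Classical in
theorem card_fib [MulAction.IsPretransitive G Ω] (a y : Ω) :
    (Finset.univ.filter (fun x : G => x • a = y)).card = Nat.card (MulAction.stabilizer G a) := by
  classical
  obtain ⟨g, rfl⟩ := MulAction.exists_smul_eq G a y
  rw [← card_fib_self a]
  refine Finset.card_bij (fun x _ => g⁻¹ * x) ?_ ?_ ?_
  · intro x hx
    simp only [Finset.mem_filter, Finset.mem_univ, true_and] at hx ⊢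
    rw [mul_smul, hx, inv_smul_smul]
  · intro x _ x' _ h
    exact mul_left_cancel h
  · intro x hx
    refine ⟨g * x, ?_, by simp⟩
    simp only [Finset.mem_filter, Finset.mem_univ, true_and] at hx ⊢
    rw [mul_smul, hx]

theorem rep_comp_setOp (ρ : Representation ℂ G V) (a : Ω) (Δ : Finset Ω) (g : G) :
    ρ g ∘ₗ setOp ρ a Δ = ∑ y ∈ Δ, fibOp ρ a (g • y) := by
  unfold setOp
  rw [ctr_comp_sum]
  exact Finset.sum_congr rfl fun y _ => rep_comp_fibOp ρ a y g

theorem rep_comp_setOp_of_inv (ρ : Representation ℂ G V) (a : Ω) (Δ : Finset Ω)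
    (hΔ : ∀ h ∈ MulAction.stabilizer G a, ∀ y, h • y ∈ Δ ↔ y ∈ Δ)
    (h : G) (hh : h ∈ MulAction.stabilizer G a) :
    ρ h ∘ₗ setOp ρ a Δ = setOp ρ a Δ := by
  rw [rep_comp_setOp]
  unfold setOp
  refine Finset.sum_equiv (MulAction.toPerm h) ?_ ?_
  · intro y
    simp [hΔ h hh]
  · intro y _
    rfl

theorem fibOp_self_comp_setOp (ρ : Representation ℂ G V) (a : Ω) (Δ : Finset Ω)
    (hΔ : ∀ h ∈ MulAction.stabilizer G a, ∀ y, h • y ∈ Δ ↔ y ∈ Δ) :
    fibOp ρ a a ∘ₗ setOp ρ a Δ = setOp ρ a Δ := by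
  classical
  have hne : (Nat.card (MulAction.stabilizer G a) : ℂ) ≠ 0 := by
    exact_mod_cast Nat.card_pos.ne'
  conv_lhs => rw [fibOp]
  rw [LinearMap.smul_comp, ctr_sum_comp]
  have : ∀ x ∈ Finset.univ.filter (fun x : G => x • a = a), ρ x ∘ₗ setOp ρ a Δ = setOp ρ a Δ := by
    intro x hx
    refine rep_comp_setOp_of_inv ρ a Δ hΔ x ?_
    simpa using hx
  rw [Finset.sum_congr rfl this, Finset.sum_const, card_fib_self, ← Nat.cast_smul_eq_nsmul ℂ,
    smul_smul, inv_mul_cancel₀ hne, one_smul]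

theorem fibOp_comp_setOp (ρ : Representation ℂ G V) (a : Ω) (Δ : Finset Ω)
    (hΔ : ∀ h ∈ MulAction.stabilizer G a, ∀ y, h • y ∈ Δ ↔ y ∈ Δ) (g : G) :
    fibOp ρ a (g • a) ∘ₗ setOp ρ a Δ = ∑ y ∈ Δ, fibOp ρ a (g • y) := by
  rw [← rep_comp_fibOp, LinearMap.comp_assoc, fibOp_self_comp_setOp ρ a Δ hΔ, rep_comp_setOp]

theorem isIntegral_eigen [MulAction.IsPretransitive G Ω] (ρ : Representation ℂ G V) (a : Ω)
    (Δ : Finset Ω) (hΔ : ∀ h ∈ MulAction.stabilizer G a, ∀ y, h • y ∈ Δ ↔ y ∈ Δ) (μ : ℂ) (v : V)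
    (hv : setOp ρ a Δ v = μ • v) (hv0 : v ≠ 0) : IsIntegral ℤ μ := by
  classical
  by_cases hμ : μ = 0
  · rw [hμ]; exact isIntegral_zero
  let N : Submodule ℤ V := Submodule.span ℤ (Set.range fun w : Ω => fibOp ρ a w v)
  have hN : N ≠ ⊥ := by
    intro hbot
    have h0 : ∀ w : Ω, fibOp ρ a w v = 0 := by
      intro w
      have : fibOp ρ a w v ∈ N := Submodule.subset_span ⟨w, rfl⟩
      rw [hbot] at this
      simpa using this
    have h1 : setOp ρ a Δ v = 0 := by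
      simp [setOp, LinearMap.sum_apply, h0]
    rw [h1] at hv
    exact (smul_ne_zero hμ hv0) hv.symm
  have hN' : N.FG := Submodule.fg_span (Set.finite_range _)
  refine isIntegral_of_smul_mem_submodule N hN hN' μ ?_
  intro n hn
  induction hn using Submodule.span_induction with
  | mem x hx =>
    obtain ⟨w, rfl⟩ := hx
    obtain ⟨g, rfl⟩ := MulAction.exists_smul_eq G a w
    have h2 := congrArg (fun S : V →ₗ[ℂ] V => S v) (fibOp_comp_setOp ρ a Δ hΔ g)
    simp only [LinearMap.comp_apply, LinearMap.sum_apply, hv, map_smul] at h2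
    change μ • (fibOp ρ a (g • a) v) ∈ N
    rw [h2]
    exact Submodule.sum_mem _ fun y _ => Submodule.subset_span ⟨g • y, rfl⟩
  | zero => simp
  | add x y _ _ hx hy =>
    rw [smul_add]
    exact N.add_mem hx hy
  | smul c x _ hx =>
    rw [smul_comm]
    exact N.smul_mem c hx

theorem isIntegral_trace_setOp [FiniteDimensional ℂ V] [MulAction.IsPretransitive G Ω]
    (ρ : Representation ℂ G V) (a : Ω)
    (Δ : Finset Ω) (hΔ : ∀ h ∈ MulAction.stabilizer G a, ∀ y, h • y ∈ Δ ↔ y ∈ Δ) :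
    IsIntegral ℤ (LinearMap.trace ℂ V (setOp ρ a Δ)) := by
  rw [Module.End.trace_eq_sum_roots_charpoly_of_splits (IsAlgClosed.splits _)]
  refine IsIntegral.multiset_sum fun μ hμ => ?_
  have h1 : (LinearMap.charpoly (setOp ρ a Δ)).IsRoot μ := (Polynomial.mem_roots'.mp hμ).2
  have h2 : Module.End.HasEigenvalue (setOp ρ a Δ) μ :=
    (Module.End.hasEigenvalue_iff_isRoot_charpoly _ _).mpr h1
  obtain ⟨v, hv⟩ := h2.exists_hasEigenvector
  exact isIntegral_eigen ρ a Δ hΔ μ v hv.apply_eq_smul hv.2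

open Classical in
/-- The weight of a class function at a set of points. -/
noncomputable def wt (χ : G → ℂ) (a : Ω) (Δ : Finset Ω) : ℂ :=
  (Nat.card (MulAction.stabilizer G a) : ℂ)⁻¹ *
    ∑ y ∈ Δ, ∑ x ∈ Finset.univ.filter (fun x : G => x • a = y), χ x

theorem trace_setOp [FiniteDimensional ℂ V] (ρ : Representation ℂ G V) (a : Ω) (Δ : Finset Ω) :
    LinearMap.trace ℂ V (setOp ρ a Δ) = wt ρ.character a Δ := by
  classical
  unfold setOp wt fibOp
  simp only [map_sum, map_smul, smul_eq_mul]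
  rw [Finset.mul_sum]
  refine Finset.sum_congr rfl fun y _ => ?_
  congr 1

theorem isIntegral_wt [MulAction.IsPretransitive G Ω] {χ : G → ℂ} (hχ : IsCharacter G χ) (a : Ω)
    (Δ : Finset Ω) (hΔ : ∀ h ∈ MulAction.stabilizer G a, ∀ y, h • y ∈ Δ ↔ y ∈ Δ) :
    IsIntegral ℤ (wt χ a Δ) := by
  obtain ⟨n, ρ, rfl⟩ := hχ
  rw [← trace_setOp]
  exact isIntegral_trace_setOp ρ a Δ hΔ

theorem sum_degree_wt (a : Ω) (Δ : Finset Ω) (ha : a ∉ Δ) :
    ∑ ψ : IrrCharacter G, (ψ : G → ℂ) 1 * wt (ψ : G → ℂ) a Δ = 0 := by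
  classical
  unfold wt
  simp only [Finset.mul_sum]
  have h0 : ∀ y ∈ Δ, ∑ ψ : IrrCharacter G, ∑ x ∈ Finset.univ.filter (fun x : G => x • a = y),
      (ψ : G → ℂ) 1 * ((Nat.card (MulAction.stabilizer G a) : ℂ)⁻¹ * (ψ : G → ℂ) x) = 0 := by
    intro y hy
    rw [Finset.sum_comm]
    refine Finset.sum_eq_zero fun x hx => ?_
    have hx1 : x ≠ 1 := by
      rintro rfl
      simp only [Finset.mem_filter, Finset.mem_univ, true_and, one_smul] at hx
      exact ha (hx ▸ hy)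
    have h2 := sum_irr_degree_mul_apply x
    rw [if_neg hx1] at h2
    have h3 : ∑ ψ : IrrCharacter G, (ψ : G → ℂ) 1 *
        ((Nat.card (MulAction.stabilizer G a) : ℂ)⁻¹ * (ψ : G → ℂ) x) =
        (Nat.card (MulAction.stabilizer G a) : ℂ)⁻¹ *
          ∑ ψ : IrrCharacter G, (ψ : G → ℂ) 1 * (ψ : G → ℂ) x := by
      rw [Finset.mul_sum]
      exact Finset.sum_congr rfl fun ψ _ => by ring
    rw [h3, h2, mul_zero]
  rw [Finset.sum_comm]
  exact Finset.sum_eq_zero h0

theorem wt_one [MulAction.IsPretransitive G Ω] (a : Ω) (Δ : Finset Ω) :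
    wt (fun _ : G => (1 : ℂ)) a Δ = (Δ.card : ℂ) := by
  classical
  have hne : (Nat.card (MulAction.stabilizer G a) : ℂ) ≠ 0 := by
    exact_mod_cast Nat.card_pos.ne'
  unfold wt
  simp only [Finset.sum_const, card_fib, nsmul_eq_mul, mul_one]
  rw [mul_comm (Δ.card : ℂ), ← mul_assoc, inv_mul_cancel₀ hne, one_mul]

theorem wt_eq_zero_of_not {ψ : IrrCharacter G} (hψ : classInner (permCh G Ω) (ψ : G → ℂ) = 0)
    (a : Ω) (Δ : Finset Ω) : wt (ψ : G → ℂ) a Δ = 0 := by
  classical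
  have hc : ψ ∉ constituents G Ω := fun h => mem_constituents.mp h hψ
  have hE := isoProj_eq_zero_of_not hc
  have hG : (Nat.card G : ℂ) ≠ 0 := NeZero.ne _
  have hne := IsIrrCharacter.apply_one_ne_zero ψ.2
  have key : ∀ y : Ω, ∑ x ∈ Finset.univ.filter (fun x : G => x • a = y), (ψ : G → ℂ) x⁻¹ = 0 := by
    intro y
    have h1 := congrArg (fun S : (Ω → ℂ) →ₗ[ℂ] (Ω → ℂ) => S (Pi.single a 1) y) hE
    simp only [isoProj, LinearMap.smul_apply, LinearMap.sum_apply, Pi.smul_apply, smul_eq_mul,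
      LinearMap.zero_apply, Pi.zero_apply, Finset.sum_apply, permRep_apply, Pi.single_apply] at h1
    have h2 := (mul_eq_zero.mp h1).resolve_left (div_ne_zero hne hG)
    rw [Finset.sum_filter]
    refine Eq.trans (Finset.sum_congr rfl fun x _ => ?_) h2
    by_cases hx : x • a = y
    · rw [if_pos hx, if_pos (by rw [inv_smul_eq_iff, hx]), mul_one]
    · rw [if_neg hx, if_neg (by rw [inv_smul_eq_iff]; exact fun h => hx h.symm), mul_zero]
  unfold wt
  have h3 : ∀ y : Ω, ∑ x ∈ Finset.univ.filter (fun x : G => x • a = y), (ψ : G → ℂ) x = 0 := by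
    intro y
    have h4 := congrArg conj (key y)
    rw [map_sum, map_zero] at h4
    rw [← h4]
    refine Finset.sum_congr rfl fun x _ => ?_
    rw [← IsCharacter.apply_inv (IsIrrCharacter.isCharacter ψ.2) x⁻¹, inv_inv]
  simp [h3]

/-- If `f` divides all degrees of the non-principal constituents then `f` divides all subdegrees. -/
theorem subdegree_dvd [MulAction.IsPretransitive G Ω] (f : ℕ)
    (hf : ∀ χ : G → ℂ, IsIrrCharacter G χ → χ ≠ (fun _ => 1) → classInner (permCh G Ω) χ ≠ 0 →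
      ∃ m : ℕ, χ 1 = (f : ℂ) * m) (a b : Ω) (hab : b ≠ a) :
    f ∣ Nat.card (MulAction.orbit (MulAction.stabilizer G a) b) := by
  classical
  let Δ : Finset Ω := Finset.univ.filter (· ∈ MulAction.orbit (MulAction.stabilizer G a) b)
  have hcard : Δ.card = Nat.card (MulAction.orbit (MulAction.stabilizer G a) b) := by
    rw [Nat.card_eq_fintype_card, Fintype.card_subtype]
  have hΔ : ∀ h ∈ MulAction.stabilizer G a, ∀ y, h • y ∈ Δ ↔ y ∈ Δ := by
    intro h hh y
    simp only [Δ, Finset.mem_filter, Finset.mem_univ, true_and]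
    change (⟨h, hh⟩ : MulAction.stabilizer G a) • y ∈ MulAction.orbit (MulAction.stabilizer G a) b ↔ _
    rw [← MulAction.orbit_eq_iff, MulAction.orbit_smul, MulAction.orbit_eq_iff]
  have ha : a ∉ Δ := by
    simp only [Δ, Finset.mem_filter, Finset.mem_univ, true_and]
    rintro ⟨⟨h, hh⟩, hh2⟩
    apply hab
    have h2 : h • b = a := hh2
    have h3 : h • a = a := hh
    exact smul_left_cancel h (h2.trans h3.symm)
  have hsum := sum_degree_wt (G := G) a Δ ha
  let ψ₀ : IrrCharacter G := ⟨fun _ => 1, isIrrCharacter_one⟩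
  rw [← Finset.add_sum_erase _ _ (Finset.mem_univ ψ₀)] at hsum
  have h0 : (ψ₀ : G → ℂ) 1 * wt (ψ₀ : G → ℂ) a Δ = (Δ.card : ℂ) := by
    simp only [ψ₀]
    rw [wt_one, one_mul]
  rw [h0] at hsum
  have hu : ∀ ψ : IrrCharacter G, ψ ≠ ψ₀ → ∃ u : ℂ, (ψ : G → ℂ) 1 * wt (ψ : G → ℂ) a Δ = f * u ∧
      IsIntegral ℤ u := by
    intro ψ hψ
    have hψ' : (ψ : G → ℂ) ≠ fun _ => 1 := fun h => hψ (Subtype.ext h)
    by_cases h1 : classInner (permCh G Ω) (ψ : G → ℂ) = 0
    · exact ⟨0, by rw [wt_eq_zero_of_not h1]; simp, isIntegral_zero⟩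
    · obtain ⟨m, hm⟩ := hf ψ ψ.2 hψ' h1
      refine ⟨m * wt (ψ : G → ℂ) a Δ, by rw [hm]; ring, ?_⟩
      exact (isIntegral_natCast m : IsIntegral ℤ (m : ℂ)).mul (isIntegral_wt (IsIrrCharacter.isCharacter ψ.2) a Δ hΔ)
  choose! u hu1 hu2 using hu
  have hs : ∑ ψ ∈ Finset.univ.erase ψ₀, (ψ : G → ℂ) 1 * wt (ψ : G → ℂ) a Δ =
      f * ∑ ψ ∈ Finset.univ.erase ψ₀, u ψ := by
    rw [Finset.mul_sum]
    refine Finset.sum_congr rfl fun ψ hψ => hu1 ψ (Finset.ne_of_mem_erase hψ)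
  rw [hs] at hsum
  have hU : IsIntegral ℤ (∑ ψ ∈ Finset.univ.erase ψ₀, u ψ) :=
    IsIntegral.sum _ fun ψ hψ => hu2 ψ (Finset.ne_of_mem_erase hψ)
  set U := ∑ ψ ∈ Finset.univ.erase ψ₀, u ψ with hUdef
  rw [← hcard]
  by_cases hf0 : f = 0
  · subst hf0
    simp only [Nat.cast_zero, zero_mul, add_zero, Nat.cast_eq_zero] at hsum
    rw [hsum]
  have hfC : (f : ℂ) ≠ 0 := by exact_mod_cast hf0
  obtain ⟨z, hz⟩ := int_of_isIntegral_of_rat hU ⟨-(Δ.card : ℚ) / (f : ℚ), by
    push_cast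
    field_simp
    linear_combination hsum⟩
  have hz2 : (Δ.card : ℂ) = f * (-z : ℤ) := by
    push_cast
    rw [hz] at hsum
    linear_combination hsum
  have hz3 : (Δ.card : ℤ) = f * (-z) := by exact_mod_cast hz2
  exact Int.natCast_dvd_natCast.mp ⟨-z, hz3⟩

section Counting

variable [MulAction.IsPretransitive G Ω]

theorem mult_principal {m : IrrCharacter G → ℕ}
    (hm : ∀ ψ : IrrCharacter G, classInner (permCh G Ω) (ψ : G → ℂ) = m ψ) (a : Ω) :
    m ⟨fun _ => 1, isIrrCharacter_one⟩ = 1 := by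
  classical
  have h1 := hm ⟨fun _ => 1, isIrrCharacter_one⟩
  have h2 := classInner_permChar_one (G := G) (X := Ω)
  have h3 : Nat.card (MulAction.orbitRel.Quotient G Ω) = 1 := by
    have : Unique (MulAction.orbitRel.Quotient G Ω) :=
      { default := Quotient.mk'' a
        uniq := fun q => by
          induction q using Quotient.inductionOn' with
          | h y =>
            exact Quotient.sound (MulAction.exists_smul_eq G a y |>.imp fun g hg => hg) }
    exact Nat.card_unique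
  rw [h3] at h2
  have h2' : classInner (permCh G Ω) (fun _ => 1) = ((1 : ℕ) : ℂ) := h2
  have h4 : (m ⟨fun _ => 1, isIrrCharacter_one⟩ : ℂ) = 1 :=
    h1.symm.trans (h2'.trans Nat.cast_one)
  exact_mod_cast h4

theorem sum_mult_sq {m : IrrCharacter G → ℕ}
    (hm : ∀ ψ : IrrCharacter G, classInner (permCh G Ω) (ψ : G → ℂ) = m ψ) (a : Ω) :
    Nat.card (MulAction.orbitRel.Quotient (MulAction.stabilizer G a) Ω) = ∑ ψ, m ψ ^ 2 := by
  classical
  have h1 := classInner_permChar_self (G := G) (X := Ω)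
  rw [classInner_eq_sum_coeffs _ _ isClass_permCh isClass_permCh,
    Cfsg.Agent.S0669.result (G := G) (Ω := Ω) a] at h1
  have h2 : (Nat.card (MulAction.orbitRel.Quotient (MulAction.stabilizer G a) Ω) : ℂ) =
      ((∑ ψ, m ψ ^ 2 : ℕ) : ℂ) := by
    rw [← h1]
    push_cast
    refine Finset.sum_congr rfl fun ψ _ => ?_
    rw [hm ψ]
    simp [sq]
  exact_mod_cast h2

theorem sum_mult_deg {m : IrrCharacter G → ℕ}
    (hs : permCh G Ω = ∑ ψ : IrrCharacter G, m ψ • (ψ : G → ℂ)) {deg : IrrCharacter G → ℕ}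
    (hdeg : ∀ ψ : IrrCharacter G, (ψ : G → ℂ) 1 = deg ψ) :
    Fintype.card Ω = ∑ ψ, m ψ * deg ψ := by
  classical
  have h1 : (Nat.card (MulAction.fixedBy Ω (1 : G)) : ℂ) = ∑ ψ, (m ψ : ℂ) * (deg ψ : ℂ) := by
    have h0 := congrFun hs 1
    rw [Finset.sum_apply] at h0
    simp only [Pi.smul_apply, hdeg, nsmul_eq_mul] at h0
    exact h0
  have h2 : Nat.card (MulAction.fixedBy Ω (1 : G)) = Fintype.card Ω := by
    rw [Nat.card_eq_fintype_card]
    exact Fintype.card_congr (Equiv.subtypeUnivEquiv fun x => by simp)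
  rw [h2] at h1
  exact_mod_cast h1

/-- Orbit sums. -/
theorem sum_suborbits (a : Ω) :
    ∃ (W : Finset (MulAction.orbitRel.Quotient (MulAction.stabilizer G a) Ω)) (d : MulAction.orbitRel.Quotient (MulAction.stabilizer G a) Ω → ℕ),
      W.card + 1 = Nat.card (MulAction.orbitRel.Quotient (MulAction.stabilizer G a) Ω) ∧
      Fintype.card Ω = 1 + ∑ ω ∈ W, d ω ∧
      (∀ ω ∈ W, ∃ b : Ω, b ≠ a ∧ d ω = Nat.card (MulAction.orbit (MulAction.stabilizer G a) b)) ∧
      (∀ b : Ω, b ≠ a → ∃ ω ∈ W, d ω = Nat.card (MulAction.orbit (MulAction.stabilizer G a) b)) := by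
  classical
  let H := MulAction.stabilizer G a
  let Q := MulAction.orbitRel.Quotient H Ω
  letI : Fintype Q := Fintype.ofFinite _
  let ω₀ : Q := Quotient.mk'' a
  let d : Q → ℕ := fun ω => Nat.card ω.orbit
  have hmk : ∀ b : Ω, d (Quotient.mk'' b) = Nat.card (MulAction.orbit H b) := by
    intro b
    simp only [d]
    rw [MulAction.orbitRel.Quotient.orbit_mk]
  have hd0 : d ω₀ = 1 := by
    rw [hmk]
    have : MulAction.orbit H a = {a} := by
      ext y
      simp only [MulAction.mem_orbit_iff, Set.mem_singleton_iff]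
      constructor
      · rintro ⟨⟨h, hh⟩, rfl⟩
        exact hh
      · rintro rfl
        exact ⟨1, by simp⟩
    rw [this]
    simp
  have hsum : Fintype.card Ω = ∑ ω : Q, d ω := by
    rw [Fintype.card_congr (MulAction.selfEquivSigmaOrbits' H Ω), Fintype.card_sigma]
    refine Finset.sum_congr rfl fun ω _ => ?_
    simp only [d]
    rw [Nat.card_eq_fintype_card]
  refine ⟨Finset.univ.erase ω₀, d, ?_, ?_, ?_, ?_⟩
  · rw [Finset.card_erase_of_mem (Finset.mem_univ _), Finset.card_univ, Nat.card_eq_fintype_card]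
    have : 0 < Fintype.card Q := Fintype.card_pos_iff.mpr ⟨ω₀⟩
    exact Nat.sub_add_cancel this
  · rw [hsum, ← Finset.add_sum_erase _ _ (Finset.mem_univ ω₀), hd0]
  · intro ω hω
    induction ω using Quotient.inductionOn' with
    | h b =>
      refine ⟨b, ?_, hmk b⟩
      rintro rfl
      exact (Finset.mem_erase.mp hω).1 rfl
  · intro b hb
    refine ⟨Quotient.mk'' b, ?_, hmk b⟩
    rw [Finset.mem_erase]
    refine ⟨?_, Finset.mem_univ _⟩
    intro h
    have h2 : b ∈ MulAction.orbit H a := by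
      have : (MulAction.orbitRel H Ω).r b a := Quotient.exact h
      exact this
    obtain ⟨⟨k, hk⟩, hk2⟩ := h2
    apply hb
    rw [← hk2]
    exact hk

/-- All non-principal constituents of the same degree. -/
theorem same_degree_main (a : Ω) (f : ℕ)
    (hf : ∀ χ : G → ℂ, IsIrrCharacter G χ → χ ≠ (fun _ => 1) → classInner (permCh G Ω) χ ≠ 0 →
      χ 1 = f) :
    (∀ χ : G → ℂ, IsIrrCharacter G χ →
      classInner (permCh G Ω) χ = 0 ∨ classInner (permCh G Ω) χ = 1) ∧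
    ∀ b : Ω, b ≠ a → Nat.card (MulAction.orbit (MulAction.stabilizer G a) b) = f := by
  classical
  obtain ⟨m, hm, hs⟩ := IsCharacter.exists_eq_sum (isCharacter_permCh (G := G) (Ω := Ω))
  let ψ₀ : IrrCharacter G := ⟨fun _ => 1, isIrrCharacter_one⟩
  have hm0 : m ψ₀ = 1 := mult_principal hm a
  have hdeg : ∀ ψ : IrrCharacter G, ∃ n : ℕ, (ψ : G → ℂ) 1 = n := fun ψ =>
    IsCharacter.apply_one (IsIrrCharacter.isCharacter ψ.2)
  choose deg hdeg using hdeg
  have hdeg0 : deg ψ₀ = 1 := by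
    have h := hdeg ψ₀
    have h2 : ((deg ψ₀ : ℕ) : ℂ) = 1 := h.symm
    exact_mod_cast h2
  have hn := sum_mult_deg hs hdeg
  have hr := sum_mult_sq hm a
  obtain ⟨W, d, hW, hsum, hd1, hd2⟩ := sum_suborbits (G := G) a
  have hf' : ∀ ψ : IrrCharacter G, ψ ≠ ψ₀ → m ψ ≠ 0 → deg ψ = f := by
    intro ψ hψ hmψ
    have h1 : classInner (permCh G Ω) (ψ : G → ℂ) ≠ 0 := by
      rw [hm ψ]
      exact_mod_cast hmψ
    have h2 := hf ψ ψ.2 (fun h => hψ (Subtype.ext h)) h1
    rw [hdeg ψ] at h2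
    exact_mod_cast h2
  set A := ∑ ψ ∈ Finset.univ.erase ψ₀, m ψ with hA
  set B := ∑ ψ ∈ Finset.univ.erase ψ₀, m ψ ^ 2 with hB
  have hn2 : Fintype.card Ω = 1 + f * A := by
    rw [hn, ← Finset.add_sum_erase _ _ (Finset.mem_univ ψ₀), hm0, hdeg0, one_mul, hA, Finset.mul_sum]
    congr 1
    refine Finset.sum_congr rfl fun ψ hψ => ?_
    by_cases hmψ : m ψ = 0
    · simp [hmψ]
    · rw [hf' ψ (Finset.ne_of_mem_erase hψ) hmψ, mul_comm]
  have hr2 : W.card = B := by
    have h1 := hr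
    rw [← Finset.add_sum_erase _ _ (Finset.mem_univ ψ₀), hm0] at h1
    rw [hB]
    simp only [one_pow] at h1
    omega
  have hsumW : ∑ ω ∈ W, d ω = f * A := by omega
  have hpos : ∀ ω ∈ W, 0 < d ω := by
    intro ω hω
    obtain ⟨b, _, hb⟩ := hd1 ω hω
    rw [hb]
    exact Nat.card_pos_iff.mpr ⟨⟨b, MulAction.mem_orbit_self b⟩, inferInstance⟩
  have hdvd : ∀ ω ∈ W, f ∣ d ω := by
    intro ω hω
    obtain ⟨b, hba, hb⟩ := hd1 ω hω
    rw [hb]
    refine subdegree_dvd f (fun χ hχ h1 h2 => ⟨1, ?_⟩) a b hba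
    rw [hf χ hχ h1 h2]
    simp
  have hfin : ∀ χ (hχ : IsIrrCharacter G χ), m ⟨χ, hχ⟩ ≤ 1 →
      classInner (permCh G Ω) χ = 0 ∨ classInner (permCh G Ω) χ = 1 := by
    intro χ hχ hle
    have h1 := hm ⟨χ, hχ⟩
    interval_cases h2 : m ⟨χ, hχ⟩
    · left; simpa using h1
    · right; simpa using h1
  have hE : ∀ χ (hχ : IsIrrCharacter G χ), (⟨χ, hχ⟩ : IrrCharacter G) = ψ₀ ∨
      (⟨χ, hχ⟩ : IrrCharacter G) ∈ Finset.univ.erase ψ₀ := by
    intro χ hχ
    by_cases h : (⟨χ, hχ⟩ : IrrCharacter G) = ψ₀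
    · exact Or.inl h
    · exact Or.inr (Finset.mem_erase.mpr ⟨h, Finset.mem_univ _⟩)
  by_cases hf0 : f = 0
  · subst hf0
    have hW0 : W = ∅ := by
      by_contra hne
      obtain ⟨ω, hω⟩ := Finset.nonempty_iff_ne_empty.mpr hne
      have h1 := Finset.single_le_sum (fun i _ => Nat.zero_le (d i)) hω
      have h2 := hpos ω hω
      omega
    have hB0 : B = 0 := by rw [← hr2, hW0]; simp
    constructor
    · intro χ hχ
      apply hfin χ hχ
      rcases hE χ hχ with h | h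
      · rw [h, hm0]
      · have h3 := (Finset.sum_eq_zero_iff.mp hB0) _ h
        have : m ⟨χ, hχ⟩ = 0 := by simpa using h3
        omega
    · intro b hb
      obtain ⟨ω, hω, _⟩ := hd2 b hb
      rw [hW0] at hω
      simp at hω
  · have hfpos : 0 < f := Nat.pos_of_ne_zero hf0
    have hle : ∀ ω ∈ W, f ≤ d ω := fun ω hω => Nat.le_of_dvd (hpos ω hω) (hdvd ω hω)
    have hBA : B ≤ A := by
      have h1 : ∑ ω ∈ W, f ≤ ∑ ω ∈ W, d ω := Finset.sum_le_sum hle
      rw [Finset.sum_const, hsumW, hr2, smul_eq_mul, mul_comm] at h1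
      exact Nat.le_of_mul_le_mul_left h1 hfpos
    have hAB : ∀ ψ ∈ Finset.univ.erase ψ₀, m ψ ≤ m ψ ^ 2 := fun ψ _ => by nlinarith [m ψ]
    have hABeq : A = B := le_antisymm (Finset.sum_le_sum hAB) hBA
    constructor
    · intro χ hχ
      apply hfin χ hχ
      rcases hE χ hχ with h | h
      · rw [h, hm0]
      · have h3 := (Finset.sum_eq_sum_iff_of_le hAB).mp hABeq _ h
        by_contra hgt
        push Not at hgt
        nlinarith
    · intro b hb
      obtain ⟨ω, hω, hd⟩ := hd2 b hb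
      rw [← hd]
      have h1 : ∑ ω ∈ W, f = ∑ ω ∈ W, d ω := by
        rw [Finset.sum_const, hsumW, hr2, hABeq, smul_eq_mul, mul_comm]
      exact ((Finset.sum_eq_sum_iff_of_le hle).mp h1 ω hω).symm

/-- Rank at most five forces multiplicity-freeness. -/
theorem multFree_of_rank_le (a : Ω)
    (hr : Nat.card (MulAction.orbitRel.Quotient (MulAction.stabilizer G a) Ω) ≤ 5) :
    ∀ χ : G → ℂ, IsIrrCharacter G χ →
      classInner (permCh G Ω) χ = 0 ∨ classInner (permCh G Ω) χ = 1 := by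
  classical
  obtain ⟨m, hm, hs⟩ := IsCharacter.exists_eq_sum (isCharacter_permCh (G := G) (Ω := Ω))
  let ψ₀ : IrrCharacter G := ⟨fun _ => 1, isIrrCharacter_one⟩
  have hm0 : m ψ₀ = 1 := mult_principal hm a
  have hr2 := sum_mult_sq hm a
  intro χ hχ
  by_contra hcon
  push Not at hcon
  let ψ₁ : IrrCharacter G := ⟨χ, hχ⟩
  have hm1 : 2 ≤ m ψ₁ := by
    by_contra hlt
    push Not at hlt
    have h1 := hm ψ₁
    interval_cases h2 : m ψ₁
    · exact hcon.1 (by simpa using h1)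
    · exact hcon.2 (by simpa using h1)
  have hne : ψ₁ ≠ ψ₀ := by
    intro h
    rw [h, hm0] at hm1
    omega
  obtain ⟨n, hn⟩ := IsCharacter.apply_one (IsIrrCharacter.isCharacter hχ)
  have hB : m ψ₁ ^ 2 + ∑ ψ ∈ (Finset.univ.erase ψ₀).erase ψ₁, m ψ ^ 2 ≤ 4 := by
    rw [Finset.add_sum_erase _ (fun ψ => m ψ ^ 2) (Finset.mem_erase.mpr ⟨hne, Finset.mem_univ _⟩)]
    rw [← Finset.add_sum_erase _ _ (Finset.mem_univ ψ₀), hm0] at hr2
    simp only [one_pow] at hr2
    omega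
  have hother : ∀ ψ : IrrCharacter G, ψ ≠ ψ₀ → ψ ≠ ψ₁ → m ψ = 0 := by
    intro ψ h0 h1
    have h2 : ψ ∈ (Finset.univ.erase ψ₀).erase ψ₁ :=
      Finset.mem_erase.mpr ⟨h1, Finset.mem_erase.mpr ⟨h0, Finset.mem_univ _⟩⟩
    have h3 := Finset.single_le_sum (f := fun ψ => m ψ ^ 2) (fun i _ => Nat.zero_le _) h2
    by_contra hmz
    have h4 : 1 ≤ m ψ ^ 2 := Nat.one_le_pow _ _ (Nat.pos_of_ne_zero hmz)
    nlinarith
  have hsame : ∀ χ' : G → ℂ, IsIrrCharacter G χ' → χ' ≠ (fun _ => 1) →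
      classInner (permCh G Ω) χ' ≠ 0 → χ' 1 = n := by
    intro χ' hχ' h1 h2
    have h3 : (⟨χ', hχ'⟩ : IrrCharacter G) = ψ₁ := by
      by_contra h4
      have h5 := hother ⟨χ', hχ'⟩ (fun h => h1 (congrArg Subtype.val h)) h4
      apply h2
      rw [hm ⟨χ', hχ'⟩, h5]
      simp
    have h6 : χ' = χ := congrArg Subtype.val h3
    rw [h6, hn]
  have := (same_degree_main a n hsame).1 χ hχ
  tauto

end Counting

end Cfsg.Agent.Lib.Perm
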