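import Mathlib
import Cfsg.Agent.Lib.Perm.ZassInv

/-!
Tits' theorem on sharply 4-transitive groups.
-/

set_option autoImplicit false

namespace Cfsg.Agent.Lib.Perm

open MulAction

/-- Covering a type by a list. -/
lemma t4_of_cover {Ω : Type*} (L : List Ω) (h : ∀ z, z ∈ L) : Finite Ω ∧ Nat.card Ω ≤ L.length := by
  classical
  let _ : Fintype Ω := ⟨L.toFinset, by simpa using h⟩
  refine ⟨inferInstance, ?_⟩
  rw [Nat.card_eq_fintype_card]
  exact List.toFinset_card_le L

variable {G Ω : Type*} [Group G] [MulAction G Ω]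

/-- Four pairwise distinct points. -/
def T4D (p q r s : Ω) : Prop := p ≠ q ∧ p ≠ r ∧ p ≠ s ∧ q ≠ r ∧ q ≠ s ∧ r ≠ s

lemma t4_emb {p q r s : Ω} (h : T4D p q r s) : ∃ x : Fin 4 ↪ Ω,
    x 0 = p ∧ x 1 = q ∧ x 2 = r ∧ x 3 = s := by
  obtain ⟨h1, h2, h3, h4, h5, h6⟩ := h
  refine ⟨⟨![p, q, r, s], ?_⟩, rfl, rfl, rfl, rfl⟩
  intro i j hij
  fin_cases i <;> fin_cases j <;> simp_all

lemma t4_exists (h4 : IsMultiplyPretransitive G Ω 4) {p q r s p' q' r' s' : Ω}
    (h : T4D p q r s) (h' : T4D p' q' r' s') :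
    ∃ g : G, g • p = p' ∧ g • q = q' ∧ g • r = r' ∧ g • s = s' := by
  obtain ⟨x, hx0, hx1, hx2, hx3⟩ := t4_emb h
  obtain ⟨y, hy0, hy1, hy2, hy3⟩ := t4_emb h'
  obtain ⟨g, hg⟩ := exists_smul_eq G x y
  have hgi : ∀ i, g • x i = y i := fun i => congrArg (fun f : Fin 4 ↪ Ω => f i) hg
  refine ⟨g, ?_, ?_, ?_, ?_⟩
  · rw [← hx0, ← hy0, hgi]
  · rw [← hx1, ← hy1, hgi]
  · rw [← hx2, ← hy2, hgi]
  · rw [← hx3, ← hy3, hgi]

lemma t4_one (hsharp : ∀ x : Fin 4 ↪ Ω, stabilizer G x = ⊥) {p q r s : Ω} (h : T4D p q r s) {g : G}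
    (h1 : g • p = p) (h2 : g • q = q) (h3 : g • r = r) (h4 : g • s = s) : g = 1 := by
  obtain ⟨x, hx0, hx1, hx2, hx3⟩ := t4_emb h
  have hg : g ∈ stabilizer G x := by
    rw [mem_stabilizer_iff]
    ext i
    fin_cases i
    · change g • x 0 = x 0
      rw [hx0, h1]
    · change g • x 1 = x 1
      rw [hx1, h2]
    · change g • x 2 = x 2
      rw [hx2, h3]
    · change g • x 3 = x 3
      rw [hx3, h4]
  rw [hsharp, Subgroup.mem_bot] at hg
  exact hg

lemma t4_eq (hsharp : ∀ x : Fin 4 ↪ Ω, stabilizer G x = ⊥) {p q r s : Ω} (h : T4D p q r s) {g g' : G}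
    (h1 : g • p = g' • p) (h2 : g • q = g' • q) (h3 : g • r = g' • r) (h4 : g • s = g' • s) :
    g = g' := by
  have := t4_one hsharp h (g := g'⁻¹ * g) (by rw [mul_smul, h1, inv_smul_smul])
    (by rw [mul_smul, h2, inv_smul_smul]) (by rw [mul_smul, h3, inv_smul_smul])
    (by rw [mul_smul, h4, inv_smul_smul])
  exact (inv_mul_eq_one.mp this).symm

/-- The even case of Tits' theorem: involutions in two-point stabilisers have no further fixed
points. -/
theorem t4_caseB (h4 : IsMultiplyPretransitive G Ω 4) (hsharp : ∀ x : Fin 4 ↪ Ω, stabilizer G x = ⊥)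
    {a b c d : Ω} (hD : T4D a b c d) {h j : G} (hha : h • a = b) (hhb : h • b = a) (hhc : h • c = c)
    (hhd : h • d = d) (hja : j • a = a) (hjb : j • b = b) (hjc : j • c = d) (hjd : j • d = c)
    (hj0 : ∀ e : Ω, e ≠ a → e ≠ b → j • e ≠ e) : Finite Ω ∧ Nat.card Ω ≤ 6 := by
  classical
  obtain ⟨hab, hac, had, hbc, hbd, hcd⟩ := id hD
  have hh2 : ∀ x : Ω, h • h • x = x := by
    have : h * h = 1 := t4_one hsharp hD (by rw [mul_smul, hha, hhb]) (by rw [mul_smul, hhb, hha])
      (by rw [mul_smul, hhc, hhc]) (by rw [mul_smul, hhd, hhd])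
    intro x
    rw [← mul_smul, this, one_smul]
  have hj2 : ∀ x : Ω, j • j • x = x := by
    have : j * j = 1 := t4_one hsharp hD (by rw [mul_smul, hja, hja]) (by rw [mul_smul, hjb, hjb])
      (by rw [mul_smul, hjc, hjd]) (by rw [mul_smul, hjd, hjc])
    intro x
    rw [← mul_smul, this, one_smul]
  have hcomm : h * j = j * h := t4_eq hsharp hD (by simp [mul_smul, hha, hhb, hja, hjb])
    (by simp [mul_smul, hha, hhb, hja, hjb]) (by simp [mul_smul, hhc, hhd, hjc, hjd])
    (by simp [mul_smul, hhc, hhd, hjc, hjd])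
  have hcomm' : ∀ x : Ω, h • j • x = j • h • x := fun x => by
    rw [← mul_smul, hcomm, mul_smul]
  have hh1 : ∀ x : Ω, x ≠ a → x ≠ b → h • x ≠ a ∧ h • x ≠ b := by
    intro x hxa hxb
    constructor
    · intro e
      rw [← hhb] at e
      exact hxb (smul_left_cancel h e)
    · intro e
      rw [← hha] at e
      exact hxa (smul_left_cancel h e)
  have hj1 : ∀ x : Ω, x ≠ a → x ≠ b → x ≠ c → x ≠ d →
      j • x ≠ a ∧ j • x ≠ b ∧ j • x ≠ c ∧ j • x ≠ d := by
    intro x hxa hxb hxc hxd
    refine ⟨?_, ?_, ?_, ?_⟩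
    · intro e
      rw [← hja] at e
      exact hxa (smul_left_cancel j e)
    · intro e
      rw [← hjb] at e
      exact hxb (smul_left_cancel j e)
    · intro e
      rw [← hjd] at e
      exact hxd (smul_left_cancel j e)
    · intro e
      rw [← hjc] at e
      exact hxc (smul_left_cancel j e)
  -- no involution of the two-point stabiliser has a fixed point
  have hnofix : ∀ (i : G), i • a = a → i • b = b → ∀ x y : Ω, T4D a b x y → i • x = y → i • y = x →
      ∀ z : Ω, z ≠ a → z ≠ b → i • z ≠ z := by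
    intro i hia hib x y hxy hix hiy z hza hzb hiz
    obtain ⟨g, hg1, hg2, hg3, hg4⟩ := t4_exists h4 hD hxy
    have hg1' : g⁻¹ • a = a := by rw [inv_smul_eq_iff, hg1]
    have hg2' : g⁻¹ • b = b := by rw [inv_smul_eq_iff, hg2]
    have hg3' : g⁻¹ • x = c := by rw [inv_smul_eq_iff, hg3]
    have hg4' : g⁻¹ • y = d := by rw [inv_smul_eq_iff, hg4]
    have hi : i = g * j * g⁻¹ := t4_eq hsharp hxy
      (by rw [hia, mul_smul, mul_smul, hg1', hja, hg1]) (by rw [hib, mul_smul, mul_smul, hg2', hjb, hg2])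
      (by rw [hix, mul_smul, mul_smul, hg3', hjc, hg4]) (by rw [hiy, mul_smul, mul_smul, hg4', hjd, hg3])
    rw [hi, mul_smul, mul_smul] at hiz
    have h1 : j • (g⁻¹ • z) = g⁻¹ • z := by
      have := congrArg (fun w => g⁻¹ • w) hiz
      simpa using this
    apply hj0 _ _ _ h1
    · intro e
      apply hza
      rw [inv_smul_eq_iff] at e
      rw [e, hg1]
    · intro e
      apply hzb
      rw [inv_smul_eq_iff] at e
      rw [e, hg2]
  -- `h` fixes only `c, d`
  have hhfix : ∀ x : Ω, x ≠ a → x ≠ b → x ≠ c → x ≠ d → h • x ≠ x := by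
    intro x hxa hxb hxc hxd hx
    obtain ⟨h1, h2, h3, h4'⟩ := hj1 x hxa hxb hxc hxd
    have hjx : h • (j • x) = j • x := by rw [hcomm', hx]
    have hD' : T4D c d x (j • x) :=
      ⟨hcd, hxc.symm, h3.symm, hxd.symm, h4'.symm, (hj0 x hxa hxb).symm⟩
    have := t4_one hsharp hD' hhc hhd hx hjx
    rw [this, one_smul] at hha
    exact hab hha
  have hkey : ∀ x : Ω, x ≠ a → x ≠ b → x ≠ c → x ≠ d → j • x = h • x := by
    intro x hxa hxb hxc hxd
    obtain ⟨h1, h2⟩ := hh1 x hxa hxb
    have hxne : x ≠ h • x := (hhfix x hxa hxb hxc hxd).symm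
    have hDx : T4D a b x (h • x) := ⟨hab, hxa.symm, h1.symm, hxb.symm, h2.symm, hxne⟩
    obtain ⟨i, hia, hib, hix, hihx⟩ := t4_exists h4 hDx (p' := a) (q' := b) (r' := h • x) (s' := x)
      ⟨hab, h1.symm, hxa.symm, h2.symm, hxb.symm, hxne.symm⟩
    have hicomm : h * i = i * h := t4_eq hsharp hDx (by simp [mul_smul, hha, hhb, hia, hib])
      (by simp [mul_smul, hha, hhb, hia, hib]) (by simp [mul_smul, hix, hihx, hh2])
      (by simp [mul_smul, hix, hihx, hh2])
    have hicomm' : ∀ y : Ω, h • i • y = i • h • y := fun y => by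
      rw [← mul_smul, hicomm, mul_smul]
    have hi2 : ∀ y : Ω, i • i • y = y := by
      have : i * i = 1 := t4_one hsharp hDx (by rw [mul_smul, hia, hia])
        (by rw [mul_smul, hib, hib]) (by rw [mul_smul, hix, hihx]) (by rw [mul_smul, hihx, hix])
      intro y
      rw [← mul_smul, this, one_smul]
    have hinof := hnofix i hia hib x (h • x) hDx hix hihx
    have hyh : h • i • c = i • c := by rw [hicomm', hhc]
    have hyc : i • c ≠ c := hinof c hac.symm hbc.symm
    have hya : i • c ≠ a := by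
      intro e
      rw [← hia] at e
      exact hac (smul_left_cancel i e).symm
    have hyb : i • c ≠ b := by
      intro e
      rw [← hib] at e
      exact hbc (smul_left_cancel i e).symm
    have hyd : i • c = d := by
      by_contra hne
      exact hhfix _ hya hyb hyc hne hyh
    have hid : i • d = c := by rw [← hyd, hi2]
    have hij : i = j := t4_eq hsharp hD (by rw [hia, hja]) (by rw [hib, hjb]) (by rw [hyd, hjc])
      (by rw [hid, hjd])
    rw [← hij, hix]
  -- the covering
  have hw : ∀ x : Ω, x ≠ a → x ≠ b → x ≠ c → x ≠ d → (h * j) • x = x := by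
    intro x hxa hxb hxc hxd
    rw [mul_smul, hkey x hxa hxb hxc hxd, hh2]
  by_cases hex : ∃ x : Ω, x ≠ a ∧ x ≠ b ∧ x ≠ c ∧ x ≠ d
  · obtain ⟨x, hxa, hxb, hxc, hxd⟩ := hex
    obtain ⟨y1, y2, y3, y4⟩ := hj1 x hxa hxb hxc hxd
    have hcov : ∀ z : Ω, z ∈ [a, b, c, d, x, j • x] := by
      intro z
      by_contra hz
      simp only [List.mem_cons, List.not_mem_nil, or_false, not_or] at hz
      obtain ⟨hza, hzb, hzc, hzd, hzx, hzy⟩ := hz
      obtain ⟨z1, z2, z3, z4⟩ := hj1 z hza hzb hzc hzd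
      have hD' : T4D x (j • x) z (j • z) := by
        refine ⟨(hj0 x hxa hxb).symm, Ne.symm hzx, ?_, Ne.symm hzy, ?_, (hj0 z hza hzb).symm⟩
        · intro e
          apply hzy
          rw [e, hj2]
        · intro e
          exact hzx (smul_left_cancel j e).symm
      have := t4_one hsharp hD' (hw x hxa hxb hxc hxd) (hw _ y1 y2 y3 y4) (hw z hza hzb hzc hzd)
        (hw _ z1 z2 z3 z4)
      have h5 : (h * j) • a = b := by rw [mul_smul, hja, hha]
      rw [this, one_smul] at h5
      exact hab h5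
    have := t4_of_cover _ hcov
    simpa using this
  · push Not at hex
    have hcov : ∀ z : Ω, z ∈ [a, b, c, d] := by
      intro z
      by_cases hza : z = a
      · simp [hza]
      by_cases hzb : z = b
      · simp [hzb]
      by_cases hzc : z = c
      · simp [hzc]
      simp [hex z hza hzb hzc]
    have := t4_of_cover _ hcov
    simp only [List.length_cons, List.length_nil] at this
    exact ⟨this.1, by omega⟩

/-- The odd case of Tits' theorem: involutions in two-point stabilisers have a further fixed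
point. -/
theorem t4_caseA (h4 : IsMultiplyPretransitive G Ω 4) (hsharp : ∀ x : Fin 4 ↪ Ω, stabilizer G x = ⊥)
    {a b c d e : Ω} (hD : T4D a b c d) {h j : G} (hha : h • a = b) (hhb : h • b = a) (hhc : h • c = c)
    (hhd : h • d = d) (hja : j • a = a) (hjb : j • b = b) (hjc : j • c = d) (hjd : j • d = c)
    (hea : e ≠ a) (heb : e ≠ b) (hje : j • e = e) :
    Finite Ω ∧ Nat.card Ω ≤ 11 ∧ ¬ Even (Nat.card Ω) := by
  classical
  obtain ⟨hab, hac, had, hbc, hbd, hcd⟩ := id hD
  have hec : e ≠ c := by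
    rintro rfl
    rw [hjc] at hje
    exact hcd hje.symm
  have hed : e ≠ d := by
    rintro rfl
    rw [hjd] at hje
    exact hcd hje
  have hh_2 : h * h = 1 := t4_one hsharp hD (by rw [mul_smul, hha, hhb])
    (by rw [mul_smul, hhb, hha]) (by rw [mul_smul, hhc, hhc]) (by rw [mul_smul, hhd, hhd])
  have hh2 : ∀ x : Ω, h • h • x = x := by
    intro x
    rw [← mul_smul, hh_2, one_smul]
  have hj_2 : j * j = 1 := t4_one hsharp hD (by rw [mul_smul, hja, hja])
    (by rw [mul_smul, hjb, hjb]) (by rw [mul_smul, hjc, hjd]) (by rw [mul_smul, hjd, hjc])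
  have hcomm : h * j = j * h := t4_eq hsharp hD (by simp [mul_smul, hha, hhb, hja, hjb])
    (by simp [mul_smul, hha, hhb, hja, hjb]) (by simp [mul_smul, hhc, hhd, hjc, hjd])
    (by simp [mul_smul, hhc, hhd, hjc, hjd])
  have hcomm' : ∀ x : Ω, h • j • x = j • h • x := fun x => by
    rw [← mul_smul, hcomm, mul_smul]
  have hh1 : ∀ x : Ω, x ≠ a → x ≠ b → h • x ≠ a ∧ h • x ≠ b := by
    intro x hxa hxb
    constructor
    · intro e'
      rw [← hhb] at e'
      exact hxb (smul_left_cancel h e')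
    · intro e'
      rw [← hha] at e'
      exact hxa (smul_left_cancel h e')
  have hfixa : ∀ (g : G) (x : Ω), g • a = a → x ≠ a → g • x ≠ a := by
    intro g x hg hx e'
    rw [← hg] at e'
    exact hx (smul_left_cancel g e')
  have hfixb : ∀ (g : G) (x : Ω), g • b = b → x ≠ b → g • x ≠ b := by
    intro g x hg hx e'
    rw [← hg] at e'
    exact hx (smul_left_cancel g e')
  -- `h` fixes `e`
  have hhe : h • e = e := by
    by_contra hne
    obtain ⟨h1, h2⟩ := hh1 e hea heb
    have hD' : T4D a b e (h • e) := ⟨hab, hea.symm, h1.symm, heb.symm, h2.symm, Ne.symm hne⟩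
    have hj1 : j = 1 := t4_one hsharp hD' hja hjb hje (by rw [← hcomm', hje])
    rw [hj1, one_smul] at hjc
    exact hcd hjc
  have hFh : ∀ x : Ω, h • x = x → x = c ∨ x = d ∨ x = e := by
    intro x hx
    by_contra hcon
    push Not at hcon
    obtain ⟨hxc, hxd, hxe⟩ := hcon
    have hD' : T4D c d e x := ⟨hcd, hec.symm, hxc.symm, hed.symm, hxd.symm, hxe.symm⟩
    have h1 : h = 1 := t4_one hsharp hD' hhc hhd hhe hx
    rw [h1, one_smul] at hha
    exact hab hha
  have hFj : ∀ x : Ω, j • x = x → x = a ∨ x = b ∨ x = e := by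
    intro x hx
    by_contra hcon
    push Not at hcon
    obtain ⟨hxa, hxb, hxe⟩ := hcon
    have hD' : T4D a b e x := ⟨hab, hea.symm, hxa.symm, heb.symm, hxb.symm, hxe.symm⟩
    have h1 : j = 1 := t4_one hsharp hD' hja hjb hje hx
    rw [h1, one_smul] at hjc
    exact hcd hjc
  -- the element `ρ`
  have hD2 : T4D a b d e := ⟨hab, had, hea.symm, hbd, heb.symm, hed.symm⟩
  obtain ⟨ρ, hρa, hρb, hρc, hρd⟩ := t4_exists h4 hD hD2
  have hρcomm : h * ρ = ρ * h := t4_eq hsharp hD (by simp [mul_smul, hha, hhb, hρa, hρb])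
    (by simp [mul_smul, hha, hhb, hρa, hρb]) (by simp [mul_smul, hhc, hρc, hhd])
    (by simp [mul_smul, hhd, hρd, hhe])
  have hρcomm' : ∀ x : Ω, h • ρ • x = ρ • h • x := fun x => by
    rw [← mul_smul, hρcomm, mul_smul]
  have hρinv' : ∀ x : Ω, h • ρ⁻¹ • x = ρ⁻¹ • h • x := fun x => by
    have h1 := hρcomm' (ρ⁻¹ • x)
    rw [smul_inv_smul] at h1
    rw [eq_inv_smul_iff, ← h1]
  have hρe : ρ • e = c := by
    have h1 : h • ρ • e = ρ • e := by rw [hρcomm', hhe]
    rcases hFh _ h1 with h2 | h2 | h2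
    · exact h2
    · exact absurd (smul_left_cancel ρ (h2.trans hρc.symm)) hec
    · exact absurd (smul_left_cancel ρ (h2.trans hρd.symm)) hed
  have hρia : ρ⁻¹ • a = a := by rw [inv_smul_eq_iff, hρa]
  have hρib : ρ⁻¹ • b = b := by rw [inv_smul_eq_iff, hρb]
  have hρic : ρ⁻¹ • c = e := by rw [inv_smul_eq_iff, hρe]
  have hρid : ρ⁻¹ • d = c := by rw [inv_smul_eq_iff, hρc]
  -- the involution `ε`
  have hD3 : T4D a b c e := ⟨hab, hac, hea.symm, hbc, heb.symm, hec.symm⟩
  obtain ⟨ε, hεa, hεb, hεc, hεd⟩ := t4_exists h4 hD hD3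
  -- the key description of involutions fixing `c`
  have hE : ∀ (y : Ω) (i : G), y ≠ a → y ≠ b → h • y ≠ y → i • a = a → i • b = b → i • c = c →
      i • y = h • y → i • (h • y) = y → ε • y = h • y := by
    intro y i hya hyb hhy hia hib hic hiy hihy
    obtain ⟨h1, h2⟩ := hh1 y hya hyb
    have hDy : T4D a b y (h • y) := ⟨hab, hya.symm, h1.symm, hyb.symm, h2.symm, Ne.symm hhy⟩
    have hicomm : h * i = i * h := t4_eq hsharp hDy (by simp [mul_smul, hha, hhb, hia, hib])
      (by simp [mul_smul, hha, hhb, hia, hib]) (by simp [mul_smul, hiy, hihy, hh2])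
      (by simp [mul_smul, hiy, hihy, hh2])
    have hid : i • d = e := by
      have h3 : h • i • d = i • d := by
        rw [← mul_smul, hicomm, mul_smul, hhd]
      rcases hFh _ h3 with h4' | h4' | h4'
      · rw [← hic] at h4'
        exact absurd (smul_left_cancel i h4').symm hcd
      · have hi1 : i = 1 := t4_one hsharp hD hia hib hic h4'
        rw [hi1, one_smul] at hiy
        exact absurd hiy.symm hhy
      · exact h4'
    have hiε : i = ε := t4_eq hsharp hD (by rw [hia, hεa]) (by rw [hib, hεb]) (by rw [hic, hεc])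
      (by rw [hid, hεd])
    rw [← hiε, hiy]
  -- at most two points satisfy `ε x = h x`
  have hcommh_ε : h * ε = ε * h := t4_eq hsharp hD (by simp [mul_smul, hha, hhb, hεa, hεb])
    (by simp [mul_smul, hha, hhb, hεa, hεb]) (by simp [mul_smul, hhc, hεc])
    (by simp [mul_smul, hhd, hεd, hhe])
  have hpair : ∃ s₁ s₂ : Ω, ∀ x : Ω, x ≠ a → x ≠ b → x ≠ c → ε • x = h • x → x = s₁ ∨ x = s₂ := by
    by_cases hex : ∃ x : Ω, x ≠ a ∧ x ≠ b ∧ x ≠ c ∧ ε • x = h • x
    · obtain ⟨x, hxa, hxb, hxc, hxε⟩ := hex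
      have hDx : T4D a b c x := ⟨hab, hac, hxa.symm, hbc, hxb.symm, hxc.symm⟩
      obtain ⟨m, hma, hmb, hmc, hmd⟩ := t4_exists h4 hD hDx
      refine ⟨x, m • e, ?_⟩
      intro x' hxa' hxb' hxc' hxε'
      have hDx' : T4D a b c x' := ⟨hab, hac, hxa'.symm, hbc, hxb'.symm, hxc'.symm⟩
      obtain ⟨m', hma', hmb', hmc', hmd'⟩ := t4_exists h4 hD hDx'
      have hm : h * m * h = ε * m := t4_eq hsharp hD (by simp [mul_smul, hha, hhb, hma, hmb, hεa])
        (by simp [mul_smul, hha, hhb, hma, hmb, hεb]) (by simp [mul_smul, hhc, hmc, hεc])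
        (by simp [mul_smul, hhd, hmd, hxε])
      have hm' : h * m' * h = ε * m' := t4_eq hsharp hD
        (by simp [mul_smul, hha, hhb, hma', hmb', hεa])
        (by simp [mul_smul, hha, hhb, hma', hmb', hεb]) (by simp [mul_smul, hhc, hmc', hεc])
        (by simp [mul_smul, hhd, hmd', hxε'])
      have hhinv : h⁻¹ = h := inv_eq_of_mul_eq_one_left hh_2
      set v := m⁻¹ * m' with hv
      have hvcomm : h * v = v * h := by
        have h1 : h * v * h = v := by
          calc h * v * h = (h * m⁻¹ * h) * (h * m' * h) := by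
                rw [hv]
                calc h * (m⁻¹ * m') * h = h * m⁻¹ * 1 * (m' * h) := by group
                  _ = h * m⁻¹ * (h * h) * (m' * h) := by rw [hh_2]
                  _ = _ := by group
            _ = (h * m * h)⁻¹ * (h * m' * h) := by
                congr 1
                rw [mul_inv_rev, mul_inv_rev, hhinv]
                group
            _ = v := by
                rw [hm, hm', hv]
                group
        calc h * v = h * v * (h * h) := by rw [hh_2, mul_one]
          _ = (h * v * h) * h := by group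
          _ = v * h := by rw [h1]
      have hva : v • a = a := by
        rw [hv, mul_smul, hma', inv_smul_eq_iff, hma]
      have hvb : v • b = b := by
        rw [hv, mul_smul, hmb', inv_smul_eq_iff, hmb]
      have hvc : v • c = c := by
        rw [hv, mul_smul, hmc', inv_smul_eq_iff, hmc]
      have h3 : h • v • d = v • d := by
        rw [← mul_smul, hvcomm, mul_smul, hhd]
      rcases hFh _ h3 with h4' | h4' | h4'
      · rw [← hvc] at h4'
        exact absurd (smul_left_cancel v h4').symm hcd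
      · left
        have hv1 : v = 1 := t4_one hsharp hD hva hvb hvc h4'
        have hmm : m' = m := by
          have : m⁻¹ * m' = 1 := hv1
          exact (inv_mul_eq_one.mp this).symm
        rw [← hmd', hmm, hmd]
      · right
        have hvε : v = ε := t4_eq hsharp hD (by rw [hva, hεa]) (by rw [hvb, hεb]) (by rw [hvc, hεc])
          (by rw [h4', hεd])
        have h5 : m' = m * ε := by
          have : m⁻¹ * m' = ε := hvε
          rw [← this]
          group
        rw [← hmd', h5, mul_smul, hεd]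
    · push Not at hex
      refine ⟨a, a, fun x hxa hxb hxc hxε => ?_⟩
      exact absurd hxε (hex x hxa hxb hxc)
  obtain ⟨s₁, s₂, hs⟩ := hpair
  -- covering
  have hcov : ∀ z : Ω, z ∈ [a, b, c, d, e, s₁, s₂, ρ • s₁, ρ • s₂, ρ⁻¹ • s₁, ρ⁻¹ • s₂] := by
    intro x
    by_cases hxa : x = a
    · simp [hxa]
    by_cases hxb : x = b
    · simp [hxb]
    by_cases hxc : x = c
    · simp [hxc]
    by_cases hxd : x = d
    · simp [hxd]
    by_cases hxe : x = e
    · simp [hxe]
    have hhx : h • x ≠ x := by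
      intro h1
      rcases hFh x h1 with h2 | h2 | h2
      · exact hxc h2
      · exact hxd h2
      · exact hxe h2
    obtain ⟨h1, h2⟩ := hh1 x hxa hxb
    have hDx : T4D a b x (h • x) :=
      ⟨hab, Ne.symm hxa, h1.symm, Ne.symm hxb, h2.symm, Ne.symm hhx⟩
    obtain ⟨i, hia, hib, hix, hihx⟩ := t4_exists h4 hDx (p' := a) (q' := b) (r' := h • x) (s' := x)
      ⟨hab, h1.symm, Ne.symm hxa, h2.symm, Ne.symm hxb, hhx⟩
    have hicomm : h * i = i * h := t4_eq hsharp hDx (by simp [mul_smul, hha, hhb, hia, hib])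
      (by simp [mul_smul, hha, hhb, hia, hib]) (by simp [mul_smul, hix, hihx, hh2])
      (by simp [mul_smul, hix, hihx, hh2])
    -- a fixed point of `i`
    obtain ⟨g, hg1, hg2, hg3, hg4⟩ := t4_exists h4 hD hDx
    have hg1' : g⁻¹ • a = a := by rw [inv_smul_eq_iff, hg1]
    have hg2' : g⁻¹ • b = b := by rw [inv_smul_eq_iff, hg2]
    have hg3' : g⁻¹ • x = c := by rw [inv_smul_eq_iff, hg3]
    have hg4' : g⁻¹ • (h • x) = d := by rw [inv_smul_eq_iff, hg4]
    have hi : i = g * j * g⁻¹ := t4_eq hsharp hDx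
      (by rw [hia, mul_smul, mul_smul, hg1', hja, hg1])
      (by rw [hib, mul_smul, mul_smul, hg2', hjb, hg2])
      (by rw [hix, mul_smul, mul_smul, hg3', hjc, hg4])
      (by rw [hihx, mul_smul, mul_smul, hg4', hjd, hg3])
    have him : i • (g • e) = g • e := by
      rw [hi, mul_smul, mul_smul, inv_smul_smul, hje]
    have hma : g • e ≠ a := hfixa g e hg1 hea
    have hmb : g • e ≠ b := hfixb g e hg2 heb
    have hhm : h • (g • e) = g • e := by
      by_contra hne
      obtain ⟨h3, h4'⟩ := hh1 _ hma hmb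
      have hD' : T4D a b (g • e) (h • g • e) :=
        ⟨hab, hma.symm, h3.symm, hmb.symm, h4'.symm, Ne.symm hne⟩
      have hi1 : i = 1 := t4_one hsharp hD' hia hib him (by
        have hcm : ∀ y : Ω, h • i • y = i • h • y := fun y => by
          rw [← mul_smul, hicomm, mul_smul]
        rw [← hcm, him])
      rw [hi1, one_smul] at hix
      exact hhx hix.symm
    rcases hFh _ hhm with h3 | h3 | h3
    · -- fixed point `c`
      have hic : i • c = c := by rw [← h3]; exact him
      have := hs x hxa hxb hxc (hE x i hxa hxb hhx hia hib hic hix hihx)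
      rcases this with h5 | h5 <;> simp [h5]
    · -- fixed point `d`
      have hid : i • d = d := by rw [← h3]; exact him
      set y := ρ⁻¹ • x with hy
      have hxy : x = ρ • y := by rw [hy, smul_inv_smul]
      have hya : y ≠ a := by
        intro h5
        apply hxa
        rw [hxy, h5, hρa]
      have hyb : y ≠ b := by
        intro h5
        apply hxb
        rw [hxy, h5, hρb]
      have hhy : h • y ≠ y := by
        intro h5
        apply hhx
        rw [hxy, hρcomm', h5]
      have hyc : y ≠ c := by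
        rintro h5
        apply hhy
        rw [h5, hhc]
      have hε := hE y (ρ⁻¹ * i * ρ) hya hyb hhy (by rw [mul_smul, mul_smul, hρa, hia, hρia])
        (by rw [mul_smul, mul_smul, hρb, hib, hρib])
        (by rw [mul_smul, mul_smul, hρc, hid, hρid])
        (by
          rw [mul_smul, mul_smul, ← hxy, hix, hy, hρinv'])
        (by
          rw [mul_smul, mul_smul, ← hρcomm', ← hxy, hihx])
      rcases hs y hya hyb hyc hε with h5 | h5
      · rw [hxy, h5]
        simp
      · rw [hxy, h5]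
        simp
    · -- fixed point `e`
      have hie : i • e = e := by rw [← h3]; exact him
      set y := ρ • x with hy
      have hxy : x = ρ⁻¹ • y := by rw [hy, inv_smul_smul]
      have hya : y ≠ a := by
        intro h5
        apply hxa
        rw [hxy, h5, hρia]
      have hyb : y ≠ b := by
        intro h5
        apply hxb
        rw [hxy, h5, hρib]
      have hhy : h • y ≠ y := by
        intro h5
        apply hhx
        rw [hxy, hρinv', h5]
      have hyc : y ≠ c := by
        rintro h5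
        apply hhy
        rw [h5, hhc]
      have hε := hE y (ρ * i * ρ⁻¹) hya hyb hhy (by rw [mul_smul, mul_smul, hρia, hia, hρa])
        (by rw [mul_smul, mul_smul, hρib, hib, hρb])
        (by rw [mul_smul, mul_smul, hρic, hie, hρe])
        (by
          rw [mul_smul, mul_smul, ← hxy, hix, hy, hρcomm'])
        (by
          rw [mul_smul, mul_smul, ← hρinv', ← hxy, hihx])
      rcases hs y hya hyb hyc hε with h5 | h5
      · rw [hxy, h5]
        simp
      · rw [hxy, h5]
        simp
  obtain ⟨hfin, hcard⟩ := t4_of_cover _ hcov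
  refine ⟨hfin, by simpa using hcard, ?_⟩
  -- parity
  let _ : Fintype Ω := Fintype.ofFinite Ω
  have hpar := zi_parity (Ω := Ω) j (by rw [pow_two]; exact hj_2)
  have hfix : fixedBy Ω j = {a, b, e} := by
    ext x
    simp only [mem_fixedBy, Set.mem_insert_iff, Set.mem_singleton_iff]
    constructor
    · exact hFj x
    · rintro (rfl | rfl | rfl)
      · exact hja
      · exact hjb
      · exact hje
  have hfc : Nat.card (fixedBy Ω j) = 3 := by
    rw [hfix, Nat.card_coe_set_eq]
    rw [Set.ncard_insert_of_notMem _ (Set.toFinite _), Set.ncard_pair (Ne.symm heb)]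
    simp [hab, Ne.symm hea]
  rw [hfc] at hpar
  intro heven
  obtain ⟨k, hk⟩ := heven
  unfold Nat.ModEq at hpar
  omega

/-- **Tits' theorem** on sharply 4-transitive groups. -/
theorem tits_sharp4 (h4 : IsMultiplyPretransitive G Ω 4) (hsharp : ∀ x : Fin 4 ↪ Ω, stabilizer G x = ⊥)
    (hne : Nonempty (Fin 4 ↪ Ω)) :
    Finite Ω ∧ Nat.card Ω ≤ 11 ∧ (Even (Nat.card Ω) → Nat.card Ω ≤ 6) := by
  classical
  obtain ⟨x⟩ := hne
  have hD : T4D (x 0) (x 1) (x 2) (x 3) := by
    refine ⟨?_, ?_, ?_, ?_, ?_, ?_⟩ <;> intro h <;> have := x.injective h <;> simp at this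
  have hD1 : T4D (x 1) (x 0) (x 2) (x 3) := by
    obtain ⟨h1, h2, h3, h4', h5, h6⟩ := hD
    exact ⟨h1.symm, h4', h5, h2, h3, h6⟩
  have hD2 : T4D (x 0) (x 1) (x 3) (x 2) := by
    obtain ⟨h1, h2, h3, h4', h5, h6⟩ := hD
    exact ⟨h1, h3, h2, h5, h4', h6.symm⟩
  obtain ⟨h, hha, hhb, hhc, hhd⟩ := t4_exists h4 hD hD1
  obtain ⟨j, hja, hjb, hjc, hjd⟩ := t4_exists h4 hD hD2
  by_cases hex : ∃ e : Ω, e ≠ x 0 ∧ e ≠ x 1 ∧ j • e = e
  · obtain ⟨e, hea, heb, hje⟩ := hex
    obtain ⟨h1, h2, h3⟩ := t4_caseA h4 hsharp hD hha hhb hhc hhd hja hjb hjc hjd hea heb hje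
    exact ⟨h1, h2, fun h5 => absurd h5 h3⟩
  · push Not at hex
    obtain ⟨h1, h2⟩ := t4_caseB h4 hsharp hD hha hhb hhc hhd hja hjb hjc hjd hex
    exact ⟨h1, by omega, fun _ => h2⟩

end Cfsg.Agent.Lib.Perm
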