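import Cfsg.Agent.Lib.Perm.TwoPRing

/-!
Block decomposition of matrices commuting with a semiregular element of order `p` with two cycles.
-/

set_option autoImplicit false
set_option linter.unusedSectionVars false

namespace Cfsg.Agent.Lib.Perm

open scoped BigOperators
open Matrix

variable {p : ℕ} [hp : Fact p.Prime] {α : Type*} [Fintype α] [DecidableEq α]

/-- Invariance of a matrix under a permutation group. -/
def TpInv (G : Subgroup (Equiv.Perm α)) (T : Matrix α α ℚ) : Prop :=
  ∀ g ∈ G, ∀ a b, T (g a) (g b) = T a b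

section inv

variable {G : Subgroup (Equiv.Perm α)}

lemma tpInv_one : TpInv G (1 : Matrix α α ℚ) := by
  intro g _ a b
  simp [Matrix.one_apply]

lemma tpInv_add {T T' : Matrix α α ℚ} (h : TpInv G T) (h' : TpInv G T') : TpInv G (T + T') := by
  intro g hg a b
  simp [h g hg, h' g hg]

lemma tpInv_sub {T T' : Matrix α α ℚ} (h : TpInv G T) (h' : TpInv G T') : TpInv G (T - T') := by
  intro g hg a b
  simp [h g hg, h' g hg]

lemma tpInv_smul (c : ℚ) {T : Matrix α α ℚ} (h : TpInv G T) : TpInv G (c • T) := by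
  intro g hg a b
  simp [h g hg]

lemma tpInv_mul {T T' : Matrix α α ℚ} (h : TpInv G T) (h' : TpInv G T') : TpInv G (T * T') := by
  intro g hg a b
  simp only [Matrix.mul_apply]
  symm
  refine Fintype.sum_equiv g _ _ fun c => ?_
  rw [h g hg, h' g hg]

lemma tpInv_transpose {T : Matrix α α ℚ} (h : TpInv G T) : TpInv G Tᵀ := by
  intro g hg a b
  simp [h g hg]

lemma tpInv_had {T T' : Matrix α α ℚ} (h : TpInv G T) (h' : TpInv G T') :
    TpInv G (Matrix.of fun a b => T a b * T' a b) := by
  intro g hg a b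
  simp [h g hg, h' g hg]

/-- Primitive groups have connected orbital graphs. -/
theorem tp_conn (hprim : MulAction.IsPreprimitive G α) {T : Matrix α α ℚ} (hT : TpInv G T)
    (S : Set α) (hS : S.Nonempty) (hS' : S ≠ Set.univ)
    (hcross : ∀ u ∈ S, ∀ v, v ∉ S → T u v = 0 ∧ T v u = 0) {a b : α} (hab : a ≠ b) : T a b = 0 := by
  by_contra hne
  let R : α → α → Prop := fun u v => T u v ≠ 0 ∨ T v u ≠ 0
  let r := Relation.EqvGen R
  have hr : ∀ g ∈ G, ∀ u v, r u v → r (g u) (g v) := by
    intro g hg u v huv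
    induction huv with
    | rel x y h =>
      apply Relation.EqvGen.rel
      rcases h with h | h
      · left; rwa [hT g hg]
      · right; rwa [hT g hg]
    | refl x => exact Relation.EqvGen.refl _
    | symm x y _ ih => exact Relation.EqvGen.symm _ _ ih
    | trans x y z _ _ ih1 ih2 => exact Relation.EqvGen.trans _ _ _ ih1 ih2
  have hcr : ∀ u v, r u v → (u ∈ S ↔ v ∈ S) := by
    intro u v huv
    induction huv with
    | rel x y h =>
      constructor
      · intro hx
        by_contra hy
        obtain ⟨h1, h2⟩ := hcross x hx y hy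
        rcases h with h | h
        · exact h h1
        · exact h h2
      · intro hy
        by_contra hx
        obtain ⟨h1, h2⟩ := hcross y hy x hx
        rcases h with h | h
        · exact h h2
        · exact h h1
    | refl x => exact Iff.rfl
    | symm x y _ ih => exact ih.symm
    | trans x y z _ _ ih1 ih2 => exact ih1.trans ih2
  let K : Set α := {v | r a v}
  have hblock : MulAction.IsBlock G K := by
    rw [MulAction.isBlock_iff_smul_eq_of_nonempty]
    intro g hne'
    obtain ⟨y, hy1, hy2⟩ := hne'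
    obtain ⟨k, hk, hky⟩ := Set.mem_smul_set.mp hy1
    have hky' : (g : Equiv.Perm α) k = y := hky
    have hsub : ∀ z ∈ K, (g : Equiv.Perm α) z ∈ K := by
      intro z hz
      have h1 : r ((g : Equiv.Perm α) a) ((g : Equiv.Perm α) z) := hr _ g.2 _ _ hz
      have h2 : r ((g : Equiv.Perm α) a) y := by
        rw [← hky']
        exact hr _ g.2 _ _ hk
      exact Relation.EqvGen.trans _ _ _ hy2
        (Relation.EqvGen.trans _ _ _ (Relation.EqvGen.symm _ _ h2) h1)
    have hsub' : ∀ z ∈ K, (g⁻¹ : G).1 z ∈ K := by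
      intro z hz
      have hk0 : (g⁻¹ : G).1 y = k := by
        rw [← hky']
        simp
      have h1 : r ((g⁻¹ : G).1 a) ((g⁻¹ : G).1 z) := hr _ (g⁻¹ : G).2 _ _ hz
      have h2 : r ((g⁻¹ : G).1 a) k := by
        rw [← hk0]
        exact hr _ (g⁻¹ : G).2 _ _ hy2
      exact Relation.EqvGen.trans _ _ _ hk
        (Relation.EqvGen.trans _ _ _ (Relation.EqvGen.symm _ _ h2) h1)
    ext z
    constructor
    · rintro ⟨k', hk', rfl⟩
      exact hsub k' hk'
    · intro hz
      refine Set.mem_smul_set.mpr ⟨(g⁻¹ : G).1 z, hsub' z hz, ?_⟩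
      change (g : Equiv.Perm α) ((g : Equiv.Perm α)⁻¹ z) = z
      simp
  have haK : a ∈ K := Relation.EqvGen.refl _
  have hbK : b ∈ K := Relation.EqvGen.rel _ _ (Or.inl hne)
  rcases hprim.isTrivialBlock_of_isBlock hblock with h | h
  · exact hab (h haK hbK)
  · obtain ⟨u, hu⟩ := hS
    obtain ⟨v, hv⟩ : ∃ v, v ∉ S := by
      by_contra hcon
      push Not at hcon
      exact hS' (Set.eq_univ_of_forall hcon)
    have huK : u ∈ K := by rw [h]; trivial
    have hvK : v ∈ K := by rw [h]; trivial
    have huv : r u v := Relation.EqvGen.trans _ _ _ (Relation.EqvGen.symm _ _ huK) hvK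
    exact hv ((hcr u v huv).mp hu)

end inv

/-- Labelling by two cycles of an element of order `p`. -/
structure TpData (p : ℕ) (G : Subgroup (Equiv.Perm α)) where
  pt : Bool × ZMod p ≃ α
  x : Equiv.Perm α
  hx : x ∈ G
  hpt : ∀ s i, x (pt (s, i)) = pt (s, i + 1)

namespace TpData

variable {G : Subgroup (Equiv.Perm α)} (D : TpData p G)

/-- Blocks of a matrix as group ring elements. -/
noncomputable def blk (T : Matrix α α ℚ) (s t : Bool) : TpR p :=
  tpOf fun j => T (D.pt (s, 0)) (D.pt (t, j))

@[simp] lemma blk_coeff (T : Matrix α α ℚ) (s t : Bool) (j : ZMod p) :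
    (D.blk T s t).coeff j = T (D.pt (s, 0)) (D.pt (t, j)) := rfl

lemma entry_eq {T : Matrix α α ℚ} (hT : TpInv G T) (s t : Bool) (i j : ZMod p) :
    T (D.pt (s, i)) (D.pt (t, j)) = (D.blk T s t).coeff (j - i) := by
  have h1 : ∀ (n : ℕ) (j : ZMod p), T (D.pt (s, (n : ZMod p))) (D.pt (t, j))
      = T (D.pt (s, 0)) (D.pt (t, j - n)) := by
    intro n
    induction n with
    | zero => intro j; simp
    | succ n ih =>
      intro j
      have h2 := hT D.x D.hx (D.pt (s, (n : ZMod p))) (D.pt (t, j - 1))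
      rw [D.hpt, D.hpt, sub_add_cancel] at h2
      push_cast
      rw [h2, ih]
      congr 3
      ring
  have hi : i = ((i.val : ℕ) : ZMod p) := by simp
  rw [blk_coeff]
  conv_lhs => rw [hi]
  rw [h1]
  simp

lemma blk_add (T T' : Matrix α α ℚ) (s t : Bool) :
    D.blk (T + T') s t = D.blk T s t + D.blk T' s t := tp_ext fun j => by simp

lemma blk_sub (T T' : Matrix α α ℚ) (s t : Bool) :
    D.blk (T - T') s t = D.blk T s t - D.blk T' s t := tp_ext fun j => by simp

lemma blk_one (s t : Bool) :
    D.blk (1 : Matrix α α ℚ) s t = if s = t then 1 else 0 := by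
  refine tp_ext fun j => ?_
  rw [blk_coeff, Matrix.one_apply]
  by_cases hst : s = t
  · subst hst
    simp only [if_true, tp_one_coeff]
    by_cases hj : j = 0
    · simp [hj]
    · rw [if_neg hj, if_neg]
      intro h
      have := D.pt.injective h
      simp only [Prod.mk.injEq, true_and] at this
      exact hj this.symm
  · rw [if_neg hst, if_neg]
    · simp
    · intro h
      have := D.pt.injective h
      simp only [Prod.mk.injEq] at this
      exact hst this.1

lemma sum_pt (f : α → ℚ) :
    ∑ c, f c = ∑ k, f (D.pt (true, k)) + ∑ k, f (D.pt (false, k)) := by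
  rw [← Equiv.sum_comp D.pt f, Fintype.sum_prod_type, Fintype.sum_bool]

lemma blk_mul {T T' : Matrix α α ℚ} (hT' : TpInv G T') (s t : Bool) :
    D.blk (T * T') s t = D.blk T s true * D.blk T' true t + D.blk T s false * D.blk T' false t := by
  refine tp_ext fun j => ?_
  rw [blk_coeff, Matrix.mul_apply, D.sum_pt, tp_add_coeff, tp_mul_coeff, tp_mul_coeff]
  congr 1
  · refine Finset.sum_congr rfl fun k _ => ?_
    rw [D.entry_eq hT']
    rfl
  · refine Finset.sum_congr rfl fun k _ => ?_
    rw [D.entry_eq hT']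
    rfl

lemma blk_transpose {T : Matrix α α ℚ} (hT : TpInv G T) (s t : Bool) :
    D.blk Tᵀ s t = tpStar (D.blk T t s) := by
  refine tp_ext fun j => ?_
  rw [blk_coeff, Matrix.transpose_apply, D.entry_eq hT, tpStar_coeff]
  simp

lemma row_sum {T : Matrix α α ℚ} (s : Bool) :
    ∑ b, T (D.pt (s, 0)) b = tpAug (D.blk T s true) + tpAug (D.blk T s false) := by
  rw [D.sum_pt]
  rfl

lemma col_sum {T : Matrix α α ℚ} (hT : TpInv G T) (t : Bool) :
    ∑ a, T a (D.pt (t, 0)) = tpAug (D.blk T true t) + tpAug (D.blk T false t) := by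
  rw [D.sum_pt]
  congr 1
  · simp only [tpAug]
    refine Fintype.sum_equiv (Equiv.neg _) _ _ fun k => ?_
    rw [D.entry_eq hT]
    simp
  · simp only [tpAug]
    refine Fintype.sum_equiv (Equiv.neg _) _ _ fun k => ?_
    rw [D.entry_eq hT]
    simp

/-- Rows and columns have constant sums. -/
lemma row_const (hpre : MulAction.IsPretransitive G α) {T : Matrix α α ℚ} (hT : TpInv G T)
    (a a' : α) : ∑ b, T a b = ∑ b, T a' b := by
  obtain ⟨g, hg⟩ := hpre.exists_smul_eq a a'
  have hg' : (g : Equiv.Perm α) a = a' := hg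
  rw [← hg']
  refine (Fintype.sum_equiv (g : Equiv.Perm α) _ _ fun b => ?_)
  rw [hT _ g.2]

lemma col_const (hpre : MulAction.IsPretransitive G α) {T : Matrix α α ℚ} (hT : TpInv G T)
    (b b' : α) : ∑ a, T a b = ∑ a, T a b' := by
  obtain ⟨g, hg⟩ := hpre.exists_smul_eq b b'
  have hg' : (g : Equiv.Perm α) b = b' := hg
  rw [← hg']
  refine (Fintype.sum_equiv (g : Equiv.Perm α) _ _ fun a => ?_)
  rw [hT _ g.2]

lemma aug_tf (hpre : MulAction.IsPretransitive G α) {T : Matrix α α ℚ} (hT : TpInv G T) :
    tpAug (D.blk T false true) = tpAug (D.blk T true false) := by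
  have h1 := row_const hpre hT (D.pt (true, 0)) (D.pt (false, 0))
  have h2 := col_const hpre hT (D.pt (true, 0)) (D.pt (false, 0))
  rw [D.row_sum, D.row_sum] at h1
  rw [D.col_sum hT, D.col_sum hT] at h2
  linarith

lemma aug_ff (hpre : MulAction.IsPretransitive G α) {T : Matrix α α ℚ} (hT : TpInv G T) :
    tpAug (D.blk T false false) = tpAug (D.blk T true true) := by
  have h1 := row_const hpre hT (D.pt (true, 0)) (D.pt (false, 0))
  have h2 := col_const hpre hT (D.pt (true, 0)) (D.pt (false, 0))
  rw [D.row_sum, D.row_sum] at h1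
  rw [D.col_sum hT, D.col_sum hT] at h2
  linarith

lemma diag_const (hpre : MulAction.IsPretransitive G α) {T : Matrix α α ℚ} (hT : TpInv G T)
    (a a' : α) : T a a = T a' a' := by
  obtain ⟨g, hg⟩ := hpre.exists_smul_eq a a'
  have hg' : (g : Equiv.Perm α) a = a' := hg
  rw [← hg', hT _ g.2]

/-- The part function. -/
noncomputable def w : α → ℚ := fun a => if (D.pt.symm a).1 then 1 else -1

lemma w_pt (s : Bool) (i : ZMod p) : D.w (D.pt (s, i)) = if s then 1 else -1 := by
  simp [w]

/-- The eigenvalue on the part function. -/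
noncomputable def al (T : Matrix α α ℚ) : ℚ :=
  tpAug (D.blk T true true) - tpAug (D.blk T true false)

lemma sum_T_w (hpre : MulAction.IsPretransitive G α) {T : Matrix α α ℚ} (hT : TpInv G T) (a : α) :
    ∑ b, T a b * D.w b = D.al T * D.w a := by
  obtain ⟨⟨s, i⟩, rfl⟩ := D.pt.surjective a
  rw [D.sum_pt]
  have h1 : ∀ t : Bool, ∑ k, T (D.pt (s, i)) (D.pt (t, k)) = tpAug (D.blk T s t) := by
    intro t
    simp only [tpAug]
    refine Fintype.sum_equiv (Equiv.subRight i) _ _ fun k => ?_
    rw [D.entry_eq hT]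
    rfl
  simp only [w_pt, if_true, Bool.false_eq_true, if_false, mul_one, mul_neg, Finset.sum_neg_distrib]
  rw [h1, h1]
  cases s
  · have h2 := D.aug_tf hpre hT
    have h3 := D.aug_ff hpre hT
    simp only [al, Bool.false_eq_true, if_false]
    rw [h2, h3]
    ring
  · simp [al]
    ring

lemma sum_w : ∑ a, D.w a = 0 := by
  rw [D.sum_pt]
  simp [w_pt]

lemma w_sq (a : α) : D.w a * D.w a = 1 := by
  simp only [w]
  split_ifs <;> norm_num

lemma al_add (T T' : Matrix α α ℚ) : D.al (T + T') = D.al T + D.al T' := by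
  simp only [al, blk_add, tpAug_add]
  ring

lemma al_one : D.al (1 : Matrix α α ℚ) = 1 := by
  have h1 : D.blk (1 : Matrix α α ℚ) true true = 1 := by rw [blk_one]; simp
  have h2 : D.blk (1 : Matrix α α ℚ) true false = 0 := by rw [blk_one]; simp
  simp only [al, h1, h2, tpAug_one]
  simp [tpAug]

end TpData

end Cfsg.Agent.Lib.Perm
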