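import Cfsg.Agent.Lib.Perm.TwoPOrb
import Cfsg.Agent.Lib.Perm.JordanCycle

/-!
Wielandt's theorem on primitive groups of degree `2p`.
-/

set_option autoImplicit false
set_option linter.unusedSectionVars false

namespace Cfsg.Agent.Lib.Perm

open scoped BigOperators
open Matrix

variable {p : ℕ} [hp : Fact p.Prime] {α : Type*} [Fintype α] [DecidableEq α]

section

variable (G : Subgroup (Equiv.Perm α))

open Classical in
/-- The suborbit as a finite set. -/
noncomputable def tpOF (a b : α) : Finset α :=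
  Finset.univ.filter fun u => ∃ g ∈ G, g a = a ∧ g b = u

lemma mem_tpOF {a b u : α} : u ∈ tpOF G a b ↔ ∃ g ∈ G, g a = a ∧ g b = u := by
  simp [tpOF]

lemma card_orbit_tpOF (a b : α) :
    Nat.card (MulAction.orbit (MulAction.stabilizer G a) b) = (tpOF G a b).card := by
  rw [← Set.ncard_coe_finset, ← Nat.card_coe_set_eq]
  congr 2
  ext u
  simp only [MulAction.mem_orbit_iff, Finset.mem_coe, mem_tpOF]
  constructor
  · rintro ⟨h, rfl⟩
    exact ⟨h.1.1, h.1.2, h.2, rfl⟩
  · rintro ⟨g, hg, h1, h2⟩
    exact ⟨⟨⟨g, hg⟩, h1⟩, h2⟩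

lemma sum_tpOrb (a b : α) : ∑ u, tpOrb G a b a u = ((tpOF G a b).card : ℚ) := by
  classical
  have : ∀ u, tpOrb G a b a u = if u ∈ tpOF G a b then 1 else 0 := by
    intro u
    by_cases h : u ∈ tpOF G a b
    · rw [if_pos h]
      exact tpOrb_apply_of G ((mem_tpOF G).mp h)
    · rw [if_neg h]
      exact tpOrb_apply_of_not G (fun h' => h ((mem_tpOF G).mpr h'))
  simp only [this]
  simp

end

namespace TpData

variable {G : Subgroup (Equiv.Perm α)} [Fintype G] (D : TpData p G)

/-- Numerical data for a suborbit. -/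
theorem orb_val (hpre : MulAction.IsPretransitive G α)
    (hDB : D.blk D.M false false = - D.blk D.M true true)
    (hB0 : (D.blk D.M true true).coeff 0 = 0) {c2 : ℚ}
    (hc2 : ∀ a b, a ≠ b → D.M a b * D.M a b = c2) (hc20 : c2 ≠ 0) {b : α}
    (hb : b ≠ D.pt (true, 0)) :
    ∃ l : ℚ, (1 + 2 * l) * D.M (D.pt (true, 0)) b = 1 ∧
      ((tpOF G (D.pt (true, 0)) b).card : ℚ) = l + 2 * l ^ 2 := by
  classical
  set a₀ := D.pt (true, 0) with ha₀
  have hM0 : ∀ a, D.M a a = 0 := by
    intro a
    rw [diag_const hpre D.M_inv a a₀]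
    exact hB0
  set c := D.M a₀ b with hc
  have hc0 : c ≠ 0 := by
    intro h
    have := hc2 a₀ b hb.symm
    rw [← hc, h, mul_zero] at this
    exact hc20 this.symm
  set T := tpOrb G a₀ b with hT
  have hTinv : TpInv G T := tpOrb_inv G a₀ b
  have h01 : ∀ u v, T u v = 0 ∨ T u v = 1 := tpOrb_01 G a₀ b
  have hEq : ∀ u v, T u v ≠ 0 → D.M u v = c := by
    intro u v huv
    by_cases hex : ∃ g ∈ G, g a₀ = u ∧ g b = v
    · obtain ⟨g, hg, rfl, rfl⟩ := hex
      exact D.M_inv g hg a₀ b
    · exact absurd (tpOrb_apply_of_not G hex) huv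
  have hd : ∀ a, T a a = 0 := by
    intro a
    apply tpOrb_apply_of_not
    rintro ⟨g, _, h1, h2⟩
    exact hb (g.injective (h2.trans h1.symm))
  have hdisj : ∀ i, (D.blk T true true).coeff i * (D.blk T false false).coeff i = 0 := by
    intro i
    by_contra hne
    have h1 : (D.blk T true true).coeff i ≠ 0 := fun h => hne (by rw [h, zero_mul])
    have h2 : (D.blk T false false).coeff i ≠ 0 := fun h => hne (by rw [h, mul_zero])
    have h3 := hEq _ _ h1
    have h4 := hEq _ _ h2
    have h5 : D.M (D.pt (false, 0)) (D.pt (false, i)) = - D.M (D.pt (true, 0)) (D.pt (true, i)) := by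
      have h9 := congrArg (fun x : TpR p => x.coeff i) hDB
      simpa using h9
    rw [h3, h4] at h5
    apply hc0
    linarith
  have hkey := D.orb_key hpre hDB hB0 hTinv h01 hd hdisj
  refine ⟨D.al T, ?_, ?_⟩
  · set l := D.al T with hl
    have hrow := D.row_sum (T := T) true
    have hcard : (∑ u, T a₀ u) = ((tpOF G a₀ b).card : ℚ) := sum_tpOrb G a₀ b
    rw [← ha₀, hcard] at hrow
    have hv : ((tpOF G a₀ b).card : ℚ) = l + 2 * l ^ 2 := by
      have hl' : l = tpAug (D.blk T true true) - tpAug (D.blk T true false) := rfl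
      rw [hrow]
      linarith
    have hmem : b ∈ tpOF G a₀ b := (mem_tpOF G).mpr ⟨1, G.one_mem, rfl, rfl⟩
    have hv1 : (1 : ℚ) ≤ ((tpOF G a₀ b).card : ℚ) := by
      have := Finset.card_pos.mpr ⟨b, hmem⟩
      exact_mod_cast this
    have hl0 : l ≠ 0 := by
      intro h
      rw [h] at hv
      norm_num at hv
      rw [hv] at hv1
      norm_num at hv1
    have hentry := congrFun (congrFun (D.T_mul_one_add hpre hTinv) a₀) a₀
    simp only [Matrix.mul_apply, Matrix.smul_apply, Matrix.add_apply, Matrix.one_apply_eq, hM0,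
      add_zero, smul_eq_mul, mul_one] at hentry
    have hterm : ∀ u, T a₀ u * ((1 : Matrix α α ℚ) u a₀ + D.M u a₀) = T a₀ u * c := by
      intro u
      by_cases hu : T a₀ u = 0
      · rw [hu, zero_mul, zero_mul]
      · have huu : u ≠ a₀ := by
          rintro rfl
          exact hu (hd _)
        rw [Matrix.one_apply_ne huu, zero_add, D.M_symm' u a₀, hEq _ _ hu]
    simp only [Matrix.add_apply, hterm, ← Finset.sum_mul, hcard] at hentry
    rw [hv] at hentry
    have h7 : l * ((1 + 2 * l) * c - 1) = 0 := by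
      linear_combination hentry
    have h8 := (mul_eq_zero.mp h7).resolve_left hl0
    linarith
  · have hrow := D.row_sum (T := T) true
    have hcard : (∑ u, T a₀ u) = ((tpOF G a₀ b).card : ℚ) := sum_tpOrb G a₀ b
    rw [← ha₀, hcard] at hrow
    rw [hrow]
    have hl' : D.al T = tpAug (D.blk T true true) - tpAug (D.blk T true false) := rfl
    linarith

/-- The main analysis. -/
theorem tp_final (hprim : MulAction.IsPreprimitive G α) (hcard : Fintype.card α = 2 * p)
    (hp3 : 3 ≤ p) :
    MulAction.IsMultiplyPretransitive G α 2 ∨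
      (Nat.card (MulAction.orbitRel.Quotient (MulAction.stabilizer G (D.pt (true, 0))) α) = 3 ∧
        ∃ a : ℕ, 0 < a ∧ p = 2 * a ^ 2 + 2 * a + 1 ∧ ∀ b : α, b ≠ D.pt (true, 0) →
          Nat.card (MulAction.orbit (MulAction.stabilizer G (D.pt (true, 0))) b) = a * (2 * a + 1) ∨
          Nat.card (MulAction.orbit (MulAction.stabilizer G (D.pt (true, 0))) b)
            = (a + 1) * (2 * a + 1)) := by
  classical
  have hpre : MulAction.IsPretransitive G α := hprim.toIsPretransitive
  by_cases hC : TpC (D.blk D.M true false)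
  · exact Or.inl (D.caseI hprim hC)
  right
  have h1 : D.blk D.M true false * (D.blk D.M true true + D.blk D.M false false) = 0 := by
    linear_combination D.rel_tf hpre
  have h2 := (tp_dichotomy h1).resolve_left hC
  have h3 := tpC_aug_zero h2 (by rw [tpAug_add, D.aug_tt hpre, D.aug_ffM hpre, add_zero])
  have hDB : D.blk D.M false false = - D.blk D.M true true := by linear_combination h3
  have hB0 : (D.blk D.M true true).coeff 0 = 0 := by
    have h4 := diag_const hpre D.M_inv (D.pt (true, 0)) (D.pt (false, 0))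
    have h5 := congrArg (fun x : TpR p => x.coeff 0) hDB
    simp only [tp_neg_coeff, blk_coeff] at h5
    simp only [blk_coeff]
    linarith
  obtain ⟨c2, hc2, hc2'⟩ := D.caseII hprim (by omega) hDB hB0
  have hc20 : c2 ≠ 0 := by
    rintro rfl
    simp at hc2'
  rw [hcard] at hc2'
  set a₀ := D.pt (true, 0) with ha₀
  have hM0 : ∀ a, D.M a a = 0 := by
    intro a
    rw [diag_const hpre D.M_inv a a₀]
    exact hB0
  have hb₀ : D.pt (false, 0) ≠ a₀ := by
    intro h
    have := D.pt.injective h
    simp at this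
  have hp1 : (1 : ℚ) ≤ p := by exact_mod_cast hp.out.one_le
  have h2p : 1 ≤ 2 * p := by omega
  obtain ⟨m, hm⟩ : ∃ m : ℕ, 2 * p - 1 = m * m := by
    set q := D.M a₀ (D.pt (false, 0)) with hq
    have hqq : q * q = c2 := hc2 _ _ hb₀.symm
    have hq0 : q ≠ 0 := by
      rintro h
      rw [h, mul_zero] at hqq
      exact hc20 hqq.symm
    have hsq : IsSquare (((2 * p - 1 : ℕ)) : ℚ) := by
      refine ⟨1 / q, ?_⟩
      rw [Nat.cast_sub h2p]
      push_cast at hc2' ⊢
      rw [← hqq] at hc2'
      field_simp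
      linear_combination hc2'
    rw [Rat.isSquare_natCast_iff] at hsq
    exact hsq
  have hmodd : Odd m := by
    have h4 : Odd (m * m) := by
      rw [← hm]
      exact Nat.Even.sub_odd h2p (even_two_mul p) odd_one
    exact (Nat.odd_mul.mp h4).1
  obtain ⟨a, rfl⟩ := hmodd
  have hp' : p = 2 * a ^ 2 + 2 * a + 1 := by
    have h4 : 2 * p = (2 * a + 1) * (2 * a + 1) + 1 := by omega
    have h5 : (2 * a + 1) * (2 * a + 1) + 1 = 2 * (2 * a ^ 2 + 2 * a + 1) := by ring
    omega
  have ha : 0 < a := by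
    rcases Nat.eq_zero_or_pos a with h | h
    · subst h
      omega
    · exact h
  set mq : ℚ := 2 * (a : ℚ) + 1 with hmq
  have hmq0 : mq ≠ 0 := by positivity
  have hpq : (2 * (p : ℚ)) - 1 = mq * mq := by
    have h4 : ((2 * p - 1 : ℕ) : ℚ) = ((2 * a + 1) * (2 * a + 1) : ℕ) := by rw [hm]
    rw [Nat.cast_sub h2p] at h4
    push_cast at h4
    rw [hmq]
    linarith
  have hc2v : c2 * (mq * mq) = 1 := by
    push_cast at hc2'
    rw [hpq] at hc2'
    linarith
  have hpm : ∀ u v, u ≠ v → D.M u v = 1 / mq ∨ D.M u v = -1 / mq := by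
    intro u v huv
    have h4 := hc2 u v huv
    have h5 : (D.M u v - 1 / mq) * (D.M u v + 1 / mq) = 0 := by
      field_simp
      rw [mul_comm] at hc2v
      linear_combination (mq * mq) * h4 + hc2v
    rcases mul_eq_zero.mp h5 with h6 | h6
    · left
      linarith
    · right
      have : D.M u v = -(1 / mq) := by linarith
      rw [this]
      ring
  have hne : (1 : ℚ) / mq ≠ -1 / mq := by
    intro h
    field_simp at h
    norm_num at h
  -- the two sides
  let VP : Finset α := Finset.univ.filter fun u => u ≠ a₀ ∧ D.M a₀ u = 1 / mq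
  let VM : Finset α := Finset.univ.filter fun u => u ≠ a₀ ∧ D.M a₀ u = -1 / mq
  have hVPmem : ∀ u, u ∈ VP ↔ u ≠ a₀ ∧ D.M a₀ u = 1 / mq := by
    intro u
    simp [VP]
  have hVMmem : ∀ u, u ∈ VM ↔ u ≠ a₀ ∧ D.M a₀ u = -1 / mq := by
    intro u
    simp [VM]
  have hterm : ∀ u, D.M a₀ u = (if u ∈ VP then 1 / mq else 0) + (if u ∈ VM then -1 / mq else 0) := by
    intro u
    by_cases hu : u = a₀
    · rw [hu]
      have h4 : a₀ ∉ VP := fun h => ((hVPmem a₀).mp h).1 rfl
      have h5 : a₀ ∉ VM := fun h => ((hVMmem a₀).mp h).1 rfl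
      rw [if_neg h4, if_neg h5, hM0, add_zero]
    · rcases hpm a₀ u (Ne.symm hu) with h | h
      · have h4 : u ∈ VP := (hVPmem u).mpr ⟨hu, h⟩
        have h5 : u ∉ VM := fun h' => hne (h.symm.trans ((hVMmem u).mp h').2)
        rw [if_pos h4, if_neg h5, h, add_zero]
      · have h4 : u ∉ VP := fun h' => hne (((hVPmem u).mp h').2.symm.trans h)
        have h5 : u ∈ VM := (hVMmem u).mpr ⟨hu, h⟩
        rw [if_neg h4, if_pos h5, h, zero_add]
  have hone : ∀ u : α, (1 : ℚ) = (if u = a₀ then 1 else 0) + (if u ∈ VP then 1 else 0)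
      + (if u ∈ VM then 1 else 0) := by
    intro u
    by_cases hu : u = a₀
    · rw [hu]
      have h4 : a₀ ∉ VP := fun h => ((hVPmem a₀).mp h).1 rfl
      have h5 : a₀ ∉ VM := fun h => ((hVMmem a₀).mp h).1 rfl
      rw [if_pos rfl, if_neg h4, if_neg h5]
      ring
    · rcases hpm a₀ u (Ne.symm hu) with h | h
      · have h4 : u ∈ VP := (hVPmem u).mpr ⟨hu, h⟩
        have h5 : u ∉ VM := fun h' => hne (h.symm.trans ((hVMmem u).mp h').2)
        rw [if_neg hu, if_pos h4, if_neg h5]
        ring
      · have h4 : u ∉ VP := fun h' => hne (((hVPmem u).mp h').2.symm.trans h)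
        have h5 : u ∈ VM := (hVMmem u).mpr ⟨hu, h⟩
        rw [if_neg hu, if_neg h4, if_pos h5]
        ring
  have hsum1 : (VP.card : ℚ) * (1 / mq) + (VM.card : ℚ) * (-1 / mq) = -1 := by
    have h4 := D.M_row a₀
    simp only [hterm, Finset.sum_add_distrib, Finset.sum_ite_mem, Finset.univ_inter,
      Finset.sum_const, nsmul_eq_mul] at h4
    exact h4
  have hsum2 : (1 : ℚ) + VP.card + VM.card = 2 * p := by
    have h4 : ∑ u : α, (1 : ℚ) = 2 * p := by
      simp [hcard]
    rw [Finset.sum_congr rfl (fun u _ => hone u)] at h4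
    simp only [Finset.sum_add_distrib, Finset.sum_ite_mem, Finset.univ_inter,
      Finset.sum_const, nsmul_eq_mul, Finset.sum_ite_eq', Finset.mem_univ, if_true, mul_one] at h4
    exact h4
  have hVPcard : VP.card = a * (2 * a + 1) := by
    have h4 : (VP.card : ℚ) = (a : ℚ) * (2 * a + 1) := by
      have h5 : (VP.card : ℚ) - VM.card = - mq := by
        field_simp at hsum1
        linarith
      have h6 : (VP.card : ℚ) + VM.card = mq * mq := by linarith
      have h7 : 2 * (VP.card : ℚ) = mq * mq - mq := by linarith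
      rw [hmq] at h7
      linarith
    exact_mod_cast h4
  have hVMcard : VM.card = (a + 1) * (2 * a + 1) := by
    have h4 : (VM.card : ℚ) = ((a : ℚ) + 1) * (2 * a + 1) := by
      have h5 : (VP.card : ℚ) - VM.card = - mq := by
        field_simp at hsum1
        linarith
      have h6 : (VP.card : ℚ) + VM.card = mq * mq := by linarith
      have h7 : 2 * (VM.card : ℚ) = mq * mq + mq := by linarith
      rw [hmq] at h7
      linarith
    exact_mod_cast h4
  have hOP : ∀ b, b ∈ VP → (tpOF G a₀ b).card = a * (2 * a + 1) := by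
    intro b hb
    obtain ⟨hb1, hb2⟩ := (hVPmem b).mp hb
    obtain ⟨l, hl1, hl2⟩ := D.orb_val hpre hDB hB0 hc2 hc20 hb1
    rw [← ha₀, hb2] at hl1
    have h4 : l = a := by
      field_simp at hl1
      rw [hmq] at hl1
      linarith
    rw [← ha₀, h4] at hl2
    have h5 : ((tpOF G a₀ b).card : ℚ) = (a : ℚ) * (2 * a + 1) := by
      rw [hl2]
      ring
    exact_mod_cast h5
  have hOM : ∀ b, b ∈ VM → (tpOF G a₀ b).card = (a + 1) * (2 * a + 1) := by
    intro b hb
    obtain ⟨hb1, hb2⟩ := (hVMmem b).mp hb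
    obtain ⟨l, hl1, hl2⟩ := D.orb_val hpre hDB hB0 hc2 hc20 hb1
    rw [← ha₀, hb2] at hl1
    have h4 : l = -(a : ℚ) - 1 := by
      field_simp at hl1
      rw [hmq] at hl1
      linarith
    rw [← ha₀, h4] at hl2
    have h5 : ((tpOF G a₀ b).card : ℚ) = ((a : ℚ) + 1) * (2 * a + 1) := by
      rw [hl2]
      ring
    exact_mod_cast h5
  have hsubP : ∀ b, b ∈ VP → tpOF G a₀ b = VP := by
    intro b hb
    apply Finset.eq_of_subset_of_card_le
    · intro u hu
      obtain ⟨g, hg, h4, rfl⟩ := (mem_tpOF G).mp hu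
      obtain ⟨hb1, hb2⟩ := (hVPmem b).mp hb
      refine (hVPmem _).mpr ⟨?_, ?_⟩
      · intro h
        apply hb1
        apply g.injective
        rw [h, h4]
      · have := D.M_inv g hg a₀ b
        rw [h4] at this
        rw [this, hb2]
    · rw [hOP b hb, hVPcard]
  have hsubM : ∀ b, b ∈ VM → tpOF G a₀ b = VM := by
    intro b hb
    apply Finset.eq_of_subset_of_card_le
    · intro u hu
      obtain ⟨g, hg, h4, rfl⟩ := (mem_tpOF G).mp hu
      obtain ⟨hb1, hb2⟩ := (hVMmem b).mp hb
      refine (hVMmem _).mpr ⟨?_, ?_⟩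
      · intro h
        apply hb1
        apply g.injective
        rw [h, h4]
      · have := D.M_inv g hg a₀ b
        rw [h4] at this
        rw [this, hb2]
    · rw [hOM b hb, hVMcard]
  have hcases : ∀ b, b ≠ a₀ → b ∈ VP ∨ b ∈ VM := by
    intro b hb
    rcases hpm a₀ b (Ne.symm hb) with h | h
    · exact Or.inl ((hVPmem b).mpr ⟨hb, h⟩)
    · exact Or.inr ((hVMmem b).mpr ⟨hb, h⟩)
  refine ⟨?_, a, ha, hp', ?_⟩
  · obtain ⟨bp, hbp⟩ : VP.Nonempty := by
      rw [← Finset.card_pos, hVPcard]
      positivity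
    obtain ⟨bm, hbm⟩ : VM.Nonempty := by
      rw [← Finset.card_pos, hVMcard]
      positivity
    have hbp1 := ((hVPmem bp).mp hbp).1
    have hbm1 := ((hVMmem bm).mp hbm).1
    let f : Fin 3 → MulAction.orbitRel.Quotient (MulAction.stabilizer G a₀) α :=
      ![Quotient.mk'' a₀, Quotient.mk'' bp, Quotient.mk'' bm]
    have hstab : ∀ u v : α, (Quotient.mk'' u : MulAction.orbitRel.Quotient
        (MulAction.stabilizer G a₀) α) = Quotient.mk'' v ↔ ∃ g ∈ G, g a₀ = a₀ ∧ g v = u := by
      intro u v
      rw [Quotient.eq'', MulAction.orbitRel_apply, MulAction.mem_orbit_iff]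
      constructor
      · rintro ⟨h, rfl⟩
        exact ⟨h.1.1, h.1.2, h.2, rfl⟩
      · rintro ⟨g, hg, h1, h2⟩
        exact ⟨⟨⟨g, hg⟩, h1⟩, h2⟩
    have hfinj : Function.Injective f := by
      have h01 : f 0 ≠ f 1 := by
        intro h
        obtain ⟨g, _, h4, h5⟩ := (hstab _ _).mp h
        apply hbp1
        apply g.injective
        rw [h4, h5]
      have h02 : f 0 ≠ f 2 := by
        intro h
        obtain ⟨g, _, h4, h5⟩ := (hstab _ _).mp h
        apply hbm1
        apply g.injective
        rw [h4, h5]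
      have h12 : f 1 ≠ f 2 := by
        intro h
        obtain ⟨g, hg, h4, h5⟩ := (hstab _ _).mp h
        have h6 : bp ∈ tpOF G a₀ bm := (mem_tpOF G).mpr ⟨g, hg, h4, h5⟩
        rw [hsubM bm hbm] at h6
        exact hne (((hVPmem bp).mp hbp).2.symm.trans ((hVMmem bp).mp h6).2)
      intro i j hij
      fin_cases i <;> fin_cases j <;> first
        | rfl
        | exact absurd hij h01
        | exact absurd hij h02
        | exact absurd hij h12
        | exact absurd hij.symm h01
        | exact absurd hij.symm h02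
        | exact absurd hij.symm h12
    have hfsurj : Function.Surjective f := by
      intro Q
      induction Q using Quotient.inductionOn' with
      | h u =>
        by_cases hu : u = a₀
        · exact ⟨0, by rw [hu]; rfl⟩
        · rcases hcases u hu with h | h
          · refine ⟨1, ?_⟩
            change Quotient.mk'' bp = Quotient.mk'' u
            rw [hstab]
            rw [← hsubP u h] at hbp
            exact (mem_tpOF G).mp hbp
          · refine ⟨2, ?_⟩
            change Quotient.mk'' bm = Quotient.mk'' u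
            rw [hstab]
            rw [← hsubM u h] at hbm
            exact (mem_tpOF G).mp hbm
    have := Nat.card_congr (Equiv.ofBijective f ⟨hfinj, hfsurj⟩)
    rw [← this]
    simp
  · intro b hb
    rw [card_orbit_tpOF]
    rcases hcases b hb with h | h
    · exact Or.inl (hOP b h)
    · exact Or.inr (hOM b h)

end TpData

end Cfsg.Agent.Lib.Perm
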