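import Cfsg.Agent.Lib.Perm.TwoPProj

/-!
The block analysis of the involution `M` in Wielandt's theorem on primitive groups of degree `2p`.
-/

set_option autoImplicit false
set_option linter.unusedSectionVars false

namespace Cfsg.Agent.Lib.Perm

open scoped BigOperators
open Matrix

variable {p : ℕ} [hp : Fact p.Prime] {α : Type*} [Fintype α] [DecidableEq α]

section orb

variable (G : Subgroup (Equiv.Perm α))

open Classical in
/-- The orbital matrix. -/
noncomputable def tpOrb (a b : α) : Matrix α α ℚ :=
  Matrix.of fun u v => if ∃ g ∈ G, g a = u ∧ g b = v then 1 else 0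

lemma tpOrb_apply_of {a b u v : α} (h : ∃ g ∈ G, g a = u ∧ g b = v) : tpOrb G a b u v = 1 := by
  simp only [tpOrb, Matrix.of_apply, if_pos h]

lemma tpOrb_apply_of_not {a b u v : α} (h : ¬ ∃ g ∈ G, g a = u ∧ g b = v) :
    tpOrb G a b u v = 0 := by
  simp only [tpOrb, Matrix.of_apply, if_neg h]

lemma tpOrb_inv (a b : α) : TpInv G (tpOrb G a b) := by
  intro h hh u v
  by_cases hex : ∃ g ∈ G, g a = u ∧ g b = v
  · rw [tpOrb_apply_of G hex]
    obtain ⟨g, hg, h1, h2⟩ := hex
    apply tpOrb_apply_of
    exact ⟨h * g, G.mul_mem hh hg, by simp [h1], by simp [h2]⟩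
  · rw [tpOrb_apply_of_not G hex]
    apply tpOrb_apply_of_not
    rintro ⟨g, hg, h1, h2⟩
    apply hex
    refine ⟨h⁻¹ * g, G.mul_mem (G.inv_mem hh) hg, ?_, ?_⟩
    · simp [h1]
    · simp [h2]

lemma tpOrb_01 (a b u v : α) : tpOrb G a b u v = 0 ∨ tpOrb G a b u v = 1 := by
  by_cases hex : ∃ g ∈ G, g a = u ∧ g b = v
  · right; exact tpOrb_apply_of G hex
  · left; exact tpOrb_apply_of_not G hex

lemma tp_two_trans (hpre : MulAction.IsPretransitive G α)
    (h : ∀ a₀ b v : α, a₀ ≠ b → a₀ ≠ v → ∃ g ∈ G, g a₀ = a₀ ∧ g b = v) :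
    MulAction.IsMultiplyPretransitive G α 2 := by
  rw [MulAction.is_two_pretransitive_iff]
  intro a b c d hab hcd
  obtain ⟨g₁, hg₁⟩ := hpre.exists_smul_eq a c
  have hg₁' : (g₁ : Equiv.Perm α) a = c := hg₁
  have hne : c ≠ (g₁ : Equiv.Perm α) b := by
    rw [← hg₁']
    exact fun h => hab ((g₁ : Equiv.Perm α).injective h)
  obtain ⟨g₂, hg₂, h1, h2⟩ := h c _ d hne hcd
  refine ⟨⟨g₂, hg₂⟩ * g₁, ?_, ?_⟩
  · change g₂ ((g₁ : Equiv.Perm α) a) = c
    rw [hg₁', h1]
  · change g₂ ((g₁ : Equiv.Perm α) b) = d
    exact h2

end orb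

namespace TpData

variable {G : Subgroup (Equiv.Perm α)} [Fintype G] (D : TpData p G)

lemma rel_tt (hpre : MulAction.IsPretransitive G α) :
    D.blk D.M true true * D.blk D.M true true + D.blk D.M true false * D.blk D.M false true = 1 := by
  have h := D.blk_mul (T := D.M) D.M_inv true true
  rw [D.M_sq hpre, D.blk_one] at h
  simpa using h.symm

lemma rel_tf (hpre : MulAction.IsPretransitive G α) :
    D.blk D.M true true * D.blk D.M true false + D.blk D.M true false * D.blk D.M false false = 0 := by
  have h := D.blk_mul (T := D.M) D.M_inv true false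
  rw [D.M_sq hpre, D.blk_one] at h
  simpa using h.symm

lemma rel_ff (hpre : MulAction.IsPretransitive G α) :
    D.blk D.M false true * D.blk D.M true false + D.blk D.M false false * D.blk D.M false false = 1 := by
  have h := D.blk_mul (T := D.M) D.M_inv false false
  rw [D.M_sq hpre, D.blk_one] at h
  simpa using h.symm

lemma star_tf : D.blk D.M false true = tpStar (D.blk D.M true false) := by
  have h := D.blk_transpose (T := D.M) D.M_inv false true
  rwa [D.M_symm] at h

lemma star_tt : tpStar (D.blk D.M true true) = D.blk D.M true true := by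
  have h := D.blk_transpose (T := D.M) D.M_inv true true
  rw [D.M_symm] at h
  exact h.symm

lemma star_ff : tpStar (D.blk D.M false false) = D.blk D.M false false := by
  have h := D.blk_transpose (T := D.M) D.M_inv false false
  rw [D.M_symm] at h
  exact h.symm

lemma aug_tt (hpre : MulAction.IsPretransitive G α) : tpAug (D.blk D.M true true) = 0 := by
  have h1 := D.al_M hpre
  have h2 := D.row_sum (T := D.M) true
  rw [D.M_row] at h2
  simp only [al] at h1
  linarith

lemma aug_tfM (hpre : MulAction.IsPretransitive G α) : tpAug (D.blk D.M true false) = -1 := by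
  have h1 := D.al_M hpre
  have h2 := D.row_sum (T := D.M) true
  rw [D.M_row] at h2
  simp only [al] at h1
  linarith

lemma aug_ftM (hpre : MulAction.IsPretransitive G α) : tpAug (D.blk D.M false true) = -1 := by
  rw [D.aug_tf hpre D.M_inv, D.aug_tfM hpre]

lemma aug_ffM (hpre : MulAction.IsPretransitive G α) : tpAug (D.blk D.M false false) = 0 := by
  rw [D.aug_ff hpre D.M_inv, D.aug_tt hpre]

lemma coeff_of_sub {x : TpR p} (hx : TpC (x - 1)) (h0 : tpAug x = 0) (i : ZMod p) :
    x.coeff i = (if i = 0 then 1 else 0) - 1 / p := by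
  have h1 := tpC_coeff hx i
  rw [tpAug_sub, h0, tpAug_one, tp_sub_coeff, tp_one_coeff] at h1
  have : x.coeff i = (0 - 1) / (p : ℚ) + if i = 0 then 1 else 0 := by linarith
  rw [this]
  ring

lemma coeff_of_add {x : TpR p} (hx : TpC (x + 1)) (h0 : tpAug x = 0) (i : ZMod p) :
    x.coeff i = 1 / p - (if i = 0 then 1 else 0) := by
  have h1 := tpC_coeff hx i
  rw [tpAug_add, h0, tpAug_one, tp_add_coeff, tp_one_coeff] at h1
  have : x.coeff i = (0 + 1) / (p : ℚ) - if i = 0 then 1 else 0 := by linarith
  rw [this]
  ring

/-- Constant off-diagonal entries give double transitivity. -/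
theorem two_trans_of_const (hpre : MulAction.IsPretransitive G α) (c d : ℚ)
    (hc : ∀ a b, a ≠ b → D.M a b = c) (hd : ∀ a, D.M a a = d) (hne : 1 + d - c ≠ 0) :
    MulAction.IsMultiplyPretransitive G α 2 := by
  classical
  apply tp_two_trans G hpre
  intro a₀ b v hb hv
  set T := tpOrb G a₀ b with hTdef
  have hT : TpInv G T := tpOrb_inv G a₀ b
  have hkey : ∀ v, a₀ ≠ v → T a₀ v * (1 + d - c) = D.al T * c - (∑ u, T a₀ u) * c := by
    intro v hv
    have h1 := congrFun (congrFun (D.T_mul_one_add hpre hT) a₀) v
    simp only [Matrix.mul_apply, Matrix.smul_apply, Matrix.add_apply, Matrix.one_apply, if_neg hv,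
      zero_add, smul_eq_mul] at h1
    rw [hc _ _ hv] at h1
    have h2 : ∀ u, T a₀ u * ((if u = v then 1 else 0) + D.M u v)
        = T a₀ u * c + (if u = v then T a₀ u * (1 + d - c) else 0) := by
      intro u
      by_cases huv : u = v
      · subst huv
        rw [if_pos rfl, if_pos rfl, hd]
        ring
      · rw [if_neg huv, if_neg huv, hc _ _ huv]
        ring
    simp only [h2, Finset.sum_add_distrib, Finset.sum_ite_eq', Finset.mem_univ, if_true,
      ← Finset.sum_mul] at h1
    linarith
  have hb1 : T a₀ b = 1 := tpOrb_apply_of G ⟨1, G.one_mem, rfl, rfl⟩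
  have h3 := hkey v hv
  rw [← hkey b hb, hb1, one_mul] at h3
  have h4 : T a₀ v = 1 := by
    have := mul_right_cancel₀ hne (h3.trans (one_mul _).symm)
    exact this
  by_contra hcon
  rw [hTdef, tpOrb_apply_of_not G] at h4
  · norm_num at h4
  · rintro ⟨g, hg, h5, h6⟩
    exact hcon ⟨g, hg, h5, h6⟩

/-- The case where the cross block is constant. -/
theorem caseI (hprim : MulAction.IsPreprimitive G α) (hC : TpC (D.blk D.M true false)) :
    MulAction.IsMultiplyPretransitive G α 2 := by
  classical
  have hpre : MulAction.IsPretransitive G α := hprim.toIsPretransitive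
  have hp2 : (2 : ℚ) ≤ p := by exact_mod_cast hp.out.two_le
  have hp0 : (p : ℚ) ≠ 0 := by linarith
  have hev : tpEv (D.blk D.M true false) = 0 := tpEv_of_C hC
  have hCc : ∀ i, (D.blk D.M true false).coeff i = -1 / p := by
    intro i
    rw [tpC_coeff hC, D.aug_tfM hpre]
  have hCc' : ∀ i, (D.blk D.M false true).coeff i = -1 / p := by
    intro i
    rw [D.star_tf, tpStar_coeff, hCc]
  have h1 := congrArg tpEv (D.rel_tt hpre)
  rw [tpEv_add, tpEv_mul, tpEv_mul, hev, zero_mul, add_zero, tpEv_one] at h1
  have h2 := congrArg tpEv (D.rel_ff hpre)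
  rw [tpEv_add, tpEv_mul, tpEv_mul, hev, mul_zero, zero_add, tpEv_one] at h2
  have hdiag : (D.blk D.M true true).coeff 0 = (D.blk D.M false false).coeff 0 := by
    simp only [blk_coeff]
    exact diag_const hpre D.M_inv _ _
  have hpne : (1 : ZMod p) ≠ 0 := one_ne_zero
  rcases tp_sq_eq_one h1 with hB | hB
  · have hBc := coeff_of_sub hB (D.aug_tt hpre)
    rcases tp_sq_eq_one h2 with hD | hD
    · have hDc := coeff_of_sub hD (D.aug_ffM hpre)
      -- off diagonal entries constant
      refine D.two_trans_of_const hpre (-1 / p) (1 - 1 / p) ?_ ?_ ?_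
      · intro a b hab
        obtain ⟨⟨s, i⟩, rfl⟩ := D.pt.surjective a
        obtain ⟨⟨t, j⟩, rfl⟩ := D.pt.surjective b
        rw [D.entry_eq D.M_inv]
        cases s <;> cases t
        · rw [hDc, if_neg]
          · ring
          · intro h
            exact hab (by rw [sub_eq_zero.mp h])
        · rw [hCc']
        · rw [hCc]
        · rw [hBc, if_neg]
          · ring
          · intro h
            exact hab (by rw [sub_eq_zero.mp h])
      · intro a
        obtain ⟨⟨s, i⟩, rfl⟩ := D.pt.surjective a
        rw [D.entry_eq D.M_inv, sub_self]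
        cases s
        · rw [hDc, if_pos rfl]
        · rw [hBc, if_pos rfl]
      · have : (1 : ℚ) + (1 - 1 / p) - (-1 / p) = 2 := by
          field_simp
          ring
        rw [this]
        norm_num
    · have hDc := coeff_of_add hD (D.aug_ffM hpre)
      exfalso
      rw [hBc, hDc, if_pos rfl] at hdiag
      have h3 : (1 : ℚ) / p ≤ 1 / 2 := by
        apply one_div_le_one_div_of_le (by norm_num) hp2
      linarith
  · have hBc := coeff_of_add hB (D.aug_tt hpre)
    rcases tp_sq_eq_one h2 with hD | hD
    · have hDc := coeff_of_sub hD (D.aug_ffM hpre)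
      exfalso
      rw [hBc, hDc, if_pos rfl] at hdiag
      have h3 : (1 : ℚ) / p ≤ 1 / 2 := by
        apply one_div_le_one_div_of_le (by norm_num) hp2
      linarith
    · exfalso
      -- the parts form a block system
      let T : Matrix α α ℚ := D.M + (1 / (p : ℚ)) • Matrix.of fun _ _ => 1
      have hT : TpInv G T := by
        apply tpInv_add D.M_inv
        apply tpInv_smul
        intro g _ a b
        rfl
      have hne : D.pt (true, 0) ≠ D.pt (true, 1) := by
        intro h
        have := D.pt.injective h
        simp only [Prod.mk.injEq, true_and] at this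
        exact hpne this.symm
      have := tp_conn hprim hT (Set.range fun i : ZMod p => D.pt (true, i)) ⟨_, ⟨0, rfl⟩⟩ ?_ ?_ hne
      · simp only [T, Matrix.add_apply, Matrix.smul_apply, Matrix.of_apply, smul_eq_mul, mul_one] at this
        have h5 : D.M (D.pt (true, 0)) (D.pt (true, 1)) = 1 / p := by
          have h7 := hBc 1
          rw [if_neg hpne, blk_coeff] at h7
          rw [h7]
          ring
        rw [h5] at this
        have h6 : (0 : ℚ) < 1 / p := by positivity
        linarith
      · intro h
        have : D.pt (false, 0) ∈ Set.range fun i : ZMod p => D.pt (true, i) := by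
          rw [h]
          trivial
        obtain ⟨i, hi⟩ := this
        have := D.pt.injective hi
        simp at this
      · rintro u ⟨i, rfl⟩ v hv
        obtain ⟨⟨t, j⟩, rfl⟩ := D.pt.surjective v
        cases t
        · simp only [T, Matrix.add_apply, Matrix.smul_apply, Matrix.of_apply, smul_eq_mul, mul_one]
          rw [D.entry_eq D.M_inv, D.entry_eq D.M_inv, hCc, hCc']
          constructor <;> ring
        · exact absurd ⟨j, rfl⟩ hv

lemma M_symm' (a b : α) : D.M a b = D.M b a := by
  have := congrFun (congrFun D.M_symm a) b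
  simpa using this.symm

/-- The entrywise square of `M`. -/
noncomputable def W : Matrix α α ℚ := Matrix.of fun a b => D.M a b * D.M a b

lemma W_inv : TpInv G D.W := tpInv_had D.M_inv D.M_inv

lemma W_apply (a b : α) : D.W a b = D.M a b * D.M a b := rfl

lemma W_symm (a b : α) : D.W a b = D.W b a := by
  simp only [W_apply, D.M_symm' a b]

/-- The case where the cross block is not constant. -/
theorem caseII (hprim : MulAction.IsPreprimitive G α) (hcard : 3 ≤ Fintype.card α)
    (hDB : D.blk D.M false false = - D.blk D.M true true)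
    (hB0 : (D.blk D.M true true).coeff 0 = 0) :
    ∃ c2 : ℚ, (∀ a b, a ≠ b → D.M a b * D.M a b = c2) ∧ ((Fintype.card α : ℚ) - 1) * c2 = 1 := by
  classical
  have hpre : MulAction.IsPretransitive G α := hprim.toIsPretransitive
  have hM0 : ∀ a, D.M a a = 0 := by
    intro a
    rw [diag_const hpre D.M_inv a (D.pt (true, 0))]
    exact hB0
  have hsq : ∀ a, ∑ b, D.M a b * D.M a b = 1 := by
    intro a
    have h1 := congrFun (congrFun (D.M_sq hpre) a) a
    simp only [Matrix.mul_apply, Matrix.one_apply_eq] at h1
    rw [← h1]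
    exact Finset.sum_congr rfl fun b _ => by rw [D.M_symm' b a]
  set S : Set α := Set.range fun i : ZMod p => D.pt (true, i) with hS
  have hSne : S.Nonempty := ⟨_, ⟨0, rfl⟩⟩
  have hSne' : S ≠ Set.univ := by
    intro h
    have : D.pt (false, 0) ∈ S := by
      rw [h]
      trivial
    obtain ⟨i, hi⟩ := this
    have := D.pt.injective hi
    simp at this
  have hE : D.blk D.W false false = D.blk D.W true true := by
    refine tp_ext fun j => ?_
    simp only [blk_coeff, W_apply]
    have : D.M (D.pt (false, 0)) (D.pt (false, j)) = - D.M (D.pt (true, 0)) (D.pt (true, j)) := by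
      have h9 := congrArg (fun x : TpR p => x.coeff j) hDB
      simpa using h9
    rw [this]
    ring
  have hcomm : D.blk (D.W * D.M) true false = D.blk (D.M * D.W) true false := by
    rw [D.T_comm hpre D.W_inv]
  rw [D.blk_mul D.M_inv, D.blk_mul D.W_inv, hE, hDB] at hcomm
  set B := D.blk D.M true true with hB
  set C := D.blk D.M true false with hC
  set Y := D.blk D.W true false with hY
  set E := D.blk D.W true true with hEdef
  have hBY0 : B * Y = 0 := by
    have h2 : (2 : TpR p) * (B * Y) = 0 := by
      linear_combination (-1 : TpR p) * hcomm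
    refine tp_ext fun k => ?_
    have := congrArg (fun x : TpR p => x.coeff k) h2
    simp only [tp_two_mul_coeff, tp_zero_coeff] at this ⊢
    linarith
  rcases tp_dichotomy hBY0 with hBC | hYC
  · -- `B = 0`: a contradiction
    exfalso
    have hB00 : B = 0 := tpC_aug_zero hBC (D.aug_tt hpre)
    have hE0 : E = 0 := by
      refine tp_ext fun j => ?_
      have : B.coeff j = 0 := by rw [hB00]; rfl
      simp only [hEdef, blk_coeff, W_apply, tp_zero_coeff]
      rw [hB, blk_coeff] at this
      rw [this]
      ring
    have hT2 : TpInv G (D.W * D.W) := tpInv_mul D.W_inv D.W_inv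
    have hcross : ∀ u ∈ S, ∀ v, v ∉ S → (D.W * D.W) u v = 0 ∧ (D.W * D.W) v u = 0 := by
      rintro u ⟨i, rfl⟩ v hv
      obtain ⟨⟨t, j⟩, rfl⟩ := D.pt.surjective v
      cases t
      · constructor
        · simp only
          rw [D.entry_eq hT2, D.blk_mul D.W_inv, hE, ← hEdef, hE0]
          simp
        · simp only
          rw [D.entry_eq hT2, D.blk_mul D.W_inv, hE, ← hEdef, hE0]
          simp
      · exact absurd ⟨j, rfl⟩ hv
    have hzero := fun a b (hab : a ≠ b) => tp_conn hprim hT2 S hSne hSne' hcross hab
    have hone : ∀ u a b, a ≠ b → D.M u a = 0 ∨ D.M u b = 0 := by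
      intro u a b hab
      have h1 := hzero a b hab
      simp only [Matrix.mul_apply, W_apply] at h1
      have h2 := (Finset.sum_eq_zero_iff_of_nonneg (fun c _ =>
        mul_nonneg (mul_self_nonneg _) (mul_self_nonneg _))).mp h1 u (Finset.mem_univ _)
      rcases mul_eq_zero.mp h2 with h3 | h3
      · left
        rw [D.M_symm' u a]
        exact mul_self_eq_zero.mp h3
      · right
        exact mul_self_eq_zero.mp h3
    set a₀ := D.pt (true, 0) with ha₀
    obtain ⟨c, hc⟩ : ∃ c, D.M a₀ c ≠ 0 := by
      by_contra hcon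
      push Not at hcon
      have := D.M_row a₀
      simp only [hcon, Finset.sum_const_zero] at this
      norm_num at this
    have hac : a₀ ≠ c := by
      rintro rfl
      exact hc (hM0 _)
    have hc' : D.M c a₀ ≠ 0 := by rwa [D.M_symm']
    have hr0 : ∀ v, v ≠ c → D.M a₀ v = 0 := by
      intro v hv
      exact (hone a₀ v c hv).resolve_right hc
    have hr1 : ∀ v, v ≠ a₀ → D.M c v = 0 := by
      intro v hv
      exact (hone c v a₀ hv).resolve_right hc'
    have hfin := tp_conn hprim D.M_inv ({a₀, c} : Set α) ⟨a₀, by simp⟩ ?_ ?_ hac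
    · exact hc hfin
    · intro h
      have h1 : (Set.univ : Set α).ncard ≤ 2 := by
        rw [← h]
        exact (Set.ncard_insert_le _ _).trans (by simp)
      rw [Set.ncard_univ, Nat.card_eq_fintype_card] at h1
      omega
    · intro u hu v hv
      simp only [Set.mem_insert_iff, Set.mem_singleton_iff, not_or] at hu hv
      rcases hu with rfl | rfl
      · have := hr0 v hv.2
        exact ⟨this, by rw [D.M_symm']; exact this⟩
      · have := hr1 v hv.1
        exact ⟨this, by rw [D.M_symm']; exact this⟩
  · obtain ⟨κ, hκ⟩ := hYC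
    refine ⟨κ, ?_⟩
    have hallκ : ∀ a b, a ≠ b → D.M a b * D.M a b = κ := by
      intro a b hab
      let T : Matrix α α ℚ := D.W - κ • Matrix.of fun _ _ => 1
      have hT : TpInv G T := by
        apply tpInv_sub D.W_inv
        apply tpInv_smul
        intro g _ a b
        rfl
      have := tp_conn hprim hT S hSne hSne' ?_ hab
      · simp only [T, Matrix.sub_apply, Matrix.smul_apply, Matrix.of_apply, smul_eq_mul, mul_one,
          W_apply] at this
        linarith
      · rintro u ⟨i, rfl⟩ v hv
        obtain ⟨⟨t, j⟩, rfl⟩ := D.pt.surjective v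
        cases t
        · have h1 : D.W (D.pt (true, i)) (D.pt (false, j)) = κ := by
            rw [D.entry_eq D.W_inv]
            exact hκ _
          constructor
          · simp only [T, Matrix.sub_apply, Matrix.smul_apply, Matrix.of_apply, smul_eq_mul, mul_one]
            rw [h1, sub_self]
          · simp only [T, Matrix.sub_apply, Matrix.smul_apply, Matrix.of_apply, smul_eq_mul, mul_one]
            rw [D.W_symm, h1, sub_self]
        · exact absurd ⟨j, rfl⟩ hv
    refine ⟨hallκ, ?_⟩
    have h1 := hsq (D.pt (true, 0))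
    rw [← Finset.add_sum_erase _ _ (Finset.mem_univ (D.pt (true, 0))), hM0, mul_zero, zero_add] at h1
    rw [Finset.sum_congr rfl (fun b hb => hallκ _ b (Ne.symm (Finset.ne_of_mem_erase hb)))] at h1
    rw [Finset.sum_const, Finset.card_erase_of_mem (Finset.mem_univ _), Finset.card_univ,
      nsmul_eq_mul] at h1
    have h2 : 1 ≤ Fintype.card α := by omega
    rw [Nat.cast_sub h2, Nat.cast_one] at h1
    exact h1

end TpData

end Cfsg.Agent.Lib.Perm
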