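import Cfsg.Agent.Lib.Perm.TwoPMain

/-!
Valencies of the orbital matrices in Wielandt's theorem on primitive groups of degree `2p`.
-/

set_option autoImplicit false
set_option linter.unusedSectionVars false

namespace Cfsg.Agent.Lib.Perm

open scoped BigOperators
open Matrix

variable {p : ℕ} [hp : Fact p.Prime] {α : Type*} [Fintype α] [DecidableEq α]

/-- A ring identity. -/
lemma tp_alg {R : Type*} [CommRing R] (A A2 A4 B C C' L : R)
    (h12 : A * C + A2 * (-B) = B * A2 + C * A4)
    (h11 : A * (1 + B) + A2 * C' = L * (1 + B))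
    (hrel : B * B + C * C' = 1) :
    ((A - A4) * B + (A2 + A2) * C') * B = A - A4 ∧
    ((A - A4) * B + (A2 + A2) * C') * C = A2 + A2 ∧
    (A + A4 + ((A - A4) * B + (A2 + A2) * C') - (L + L)) * (1 + B) = 0 := by
  have h12' : C * (A - A4) = B * (A2 + A2) := by linear_combination h12
  have h1 : ((A - A4) * B + (A2 + A2) * C') * B = A - A4 := by
    linear_combination (A - A4) * hrel - C' * h12'
  have h2 : ((A - A4) * B + (A2 + A2) * C') * C = A2 + A2 := by
    linear_combination (A2 + A2) * hrel + B * h12'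
  refine ⟨h1, h2, ?_⟩
  linear_combination 2 * h11 + h1

lemma tp_smul_coeff (c : ℚ) (x : TpR p) (i : ZMod p) : (c • x).coeff i = c * x.coeff i := by
  rfl

lemma tpAug_smul (c : ℚ) (x : TpR p) : tpAug (c • x) = c * tpAug x := by
  simp only [tpAug, tp_smul_coeff, Finset.mul_sum]

lemma tp_norm_mul (e B C C' : TpR p) (hB : tpStar B = B) (hC : tpStar C = C')
    (hrel : B * B + C * C' = 1) : tpNorm (e * B) + tpNorm (e * C) = tpNorm e := by
  rw [← tp_mul_star_zero, ← tp_mul_star_zero, ← tp_mul_star_zero, tpStar_mul, tpStar_mul, hB, hC,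
    ← tp_add_coeff]
  have : e * B * (tpStar e * B) + e * C * (tpStar e * C') = e * tpStar e * (B * B + C * C') := by
    ring
  rw [this, hrel, mul_one]

lemma tp_norm_shift (g : TpR p) (l : ℚ) (hg : g.coeff 0 = 0) :
    tpNorm ((l • (1 : TpR p)) + (l • (1 : TpR p)) - g) = 4 * l ^ 2 + tpNorm g := by
  classical
  simp only [tpNorm]
  have h : ∀ i : ZMod p, (((l • (1 : TpR p)) + (l • (1 : TpR p)) - g).coeff i) ^ 2
      = (if i = 0 then 4 * l ^ 2 else 0) + g.coeff i ^ 2 := by
    intro i
    simp only [tp_sub_coeff, tp_add_coeff, tp_smul_coeff, tp_one_coeff]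
    by_cases hi : i = 0
    · subst hi
      simp only [if_true, hg]
      ring
    · simp only [if_neg hi]
      ring
  simp only [h, Finset.sum_add_distrib, Finset.sum_ite_eq', Finset.mem_univ, if_true]

namespace TpData

variable {G : Subgroup (Equiv.Perm α)} [Fintype G] (D : TpData p G)

lemma blk_smul (c : ℚ) (T : Matrix α α ℚ) (s t : Bool) :
    D.blk (c • T) s t = c • D.blk T s t := tp_ext fun _ => rfl

/-- The number of neighbours in the other part is the square of the eigenvalue. -/
theorem orb_key (hpre : MulAction.IsPretransitive G α)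
    (hDB : D.blk D.M false false = - D.blk D.M true true)
    (hB0 : (D.blk D.M true true).coeff 0 = 0)
    {T : Matrix α α ℚ} (hT : TpInv G T) (h01 : ∀ u v, T u v = 0 ∨ T u v = 1)
    (hd : ∀ a, T a a = 0)
    (hdisj : ∀ i, (D.blk T true true).coeff i * (D.blk T false false).coeff i = 0) :
    tpAug (D.blk T true false) = (D.al T) ^ 2 := by
  classical
  have hp2 : (2 : ℚ) ≤ p := by exact_mod_cast hp.out.two_le
  set A := D.blk T true true with hA
  set A2 := D.blk T true false with hA2
  set A4 := D.blk T false false with hA4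
  set B := D.blk D.M true true with hB
  set C := D.blk D.M true false with hC
  set C' := D.blk D.M false true with hC'
  set l := D.al T with hl
  set L : TpR p := l • (1 : TpR p) with hL
  have h12 : A * C + A2 * (-B) = B * A2 + C * A4 := by
    have h := congrArg (fun X => D.blk X true false) (D.T_comm hpre hT)
    simp only [D.blk_mul D.M_inv, D.blk_mul hT] at h
    rw [hDB] at h
    exact h
  have h11 : A * (1 + B) + A2 * C' = L * (1 + B) := by
    have h := congrArg (fun X => D.blk X true true) (D.T_mul_one_add hpre hT)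
    have hinv : TpInv G (1 + D.M) := tpInv_add tpInv_one D.M_inv
    simp only [D.blk_mul hinv, blk_smul, blk_add, blk_one] at h
    simp only [if_true, Bool.false_eq_true, if_false, zero_add] at h
    rw [h, hL, smul_mul_assoc, one_mul]
  have hrel : B * B + C * C' = 1 := D.rel_tt hpre
  obtain ⟨h1, h2, h3⟩ := tp_alg A A2 A4 B C C' L h12 h11 hrel
  set e := (A - A4) * B + (A2 + A2) * C' with he
  have hpB : (1 + B).coeff 0 = 1 := by
    rw [tp_add_coeff, hB0, tp_one_coeff]
    simp
  have hnotC : ¬ TpC (1 + B) := by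
    intro hcon
    have h4 := tpC_coeff hcon 0
    rw [hpB, tpAug_add, tpAug_one, D.aug_tt hpre] at h4
    have h5 : (1 : ℚ) / p ≤ 1 / 2 := one_div_le_one_div_of_le (by norm_num) hp2
    have h6 : (1 + 0 : ℚ) / p = 1 / p := by ring
    rw [h6] at h4
    linarith
  have hfC := (tp_dichotomy h3).resolve_right hnotC
  have haugA4 : tpAug A4 = tpAug A := D.aug_ff hpre hT
  have hauge : tpAug e = - (tpAug A2 + tpAug A2) := by
    rw [he, tpAug_add, tpAug_mul, tpAug_mul, tpAug_sub, haugA4, tpAug_add, D.aug_ftM hpre]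
    ring
  have hf0 : A + A4 + e - (L + L) = 0 := by
    apply tpC_aug_zero hfC
    rw [tpAug_sub, tpAug_add (A + A4) e, tpAug_add A A4, tpAug_add L L, hauge, haugA4, hL,
      tpAug_smul, tpAug_one, hl]
    simp only [al, ← hA, ← hA2]
    ring
  have hee : e = L + L - (A + A4) := by linear_combination hf0
  have hn1 := tp_norm_mul e B C C' D.star_tt D.star_tf.symm hrel
  rw [h1, h2] at hn1
  have hg0 : (A + A4).coeff 0 = 0 := by
    rw [tp_add_coeff, hA, hA4, blk_coeff, blk_coeff, hd, hd, add_zero]
  have hn2 : tpNorm e = 4 * l ^ 2 + tpNorm (A + A4) := by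
    rw [hee, hL]
    exact tp_norm_shift _ _ hg0
  have hn3 : tpNorm (A - A4) = tpNorm (A + A4) := by
    simp only [tpNorm]
    refine Finset.sum_congr rfl fun i _ => ?_
    simp only [tp_sub_coeff, tp_add_coeff]
    have := hdisj i
    linear_combination (-4 : ℚ) * this
  have hn4 : tpNorm (A2 + A2) = 4 * tpAug A2 := by
    simp only [tpNorm, tpAug, Finset.mul_sum]
    refine Finset.sum_congr rfl fun i _ => ?_
    simp only [tp_add_coeff]
    have : A2.coeff i = 0 ∨ A2.coeff i = 1 := h01 _ _
    rcases this with h | h <;> rw [h] <;> norm_num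
  rw [hn2, hn3, hn4] at hn1
  linarith

end TpData

end Cfsg.Agent.Lib.Perm
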