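import Cfsg.Agent.Lib.Perm.TwoPBlocks

/-!
The rational projection onto the module generated by the part function.
-/

set_option autoImplicit false
set_option linter.unusedSectionVars false

namespace Cfsg.Agent.Lib.Perm

open scoped BigOperators
open Matrix

variable {p : ℕ} [hp : Fact p.Prime] {α : Type*} [Fintype α] [DecidableEq α]

namespace TpData

variable {G : Subgroup (Equiv.Perm α)} [Fintype G] (D : TpData p G)

/-- Sum over the group of the rank one matrices. -/
noncomputable def N : Matrix α α ℚ :=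
  Matrix.of fun a b => ∑ g : G, D.w ((g : Equiv.Perm α)⁻¹ a) * D.w ((g : Equiv.Perm α)⁻¹ b)

lemma N_apply (a b : α) :
    D.N a b = ∑ g : G, D.w ((g : Equiv.Perm α)⁻¹ a) * D.w ((g : Equiv.Perm α)⁻¹ b) := rfl

lemma N_inv : TpInv G D.N := by
  intro h hh a b
  simp only [N_apply]
  refine Fintype.sum_equiv (Equiv.mulLeft (⟨h, hh⟩ : G)⁻¹) _ _ fun g => ?_
  simp only [Equiv.coe_mulLeft]
  have : (((⟨h, hh⟩ : G)⁻¹ * g : G) : Equiv.Perm α)⁻¹ = (g : Equiv.Perm α)⁻¹ * h := by
    simp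
  rw [this]
  simp

lemma N_symm : D.Nᵀ = D.N := by
  ext a b
  simp only [Matrix.transpose_apply, N_apply]
  exact Finset.sum_congr rfl fun g _ => mul_comm _ _

lemma T_mul_N (hpre : MulAction.IsPretransitive G α) {T : Matrix α α ℚ} (hT : TpInv G T) :
    T * D.N = D.al T • D.N := by
  ext a b
  simp only [Matrix.mul_apply, N_apply, Matrix.smul_apply, smul_eq_mul, Finset.mul_sum]
  rw [Finset.sum_comm]
  refine Finset.sum_congr rfl fun g _ => ?_
  have h1 : ∑ c, T a c * (D.w ((g : Equiv.Perm α)⁻¹ c) * D.w ((g : Equiv.Perm α)⁻¹ b))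
      = (∑ c, T a c * D.w ((g : Equiv.Perm α)⁻¹ c)) * D.w ((g : Equiv.Perm α)⁻¹ b) := by
    rw [Finset.sum_mul]
    exact Finset.sum_congr rfl fun c _ => by ring
  rw [h1]
  have h2 : ∑ c, T a c * D.w ((g : Equiv.Perm α)⁻¹ c)
      = ∑ c, T ((g : Equiv.Perm α)⁻¹ a) c * D.w c := by
    refine Fintype.sum_equiv ((g : Equiv.Perm α)⁻¹) _ _ fun c => ?_
    rw [hT _ (G.inv_mem g.2)]
  rw [h2, D.sum_T_w hpre hT]
  ring

lemma al_transpose (hpre : MulAction.IsPretransitive G α) {T : Matrix α α ℚ} (hT : TpInv G T) :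
    D.al Tᵀ = D.al T := by
  simp only [al, D.blk_transpose hT, tpAug_star]
  rw [D.aug_tf hpre hT]

lemma N_mul_T (hpre : MulAction.IsPretransitive G α) {T : Matrix α α ℚ} (hT : TpInv G T) :
    D.N * T = D.al T • D.N := by
  have h := D.T_mul_N hpre (tpInv_transpose hT)
  have h2 := congrArg Matrix.transpose h
  rw [Matrix.transpose_mul, Matrix.transpose_transpose, D.N_symm, Matrix.transpose_smul, D.N_symm,
    D.al_transpose hpre hT] at h2
  exact h2

lemma kappa_pos (hpre : MulAction.IsPretransitive G α) : 0 < D.al D.N := by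
  classical
  have hcard : 0 < Fintype.card α := by
    rw [Fintype.card_pos_iff]
    exact ⟨D.pt (true, 0)⟩
  have hcq : (0 : ℚ) < Fintype.card α := by exact_mod_cast hcard
  have h1 : ∀ a, ∑ b, D.N a b * D.w b = D.al D.N * D.w a := fun a => D.sum_T_w hpre D.N_inv a
  have h2 : ∑ a, (∑ b, D.N a b * D.w b) * D.w a = D.al D.N * Fintype.card α := by
    simp only [h1, mul_assoc, D.w_sq, mul_one]
    simp [mul_comm]
  have h3 : ∑ a, (∑ b, D.N a b * D.w b) * D.w a
      = ∑ g : G, (∑ a, D.w ((g : Equiv.Perm α)⁻¹ a) * D.w a) ^ 2 := by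
    have h5 : ∀ g : G, (∑ a, D.w ((g : Equiv.Perm α)⁻¹ a) * D.w a) ^ 2 = ∑ a, ∑ b,
        (D.w ((g : Equiv.Perm α)⁻¹ a) * D.w a) * (D.w ((g : Equiv.Perm α)⁻¹ b) * D.w b) := by
      intro g
      rw [sq, Finset.sum_mul_sum]
    simp only [h5]
    calc ∑ a, (∑ b, D.N a b * D.w b) * D.w a
        = ∑ a, ∑ b, ∑ g : G, (D.w ((g : Equiv.Perm α)⁻¹ a) * D.w a) *
            (D.w ((g : Equiv.Perm α)⁻¹ b) * D.w b) := by
          refine Finset.sum_congr rfl fun a _ => ?_
          rw [Finset.sum_mul]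
          refine Finset.sum_congr rfl fun b _ => ?_
          simp only [N_apply, Finset.sum_mul]
          exact Finset.sum_congr rfl fun g _ => by ring
      _ = ∑ a, ∑ g : G, ∑ b, (D.w ((g : Equiv.Perm α)⁻¹ a) * D.w a) *
            (D.w ((g : Equiv.Perm α)⁻¹ b) * D.w b) :=
          Finset.sum_congr rfl fun a _ => Finset.sum_comm
      _ = _ := Finset.sum_comm
  have h4 : (Fintype.card α : ℚ) ^ 2 ≤ ∑ g : G, (∑ a, D.w ((g : Equiv.Perm α)⁻¹ a) * D.w a) ^ 2 := by
    have := Finset.single_le_sum (f := fun g : G => (∑ a, D.w ((g : Equiv.Perm α)⁻¹ a) * D.w a) ^ 2)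
      (fun g _ => sq_nonneg _) (Finset.mem_univ (1 : G))
    refine le_trans (le_of_eq ?_) this
    simp only [OneMemClass.coe_one, inv_one, Equiv.Perm.coe_one, id_eq, D.w_sq]
    simp
  rw [← h3, h2] at h4
  have : 0 < D.al D.N * Fintype.card α := lt_of_lt_of_le (by positivity) h4
  exact (pos_iff_pos_of_mul_pos this).mpr hcq

/-- The involution `2e - 1`. -/
noncomputable def M : Matrix α α ℚ := (2 / D.al D.N) • D.N - 1

lemma M_inv : TpInv G D.M := tpInv_sub (tpInv_smul _ D.N_inv) tpInv_one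

lemma M_symm : D.Mᵀ = D.M := by
  simp [M, Matrix.transpose_sub, Matrix.transpose_smul, D.N_symm]

lemma one_add_M : 1 + D.M = (2 / D.al D.N) • D.N := by
  simp [M]

lemma T_mul_one_add (hpre : MulAction.IsPretransitive G α) {T : Matrix α α ℚ} (hT : TpInv G T) :
    T * (1 + D.M) = D.al T • (1 + D.M) := by
  rw [D.one_add_M, Matrix.mul_smul, D.T_mul_N hpre hT, smul_comm]

lemma one_add_mul (hpre : MulAction.IsPretransitive G α) {T : Matrix α α ℚ} (hT : TpInv G T) :
    (1 + D.M) * T = D.al T • (1 + D.M) := by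
  rw [D.one_add_M, Matrix.smul_mul, D.N_mul_T hpre hT, smul_comm]

lemma T_comm (hpre : MulAction.IsPretransitive G α) {T : Matrix α α ℚ} (hT : TpInv G T) :
    T * D.M = D.M * T := by
  have h1 := D.T_mul_one_add hpre hT
  have h2 := D.one_add_mul hpre hT
  rw [mul_add, mul_one] at h1
  rw [add_mul, one_mul] at h2
  have : T + T * D.M = T + D.M * T := by rw [h1, h2]
  exact add_left_cancel this

lemma M_sq (hpre : MulAction.IsPretransitive G α) : D.M * D.M = 1 := by
  have hκ := (D.kappa_pos hpre).ne'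
  have h := D.N_mul_T hpre D.N_inv
  simp only [M, sub_mul, mul_sub, Matrix.smul_mul, Matrix.mul_smul, h, one_mul, mul_one, smul_sub,
    smul_smul]
  have : (2 / D.al D.N) * ((2 / D.al D.N) * D.al D.N) = 2 * (2 / D.al D.N) := by
    field_simp
  rw [show (2 / D.al D.N * (2 / D.al D.N * D.al D.N)) = 2 * (2 / D.al D.N) from this]
  ext a b
  simp
  ring

lemma al_M (hpre : MulAction.IsPretransitive G α) : D.al D.M = 1 := by
  have hκ := (D.kappa_pos hpre).ne'
  have h1 : D.al (1 + D.M) = D.al ((2 / D.al D.N) • D.N) := by rw [D.one_add_M]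
  have h2 : ∀ (c : ℚ) (T : Matrix α α ℚ), D.al (c • T) = c * D.al T := by
    intro c T
    simp only [al]
    have h3 : ∀ s t, tpAug (D.blk (c • T) s t) = c * tpAug (D.blk T s t) := by
      intro s t
      simp only [tpAug, blk_coeff, Matrix.smul_apply, smul_eq_mul, Finset.mul_sum]
    rw [h3, h3]
    ring
  rw [h2, D.al_add, D.al_one] at h1
  have h3 : 2 / D.al D.N * D.al D.N = 2 := by field_simp
  rw [h3] at h1
  linarith

lemma N_row (a : α) : ∑ b, D.N a b = 0 := by
  simp only [N_apply]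
  rw [Finset.sum_comm]
  refine Finset.sum_eq_zero fun g _ => ?_
  rw [← Finset.mul_sum]
  have : ∑ b, D.w ((g : Equiv.Perm α)⁻¹ b) = 0 := by
    rw [Equiv.sum_comp ((g : Equiv.Perm α)⁻¹) D.w]
    exact D.sum_w
  rw [this, mul_zero]

lemma M_row (a : α) : ∑ b, D.M a b = -1 := by
  simp only [M, Matrix.sub_apply, Matrix.smul_apply, smul_eq_mul, Finset.sum_sub_distrib,
    ← Finset.mul_sum, D.N_row, Matrix.one_apply]
  simp

end TpData

end Cfsg.Agent.Lib.Perm
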