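import Mathlib

/-!
The rational group ring of `ZMod p`, used for block matrices in Wielandt's theorem on primitive
groups of degree `2p`.
-/

set_option autoImplicit false
set_option linter.unusedSectionVars false

namespace Cfsg.Agent.Lib.Perm

open scoped BigOperators

variable {p : ℕ} [hp : Fact p.Prime]

/-- The group ring. -/
abbrev TpR (p : ℕ) : Type := AddMonoidAlgebra ℚ (ZMod p)

noncomputable section

/-- Build a group ring element from its coefficients. -/
def tpOf (f : ZMod p → ℚ) : TpR p := .ofCoeff (Finsupp.equivFunOnFinite.symm f)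

@[simp] lemma tpOf_coeff (f : ZMod p → ℚ) (i : ZMod p) : (tpOf f).coeff i = f i := rfl

lemma tp_ext {x y : TpR p} (h : ∀ i, x.coeff i = y.coeff i) : x = y := by
  apply AddMonoidAlgebra.coeff_injective
  exact Finsupp.ext h

lemma tp_mul_coeff (x y : TpR p) (k : ZMod p) :
    (x * y).coeff k = ∑ i, x.coeff i * y.coeff (k - i) := by
  rw [AddMonoidAlgebra.coeff_mul_apply_left, Finsupp.sum_fintype _ _ (by simp)]
  refine Finset.sum_congr rfl fun i _ => ?_
  congr 2
  abel

@[simp] lemma tp_add_coeff (x y : TpR p) (k : ZMod p) :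
    (x + y).coeff k = x.coeff k + y.coeff k := rfl

@[simp] lemma tp_sub_coeff (x y : TpR p) (k : ZMod p) :
    (x - y).coeff k = x.coeff k - y.coeff k := rfl

@[simp] lemma tp_neg_coeff (x : TpR p) (k : ZMod p) :
    (-x).coeff k = - x.coeff k := rfl

@[simp] lemma tp_zero_coeff (k : ZMod p) : (0 : TpR p).coeff k = 0 := rfl

lemma tp_one_coeff (k : ZMod p) : (1 : TpR p).coeff k = if k = 0 then 1 else 0 := by
  classical
  rw [AddMonoidAlgebra.one_def, AddMonoidAlgebra.coeff_single, Finsupp.single_apply]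
  by_cases h : k = 0
  · simp [h]
  · simp [h, Ne.symm h]

lemma tp_two_mul_coeff (x : TpR p) (k : ZMod p) : ((2 : TpR p) * x).coeff k = 2 * x.coeff k := by
  have : (2 : TpR p) * x = x + x := two_mul x
  rw [this, tp_add_coeff]
  ring

/-- Augmentation. -/
def tpAug (x : TpR p) : ℚ := ∑ i, x.coeff i

lemma tpAug_add (x y : TpR p) : tpAug (x + y) = tpAug x + tpAug y := by
  simp [tpAug, Finset.sum_add_distrib]

lemma tpAug_sub (x y : TpR p) : tpAug (x - y) = tpAug x - tpAug y := by
  simp [tpAug, Finset.sum_sub_distrib]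

lemma tpAug_neg (x : TpR p) : tpAug (-x) = - tpAug x := by
  simp [tpAug]

lemma tpAug_one : tpAug (1 : TpR p) = 1 := by
  simp [tpAug, tp_one_coeff]

lemma tpAug_mul (x y : TpR p) : tpAug (x * y) = tpAug x * tpAug y := by
  simp only [tpAug, tp_mul_coeff]
  rw [Finset.sum_comm, Finset.sum_mul]
  refine Finset.sum_congr rfl fun i _ => ?_
  rw [← Finset.mul_sum]
  congr 1
  exact Fintype.sum_equiv (Equiv.subRight i) _ _ (fun _ => rfl)

/-- The involution `x ↦ x⁻¹` on the group. -/
def tpStar (x : TpR p) : TpR p := tpOf fun i => x.coeff (-i)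

@[simp] lemma tpStar_coeff (x : TpR p) (i : ZMod p) : (tpStar x).coeff i = x.coeff (-i) := rfl

lemma tpStar_star (x : TpR p) : tpStar (tpStar x) = x := tp_ext fun i => by simp

lemma tpStar_add (x y : TpR p) : tpStar (x + y) = tpStar x + tpStar y := tp_ext fun i => by simp

lemma tpStar_mul (x y : TpR p) : tpStar (x * y) = tpStar x * tpStar y := by
  refine tp_ext fun k => ?_
  simp only [tpStar_coeff, tp_mul_coeff]
  refine Fintype.sum_equiv (Equiv.neg _) _ _ fun i => ?_
  simp only [Equiv.neg_apply, neg_neg]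
  congr 2
  ring

lemma tpAug_star (x : TpR p) : tpAug (tpStar x) = tpAug x := by
  simp only [tpAug, tpStar_coeff]
  exact Fintype.sum_equiv (Equiv.neg _) _ _ fun _ => rfl

/-- The squared norm. -/
def tpNorm (x : TpR p) : ℚ := ∑ i, x.coeff i ^ 2

lemma tp_mul_star_zero (x : TpR p) : (x * tpStar x).coeff 0 = tpNorm x := by
  simp only [tp_mul_coeff, tpStar_coeff, tpNorm, zero_sub, neg_neg]
  exact Finset.sum_congr rfl fun i _ => by ring

/-- Constant coefficient functions. -/
def TpC (x : TpR p) : Prop := ∃ κ : ℚ, ∀ i, x.coeff i = κ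

lemma tpC_aug_zero {x : TpR p} (hx : TpC x) (h0 : tpAug x = 0) : x = 0 := by
  obtain ⟨κ, hκ⟩ := hx
  have : κ = 0 := by
    have h : tpAug x = (p : ℚ) * κ := by
      simp [tpAug, hκ, ZMod.card]
    rw [h] at h0
    have hp0 : (p : ℚ) ≠ 0 := by exact_mod_cast hp.out.ne_zero
    exact (mul_eq_zero.mp h0).resolve_left hp0
  exact tp_ext fun i => by simp [hκ, this]

lemma tpC_coeff {x : TpR p} (hx : TpC x) (i : ZMod p) : x.coeff i = tpAug x / p := by
  obtain ⟨κ, hκ⟩ := hx
  have h : tpAug x = (p : ℚ) * κ := by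
    simp [tpAug, hκ, ZMod.card]
  have hp0 : (p : ℚ) ≠ 0 := by exact_mod_cast hp.out.ne_zero
  rw [h, hκ]
  field_simp

/-- Evaluation at the standard primitive root of unity. -/
def tpEv (x : TpR p) : ℂ := ∑ i, (x.coeff i : ℂ) * ZMod.stdAddChar i

lemma tpEv_add (x y : TpR p) : tpEv (x + y) = tpEv x + tpEv y := by
  simp [tpEv, add_mul, Finset.sum_add_distrib]

lemma tpEv_sub (x y : TpR p) : tpEv (x - y) = tpEv x - tpEv y := by
  simp [tpEv, sub_mul, Finset.sum_sub_distrib]

lemma tpEv_one : tpEv (1 : TpR p) = 1 := by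
  simp [tpEv, tp_one_coeff, apply_ite]

lemma tpEv_mul (x y : TpR p) : tpEv (x * y) = tpEv x * tpEv y := by
  simp only [tpEv, tp_mul_coeff]
  rw [Finset.sum_mul_sum]
  push_cast
  rw [Finset.sum_congr rfl fun k _ => Finset.sum_mul _ _ _]
  rw [Finset.sum_comm]
  refine Finset.sum_congr rfl fun i _ => ?_
  refine Fintype.sum_equiv (Equiv.subRight i) _ _ fun k => ?_
  simp only [Equiv.subRight_apply]
  have : (ZMod.stdAddChar k : ℂ) = ZMod.stdAddChar i * ZMod.stdAddChar (k - i) := by
    rw [← AddChar.map_add_eq_mul]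
    congr 1
    ring
  rw [this]
  ring

lemma tp_primitive : IsPrimitiveRoot ((ZMod.stdAddChar (1 : ZMod p) : ℂ)) p := by
  have hp0 : p ≠ 0 := hp.out.ne_zero
  have : NeZero p := ⟨hp0⟩
  have h := ZMod.stdAddChar_coe (N := p) 1
  have h2 : ((1 : ℤ) : ZMod p) = 1 := by simp
  rw [h2] at h
  rw [h]
  have := Complex.isPrimitiveRoot_exp p hp0
  convert this using 2
  push_cast
  ring

lemma tp_char_val (i : ZMod p) :
    (ZMod.stdAddChar i : ℂ) = (ZMod.stdAddChar (1 : ZMod p) : ℂ) ^ i.val := by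
  have : NeZero p := ⟨hp.out.ne_zero⟩
  rw [← AddChar.map_nsmul_eq_pow]
  congr 1
  simp

lemma tpC_of_ev {x : TpR p} (h : tpEv x = 0) : TpC x := by
  classical
  have : NeZero p := ⟨hp.out.ne_zero⟩
  set ζ : ℂ := ZMod.stdAddChar (1 : ZMod p) with hζ
  have hprim : IsPrimitiveRoot ζ p := tp_primitive
  let f : Polynomial ℚ := ∑ i : ZMod p, Polynomial.monomial i.val (x.coeff i)
  have hf0 : Polynomial.aeval ζ f = 0 := by
    simp only [f, map_sum, Polynomial.aeval_monomial]
    rw [← h]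
    refine Finset.sum_congr rfl fun i _ => ?_
    rw [tp_char_val i]
    simp [hζ]
  have hcoeff : ∀ n : ZMod p, f.coeff n.val = x.coeff n := by
    intro n
    simp only [f, Polynomial.finsetSum_coeff, Polynomial.coeff_monomial]
    rw [Finset.sum_eq_single n]
    · simp
    · intro b _ hb
      rw [if_neg]
      intro hv
      exact hb (ZMod.val_injective p hv)
    · simp
  have hcoeff' : ∀ m : ℕ, p ≤ m → f.coeff m = 0 := by
    intro m hm
    simp only [f, Polynomial.finsetSum_coeff, Polynomial.coeff_monomial]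
    refine Finset.sum_eq_zero fun i _ => ?_
    rw [if_neg]
    have := ZMod.val_lt i
    omega
  have hmin : Polynomial.cyclotomic p ℚ ∣ f := by
    rw [Polynomial.cyclotomic_eq_minpoly_rat hprim hp.out.pos]
    exact minpoly.dvd ℚ ζ hf0
  obtain ⟨q, hq⟩ := hmin
  have hdeg : f.natDegree < p := by
    have hp1 := hp.out.pos
    rw [Nat.lt_iff_le_pred hp1]
    rw [Polynomial.natDegree_le_iff_coeff_eq_zero]
    intro m hm
    exact hcoeff' m (by omega)
  by_cases hq0 : q = 0
  · refine ⟨0, fun i => ?_⟩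
    rw [← hcoeff i, hq, hq0]
    simp
  have hΦ : (Polynomial.cyclotomic p ℚ).natDegree = p - 1 := by
    rw [Polynomial.natDegree_cyclotomic, Nat.totient_prime hp.out]
  have hΦ0 : Polynomial.cyclotomic p ℚ ≠ 0 := Polynomial.cyclotomic_ne_zero p ℚ
  have hdq : q.natDegree = 0 := by
    have := Polynomial.natDegree_mul hΦ0 hq0
    rw [← hq, hΦ] at this
    have hp1 := hp.out.one_lt
    omega
  obtain ⟨κ, rfl⟩ : ∃ κ, q = Polynomial.C κ := ⟨q.coeff 0, Polynomial.eq_C_of_natDegree_eq_zero hdq⟩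
  refine ⟨κ, fun i => ?_⟩
  rw [← hcoeff i, hq, Polynomial.cyclotomic_prime, mul_comm, Polynomial.coeff_C_mul]
  have hi := ZMod.val_lt i
  simp only [Polynomial.finsetSum_coeff, Polynomial.coeff_X_pow]
  rw [Finset.sum_eq_single i.val]
  · simp
  · intro b _ hb
    rw [if_neg (Ne.symm hb)]
  · intro hh
    exact absurd (Finset.mem_range.mpr hi) hh

lemma tpEv_of_C {x : TpR p} (h : TpC x) : tpEv x = 0 := by
  obtain ⟨κ, hκ⟩ := h
  simp only [tpEv, hκ, ← Finset.mul_sum]
  have h1 : (ZMod.stdAddChar (N := p)) ≠ 1 := by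
    intro hh
    have := (tp_primitive (p := p))
    rw [hh] at this
    simp at this
    have h2 := hp.out.one_lt
    omega
  rw [AddChar.sum_eq_zero_of_ne_one h1]
  simp

lemma tpC_iff {x : TpR p} : TpC x ↔ tpEv x = 0 := ⟨tpEv_of_C, tpC_of_ev⟩

lemma tp_dichotomy {x y : TpR p} (h : x * y = 0) : TpC x ∨ TpC y := by
  have h0 : tpEv x * tpEv y = 0 := by
    rw [← tpEv_mul, h]
    simp [tpEv]
  rcases mul_eq_zero.mp h0 with h1 | h1
  · exact Or.inl (tpC_of_ev h1)
  · exact Or.inr (tpC_of_ev h1)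

lemma tp_sq_eq_one {x : TpR p} (h : tpEv x * tpEv x = 1) : TpC (x - 1) ∨ TpC (x + 1) := by
  have h0 : (tpEv x - 1) * (tpEv x + 1) = 0 := by
    linear_combination h
  rcases mul_eq_zero.mp h0 with h1 | h1
  · left
    rw [tpC_iff, tpEv_sub, tpEv_one]
    exact h1
  · right
    rw [tpC_iff, tpEv_add, tpEv_one]
    exact h1

end

end Cfsg.Agent.Lib.Perm
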