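import Mathlib
import Cfsg.Agent.Lib.Perm.JordanNormal
import Cfsg.Agent.Lib.Perm.Orbits

/-!
Wagner's theorem: a non-trivial normal subgroup of a triply transitive group of odd degree at least
five is triply transitive.
-/

set_option autoImplicit false

namespace Cfsg.Agent.Lib.Perm

open MulAction

variable {G X : Type*} [Group G] [MulAction G X]

/-- Elements of a triply transitive group realising a given map on three points. -/
lemma wg_three (h3 : IsMultiplyPretransitive G X 3) {a b c a' b' c' : X} (hab : a ≠ b) (hac : a ≠ c)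
    (hbc : b ≠ c) (hab' : a' ≠ b') (hac' : a' ≠ c') (hbc' : b' ≠ c') :
    ∃ g : G, g • a = a' ∧ g • b = b' ∧ g • c = c' := by
  let x : Fin 3 ↪ X := ⟨![a, b, c], by
    intro i j hij
    fin_cases i <;> fin_cases j <;> simp_all⟩
  let y : Fin 3 ↪ X := ⟨![a', b', c'], by
    intro i j hij
    fin_cases i <;> fin_cases j <;> simp_all⟩
  obtain ⟨g, hg⟩ := exists_smul_eq G x y
  refine ⟨g, ?_, ?_, ?_⟩
  · exact congrArg (fun f : Fin 3 ↪ X => f 0) hg
  · exact congrArg (fun f : Fin 3 ↪ X => f 1) hg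
  · exact congrArg (fun f : Fin 3 ↪ X => f 2) hg

/-- The key step of Wagner's theorem. -/
theorem wagner_step [Finite G] [Finite X] (h3 : IsMultiplyPretransitive G X 3) (N : Subgroup G)
    [hNn : N.Normal] (hN2 : IsMultiplyPretransitive N X 2) (hodd : Odd (Nat.card X)) {a b : X}
    (hab : a ≠ b) {c c' : X} (hca : c ≠ a) (hcb : c ≠ b) (hca' : c' ≠ a) (hcb' : c' ≠ b) :
    ∃ h ∈ N, h • a = a ∧ h • b = b ∧ h • c = c' := by
  classical
  have hN2' : ∀ {p q r s : X}, p ≠ q → r ≠ s → ∃ n ∈ N, n • p = r ∧ n • q = s := by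
    intro p q r s hpq hrs
    obtain ⟨n, h1, h2⟩ := is_two_pretransitive_iff.mp hN2 hpq hrs
    exact ⟨n, n.2, h1, h2⟩
  obtain ⟨s₀, hs₀N, hs₀a, hs₀b⟩ := hN2' hab hab.symm
  let A : Subgroup G :=
    { carrier := {x | x ∈ N ∧ ((x • a = a ∧ x • b = b) ∨ (x • a = b ∧ x • b = a))}
      mul_mem' := by
        rintro x y ⟨hx, hx2⟩ ⟨hy, hy2⟩
        refine ⟨N.mul_mem hx hy, ?_⟩
        simp only [mul_smul]
        rcases hx2 with ⟨h1, h2⟩ | ⟨h1, h2⟩ <;> rcases hy2 with ⟨h3, h4⟩ | ⟨h3, h4⟩ <;>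
          simp [h1, h2, h3, h4]
      one_mem' := ⟨N.one_mem, Or.inl (by simp)⟩
      inv_mem' := by
        rintro x ⟨hx, hx2⟩
        refine ⟨N.inv_mem hx, ?_⟩
        rcases hx2 with ⟨h1, h2⟩ | ⟨h1, h2⟩
        · left
          exact ⟨inv_smul_eq_iff.mpr h1.symm, inv_smul_eq_iff.mpr h2.symm⟩
        · right
          exact ⟨inv_smul_eq_iff.mpr h2.symm, inv_smul_eq_iff.mpr h1.symm⟩ }
  have hAmem : ∀ x : G, x ∈ A ↔ x ∈ N ∧ ((x • a = a ∧ x • b = b) ∨ (x • a = b ∧ x • b = a)) :=
    fun x => Iff.rfl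
  let B : Subgroup G := N ⊓ stabilizer G a ⊓ stabilizer G b
  have hBmem : ∀ x : G, x ∈ B ↔ x ∈ N ∧ x • a = a ∧ x • b = b := by
    intro x
    constructor
    · rintro ⟨⟨h1, h2⟩, h3⟩
      exact ⟨h1, h2, h3⟩
    · rintro ⟨h1, h2, h3⟩
      exact ⟨⟨h1, h2⟩, h3⟩
  have hBA : B ≤ A := fun x hx => by
    obtain ⟨h1, h2, h3⟩ := (hBmem x).mp hx
    exact ⟨h1, Or.inl ⟨h2, h3⟩⟩
  -- the order of `A` is twice that of `B`
  have hindex : (B.subgroupOf A).index = 2 := by
    rw [Subgroup.index_eq_two_iff]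
    refine ⟨⟨s₀, hs₀N, Or.inr ⟨hs₀a, hs₀b⟩⟩, ?_⟩
    rintro ⟨x, hxN, hx⟩
    have hmem1 : ∀ y : A, y ∈ B.subgroupOf A ↔ (y : G) ∈ B := fun y => Iff.rfl
    rw [hmem1, hmem1]
    simp only [Subgroup.coe_mul]
    rw [hBmem, hBmem]
    simp only [mul_smul]
    rcases hx with ⟨h1, h2⟩ | ⟨h1, h2⟩
    · right
      refine ⟨⟨hxN, h1, h2⟩, ?_⟩
      rintro ⟨-, h3, -⟩
      rw [hs₀a, h2] at h3
      exact hab h3.symm
    · left
      refine ⟨⟨N.mul_mem hxN hs₀N, by rw [hs₀a, h2], by rw [hs₀b, h1]⟩, ?_⟩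
      rintro ⟨-, h3, -⟩
      rw [h1] at h3
      exact hab h3.symm
  have hcardA : Nat.card A = 2 * Nat.card B := by
    have h1 := Subgroup.card_mul_index (B.subgroupOf A)
    rw [hindex, Nat.card_congr (Subgroup.subgroupOfEquivOfLe hBA).toEquiv] at h1
    omega
  have hApos : Nat.card A ≠ 0 := Nat.card_pos.ne'
  have hBpos : Nat.card B ≠ 0 := Nat.card_pos.ne'
  have hdvd : ∀ Q : Sylow 2 A, ¬ Nat.card Q ∣ Nat.card B := by
    intro Q h
    rw [Q.card_eq_multiplicity] at h
    apply Nat.pow_succ_factorization_not_dvd hApos Nat.prime_two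
    rw [hcardA, pow_succ, mul_comm]
    rw [hcardA] at h
    exact Nat.mul_dvd_mul_left 2 h
  -- a Sylow subgroup of `A` contains an element interchanging `a` and `b`
  have hswap : ∀ Q : Sylow 2 A, ∃ x ∈ (Q : Subgroup A), (x : G) • a = b ∧ (x : G) • b = a := by
    intro Q
    by_contra hcon
    push Not at hcon
    have hQB : ∀ x ∈ (Q : Subgroup A), (x : G) ∈ B := by
      intro x hx
      rw [hBmem]
      refine ⟨x.2.1, ?_⟩
      rcases x.2.2 with h | h
      · exact h
      · exact absurd h.2 (hcon x hx h.1)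
    let f : (Q : Subgroup A) →* B :=
      { toFun := fun x => ⟨((x : A) : G), hQB x x.2⟩
        map_one' := rfl
        map_mul' := fun _ _ => rfl }
    have hf : Function.Injective f := by
      intro x y h
      have h1 := congrArg Subtype.val h
      exact Subtype.ext (Subtype.ext h1)
    exact hdvd Q (Subgroup.card_dvd_of_injective f hf)
  -- a Sylow subgroup of `A` has at most one fixed point
  have huniq : ∀ (Q : Sylow 2 A) (p q : X), (∀ x ∈ (Q : Subgroup A), (x : G) • p = p) →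
      (∀ x ∈ (Q : Subgroup A), (x : G) • q = q) → p = q := by
    intro Q p q hp hq
    by_contra hpq
    obtain ⟨n, hnN, hn1, hn2⟩ := hN2' hpq hab
    have hp' : n⁻¹ • a = p := by rw [inv_smul_eq_iff, hn1]
    have hq' : n⁻¹ • b = q := by rw [inv_smul_eq_iff, hn2]
    have hQB : ∀ x : (Q : Subgroup A), n * ((x : A) : G) * n⁻¹ ∈ B := by
      intro x
      rw [hBmem]
      refine ⟨N.mul_mem (N.mul_mem hnN (x : A).2.1) (N.inv_mem hnN), ?_, ?_⟩
      · rw [mul_smul, mul_smul, hp', hp _ x.2, hn1]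
      · rw [mul_smul, mul_smul, hq', hq _ x.2, hn2]
    let f : (Q : Subgroup A) →* B :=
      { toFun := fun x => ⟨n * ((x : A) : G) * n⁻¹, hQB x⟩
        map_one' := by
          apply Subtype.ext
          simp
        map_mul' := fun u v => by
          apply Subtype.ext
          simp only [Subgroup.coe_mul]
          group }
    have hf : Function.Injective f := by
      intro x y h
      have h1 : n * ((x : A) : G) * n⁻¹ = n * ((y : A) : G) * n⁻¹ := congrArg Subtype.val h
      exact Subtype.ext (Subtype.ext (mul_left_cancel (mul_right_cancel h1)))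
    exact hdvd Q (Subgroup.card_dvd_of_injective f hf)
  -- the base Sylow subgroup has a fixed point
  let P : Sylow 2 A := default
  have hPfix : ∃ c₀ : X, ∀ x ∈ (P : Subgroup A), (x : G) • c₀ = c₀ := by
    have h1 := P.isPGroup'.card_modEq_card_fixedPoints X
    have h2 : Nat.card (fixedPoints (P : Subgroup A) X) ≠ 0 := by
      intro h3
      rw [h3] at h1
      obtain ⟨k, hk⟩ := hodd
      have h4 := h1
      unfold Nat.ModEq at h4
      omega
    have h3 : Nonempty (fixedPoints (P : Subgroup A) X) := by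
      by_contra hem
      rw [not_nonempty_iff] at hem
      exact h2 (Nat.card_of_isEmpty)
    obtain ⟨⟨c₀, hc₀⟩⟩ := h3
    exact ⟨c₀, fun x hx => hc₀ ⟨x, hx⟩⟩
  obtain ⟨c₀, hc₀⟩ := hPfix
  obtain ⟨x₀, hx₀P, hx₀a, hx₀b⟩ := hswap P
  have hc₀a : c₀ ≠ a := by
    rintro rfl
    rw [hc₀ x₀ hx₀P] at hx₀a
    exact hab hx₀a
  have hc₀b : c₀ ≠ b := by
    rintro rfl
    rw [hc₀ x₀ hx₀P] at hx₀b
    exact hab hx₀b.symm
  -- every point outside `a, b` is the fixed point of a Sylow subgroup of `A`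
  have hconj : ∀ e : X, e ≠ a → e ≠ b → ∃ Q : Sylow 2 A, (∀ x ∈ (Q : Subgroup A), (x : G) • e = e) ∧
      ∃ t ∈ N, t • a = b ∧ t • b = a ∧ t • e = e := by
    intro e hea heb
    obtain ⟨g, hg1, hg2, hg3⟩ := wg_three h3 hab hc₀a.symm hc₀b.symm hab hea.symm heb.symm
    have hg1' : g⁻¹ • a = a := by rw [inv_smul_eq_iff, hg1]
    have hg2' : g⁻¹ • b = b := by rw [inv_smul_eq_iff, hg2]
    have hφ : ∀ u : A, g * (u : G) * g⁻¹ ∈ A := by
      intro u
      rw [hAmem]
      refine ⟨hNn.conj_mem _ u.2.1 g, ?_⟩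
      simp only [mul_smul]
      rw [hg1', hg2']
      rcases u.2.2 with ⟨h1, h2⟩ | ⟨h1, h2⟩
      · left
        rw [h1, h2, hg1, hg2]
        exact ⟨rfl, rfl⟩
      · right
        rw [h1, h2, hg1, hg2]
        exact ⟨rfl, rfl⟩
    let φ : A →* A :=
      { toFun := fun u => ⟨g * (u : G) * g⁻¹, hφ u⟩
        map_one' := by
          apply Subtype.ext
          simp
        map_mul' := fun u v => by
          apply Subtype.ext
          simp only [Subgroup.coe_mul]
          group }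
    have hφinj : Function.Injective φ := by
      intro u v h
      have h1 : g * (u : G) * g⁻¹ = g * (v : G) * g⁻¹ := congrArg Subtype.val h
      exact Subtype.ext (mul_left_cancel (mul_right_cancel h1))
    have hQcard : Nat.card ((P : Subgroup A).map φ) = 2 ^ (Nat.card A).factorization 2 := by
      rw [Nat.card_congr ((P : Subgroup A).equivMapOfInjective φ hφinj).symm.toEquiv,
        ← P.card_eq_multiplicity]
    refine ⟨Sylow.ofCard _ hQcard, ?_, ?_⟩
    · intro x hx
      obtain ⟨u, hu, rfl⟩ := hx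
      change (g * ((u : A) : G) * g⁻¹) • e = e
      rw [← hg3, mul_smul, mul_smul, inv_smul_smul, hc₀ u hu]
    · refine ⟨g * (x₀ : G) * g⁻¹, hNn.conj_mem _ (x₀ : A).2.1 g, ?_, ?_, ?_⟩
      · rw [mul_smul, mul_smul, hg1', hx₀a, hg2]
      · rw [mul_smul, mul_smul, hg2', hx₀b, hg1]
      · rw [← hg3, mul_smul, mul_smul, inv_smul_smul, hc₀ x₀ hx₀P]
  obtain ⟨Q₁, hQ₁, t, htN, hta, htb, htc⟩ := hconj c hca hcb
  obtain ⟨Q₂, hQ₂, -⟩ := hconj c' hca' hcb'
  obtain ⟨y, hy⟩ := MulAction.exists_smul_eq A Q₁ Q₂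
  -- `Q₂` fixes `y • c`
  have hfixy : ∀ x ∈ (Q₂ : Subgroup A), (x : G) • ((y : G) • c) = (y : G) • c := by
    intro x hx
    rw [← hy, Sylow.coe_subgroup_smul, Subgroup.mem_pointwise_smul_iff_inv_smul_mem] at hx
    have h1 : (((MulAut.conj y)⁻¹ • x : A) : G) = (y : G)⁻¹ * x * y := by
      simp [MulAut.smul_def]
    have h2 := hQ₁ _ hx
    rw [h1, mul_smul, mul_smul, inv_smul_eq_iff] at h2
    exact h2
  have hyc : (y : G) • c = c' := huniq Q₂ _ _ hfixy hQ₂
  rcases y.2.2 with ⟨h1, h2⟩ | ⟨h1, h2⟩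
  · exact ⟨y, y.2.1, h1, h2, hyc⟩
  · refine ⟨(y : G) * t, N.mul_mem y.2.1 htN, ?_, ?_, ?_⟩
    · rw [mul_smul, hta, h2]
    · rw [mul_smul, htb, h1]
    · rw [mul_smul, htc, hyc]

/-- Wagner's theorem, abstract form. -/
theorem wagner_main [Finite G] [Finite X] [FaithfulSMul G X] (h3 : IsMultiplyPretransitive G X 3)
    (N : Subgroup G) [hNn : N.Normal] (hN : N ≠ ⊥) (hodd : Odd (Nat.card X))
    (h5 : 5 ≤ Nat.card X) : IsMultiplyPretransitive N X 3 := by
  classical
  have hN2 : IsMultiplyPretransitive N X 2 := by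
    rcases jordan_normal_core 3 (by norm_num) G X N hN (by omega) h3 with h | ⟨-, hexp⟩
    · exact h
    · exfalso
      have hG2 : IsMultiplyPretransitive G X 2 :=
        isMultiplyPretransitive_of_le (n := 3) (by omega) (by omega)
      have hprim : IsPreprimitive G X := isPreprimitive_of_is_two_pretransitive hG2
      have htr : IsPretransitive N X := jn_normal_trans hprim N hN
      have hne : Nonempty X := by
        rw [← Finite.card_pos_iff]; omega
      obtain ⟨a⟩ := hne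
      have hP : IsPGroup 2 N := fun g => ⟨1, Subtype.ext (by simpa using hexp g g.2)⟩
      have hdvd : Nat.card X ∣ Nat.card N := by
        have h1 := card_orbit_mul_card_stabilizer (K := N) a
        rw [orbit_eq_univ, Nat.card_coe_set_eq, Set.ncard_univ] at h1
        exact Dvd.intro _ h1
      have : Fact (Nat.Prime 2) := ⟨Nat.prime_two⟩
      obtain ⟨k, hk⟩ := IsPGroup.iff_card.mp hP
      rw [hk] at hdvd
      obtain ⟨j, -, hj⟩ := (Nat.dvd_prime_pow Nat.prime_two).mp hdvd
      rw [hj] at hodd h5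
      rcases Nat.eq_zero_or_pos j with rfl | hj0
      · simp at h5
      · exact (Nat.not_even_iff_odd.mpr hodd) ((Nat.even_pow.mpr ⟨even_two, hj0.ne'⟩))
  refine ⟨fun x y => ?_⟩
  have h01 : x 0 ≠ x 1 := fun h => by
    have := x.injective h
    simp at this
  have h01' : y 0 ≠ y 1 := fun h => by
    have := y.injective h
    simp at this
  obtain ⟨n, h1, h2⟩ := is_two_pretransitive_iff.mp hN2 h01 h01'
  have hne1 : ((n : G) • x 2) ≠ y 0 := by
    rw [← h1]
    intro h
    have := x.injective (smul_left_cancel (n : G) h)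
    simp at this
  have hne2 : ((n : G) • x 2) ≠ y 1 := by
    rw [← h2]
    intro h
    have := x.injective (smul_left_cancel (n : G) h)
    simp at this
  have hne3 : y 2 ≠ y 0 := fun h => by
    have := y.injective h
    simp at this
  have hne4 : y 2 ≠ y 1 := fun h => by
    have := y.injective h
    simp at this
  obtain ⟨h, hhN, hh1, hh2, hh3⟩ := wagner_step h3 N hN2 hodd h01' hne1 hne2 hne3 hne4
  refine ⟨⟨h, hhN⟩ * n, ?_⟩
  ext i
  change (h * (n : G)) • x i = y i
  rw [mul_smul]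
  fin_cases i
  · change h • ((n : G) • x 0) = y 0
    have h1' : (n : G) • x 0 = y 0 := h1
    rw [h1', hh1]
  · change h • ((n : G) • x 1) = y 1
    have h2' : (n : G) • x 1 = y 1 := h2
    rw [h2', hh2]
  · exact hh3

end Cfsg.Agent.Lib.Perm
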