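import Cfsg.Agent.Lib.Perm.Subdegree

/-!
Groups of Wielandt type: primitive rank 3 groups with permutation character `1 + χ₁ + χ₂`,
`χ₁(1) = m - 1`, `χ₂(1) = m`.
-/

set_option autoImplicit false
set_option linter.unusedSectionVars false

namespace Cfsg.Agent.Lib.Perm

open Cfsg Module Cfsg.Agent.Lib.Char Cfsg.Agent.Perm.PermModule
open scoped ComplexConjugate

universe u v w

theorem wielandt_arith (m k : ℕ) (r s : ℂ) (hm : 2 ≤ m) (hk : 1 ≤ k) (hk2 : k + 2 ≤ 2 * m)
    (E1 : (k : ℂ) + ((m : ℂ) - 1) * r + m * s = 0)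
    (E2 : (k : ℂ) ^ 2 + ((m : ℂ) - 1) * r ^ 2 + m * s ^ 2 = 2 * m * k)
    (z : ℤ) (E4 : r + s = z) :
    k = 1 ∨ k + 2 = 2 * m ∨ ∃ a : ℕ, 0 < a ∧ m = 2 * a ^ 2 + 2 * a + 1 ∧
      (k = a * (2 * a + 1) ∨ k = (a + 1) * (2 * a + 1)) := by
  have hr : r = ((k : ℤ) + m * z : ℤ) := by
    push_cast
    linear_combination -E1 + (m : ℂ) * E4
  have hs : s = (z - ((k : ℤ) + m * z) : ℤ) := by
    rw [hr] at E4
    push_cast at E4 ⊢
    linear_combination E4
  set R : ℤ := (k : ℤ) + m * z with hR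
  have E2' : (k : ℤ) ^ 2 + ((m : ℤ) - 1) * R ^ 2 + m * (z - R) ^ 2 = 2 * m * k := by
    rw [hr, hs] at E2
    exact_mod_cast E2
  have hm0 : (m : ℤ) ≠ 0 := by
    have : (2 : ℤ) ≤ m := by exact_mod_cast hm
    omega
  have hkR : (k : ℤ) = R - m * z := by rw [hR]; ring
  have hstar : 2 * R ^ 2 - 4 * R * z + m * z ^ 2 + z ^ 2 - 2 * R + 2 * m * z = 0 := by
    apply mul_left_cancel₀ hm0
    rw [mul_zero]
    rw [hkR] at E2'
    linear_combination E2'
  have hkey : (2 * R - 2 * z - 1) ^ 2 = 1 - 2 * ((m : ℤ) - 1) * (-z) * (-z - 2) := by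
    linear_combination 2 * hstar
  have hm1 : (1 : ℤ) ≤ (m : ℤ) - 1 := by
    have : (2 : ℤ) ≤ m := by exact_mod_cast hm
    omega
  have hz1 : -2 ≤ z ∧ z ≤ 0 := by
    by_contra hcon
    have h1 : 1 ≤ (-z) * (-z - 2) := by
      by_cases h : z ≤ 0
      · have h2 : z < -2 := by
          by_contra h3
          exact hcon ⟨by omega, h⟩
        nlinarith
      · nlinarith
    have h2 : 2 * 1 * 1 ≤ 2 * ((m : ℤ) - 1) * ((-z) * (-z - 2)) := by
      have : 1 * 1 ≤ ((m : ℤ) - 1) * ((-z) * (-z - 2)) := mul_le_mul hm1 h1 (by norm_num) (by omega)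
      linarith
    nlinarith [sq_nonneg (2 * R - 2 * z - 1)]
  obtain ⟨hz1, hz2⟩ := hz1
  have hk1 : (1 : ℤ) ≤ k := by exact_mod_cast hk
  have hk3 : (k : ℤ) + 2 ≤ 2 * m := by exact_mod_cast hk2
  have hcases : z = -2 ∨ z = -1 ∨ z = 0 := by omega
  rcases hcases with rfl | rfl | rfl
  · -- `u = 2`
    right; left
    have h1 : (R + 1) * (R + 2) = 0 := by nlinarith
    have h2 : (k : ℤ) = R + 2 * m := by rw [hkR]; ring
    rcases mul_eq_zero.mp h1 with h | h
    · exfalso
      have : R = -1 := by omega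
      omega
    · have : R = -2 := by omega
      have : (k : ℤ) + 2 = 2 * m := by omega
      exact_mod_cast this
  · -- `u = 1`
    right; right
    have h2 : (k : ℤ) = R + m := by rw [hkR]; ring
    have h3 : (m : ℤ) = 2 * R ^ 2 + 2 * R + 1 := by nlinarith
    by_cases hR0 : 0 ≤ R
    · obtain ⟨a, ha⟩ := Int.eq_ofNat_of_zero_le hR0
      refine ⟨a, ?_, ?_, Or.inr ?_⟩
      · rcases Nat.eq_zero_or_pos a with h | h
        · subst h
          rw [ha] at h3
          simp at h3
          omega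
        · exact h
      · rw [ha] at h3
        exact_mod_cast h3
      · rw [ha] at h2 h3
        have : (k : ℤ) = (a + 1) * (2 * a + 1) := by rw [h2, h3]; ring
        exact_mod_cast this
    · have hR1 : 0 ≤ -1 - R := by omega
      obtain ⟨a, ha⟩ := Int.eq_ofNat_of_zero_le hR1
      have hRa : R = -1 - a := by omega
      rw [hRa] at h2 h3
      have h4 : (m : ℤ) = 2 * a ^ 2 + 2 * a + 1 := by rw [h3]; ring
      refine ⟨a, ?_, ?_, Or.inl ?_⟩
      · rcases Nat.eq_zero_or_pos a with h | h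
        · subst h
          simp at h4
          omega
        · exact h
      · exact_mod_cast h4
      · have : (k : ℤ) = a * (2 * a + 1) := by rw [h2, h4]; ring
        exact_mod_cast this
  · -- `u = 0`
    left
    have h1 : R * (R - 1) = 0 := by nlinarith
    have h2 : (k : ℤ) = R := by rw [hkR]; ring
    rcases mul_eq_zero.mp h1 with h | h
    · omega
    · have : (k : ℤ) = 1 := by omega
      exact_mod_cast this

section Ops

variable {G : Type u} [Group G] [Fintype G] {Ω : Type w} [Fintype Ω] [MulAction G Ω]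

theorem trace_eq_sum_single [DecidableEq Ω] (T : (Ω → ℂ) →ₗ[ℂ] (Ω → ℂ)) :
    LinearMap.trace ℂ (Ω → ℂ) T = ∑ x, T (Pi.single x 1) x := by
  rw [LinearMap.trace_eq_matrix_trace ℂ (Pi.basisFun ℂ Ω), Matrix.trace]
  simp only [Matrix.diag_apply, LinearMap.toMatrix_apply, Pi.basisFun_repr, Pi.basisFun_apply]

/-- The projector on the constants. -/
theorem isoProj_one_apply [MulAction.IsPretransitive G Ω] (f : Ω → ℂ) (y : Ω) :
    isoProj (permRep ℂ G Ω) (fun _ => 1) f y = (Fintype.card Ω : ℂ)⁻¹ * ∑ x, f x := by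
  classical
  unfold isoProj
  simp only [LinearMap.smul_apply, LinearMap.sum_apply, Pi.smul_apply, smul_eq_mul, one_smul,
    Finset.sum_apply, permRep_apply, one_mul]
  have h1 : ∑ g : G, f (g⁻¹ • y) = ∑ x, ∑ g ∈ Finset.univ.filter (fun g : G => g • x = y), f x := by
    have h2 : ∀ g : G, f (g⁻¹ • y) = ∑ x, if g • x = y then f x else 0 := by
      intro g
      rw [Finset.sum_eq_single (g⁻¹ • y)]
      · simp
      · intro x _ hx
        rw [if_neg]
        intro h
        apply hx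
        rw [← h, inv_smul_smul]
      · simp
    simp only [h2]
    rw [Finset.sum_comm]
    refine Finset.sum_congr rfl fun x _ => ?_
    rw [Finset.sum_filter]
  rw [h1]
  simp only [Finset.sum_const, card_fib, nsmul_eq_mul]
  have hG : (Nat.card G : ℂ) ≠ 0 := NeZero.ne _
  have hΩ : (Fintype.card Ω : ℂ) ≠ 0 := by
    have : Nonempty Ω := ⟨y⟩
    exact_mod_cast Fintype.card_ne_zero
  have h3 : ∀ x : Ω, (Nat.card (MulAction.stabilizer G x) : ℂ) * Fintype.card Ω = Nat.card G := by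
    intro x
    have h4 := Subgroup.card_mul_index (MulAction.stabilizer G x)
    rw [MulAction.index_stabilizer_of_transitive, Nat.card_eq_fintype_card (α := Ω)] at h4
    exact_mod_cast h4
  rw [Finset.mul_sum, Finset.mul_sum]
  refine Finset.sum_congr rfl fun x _ => ?_
  have h5 := h3 x
  field_simp
  rw [← h5]
  ring

/-- The centraliser ring in the situation of three constituents. -/
structure WielandtData (G : Type u) [Group G] [Fintype G] (Ω : Type w) [Fintype Ω] [MulAction G Ω]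
    (χ₁ χ₂ : G → ℂ) : Prop where
  irr₁ : IsIrrCharacter G χ₁
  irr₂ : IsIrrCharacter G χ₂
  ne₁ : χ₁ ≠ fun _ => 1
  ne₂ : χ₂ ≠ fun _ => 1
  ne₁₂ : χ₁ ≠ χ₂
  pi : permCh G Ω = (fun _ => 1) + χ₁ + χ₂

variable {χ₁ χ₂ : G → ℂ}

theorem WielandtData.inner (D : WielandtData G Ω χ₁ χ₂) {ψ : G → ℂ} (hψ : IsIrrCharacter G ψ) :
    classInner (permCh G Ω) ψ = (if (fun _ => (1 : ℂ)) = ψ then 1 else 0) +
      (if χ₁ = ψ then 1 else 0) + (if χ₂ = ψ then 1 else 0) := by
  classical
  rw [D.pi, classInner_add_left, classInner_add_left, classInner_irr isIrrCharacter_one hψ,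
    classInner_irr D.irr₁ hψ, classInner_irr D.irr₂ hψ]

theorem WielandtData.multFree (D : WielandtData G Ω χ₁ χ₂) :
    ∀ ψ : G → ℂ, IsIrrCharacter G ψ →
      classInner (permCh G Ω) ψ = 0 ∨ classInner (permCh G Ω) ψ = 1 := by
  classical
  intro ψ hψ
  rw [D.inner hψ]
  by_cases h0 : (fun _ => (1 : ℂ)) = ψ
  · subst h0
    rw [if_pos rfl, if_neg D.ne₁, if_neg D.ne₂]
    simp
  · by_cases h1 : χ₁ = ψ
    · subst h1
      rw [if_neg h0, if_pos rfl, if_neg (Ne.symm D.ne₁₂)]
      simp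
    · by_cases h2 : χ₂ = ψ
      · subst h2
        rw [if_neg h0, if_neg h1, if_pos rfl]
        simp
      · rw [if_neg h0, if_neg h1, if_neg h2]
        simp

theorem WielandtData.mem_constituents (D : WielandtData G Ω χ₁ χ₂) (ψ : IrrCharacter G) :
    ψ ∈ constituents G Ω ↔ (ψ : G → ℂ) = (fun _ => 1) ∨ (ψ : G → ℂ) = χ₁ ∨ (ψ : G → ℂ) = χ₂ := by
  classical
  rw [Cfsg.Agent.Lib.Perm.mem_constituents, D.inner ψ.2]
  by_cases h0 : (fun _ => (1 : ℂ)) = (ψ : G → ℂ)
  · rw [← h0]
    rw [if_pos rfl, if_neg D.ne₁, if_neg D.ne₂]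
    simp
  · by_cases h1 : χ₁ = (ψ : G → ℂ)
    · rw [← h1]
      rw [if_neg (by rw [h1]; exact h0), if_pos rfl, if_neg (Ne.symm D.ne₁₂)]
      simp
    · by_cases h2 : χ₂ = (ψ : G → ℂ)
      · rw [← h2]
        rw [if_neg (by rw [h2]; exact h0), if_neg (by rw [h2]; exact h1), if_pos rfl]
        simp
      · rw [if_neg h0, if_neg h1, if_neg h2]
        simp [Ne.symm h0, Ne.symm h1, Ne.symm h2]

/-- The three projectors. -/
noncomputable abbrev WE (G : Type u) [Group G] [Fintype G] (Ω : Type w) [Fintype Ω] [MulAction G Ω]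
    (χ : G → ℂ) : (Ω → ℂ) →ₗ[ℂ] (Ω → ℂ) := isoProj (permRep ℂ G Ω) χ

theorem WielandtData.sum_eq_id (D : WielandtData G Ω χ₁ χ₂) :
    WE G Ω (fun _ => 1) + WE G Ω χ₁ + WE G Ω χ₂ = LinearMap.id := by
  classical
  have h := sum_isoProj (G := G) (permRep ℂ G Ω)
  let ψ₀ : IrrCharacter G := ⟨fun _ => 1, isIrrCharacter_one⟩
  let ψ₁ : IrrCharacter G := ⟨χ₁, D.irr₁⟩
  let ψ₂ : IrrCharacter G := ⟨χ₂, D.irr₂⟩
  have hcons : constituents G Ω = {ψ₀, ψ₁, ψ₂} := by
    ext ψ
    rw [D.mem_constituents, Finset.mem_insert, Finset.mem_insert, Finset.mem_singleton]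
    constructor
    · rintro (h | h | h)
      · exact Or.inl (Subtype.ext h)
      · exact Or.inr (Or.inl (Subtype.ext h))
      · exact Or.inr (Or.inr (Subtype.ext h))
    · rintro (h | h | h)
      · exact Or.inl (congrArg Subtype.val h)
      · exact Or.inr (Or.inl (congrArg Subtype.val h))
      · exact Or.inr (Or.inr (congrArg Subtype.val h))
  rw [← Finset.sum_subset (Finset.subset_univ (constituents G Ω))
    (fun ψ _ hψ => isoProj_eq_zero_of_not hψ), hcons] at h
  have h01 : ψ₀ ≠ ψ₁ := fun h => D.ne₁ (congrArg Subtype.val h).symm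
  have h02 : ψ₀ ≠ ψ₂ := fun h => D.ne₂ (congrArg Subtype.val h).symm
  have h12 : ψ₁ ≠ ψ₂ := fun h => D.ne₁₂ (congrArg Subtype.val h)
  rw [Finset.sum_insert (by simp [h01, h02]), Finset.sum_insert (by simp [h12]),
    Finset.sum_singleton, ← add_assoc] at h
  exact h

theorem WielandtData.exists_three (D : WielandtData G Ω χ₁ χ₂) {T : (Ω → ℂ) →ₗ[ℂ] (Ω → ℂ)}
    (hT : T ∈ ctrRing G Ω) :
    ∃ c₀ c₁ c₂ : ℂ, T = c₀ • WE G Ω (fun _ => 1) + c₁ • WE G Ω χ₁ + c₂ • WE G Ω χ₂ := by
  classical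
  obtain ⟨c, hc⟩ := exists_eq_sum_isoProj D.multFree hT
  let ψ₀ : IrrCharacter G := ⟨fun _ => 1, isIrrCharacter_one⟩
  let ψ₁ : IrrCharacter G := ⟨χ₁, D.irr₁⟩
  let ψ₂ : IrrCharacter G := ⟨χ₂, D.irr₂⟩
  have hcons : constituents G Ω = {ψ₀, ψ₁, ψ₂} := by
    ext ψ
    rw [D.mem_constituents, Finset.mem_insert, Finset.mem_insert, Finset.mem_singleton]
    constructor
    · rintro (h | h | h)
      · exact Or.inl (Subtype.ext h)
      · exact Or.inr (Or.inl (Subtype.ext h))
      · exact Or.inr (Or.inr (Subtype.ext h))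
    · rintro (h | h | h)
      · exact Or.inl (congrArg Subtype.val h)
      · exact Or.inr (Or.inl (congrArg Subtype.val h))
      · exact Or.inr (Or.inr (congrArg Subtype.val h))
  have h01 : ψ₀ ≠ ψ₁ := fun h => D.ne₁ (congrArg Subtype.val h).symm
  have h02 : ψ₀ ≠ ψ₂ := fun h => D.ne₂ (congrArg Subtype.val h).symm
  have h12 : ψ₁ ≠ ψ₂ := fun h => D.ne₁₂ (congrArg Subtype.val h)
  rw [hcons, Finset.sum_insert (by simp [h01, h02]), Finset.sum_insert (by simp [h12]),
    Finset.sum_singleton, ← add_assoc] at hc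
  exact ⟨c ψ₀, c ψ₁, c ψ₂, hc⟩

/-- Composition in the algebra spanned by three orthogonal idempotents. -/
theorem WielandtData.comp_three (D : WielandtData G Ω χ₁ χ₂) (a b c a' b' c' : ℂ) :
    (a • WE G Ω (fun _ => 1) + b • WE G Ω χ₁ + c • WE G Ω χ₂) ∘ₗ
      (a' • WE G Ω (fun _ => 1) + b' • WE G Ω χ₁ + c' • WE G Ω χ₂) =
    (a * a') • WE G Ω (fun _ => 1) + (b * b') • WE G Ω χ₁ + (c * c') • WE G Ω χ₂ := by
  classical
  have h00 := isoProj_comp_self (permRep ℂ G Ω) (isIrrCharacter_one (G := G)) isIrrCharacter_one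
  have h01 := isoProj_comp_self (permRep ℂ G Ω) (isIrrCharacter_one (G := G)) D.irr₁
  have h02 := isoProj_comp_self (permRep ℂ G Ω) (isIrrCharacter_one (G := G)) D.irr₂
  have h10 := isoProj_comp_self (permRep ℂ G Ω) D.irr₁ (isIrrCharacter_one (G := G))
  have h11 := isoProj_comp_self (permRep ℂ G Ω) D.irr₁ D.irr₁
  have h12 := isoProj_comp_self (permRep ℂ G Ω) D.irr₁ D.irr₂
  have h20 := isoProj_comp_self (permRep ℂ G Ω) D.irr₂ (isIrrCharacter_one (G := G))
  have h21 := isoProj_comp_self (permRep ℂ G Ω) D.irr₂ D.irr₁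
  have h22 := isoProj_comp_self (permRep ℂ G Ω) D.irr₂ D.irr₂
  rw [if_pos rfl] at h00 h11 h22
  rw [if_neg D.ne₁.symm] at h01
  rw [if_neg D.ne₂.symm] at h02
  rw [if_neg D.ne₁] at h10
  rw [if_neg D.ne₂] at h20
  rw [if_neg D.ne₁₂] at h12
  rw [if_neg D.ne₁₂.symm] at h21
  simp only [LinearMap.comp_add, LinearMap.add_comp, LinearMap.comp_smul, LinearMap.smul_comp,
    WE, h00, h01, h02, h10, h11, h12, h20, h21, h22, smul_zero, add_zero, zero_add, smul_smul]
  rw [mul_comm a', mul_comm b', mul_comm c']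

theorem WielandtData.trace_three (D : WielandtData G Ω χ₁ χ₂) (a b c : ℂ) :
    LinearMap.trace ℂ _ (a • WE G Ω (fun _ => 1) + b • WE G Ω χ₁ + c • WE G Ω χ₂) =
      a + b * χ₁ 1 + c * χ₂ 1 := by
  classical
  have h0 := trace_isoProj_perm (Ω := Ω) (IsIrrCharacter.isCharacter (isIrrCharacter_one (G := G)))
  have h1 := trace_isoProj_perm (Ω := Ω) (IsIrrCharacter.isCharacter D.irr₁)
  have h2 := trace_isoProj_perm (Ω := Ω) (IsIrrCharacter.isCharacter D.irr₂)
  have i0 := D.inner (isIrrCharacter_one (G := G))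
  have i1 := D.inner D.irr₁
  have i2 := D.inner D.irr₂
  rw [if_pos rfl, if_neg D.ne₁, if_neg D.ne₂] at i0
  rw [if_neg D.ne₁.symm, if_pos rfl, if_neg D.ne₁₂.symm] at i1
  rw [if_neg D.ne₂.symm, if_neg D.ne₁₂, if_pos rfl] at i2
  simp only [add_zero, zero_add] at i0 i1 i2
  rw [i0] at h0
  rw [i1] at h1
  rw [i2] at h2
  rw [map_add, map_add, map_smul, map_smul, map_smul, h0, h1, h2]
  simp

theorem WielandtData.ne_zero₀ (D : WielandtData G Ω χ₁ χ₂) : WE G Ω (fun _ => 1) ≠ 0 := by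
  refine isoProj_ne_zero (ψ := ⟨fun _ => 1, isIrrCharacter_one⟩) ?_
  exact (D.mem_constituents _).mpr (Or.inl rfl)

theorem WielandtData.ne_zero₁ (D : WielandtData G Ω χ₁ χ₂) : WE G Ω χ₁ ≠ 0 := by
  refine isoProj_ne_zero (ψ := ⟨χ₁, D.irr₁⟩) ?_
  exact (D.mem_constituents _).mpr (Or.inr (Or.inl rfl))

theorem WielandtData.ne_zero₂ (D : WielandtData G Ω χ₁ χ₂) : WE G Ω χ₂ ≠ 0 := by
  refine isoProj_ne_zero (ψ := ⟨χ₂, D.irr₂⟩) ?_
  exact (D.mem_constituents _).mpr (Or.inr (Or.inr rfl))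

theorem WielandtData.coeff_unique (D : WielandtData G Ω χ₁ χ₂) {a b c a' b' c' : ℂ}
    (h : a • WE G Ω (fun _ => 1) + b • WE G Ω χ₁ + c • WE G Ω χ₂ =
      a' • WE G Ω (fun _ => 1) + b' • WE G Ω χ₁ + c' • WE G Ω χ₂) :
    a = a' ∧ b = b' ∧ c = c' := by
  have h0 : (a • WE G Ω (fun _ => 1) + b • WE G Ω χ₁ + c • WE G Ω χ₂) ∘ₗ
      ((1 : ℂ) • WE G Ω (fun _ => 1) + (0 : ℂ) • WE G Ω χ₁ + (0 : ℂ) • WE G Ω χ₂) =
      (a' • WE G Ω (fun _ => 1) + b' • WE G Ω χ₁ + c' • WE G Ω χ₂) ∘ₗ
      ((1 : ℂ) • WE G Ω (fun _ => 1) + (0 : ℂ) • WE G Ω χ₁ + (0 : ℂ) • WE G Ω χ₂) := by rw [h]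
  have h1 : (a • WE G Ω (fun _ => 1) + b • WE G Ω χ₁ + c • WE G Ω χ₂) ∘ₗ
      ((0 : ℂ) • WE G Ω (fun _ => 1) + (1 : ℂ) • WE G Ω χ₁ + (0 : ℂ) • WE G Ω χ₂) =
      (a' • WE G Ω (fun _ => 1) + b' • WE G Ω χ₁ + c' • WE G Ω χ₂) ∘ₗ
      ((0 : ℂ) • WE G Ω (fun _ => 1) + (1 : ℂ) • WE G Ω χ₁ + (0 : ℂ) • WE G Ω χ₂) := by rw [h]
  have h2 : (a • WE G Ω (fun _ => 1) + b • WE G Ω χ₁ + c • WE G Ω χ₂) ∘ₗ
      ((0 : ℂ) • WE G Ω (fun _ => 1) + (0 : ℂ) • WE G Ω χ₁ + (1 : ℂ) • WE G Ω χ₂) =
      (a' • WE G Ω (fun _ => 1) + b' • WE G Ω χ₁ + c' • WE G Ω χ₂) ∘ₗ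
      ((0 : ℂ) • WE G Ω (fun _ => 1) + (0 : ℂ) • WE G Ω χ₁ + (1 : ℂ) • WE G Ω χ₂) := by rw [h]
  rw [D.comp_three, D.comp_three] at h0 h1 h2
  simp only [mul_one, mul_zero, zero_smul, add_zero, zero_add] at h0 h1 h2
  refine ⟨?_, ?_, ?_⟩
  · exact smul_left_injective ℂ D.ne_zero₀ h0
  · exact smul_left_injective ℂ D.ne_zero₁ h1
  · exact smul_left_injective ℂ D.ne_zero₂ h2

open Classical in
/-- The orbital indicator. -/
noncomputable def orbInd (G : Type u) [Group G] {Ω : Type w} [MulAction G Ω] (a b : Ω) (p : Ω × Ω) : ℕ :=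
  if p ∈ MulAction.orbit G (a, b) then 1 else 0

theorem orbInd_smul (a b : Ω) (g : G) (p : Ω × Ω) : orbInd G a b (g • p) = orbInd G a b p := by
  classical
  unfold orbInd
  have hiff : g • p ∈ MulAction.orbit G (a, b) ↔ p ∈ MulAction.orbit G (a, b) := by
    rw [← MulAction.orbit_eq_iff, MulAction.orbit_smul, MulAction.orbit_eq_iff]
  simp only [hiff]

open Classical in
theorem orbInd_base (a b z : Ω) :
    orbInd G a b (a, z) = if z ∈ MulAction.orbit (MulAction.stabilizer G a) b then 1 else 0 := by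
  classical
  unfold orbInd
  have hiff : (a, z) ∈ MulAction.orbit G (a, b) ↔ z ∈ MulAction.orbit (MulAction.stabilizer G a) b := by
    constructor
    · rintro ⟨g, hg⟩
      have hg' : g • (a, b) = (a, z) := hg
      rw [Prod.smul_mk, Prod.mk.injEq] at hg'
      exact ⟨⟨g, hg'.1⟩, hg'.2⟩
    · rintro ⟨⟨g, hg⟩, hg2⟩
      refine ⟨g, ?_⟩
      have hg3 : g • a = a := hg
      have hg4 : g • b = z := hg2
      change g • (a, b) = (a, z)
      rw [Prod.smul_mk, hg3, hg4]
  simp only [hiff]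

theorem orbInd_le_one (a b : Ω) (p : Ω × Ω) : orbInd G a b p ≤ 1 := by
  classical
  unfold orbInd
  split_ifs <;> simp

theorem orbInd_sq (a b : Ω) (p : Ω × Ω) : orbInd G a b p * orbInd G a b p = orbInd G a b p := by
  classical
  unfold orbInd
  split_ifs <;> simp

theorem sum_orbInd_base (a b : Ω) :
    ∑ z, orbInd G a b (a, z) = Nat.card (MulAction.orbit (MulAction.stabilizer G a) b) := by
  classical
  simp only [orbInd_base]
  rw [Finset.sum_boole, Nat.card_eq_fintype_card, Fintype.card_subtype]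
  simp

theorem sum_orbInd [MulAction.IsPretransitive G Ω] (a b x : Ω) :
    ∑ z, orbInd G a b (x, z) = Nat.card (MulAction.orbit (MulAction.stabilizer G a) b) := by
  classical
  obtain ⟨g, rfl⟩ := MulAction.exists_smul_eq G a x
  rw [← sum_orbInd_base]
  refine Fintype.sum_equiv (MulAction.toPerm g⁻¹) _ _ fun z => ?_
  rw [← orbInd_smul a b g⁻¹ (g • a, z)]
  simp

theorem orbInd_symm (hswap : ∀ a b : Ω, ∃ g : G, g • a = b ∧ g • b = a) (a b x y : Ω) :
    orbInd G a b (x, y) = orbInd G a b (y, x) := by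
  obtain ⟨g, h1, h2⟩ := hswap x y
  rw [← orbInd_smul a b g (x, y), Prod.smul_mk, h1, h2]

theorem orbInd_diag (a b x : Ω) (hab : b ≠ a) : orbInd G a b (x, x) = 0 := by
  classical
  unfold orbInd
  rw [if_neg]
  rintro ⟨g, hg⟩
  have hg' : g • (a, b) = (x, x) := hg
  rw [Prod.smul_mk, Prod.mk.injEq] at hg'
  apply hab
  exact smul_left_cancel g (hg'.2.trans hg'.1.symm)

/-- The orbital operator. -/
noncomputable def orbA (G : Type u) [Group G] {Ω : Type w} [Fintype Ω] [MulAction G Ω] (a b : Ω) :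
    (Ω → ℂ) →ₗ[ℂ] (Ω → ℂ) :=
  kernelOp (fun p => (orbInd G a b p : ℂ))

theorem orbA_mem (a b : Ω) : orbA G a b ∈ ctrRing G Ω :=
  kernelOp_mem_invariants _ fun g p => by rw [orbInd_smul]

theorem orbA_apply (a b : Ω) (f : Ω → ℂ) (y : Ω) :
    orbA G a b f y = ∑ x, (orbInd G a b (x, y) : ℂ) * f x := rfl

/-- The second kernel. -/
noncomputable def orbNu (G : Type u) [Group G] {Ω : Type w} [Fintype Ω] [MulAction G Ω] (a b x y : Ω) : ℕ :=
  ∑ z, orbInd G a b (x, z) * orbInd G a b (z, y)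

theorem orbNu_smul (a b x y : Ω) (g : G) : orbNu G a b (g • x) (g • y) = orbNu G a b x y := by
  unfold orbNu
  refine (Fintype.sum_equiv (MulAction.toPerm g) _ _ fun z => ?_).symm
  have h1 := orbInd_smul a b g (x, z)
  have h2 := orbInd_smul a b g (z, y)
  rw [Prod.smul_mk] at h1 h2
  simp only [MulAction.toPerm_apply, h1, h2]

theorem orbA_comp_apply (a b : Ω) (f : Ω → ℂ) (y : Ω) :
    orbA G a b (orbA G a b f) y = ∑ x, (orbNu G a b x y : ℂ) * f x := by
  simp only [orbA_apply, orbNu, Finset.mul_sum]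
  push_cast
  rw [Finset.sum_comm]
  simp only [Finset.sum_mul]
  refine Finset.sum_congr rfl fun x _ => Finset.sum_congr rfl fun z _ => ?_
  ring

theorem orbNu_self (hswap : ∀ a b : Ω, ∃ g : G, g • a = b ∧ g • b = a)
    [MulAction.IsPretransitive G Ω] (a b x : Ω) :
    orbNu G a b x x = Nat.card (MulAction.orbit (MulAction.stabilizer G a) b) := by
  rw [← sum_orbInd a b x]
  unfold orbNu
  refine Finset.sum_congr rfl fun z _ => ?_
  rw [orbInd_symm hswap a b z x, orbInd_sq]

theorem wielandt_core (D : WielandtData G Ω χ₁ χ₂) [MulAction.IsPretransitive G Ω]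
    (hswap : ∀ a b : Ω, ∃ g : G, g • a = b ∧ g • b = a) {m : ℕ} (hm : Fintype.card Ω = 2 * m)
    (hm2 : 2 ≤ m) (a₀ b c : Ω) (hb : b ≠ a₀) (hc_ne : c ≠ a₀)
    (hcb : c ∉ MulAction.orbit (MulAction.stabilizer G a₀) b)
    (hall : ∀ y, y = a₀ ∨ y ∈ MulAction.orbit (MulAction.stabilizer G a₀) b ∨
      y ∈ MulAction.orbit (MulAction.stabilizer G a₀) c)
    (hd₁ : χ₁ 1 = (m : ℂ) - 1) (hd₂ : χ₂ 1 = m)
    (hk2 : Nat.card (MulAction.orbit (MulAction.stabilizer G a₀) b) + 2 ≤ 2 * m) :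
    Nat.card (MulAction.orbit (MulAction.stabilizer G a₀) b) = 1 ∨
    Nat.card (MulAction.orbit (MulAction.stabilizer G a₀) b) + 2 = 2 * m ∨
    ∃ a : ℕ, 0 < a ∧ m = 2 * a ^ 2 + 2 * a + 1 ∧
      (Nat.card (MulAction.orbit (MulAction.stabilizer G a₀) b) = a * (2 * a + 1) ∨
       Nat.card (MulAction.orbit (MulAction.stabilizer G a₀) b) = (a + 1) * (2 * a + 1)) := by
  classical
  set k := Nat.card (MulAction.orbit (MulAction.stabilizer G a₀) b) with hkdef
  have hk1 : 1 ≤ k := by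
    rw [hkdef]
    exact Nat.card_pos_iff.mpr ⟨⟨b, MulAction.mem_orbit_self b⟩, inferInstance⟩ 
  obtain ⟨c₀, r, s, hA⟩ := D.exists_three (orbA_mem (G := G) a₀ b)
  have hmC : (Fintype.card Ω : ℂ) = 2 * m := by rw [hm]; push_cast; ring
  have hmne : (m : ℂ) ≠ 0 := by
    have : m ≠ 0 := by omega
    exact_mod_cast this
  -- constant function
  have hE0one : WE G Ω (fun _ => 1) (fun _ => 1) = fun _ => 1 := by
    funext y
    rw [isoProj_one_apply]
    simp only [Finset.sum_const, Finset.card_univ, nsmul_eq_mul, mul_one]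
    have : Nonempty Ω := ⟨a₀⟩
    have h0 : (Fintype.card Ω : ℂ) ≠ 0 := by exact_mod_cast Fintype.card_ne_zero
    exact inv_mul_cancel₀ h0
  have hE1one : WE G Ω χ₁ (fun _ => 1) = 0 := by
    have h1 := isoProj_comp_self (permRep ℂ G Ω) D.irr₁ (isIrrCharacter_one (G := G))
    rw [if_neg D.ne₁] at h1
    have h2 := congrArg (fun S : (Ω → ℂ) →ₗ[ℂ] (Ω → ℂ) => S (fun _ => 1)) h1
    simp only [LinearMap.comp_apply, LinearMap.zero_apply] at h2
    rwa [show isoProj (permRep ℂ G Ω) (fun _ : G => (1 : ℂ)) (fun _ => 1) = fun _ => 1 from hE0one] at h2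
  have hE2one : WE G Ω χ₂ (fun _ => 1) = 0 := by
    have h1 := isoProj_comp_self (permRep ℂ G Ω) D.irr₂ (isIrrCharacter_one (G := G))
    rw [if_neg D.ne₂] at h1
    have h2 := congrArg (fun S : (Ω → ℂ) →ₗ[ℂ] (Ω → ℂ) => S (fun _ => 1)) h1
    simp only [LinearMap.comp_apply, LinearMap.zero_apply] at h2
    rwa [show isoProj (permRep ℂ G Ω) (fun _ : G => (1 : ℂ)) (fun _ => 1) = fun _ => 1 from hE0one] at h2
  have hc0 : c₀ = k := by
    have h1 := congrArg (fun S : (Ω → ℂ) →ₗ[ℂ] (Ω → ℂ) => S (fun _ => 1) a₀) hA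
    simp only [LinearMap.add_apply, LinearMap.smul_apply, hE0one, hE1one, hE2one, smul_zero,
      add_zero, Pi.smul_apply, smul_eq_mul, mul_one, orbA_apply] at h1
    rw [← h1]
    have h2 : ∑ x, orbInd G a₀ b (x, a₀) = k := by
      rw [hkdef, ← sum_orbInd a₀ b a₀]
      exact Finset.sum_congr rfl fun x _ => orbInd_symm hswap a₀ b x a₀
    rw [← h2]
    push_cast
    rfl
  subst hc0
  -- traces
  have htr1 : (k : ℂ) + r * χ₁ 1 + s * χ₂ 1 = 0 := by
    rw [← D.trace_three, ← hA, trace_eq_sum_single]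
    refine Finset.sum_eq_zero fun x _ => ?_
    rw [orbA_apply]
    rw [Finset.sum_eq_single x]
    · rw [orbInd_diag a₀ b x hb]; simp
    · intro y _ hy
      rw [Pi.single_eq_of_ne hy, mul_zero]
    · simp
  have hAA : orbA G a₀ b ∘ₗ orbA G a₀ b =
      ((k : ℂ) * k) • WE G Ω (fun _ => 1) + (r * r) • WE G Ω χ₁ + (s * s) • WE G Ω χ₂ := by
    conv_lhs => rw [hA]
    rw [D.comp_three]
  have htr2 : (k : ℂ) * k + r * r * χ₁ 1 + s * s * χ₂ 1 = 2 * m * k := by
    rw [← D.trace_three, ← hAA, trace_eq_sum_single]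
    simp only [LinearMap.comp_apply, orbA_comp_apply]
    have h1 : ∀ x : Ω, ∑ y, (orbNu G a₀ b y x : ℂ) * (Pi.single x 1 : Ω → ℂ) y = k := by
      intro x
      rw [Finset.sum_eq_single x]
      · rw [orbNu_self hswap]; simp [hkdef]
      · intro y _ hy
        rw [Pi.single_eq_of_ne hy, mul_zero]
      · simp
    simp only [h1, Finset.sum_const, Finset.card_univ, nsmul_eq_mul]
    rw [hmC]
  rw [hd₁, hd₂] at htr1 htr2
  have hrs : r ≠ s := by
    rintro rfl
    have h1 : (2 * (m : ℂ)) * k * ((k : ℂ) - (2 * m - 1)) = 0 := by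
      linear_combination (2 * (m : ℂ) - 1) * htr2 - ((2 * (m : ℂ) - 1) * r - k) * htr1
    have hkne : (k : ℂ) ≠ 0 := by
      have : k ≠ 0 := by omega
      exact_mod_cast this
    have h2 : (k : ℂ) - (2 * m - 1) = 0 := by
      refine (mul_eq_zero.mp h1).resolve_left (mul_ne_zero (mul_ne_zero two_ne_zero hmne) hkne)
    have h3 : (k : ℂ) + 1 = 2 * m := by linear_combination h2
    have h4 : k + 1 = 2 * m := by exact_mod_cast h3
    omega
  -- the quadratic relation
  let x₀ := orbNu G a₀ b a₀ a₀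
  let lam := orbNu G a₀ b a₀ b
  let mu := orbNu G a₀ b a₀ c
  have hnu : ∀ x y : Ω, (orbNu G a₀ b x y : ℂ) = (x₀ : ℂ) * (if x = y then 1 else 0) +
      (lam : ℂ) * (orbInd G a₀ b (x, y) : ℂ) +
      (mu : ℂ) * (1 - (if x = y then 1 else 0) - (orbInd G a₀ b (x, y) : ℂ)) := by
    intro x y
    obtain ⟨g, rfl⟩ := MulAction.exists_smul_eq G a₀ x
    obtain ⟨y', rfl⟩ : ∃ y', g • y' = y := ⟨g⁻¹ • y, by simp⟩
    have hφ := orbInd_smul a₀ b g (a₀, y')
    rw [Prod.smul_mk] at hφ
    rw [orbNu_smul, hφ]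
    have hxy : (g • a₀ = g • y') ↔ a₀ = y' := smul_left_cancel_iff g
    simp only [hxy]
    have hbase : ∀ (w : Ω) (h : G), h ∈ MulAction.stabilizer G a₀ →
        orbNu G a₀ b a₀ (h • w) = orbNu G a₀ b a₀ w := by
      intro w h hh
      have h1 := orbNu_smul a₀ b a₀ w h
      have h2 : h • a₀ = a₀ := hh
      rwa [h2] at h1
    have hsta : ∀ (w : Ω) (h : G), h ∈ MulAction.stabilizer G a₀ → w ≠ a₀ → a₀ ≠ h • w := by
      intro w h hh hw he
      have h2 : h • a₀ = a₀ := hh
      apply hw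
      exact smul_left_cancel h (he.symm.trans h2.symm)
    rcases hall y' with hy0 | ⟨⟨h, hh⟩, rfl⟩ | ⟨⟨h, hh⟩, rfl⟩
    · rw [hy0, orbInd_diag a₀ b a₀ hb, if_pos rfl]
      simp [x₀]
    · have e1 : (⟨h, hh⟩ : MulAction.stabilizer G a₀) • b = h • b := rfl
      simp only [e1]
      rw [hbase b h hh, if_neg (hsta b h hh hb), orbInd_base, if_pos ?_]
      · simp [lam]
      · exact ⟨⟨h, hh⟩, rfl⟩
    · have e1 : (⟨h, hh⟩ : MulAction.stabilizer G a₀) • c = h • c := rfl
      simp only [e1]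
      rw [hbase c h hh, if_neg (hsta c h hh hc_ne), orbInd_base, if_neg ?_]
      · simp [mu]
      · intro hmem
        apply hcb
        have : (⟨h, hh⟩ : MulAction.stabilizer G a₀) • c ∈ MulAction.orbit (MulAction.stabilizer G a₀) b := hmem
        rw [← MulAction.orbit_eq_iff, MulAction.orbit_smul, MulAction.orbit_eq_iff] at this
        exact this
  have hT : orbA G a₀ b ∘ₗ orbA G a₀ b = (x₀ : ℂ) • LinearMap.id + (lam : ℂ) • orbA G a₀ b +
      (mu : ℂ) • ((Fintype.card Ω : ℂ) • WE G Ω (fun _ => 1) - LinearMap.id - orbA G a₀ b) := by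
    refine LinearMap.ext fun f => funext fun y => ?_
    simp only [LinearMap.comp_apply, LinearMap.add_apply, LinearMap.smul_apply, LinearMap.sub_apply,
      LinearMap.id_apply, Pi.add_apply, Pi.smul_apply, Pi.sub_apply, smul_eq_mul]
    have hcne : (Fintype.card Ω : ℂ) ≠ 0 := by
      have : Nonempty Ω := ⟨a₀⟩
      exact_mod_cast Fintype.card_ne_zero
    have h1 : (Fintype.card Ω : ℂ) * WE G Ω (fun _ => 1) f y = ∑ x, f x := by
      rw [isoProj_one_apply, ← mul_assoc, mul_inv_cancel₀ hcne, one_mul]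
    rw [orbA_comp_apply, h1]
    simp only [hnu]
    have h2 : ∑ x, (if x = y then 1 else 0) * f x = f y := by simp
    have h3 : ∑ x, (orbInd G a₀ b (x, y) : ℂ) * f x = orbA G a₀ b f y := rfl
    have h4 : ∀ x, ((x₀ : ℂ) * (if x = y then 1 else 0) + (lam : ℂ) * (orbInd G a₀ b (x, y) : ℂ) +
        (mu : ℂ) * (1 - (if x = y then 1 else 0) - (orbInd G a₀ b (x, y) : ℂ))) * f x =
        (x₀ : ℂ) * ((if x = y then 1 else 0) * f x) + (lam : ℂ) * ((orbInd G a₀ b (x, y) : ℂ) * f x) +
        (mu : ℂ) * (f x - (if x = y then 1 else 0) * f x - (orbInd G a₀ b (x, y) : ℂ) * f x) := by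
      intro x
      ring
    simp only [h4]
    rw [Finset.sum_add_distrib, Finset.sum_add_distrib, ← Finset.mul_sum, ← Finset.mul_sum,
      ← Finset.mul_sum, Finset.sum_sub_distrib, Finset.sum_sub_distrib, h2, h3]
  have hT2 : ((k : ℂ) * k) • WE G Ω (fun _ => 1) + (r * r) • WE G Ω χ₁ + (s * s) • WE G Ω χ₂ =
      ((x₀ : ℂ) + lam * k + mu * (Fintype.card Ω - 1 - k)) • WE G Ω (fun _ => 1) +
      ((x₀ : ℂ) + lam * r + mu * (-1 - r)) • WE G Ω χ₁ +
      ((x₀ : ℂ) + lam * s + mu * (-1 - s)) • WE G Ω χ₂ := by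
    rw [← hAA, hT, hA, ← D.sum_eq_id]
    module
  obtain ⟨-, hr2, hs2⟩ := D.coeff_unique hT2
  have hsum : r + s = ((lam : ℤ) - (mu : ℤ) : ℤ) := by
    have h1 : (r - s) * (r + s - ((lam : ℂ) - mu)) = 0 := by
      linear_combination hr2 - hs2
    have h2 := (mul_eq_zero.mp h1).resolve_left (sub_ne_zero.mpr hrs)
    push_cast
    linear_combination h2
  exact wielandt_arith m k r s hm2 hk1 hk2 (by linear_combination htr1)
    (by linear_combination htr2) _ hsum

end Ops

section Main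

variable {G : Type u} [Group G] [Fintype G] {Ω : Type w} [Fintype Ω] [MulAction G Ω]

/-- A point fixed by a point stabiliser of a primitive group. -/
theorem fixed_of_prim (hprim : MulAction.IsPreprimitive G Ω) (a c : Ω) (hc : c ≠ a)
    (hfix : ∀ h ∈ MulAction.stabilizer G a, h • c = c) (x : Ω) :
    ∀ h ∈ MulAction.stabilizer G a, h • x = x := by
  classical
  have hpt : MulAction.IsPretransitive G Ω := hprim.toIsPretransitive
  let F : Set Ω := {y | ∀ h ∈ MulAction.stabilizer G a, h • y = y}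
  have hcard : ∀ y ∈ F, MulAction.stabilizer G y = MulAction.stabilizer G a := by
    intro y hy
    have hle : MulAction.stabilizer G a ≤ MulAction.stabilizer G y := fun h hh => hy h hh
    have hc1 : Nat.card (MulAction.stabilizer G y) = Nat.card (MulAction.stabilizer G a) := by
      obtain ⟨g, rfl⟩ := MulAction.exists_smul_eq G a y
      rw [MulAction.stabilizer_smul_eq_stabilizer_map_conj]
      exact Nat.card_congr ((Subgroup.equivMapOfInjective _ _ (MulAut.conj g).injective).symm.toEquiv)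
    exact (Subgroup.eq_of_le_of_card_ge hle hc1.le).symm
  have hblock : MulAction.IsBlock G F := by
    rw [MulAction.isBlock_iff_smul_eq_of_nonempty]
    intro g hne
    obtain ⟨y, hy1, hy2⟩ := hne
    obtain ⟨z, hz, rfl⟩ := hy1
    have hzs := hcard z hz
    have hys := hcard _ hy2
    rw [MulAction.stabilizer_smul_eq_stabilizer_map_conj, hzs] at hys
    ext w
    constructor
    · rintro ⟨v, hv, rfl⟩ h hh
      have hh2 : h ∈ (MulAction.stabilizer G a).map (MulAut.conj g).toMonoidHom := by rw [hys]; exact hh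
      obtain ⟨t, ht, rfl⟩ := hh2
      simp only [MulAut.conj_apply, MulEquiv.coe_toMonoidHom, mul_smul, inv_smul_smul]
      rw [hv t ht]
    · intro hw
      refine ⟨g⁻¹ • w, ?_, by simp⟩
      intro h hh
      have hh2 : g * h * g⁻¹ ∈ MulAction.stabilizer G a := by
        rw [← hys]
        exact ⟨h, hh, rfl⟩
      have h3 := hw _ hh2
      simp only [mul_smul] at h3
      rw [smul_eq_iff_eq_inv_smul g] at h3
      exact h3
  have htriv := hprim.isTrivialBlock_of_isBlock hblock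
  rcases htriv with hss | hu
  · exfalso
    have ha : a ∈ F := fun h hh => hh
    have hcF : c ∈ F := hfix
    exact hc (hss hcF ha)
  · have : x ∈ F := by rw [hu]; trivial
    exact this

theorem card_orbit_one_fixed {H : Type*} [Group H] [MulAction H Ω] (x : Ω)
    (h1 : Nat.card (MulAction.orbit H x) = 1) (h : H) : h • x = x := by
  have hs := (Nat.card_eq_one_iff_unique.mp h1).1
  have := hs.elim (⟨h • x, MulAction.mem_orbit x h⟩ : MulAction.orbit H x) ⟨x, MulAction.mem_orbit_self x⟩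
  exact congrArg Subtype.val this

theorem card_orbit_fixed_one {H : Type*} [Group H] [MulAction H Ω] (x : Ω)
    (h1 : ∀ h : H, h • x = x) : Nat.card (MulAction.orbit H x) = 1 := by
  have : MulAction.orbit H x = {x} := by
    ext y
    simp only [MulAction.mem_orbit_iff, Set.mem_singleton_iff]
    constructor
    · rintro ⟨h, rfl⟩
      exact h1 h
    · rintro rfl
      exact ⟨1, one_smul _ _⟩
  rw [this]
  simp

/-- Rank three data. -/
theorem rank3_data (a₀ b : Ω) (hb : b ≠ a₀)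
    (hrank : Nat.card (MulAction.orbitRel.Quotient (MulAction.stabilizer G a₀) Ω) = 3) :
    ∃ c : Ω, c ≠ a₀ ∧ c ∉ MulAction.orbit (MulAction.stabilizer G a₀) b ∧
      (∀ y, y = a₀ ∨ y ∈ MulAction.orbit (MulAction.stabilizer G a₀) b ∨
        y ∈ MulAction.orbit (MulAction.stabilizer G a₀) c) ∧
      Fintype.card Ω = 1 + Nat.card (MulAction.orbit (MulAction.stabilizer G a₀) b) +
        Nat.card (MulAction.orbit (MulAction.stabilizer G a₀) c) := by
  classical
  let H := MulAction.stabilizer G a₀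
  let Q := MulAction.orbitRel.Quotient H Ω
  letI : Fintype Q := Fintype.ofFinite _
  have hcardQ : Fintype.card Q = 3 := by
    rw [← Nat.card_eq_fintype_card]; exact hrank
  have hmk : ∀ x y : Ω, (Quotient.mk'' x : Q) = Quotient.mk'' y ↔ x ∈ MulAction.orbit H y := by
    intro x y
    constructor
    · intro h
      exact Quotient.exact h
    · intro h
      exact Quotient.sound h
  have hself : ∀ y : Ω, y ∈ MulAction.orbit H a₀ ↔ y = a₀ := by
    intro y
    constructor
    · rintro ⟨⟨h, hh⟩, rfl⟩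
      exact hh
    · rintro rfl
      exact MulAction.mem_orbit_self _
  let ω₀ : Q := Quotient.mk'' a₀
  let ω₁ : Q := Quotient.mk'' b
  have h01 : ω₁ ≠ ω₀ := fun h => hb ((hself b).mp ((hmk b a₀).mp h))
  have hlt : (({ω₀, ω₁} : Finset Q)).card < (Finset.univ : Finset Q).card := by
    rw [Finset.card_univ, hcardQ]
    exact lt_of_le_of_lt (Finset.card_le_two) (by norm_num)
  obtain ⟨ω₂, -, h2⟩ := Finset.exists_mem_notMem_of_card_lt_card hlt
  simp only [Finset.mem_insert, Finset.mem_singleton, not_or] at h2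
  induction ω₂ using Quotient.inductionOn' with
  | h c =>
    have hc0 : c ≠ a₀ := fun h => h2.1 (by rw [h])
    have hc1 : c ∉ MulAction.orbit H b := fun h => h2.2 ((hmk c b).mpr h)
    have huniv : ({ω₀, ω₁, Quotient.mk'' c} : Finset Q) = Finset.univ := by
      apply Finset.eq_univ_of_card
      rw [hcardQ, Finset.card_insert_of_notMem, Finset.card_insert_of_notMem, Finset.card_singleton]
      · simp only [Finset.mem_singleton]
        exact fun h => h2.2 h.symm
      · simp only [Finset.mem_insert, Finset.mem_singleton, not_or]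
        exact ⟨fun h => h01 h.symm, fun h => h2.1 h.symm⟩
    have hall : ∀ y, y = a₀ ∨ y ∈ MulAction.orbit H b ∨ y ∈ MulAction.orbit H c := by
      intro y
      have h3 : (Quotient.mk'' y : Q) ∈ ({ω₀, ω₁, Quotient.mk'' c} : Finset Q) := by
        rw [huniv]; exact Finset.mem_univ _
      simp only [Finset.mem_insert, Finset.mem_singleton] at h3
      rcases h3 with h | h | h
      · exact Or.inl ((hself y).mp ((hmk y a₀).mp h))
      · exact Or.inr (Or.inl ((hmk y b).mp h))
      · exact Or.inr (Or.inr ((hmk y c).mp h))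
    refine ⟨c, hc0, hc1, hall, ?_⟩
    have hfb : Nat.card (MulAction.orbit H b) = (Finset.univ.filter (· ∈ MulAction.orbit H b)).card := by
      rw [Nat.card_eq_fintype_card, Fintype.card_subtype]
    have hfc : Nat.card (MulAction.orbit H c) = (Finset.univ.filter (· ∈ MulAction.orbit H c)).card := by
      rw [Nat.card_eq_fintype_card, Fintype.card_subtype]
    have hu : (Finset.univ : Finset Ω) = {a₀} ∪ (Finset.univ.filter (· ∈ MulAction.orbit H b)) ∪
        (Finset.univ.filter (· ∈ MulAction.orbit H c)) := by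
      ext y
      simp only [Finset.mem_univ, Finset.mem_union, Finset.mem_singleton, Finset.mem_filter, true_and, true_iff]
      rcases hall y with h | h | h
      · exact Or.inl (Or.inl h)
      · exact Or.inl (Or.inr h)
      · exact Or.inr h
    have hd1 : Disjoint ({a₀} : Finset Ω) (Finset.univ.filter (· ∈ MulAction.orbit H b)) := by
      rw [Finset.disjoint_singleton_left]
      simp only [Finset.mem_filter, Finset.mem_univ, true_and]
      intro h
      apply hb
      have h3 := (hmk a₀ b).mpr h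
      exact (hself b).mp ((hmk b a₀).mp h3.symm)
    have hd2 : Disjoint ({a₀} ∪ (Finset.univ.filter (· ∈ MulAction.orbit H b)))
        (Finset.univ.filter (· ∈ MulAction.orbit H c)) := by
      rw [Finset.disjoint_left]
      intro y hy
      simp only [Finset.mem_union, Finset.mem_singleton, Finset.mem_filter, Finset.mem_univ, true_and] at hy ⊢
      intro hyc
      rcases hy with hy | hy
      · rw [hy] at hyc
        exact hc0 ((hself c).mp ((hmk c _).mp ((hmk _ c).mpr hyc).symm))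
      · exact hc1 ((hmk c b).mp (((hmk y c).mpr hyc).symm.trans ((hmk y b).mpr hy)))
    have h5 := congrArg Finset.card hu
    rw [Finset.card_union_of_disjoint hd2, Finset.card_union_of_disjoint hd1, Finset.card_singleton,
      Finset.card_univ] at h5
    rw [h5, hfb, hfc]

theorem wielandt_main (hprim : MulAction.IsPreprimitive G Ω) {m : ℕ} (hm : Fintype.card Ω = 2 * m)
    (a₀ : Ω) (hrank : Nat.card (MulAction.orbitRel.Quotient (MulAction.stabilizer G a₀) Ω) = 3)
    (χ₁ χ₂ : G → ℂ) (h₁ : IsIrrCharacter G χ₁) (h₂ : IsIrrCharacter G χ₂)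
    (hπ : (fun g : G => (Nat.card (MulAction.fixedBy Ω g) : ℂ)) = fun g => 1 + χ₁ g + χ₂ g)
    (hd₁ : χ₁ 1 = (m : ℂ) - 1) (hd₂ : χ₂ 1 = m) :
    ∃ a : ℕ, 0 < a ∧ m = 2 * a ^ 2 + 2 * a + 1 ∧ ∀ b : Ω, b ≠ a₀ →
      Nat.card (MulAction.orbit (MulAction.stabilizer G a₀) b) = a * (2 * a + 1) ∨
      Nat.card (MulAction.orbit (MulAction.stabilizer G a₀) b) = (a + 1) * (2 * a + 1) := by
  classical
  have hpt : MulAction.IsPretransitive G Ω := hprim.toIsPretransitive
  -- `m ≥ 2`
  have hm2 : 2 ≤ m := by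
    have h1 : Nat.card (MulAction.orbitRel.Quotient (MulAction.stabilizer G a₀) Ω) ≤ Nat.card Ω :=
      Nat.card_le_card_of_surjective (Quotient.mk'' : Ω → _) Quotient.mk''_surjective
    rw [hrank, Nat.card_eq_fintype_card, hm] at h1
    omega
  -- the data
  have hpi : permCh G Ω = (fun _ => 1) + χ₁ + χ₂ := hπ
  have hinner1 : classInner (permCh G Ω) (fun _ => 1) = 1 := by
    have h2 := classInner_permChar_one (G := G) (X := Ω)
    have h3 : Nat.card (MulAction.orbitRel.Quotient G Ω) = 1 := by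
      have : Unique (MulAction.orbitRel.Quotient G Ω) :=
        { default := Quotient.mk'' a₀
          uniq := fun q => by
            induction q using Quotient.inductionOn' with
            | h y => exact Quotient.sound (MulAction.exists_smul_eq G a₀ y |>.imp fun g hg => hg) }
      exact Nat.card_unique
    rw [h3] at h2
    exact h2.trans Nat.cast_one
  have hne : χ₁ ≠ (fun _ => 1) ∧ χ₂ ≠ (fun _ => 1) := by
    rw [hpi, classInner_add_left, classInner_add_left, classInner_irr_self isIrrCharacter_one,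
      classInner_irr h₁ isIrrCharacter_one, classInner_irr h₂ isIrrCharacter_one] at hinner1
    constructor
    · intro h
      rw [if_pos h] at hinner1
      by_cases h3 : χ₂ = fun _ => 1
      · rw [if_pos h3] at hinner1; norm_num at hinner1
      · rw [if_neg h3] at hinner1; norm_num at hinner1
    · intro h
      rw [if_pos h] at hinner1
      by_cases h3 : χ₁ = fun _ => 1
      · rw [if_pos h3] at hinner1; norm_num at hinner1
      · rw [if_neg h3] at hinner1; norm_num at hinner1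
  have hne12 : χ₁ ≠ χ₂ := by
    intro h
    rw [h, hd₂] at hd₁
    have : (0 : ℂ) = -1 := by linear_combination hd₁
    norm_num at this
  have D : WielandtData G Ω χ₁ χ₂ := ⟨h₁, h₂, hne.1, hne.2, hne12, hpi⟩
  -- reality
  have hσ : ∀ g, conj (χ₁ g) + conj (χ₂ g) = χ₁ g + χ₂ g := by
    intro g
    have h1 := congrFun hπ g
    have h2 := congrArg conj h1
    simp only [map_natCast, map_add, map_one] at h2
    rw [h1] at h2
    linear_combination -h2
  have hirr1 := IsIrrCharacter.conj h₁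
  have hirr2 := IsIrrCharacter.conj h₂
  have hσ1 : (fun g => conj (χ₁ g)) = χ₁ := by
    by_contra hcon
    have h3 : classInner ((fun g => conj (χ₁ g)) + (fun g => conj (χ₂ g))) χ₁ = classInner (χ₁ + χ₂) χ₁ := by
      congr 1
      funext g
      exact hσ g
    rw [classInner_add_left, classInner_add_left, classInner_irr_self h₁, classInner_irr h₂ h₁, if_neg hne12.symm,
      classInner_irr hirr1 h₁, if_neg hcon, classInner_irr hirr2 h₁, if_neg] at h3
    · norm_num at h3
    · intro h4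
      have h5 := congrFun h4 1
      simp only [hd₁, hd₂, map_natCast] at h5
      have : (0 : ℂ) = -1 := by linear_combination h5
      norm_num at this
  have hσ2 : (fun g => conj (χ₂ g)) = χ₂ := by
    funext g
    have h1 := hσ g
    have h2 := congrFun hσ1 g
    rw [h2] at h1
    exact add_left_cancel h1
  have hswap : ∀ a b : Ω, ∃ g : G, g • a = b ∧ g • b = a := by
    refine selfPaired_iff.mpr fun χ hχ hc => ⟨(D.multFree χ hχ).resolve_left hc, ?_⟩
    have hmem : (⟨χ, hχ⟩ : IrrCharacter G) ∈ constituents G Ω := mem_constituents.mpr hc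
    rw [D.mem_constituents] at hmem
    intro g
    rcases hmem with h | h | h
    · have h' : χ = fun _ => 1 := h
      rw [h']; simp
    · have h' : χ = χ₁ := h
      rw [h']; exact congrFun hσ1 g
    · have h' : χ = χ₂ := h
      rw [h']; exact congrFun hσ2 g
  -- the core
  have hcore : ∀ b : Ω, b ≠ a₀ → ∃ a : ℕ, 0 < a ∧ m = 2 * a ^ 2 + 2 * a + 1 ∧
      (Nat.card (MulAction.orbit (MulAction.stabilizer G a₀) b) = a * (2 * a + 1) ∨
       Nat.card (MulAction.orbit (MulAction.stabilizer G a₀) b) = (a + 1) * (2 * a + 1)) := by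
    intro b hb
    obtain ⟨c, hc0, hcb, hall, hcard⟩ := rank3_data (G := G) a₀ b hb hrank
    have hkpos : 1 ≤ Nat.card (MulAction.orbit (MulAction.stabilizer G a₀) b) :=
      Nat.card_pos_iff.mpr ⟨⟨b, MulAction.mem_orbit_self b⟩, inferInstance⟩
    have hlpos : 1 ≤ Nat.card (MulAction.orbit (MulAction.stabilizer G a₀) c) :=
      Nat.card_pos_iff.mpr ⟨⟨c, MulAction.mem_orbit_self c⟩, inferInstance⟩
    have hexcl : ∀ x y : Ω, x ≠ a₀ → Nat.card (MulAction.orbit (MulAction.stabilizer G a₀) x) = 1 →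
        Nat.card (MulAction.orbit (MulAction.stabilizer G a₀) y) = 1 := by
      intro x y hx h1
      have hf : ∀ h ∈ MulAction.stabilizer G a₀, h • x = x := fun h hh =>
        card_orbit_one_fixed x h1 (⟨h, hh⟩ : MulAction.stabilizer G a₀)
      have hf2 := fixed_of_prim hprim a₀ x hx hf y
      exact card_orbit_fixed_one y fun h => hf2 h.1 h.2
    rcases wielandt_core D hswap hm hm2 a₀ b c hb hc0 hcb hall hd₁ hd₂ (by omega) with h | h | h
    · exfalso
      have := hexcl b c hb h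
      omega
    · exfalso
      have h3 : Nat.card (MulAction.orbit (MulAction.stabilizer G a₀) c) = 1 := by omega
      have := hexcl c b hc0 h3
      omega
    · exact h
  obtain ⟨b₁, hb₁⟩ : ∃ b : Ω, b ≠ a₀ := by
    by_contra hcon
    push Not at hcon
    have : Fintype.card Ω ≤ 1 := Fintype.card_le_one_iff.mpr fun x y => by rw [hcon x, hcon y]
    omega
  obtain ⟨a, ha, hma, -⟩ := hcore b₁ hb₁
  refine ⟨a, ha, hma, fun b hb => ?_⟩
  obtain ⟨a', -, hma', hb'⟩ := hcore b hb
  have : a' = a := by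
    by_contra hne
    rcases lt_or_gt_of_ne hne with h | h <;> nlinarith
  rwa [this] at hb'

end Main

end Cfsg.Agent.Lib.Perm
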