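import Mathlib

/-! Witt's lemma on transitive extensions. -/

set_option autoImplicit false

namespace Cfsg.Agent.Lib.Perm

open MulAction

variable {α : Type*}

/-- The double coset argument. -/
theorem witt_dc {K U : Subgroup (Equiv.Perm α)} {s r : Equiv.Perm α} (hr : r ∈ K) (hUK : U ≤ K)
    (hdec : ∀ x ∈ K, x ∈ U ∨ ∃ u ∈ U, ∃ v ∈ U, x = u * r * v)
    (hnorm : ∀ u ∈ U, s * u * s⁻¹ ∈ U) (hs2 : s ^ 2 ∈ U) (hbr : (r * s) ^ 3 ∈ K) :
    ∀ x ∈ Subgroup.closure ((K : Set (Equiv.Perm α)) ∪ {s}), x ∈ K ∨ ∃ a ∈ K, ∃ b ∈ K, x = a * s * b := by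
  have hK : ∀ x k, k ∈ K → (x ∈ K ∨ ∃ a ∈ K, ∃ b ∈ K, x = a * s * b) →
      (x * k ∈ K ∨ ∃ a ∈ K, ∃ b ∈ K, x * k = a * s * b) := by
    rintro x k hk (hx | ⟨a, ha, b, hb, rfl⟩)
    · exact Or.inl (K.mul_mem hx hk)
    · exact Or.inr ⟨a, ha, b * k, K.mul_mem hb hk, by group⟩
  have hS : ∀ x, (x ∈ K ∨ ∃ a ∈ K, ∃ b ∈ K, x = a * s * b) →
      (x * s ∈ K ∨ ∃ a ∈ K, ∃ b ∈ K, x * s = a * s * b) := by
    rintro x (hx | ⟨a, ha, b, hb, rfl⟩)
    · exact Or.inr ⟨x, hx, 1, K.one_mem, by group⟩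
    · rcases hdec b hb with hbU | ⟨u, hu, v, hv, rfl⟩
      · left
        have h1 : a * s * b * s = a * (s * b * s⁻¹) * s ^ 2 := by group
        rw [h1]
        exact K.mul_mem (K.mul_mem ha (hUK (hnorm b hbU))) (hUK hs2)
      · right
        have hv' : s⁻¹ * v * s ∈ U := by
          have h1 : s⁻¹ * v * s = (s ^ 2)⁻¹ * (s * v * s⁻¹) * s ^ 2 := by group
          rw [h1]
          exact U.mul_mem (U.mul_mem (U.inv_mem hs2) (hnorm v hv)) hs2
        refine ⟨a * (s * u * s⁻¹) * r⁻¹ * (r * s) ^ 3 * (s ^ 2)⁻¹, ?_, r⁻¹ * (s⁻¹ * v * s), ?_, ?_⟩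
        · exact K.mul_mem (K.mul_mem (K.mul_mem (K.mul_mem ha (hUK (hnorm u hu))) (K.inv_mem hr)) hbr)
            (K.inv_mem (hUK hs2))
        · exact K.mul_mem (K.inv_mem hr) (hUK hv')
        · simp only [pow_succ, pow_zero, one_mul, mul_inv_rev, mul_assoc, inv_mul_cancel_left,
            mul_inv_cancel_left, inv_mul_cancel, mul_one, mul_inv_cancel]
  intro x hx
  induction hx using Subgroup.closure_induction_right with
  | one => exact Or.inl K.one_mem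
  | mul_right x hx y hy ih =>
    rcases hy with hy | hy
    · exact hK x y hy ih
    · rw [Set.mem_singleton_iff] at hy
      subst hy
      exact hS x ih
  | mul_inv_cancel x hx y hy ih =>
    rcases hy with hy | hy
    · exact hK x _ (K.inv_mem hy) ih
    · rw [Set.mem_singleton_iff] at hy
      subst hy
      have h1 : x * y⁻¹ = x * (y ^ 2)⁻¹ * y := by group
      rw [h1]
      exact hS _ (hK x _ (K.inv_mem (hUK hs2)) ih)

/-- Transitivity on injective tuples in a subset. -/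
def WittTransOn (K : Subgroup (Equiv.Perm α)) (A : Set α) (n : ℕ) : Prop :=
  ∀ x y : Fin n → α, Function.Injective x → Function.Injective y → (∀ i, x i ∈ A) → (∀ i, y i ∈ A) →
    ∃ g ∈ K, ∀ i, g (x i) = y i

/-- Going up one degree of transitivity. -/
theorem witt_trans_step {K U : Subgroup (Equiv.Perm α)} {A A' : Set α} {Q : α} {n : ℕ}
    (hQ : Q ∈ A') (hAA' : ∀ x ∈ A', x ≠ Q → x ∈ A) (hUK : U ≤ K) (hUQ : ∀ u ∈ U, u Q = Q)
    (hK : ∀ g ∈ K, ∀ x ∈ A', g x ∈ A') (h1 : ∀ x ∈ A', ∃ g ∈ K, g x = Q) (hU : WittTransOn U A n) :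
    WittTransOn K A' (n + 1) := by
  intro x y hx hy hxA hyA
  obtain ⟨g₁, hg₁, hg₁x⟩ := h1 (x 0) (hxA 0)
  obtain ⟨g₂, hg₂, hg₂y⟩ := h1 (y 0) (hyA 0)
  obtain ⟨u, hu, hux⟩ := hU (fun i => g₁ (x i.succ)) (fun i => g₂ (y i.succ))
    (fun i j h => Fin.succ_injective _ (hx (g₁.injective h)))
    (fun i j h => Fin.succ_injective _ (hy (g₂.injective h)))
    (fun i => hAA' _ (hK _ hg₁ _ (hxA _)) (fun h => by
      rw [← hg₁x] at h
      exact (Fin.succ_ne_zero i) (hx (g₁.injective h))))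
    (fun i => hAA' _ (hK _ hg₂ _ (hyA _)) (fun h => by
      rw [← hg₂y] at h
      exact (Fin.succ_ne_zero i) (hy (g₂.injective h))))
  refine ⟨g₂⁻¹ * u * g₁, K.mul_mem (K.mul_mem (K.inv_mem hg₂) (hUK hu)) hg₁, fun i => ?_⟩
  refine Fin.cases ?_ (fun j => ?_) i
  · simp only [Equiv.Perm.mul_apply]
    rw [hg₁x, hUQ u hu, Equiv.Perm.inv_eq_iff_eq, hg₂y]
  · simp only [Equiv.Perm.mul_apply]
    have := hux j
    rw [this, Equiv.Perm.inv_eq_iff_eq]

/-- Hypotheses of Witt's lemma. -/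
structure WittHyp (t : ℕ) (q : ℕ → α) (G : Subgroup (Equiv.Perm α)) (s : ℕ → Equiv.Perm α)
    (H : Subgroup (Equiv.Perm α)) : Prop where
  ht : 2 ≤ t
  hq : ∀ i j : ℕ, 1 ≤ i → i ≤ t → 1 ≤ j → j ≤ t → q i = q j → i = j
  hfix : ∀ g ∈ G, ∀ i : ℕ, 3 ≤ i → i ≤ t → g (q i) = q i
  h2 : ∀ a b c d : α, (∀ i, 3 ≤ i → i ≤ t → a ≠ q i ∧ b ≠ q i ∧ c ≠ q i ∧ d ≠ q i) → a ≠ b → c ≠ d →
    ∃ g ∈ G, g a = c ∧ g b = d
  hs1 : s 1 ∈ G
  hs1q : s 1 (q 1) = q 2 ∧ s 1 (q 2) = q 1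
  hsq : ∀ i : ℕ, 2 ≤ i → i + 1 ≤ t → s i (q i) = q (i + 1) ∧ s i (q (i + 1)) = q i ∧
    ∀ j : ℕ, 1 ≤ j → j ≤ t → j ≠ i → j ≠ i + 1 → s i (q j) = q j
  hH : H = G ⊓ MulAction.stabilizer (Equiv.Perm α) (q 1) ⊓ MulAction.stabilizer (Equiv.Perm α) (q 2)
  hsq2 : ∀ i : ℕ, 1 ≤ i → i + 1 ≤ t → s i ^ 2 ∈ H
  hbraid : ∀ i : ℕ, 1 ≤ i → i + 2 ≤ t → (s i * s (i + 1)) ^ 3 ∈ H
  hcomm : ∀ i j : ℕ, 1 ≤ i → i + 2 ≤ j → j + 1 ≤ t → (s i * s j) ^ 2 ∈ H ∧ (s j * s i) ^ 2 ∈ H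
  hnorm : ∀ i : ℕ, 2 ≤ i → i + 1 ≤ t → ∀ g ∈ G ⊓ MulAction.stabilizer (Equiv.Perm α) (q 2),
    s i * g * (s i)⁻¹ ∈ G ⊓ MulAction.stabilizer (Equiv.Perm α) (q 2)

/-- The tower of subgroups. -/
def wittW (G : Subgroup (Equiv.Perm α)) (q : ℕ → α) (s : ℕ → Equiv.Perm α) :
    ℕ → Subgroup (Equiv.Perm α)
  | 0 => G ⊓ MulAction.stabilizer (Equiv.Perm α) (q 2)
  | (m + 1) => Subgroup.closure ((G : Set (Equiv.Perm α)) ∪ {x | ∃ i : ℕ, 2 ≤ i ∧ i ≤ m + 1 ∧ x = s i})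

/-- The sets on which the tower acts. -/
def wittA (t : ℕ) (q : ℕ → α) (m : ℕ) : Set α := {x | ∀ i, m + 2 ≤ i → i ≤ t → x ≠ q i}

section
variable {t : ℕ} {q : ℕ → α} {G : Subgroup (Equiv.Perm α)} {s : ℕ → Equiv.Perm α}
  {H : Subgroup (Equiv.Perm α)}

theorem wG_le (m : ℕ) : G ≤ wittW G q s (m + 1) := fun _ hg =>
  Subgroup.subset_closure (Or.inl hg)

theorem wW_mono (m : ℕ) : wittW G q s m ≤ wittW G q s (m + 1) := by
  cases m with
  | zero => exact fun g hg => wG_le 0 hg.1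
  | succ m =>
    apply Subgroup.closure_mono
    apply Set.union_subset_union_right
    rintro x ⟨i, h1, h2, rfl⟩
    exact ⟨i, h1, by omega, rfl⟩

theorem wH_le (W : WittHyp t q G s H) (m : ℕ) : H ≤ wittW G q s m := by
  induction m with
  | zero =>
    rw [W.hH]
    rintro g ⟨⟨h1, -⟩, h3⟩
    exact ⟨h1, h3⟩
  | succ m ih => exact ih.trans (wW_mono m)

theorem ws_mem (W : WittHyp t q G s H) (m : ℕ) : s (m + 1) ∈ wittW G q s (m + 1) := by
  cases m with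
  | zero => exact wG_le 0 W.hs1
  | succ m => exact Subgroup.subset_closure (Or.inr ⟨m + 2, by omega, by omega, rfl⟩)

theorem wsq (W : WittHyp t q G s H) {m : ℕ} (hm : m + 2 ≤ t) : s (m + 1) (q (m + 2)) = q (m + 1) := by
  cases m with
  | zero => exact W.hs1q.2
  | succ m => exact (W.hsq (m + 2) (by omega) (by omega)).2.1

theorem wF (W : WittHyp t q G s H) {m : ℕ} {g : Equiv.Perm α} (hg : g ∈ wittW G q s m) :
    ∀ i, m + 2 ≤ i → i ≤ t → g (q i) = q i := by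
  intro i hi hit
  cases m with
  | zero =>
    obtain ⟨hg1, hg2⟩ := hg
    by_cases h2 : i = 2
    · subst h2
      exact hg2
    · exact W.hfix g hg1 i (by omega) hit
  | succ m =>
    induction hg using Subgroup.closure_induction with
    | mem x hx =>
      rcases hx with hx | ⟨l, h1, h2, rfl⟩
      · exact W.hfix x hx i (by omega) hit
      · exact (W.hsq l h1 (by omega)).2.2 i (by omega) hit (by omega) (by omega)
    | one => rfl
    | mul x y _ _ hx hy => rw [Equiv.Perm.mul_apply, hy, hx]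
    | inv x _ hx => rw [Equiv.Perm.inv_eq_iff_eq, hx]

/-- `W (m+1)` preserves `A (m+1)`. -/
theorem wA_pres (W : WittHyp t q G s H) {m : ℕ} {g : Equiv.Perm α} (hg : g ∈ wittW G q s m)
    {x : α} (hx : x ∈ wittA t q m) : g x ∈ wittA t q m := by
  intro i hi hit h
  apply hx i hi hit
  have := wF W hg i hi hit
  rw [← this] at h
  exact g.injective h

theorem wq_mem (W : WittHyp t q G s H) {m l : ℕ} (hl : 1 ≤ l) (hlm : l < m + 2) (hlt : l ≤ t) :
    q l ∈ wittA t q m := by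
  intro i hi hit h
  have := W.hq l i hl hlt (by omega) hit h
  omega

/-- Transitivity, going up. -/
theorem wT_step (W : WittHyp t q G s H) {m : ℕ} (hm : m + 2 ≤ t)
    (hT : ∀ x ∈ wittA t q m, ∀ y ∈ wittA t q m, ∃ g ∈ wittW G q s m, g x = y) :
    ∀ x ∈ wittA t q (m + 1), ∃ g ∈ wittW G q s (m + 1), g x = q (m + 2) := by
  intro x hx
  have hb : q (m + 1) ∈ wittA t q m := wq_mem W (by omega) (by omega) (by omega)
  by_cases hxQ : x = q (m + 2)
  · exact ⟨1, Subgroup.one_mem _, by simp [hxQ]⟩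
  · have hxA : x ∈ wittA t q m := by
      intro i hi hit
      by_cases h2 : i = m + 2
      · subst h2; exact hxQ
      · exact hx i (by omega) hit
    obtain ⟨g, hg, hgx⟩ := hT x hxA _ hb
    refine ⟨(s (m + 1))⁻¹ * g, Subgroup.mul_mem _ (Subgroup.inv_mem _ (ws_mem W m)) (wW_mono m hg), ?_⟩
    rw [Equiv.Perm.mul_apply, hgx, Equiv.Perm.inv_eq_iff_eq, wsq W hm]

theorem wT_step' (W : WittHyp t q G s H) {m : ℕ} (hm : m + 2 ≤ t)
    (hT : ∀ x ∈ wittA t q m, ∀ y ∈ wittA t q m, ∃ g ∈ wittW G q s m, g x = y) :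
    ∀ x ∈ wittA t q (m + 1), ∀ y ∈ wittA t q (m + 1), ∃ g ∈ wittW G q s (m + 1), g x = y := by
  intro x hx y hy
  obtain ⟨g₁, hg₁, hg₁x⟩ := wT_step W hm hT x hx
  obtain ⟨g₂, hg₂, hg₂x⟩ := wT_step W hm hT y hy
  refine ⟨g₂⁻¹ * g₁, Subgroup.mul_mem _ (Subgroup.inv_mem _ hg₂) hg₁, ?_⟩
  rw [Equiv.Perm.mul_apply, hg₁x, Equiv.Perm.inv_eq_iff_eq, hg₂x]

/-- Tuple transitivity, going up. -/
theorem wTT_step (W : WittHyp t q G s H) {m : ℕ} (hm : m + 2 ≤ t)
    (hT : ∀ x ∈ wittA t q m, ∀ y ∈ wittA t q m, ∃ g ∈ wittW G q s m, g x = y)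
    (hTT : WittTransOn (wittW G q s m) (wittA t q m) (m + 1)) :
    WittTransOn (wittW G q s (m + 1)) (wittA t q (m + 1)) (m + 2) := by
  refine witt_trans_step (Q := q (m + 2)) (U := wittW G q s m) (A := wittA t q m)
    (wq_mem W (by omega) (by omega) (by omega)) ?_ (wW_mono m) ?_ ?_ (wT_step W hm hT) hTT
  · intro x hx hxQ i hi hit
    by_cases h2 : i = m + 2
    · subst h2; exact hxQ
    · exact hx i (by omega) hit
  · intro u hu
    exact wF W hu _ le_rfl hm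
  · intro g hg x hx
    exact wA_pres W hg hx

/-- The double coset decomposition. -/
theorem wDec (W : WittHyp t q G s H) {m : ℕ} (hm : m + 2 ≤ t)
    (hT : ∀ x ∈ wittA t q m, ∀ y ∈ wittA t q m, ∃ g ∈ wittW G q s m, g x = y)
    (hB : ∀ g ∈ wittW G q s (m + 1), g (q (m + 2)) = q (m + 2) → g ∈ wittW G q s m) :
    ∀ x ∈ wittW G q s (m + 1), x ∈ wittW G q s m ∨
      ∃ u ∈ wittW G q s m, ∃ v ∈ wittW G q s m, x = u * s (m + 1) * v := by
  intro x hx
  by_cases hxQ : x (q (m + 2)) = q (m + 2)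
  · exact Or.inl (hB x hx hxQ)
  · right
    have hQ : q (m + 2) ∈ wittA t q (m + 1) := wq_mem W (by omega) (by omega) hm
    have hxA : x (q (m + 2)) ∈ wittA t q m := by
      intro i hi hit
      by_cases h2 : i = m + 2
      · subst h2; exact hxQ
      · exact wA_pres W hx hQ i (by omega) hit
    have hb : q (m + 1) ∈ wittA t q m := wq_mem W (by omega) (by omega) (by omega)
    obtain ⟨u, hu, hux⟩ := hT _ hb _ hxA
    have hr := ws_mem W m
    refine ⟨u, hu, (u * s (m + 1))⁻¹ * x, hB _ ?_ ?_, by group⟩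
    · exact Subgroup.mul_mem _ (Subgroup.inv_mem _ (Subgroup.mul_mem _ (wW_mono m hu) hr)) hx
    · rw [Equiv.Perm.mul_apply, Equiv.Perm.inv_eq_iff_eq, Equiv.Perm.mul_apply, wsq W hm, hux]

/-- Stabiliser at the next stage. -/
theorem wB_step (W : WittHyp t q G s H) {m : ℕ} (hm : m + 3 ≤ t)
    (hdec : ∀ x ∈ wittW G q s (m + 1), x ∈ wittW G q s m ∨
      ∃ u ∈ wittW G q s m, ∃ v ∈ wittW G q s m, x = u * s (m + 1) * v)
    (hD : ∀ i, m + 2 ≤ i → i + 1 ≤ t → ∀ g ∈ wittW G q s m, s i * g * (s i)⁻¹ ∈ wittW G q s m) :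
    ∀ g ∈ wittW G q s (m + 2), g (q (m + 3)) = q (m + 3) → g ∈ wittW G q s (m + 1) := by
  intro g hg hgQ
  have hcl : wittW G q s (m + 2) ≤
      Subgroup.closure ((wittW G q s (m + 1) : Set (Equiv.Perm α)) ∪ {s (m + 2)}) := by
    show Subgroup.closure _ ≤ _
    rw [Subgroup.closure_le]
    rintro x (hx | ⟨l, h1, h2, rfl⟩)
    · exact Subgroup.subset_closure (Or.inl (wG_le m hx))
    · by_cases hl : l = m + 2
      · subst hl
        exact Subgroup.subset_closure (Or.inr rfl)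
      · refine Subgroup.subset_closure (Or.inl ?_)
        exact Subgroup.subset_closure (Or.inr ⟨l, h1, by omega, rfl⟩)
  have h := witt_dc (K := wittW G q s (m + 1)) (U := wittW G q s m) (s := s (m + 2)) (r := s (m + 1))
    (ws_mem W m) (wW_mono m) hdec (hD (m + 2) le_rfl (by omega))
    (wH_le W m (W.hsq2 (m + 2) (by omega) (by omega)))
    (wH_le W (m + 1) (W.hbraid (m + 1) (by omega) (by omega))) g (hcl hg)
  rcases h with h | ⟨a, ha, b, hb, rfl⟩
  · exact h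
  · exfalso
    have h1 : b (q (m + 3)) = q (m + 3) := wF W hb _ (by omega) (by omega)
    have h2 : a (q (m + 3)) = q (m + 3) := wF W ha _ (by omega) (by omega)
    have h3 : s (m + 2) (q (m + 3)) = q (m + 2) := (W.hsq (m + 2) (by omega) (by omega)).2.1
    rw [Equiv.Perm.mul_apply, Equiv.Perm.mul_apply, h1, h3] at hgQ
    rw [← h2] at hgQ
    have := W.hq _ _ (by omega) (by omega) (by omega) (by omega) (a.injective hgQ)
    omega

/-- Normalisation at the next stage. -/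
theorem wD_step (W : WittHyp t q G s H) {m : ℕ}
    (hdec : ∀ x ∈ wittW G q s (m + 1), x ∈ wittW G q s m ∨
      ∃ u ∈ wittW G q s m, ∃ v ∈ wittW G q s m, x = u * s (m + 1) * v)
    (hD : ∀ i, m + 2 ≤ i → i + 1 ≤ t → ∀ g ∈ wittW G q s m, s i * g * (s i)⁻¹ ∈ wittW G q s m) :
    ∀ i, m + 3 ≤ i → i + 1 ≤ t → ∀ g ∈ wittW G q s (m + 1),
      s i * g * (s i)⁻¹ ∈ wittW G q s (m + 1) := by
  intro i hi hit g hg
  have hr := ws_mem W m
  have hs : s i * s (m + 1) * (s i)⁻¹ ∈ wittW G q s (m + 1) := by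
    have h1 := (W.hcomm (m + 1) i (by omega) (by omega) hit).1
    have h2 := W.hsq2 i (by omega) (by omega)
    have : s i * s (m + 1) * (s i)⁻¹ = (s (m + 1))⁻¹ * (s (m + 1) * s i) ^ 2 * (s i ^ 2)⁻¹ := by
      simp only [pow_succ, pow_zero, one_mul, mul_inv_rev, mul_assoc, inv_mul_cancel_left,
        mul_inv_cancel_left, inv_mul_cancel, mul_one, mul_inv_cancel]
    rw [this]
    exact Subgroup.mul_mem _ (Subgroup.mul_mem _ (Subgroup.inv_mem _ hr) (wH_le W _ h1))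
      (Subgroup.inv_mem _ (wH_le W _ h2))
  rcases hdec g hg with h | ⟨u, hu, v, hv, rfl⟩
  · exact wW_mono m (hD i (by omega) hit g h)
  · have : s i * (u * s (m + 1) * v) * (s i)⁻¹ =
        (s i * u * (s i)⁻¹) * (s i * s (m + 1) * (s i)⁻¹) * (s i * v * (s i)⁻¹) := by group
    rw [this]
    exact Subgroup.mul_mem _ (Subgroup.mul_mem _ (wW_mono m (hD i (by omega) hit u hu)) hs)
      (wW_mono m (hD i (by omega) hit v hv))

/-- The induction. -/
theorem witt_main (W : WittHyp t q G s H) : ∀ m, m + 2 ≤ t →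
    (∀ x ∈ wittA t q m, ∀ y ∈ wittA t q m, ∃ g ∈ wittW G q s m, g x = y) ∧
    (∀ g ∈ wittW G q s (m + 1), g (q (m + 2)) = q (m + 2) → g ∈ wittW G q s m) ∧
    (∀ i, m + 2 ≤ i → i + 1 ≤ t → ∀ g ∈ wittW G q s m, s i * g * (s i)⁻¹ ∈ wittW G q s m) ∧
    WittTransOn (wittW G q s m) (wittA t q m) (m + 1) := by
  intro m
  induction m with
  | zero =>
    intro _
    have hT : ∀ x ∈ wittA t q 0, ∀ y ∈ wittA t q 0, ∃ g ∈ wittW G q s 0, g x = y := by
      intro x hx y hy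
      obtain ⟨g, hg, hgx, hg2⟩ := W.h2 x (q 2) y (q 2) (fun i hi hit => by
        refine ⟨hx i (by omega) hit, fun h => ?_, hy i (by omega) hit, fun h => ?_⟩ <;>
        · have := W.hq 2 i (by omega) W.ht (by omega) hit h
          omega) (hx 2 le_rfl W.ht) (hy 2 le_rfl W.ht)
      exact ⟨g, ⟨hg, hg2⟩, hgx⟩
    refine ⟨hT, ?_, ?_, ?_⟩
    · intro g hg hg2
      have hG : g ∈ G := by
        have : wittW G q s 1 ≤ G := by
          show Subgroup.closure _ ≤ _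
          rw [Subgroup.closure_le]
          rintro x (hx | ⟨l, h1, h2, rfl⟩)
          · exact hx
          · have h2' : l ≤ 1 := h2
            omega
        exact this hg
      exact ⟨hG, hg2⟩
    · intro i hi hit g hg
      exact W.hnorm i hi hit g hg
    · intro x y _ _ hx hy
      obtain ⟨g, hg, hgx⟩ := hT (x 0) (hx 0) (y 0) (hy 0)
      refine ⟨g, hg, fun i => ?_⟩
      obtain rfl : i = 0 := Subsingleton.elim (α := Fin 1) _ _
      exact hgx
  | succ m ih =>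
    intro hm
    obtain ⟨hT, hB, hD, hTT⟩ := ih (by omega)
    have hdec := wDec W (by omega) hT hB
    exact ⟨wT_step' W (by omega) hT, wB_step W hm hdec hD, wD_step W hdec hD,
      wTT_step W (by omega) hT hTT⟩

/-- Witt's lemma. -/
theorem witt_lemma (W : WittHyp t q G s H) :
    WittTransOn (Subgroup.closure ((G : Set (Equiv.Perm α)) ∪ {x | ∃ i : ℕ, 2 ≤ i ∧ i + 1 ≤ t ∧ x = s i}))
      Set.univ t ∧
    Subgroup.closure ((G : Set (Equiv.Perm α)) ∪ {x | ∃ i : ℕ, 2 ≤ i ∧ i + 1 ≤ t ∧ x = s i}) ⊓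
      fixingSubgroup (Equiv.Perm α) {x | ∃ i : ℕ, 1 ≤ i ∧ i ≤ t ∧ x = q i} = H := by
  obtain ⟨M, rfl⟩ : ∃ M, t = M + 2 := ⟨t - 2, by have := W.ht; omega⟩
  have hW : Subgroup.closure ((G : Set (Equiv.Perm α)) ∪
      {x | ∃ i : ℕ, 2 ≤ i ∧ i + 1 ≤ M + 2 ∧ x = s i}) = wittW G q s (M + 1) := by
    show _ = Subgroup.closure _
    congr 2
    ext x
    constructor
    · rintro ⟨i, h1, h2, rfl⟩
      exact ⟨i, h1, by omega, rfl⟩
    · rintro ⟨i, h1, h2, rfl⟩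
      exact ⟨i, h1, by omega, rfl⟩
  rw [hW]
  obtain ⟨hT, hB, hD, hTT⟩ := witt_main W M le_rfl
  constructor
  · have := wTT_step W le_rfl hT hTT
    intro x y hx hy _ _
    exact this x y hx hy (fun i j hj hjt => by omega) (fun i j hj hjt => by omega)
  · -- the stabiliser
    have hdown : ∀ m, m + 2 ≤ M + 2 → ∀ g ∈ wittW G q s (m + 1),
        (∀ i, 1 ≤ i → i ≤ m + 2 → g (q i) = q i) → g ∈ H := by
      intro m
      induction m with
      | zero =>
        intro _ g hg hgq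
        have h0 := (witt_main W 0 (by omega)).2.1 g hg (hgq 2 (by omega) (by omega))
        rw [W.hH]
        exact ⟨⟨h0.1, hgq 1 (by omega) (by omega)⟩, hgq 2 (by omega) (by omega)⟩
      | succ m ih =>
        intro hm g hg hgq
        have h0 := (witt_main W (m + 1) hm).2.1 g hg (hgq _ (by omega) (by omega))
        exact ih (by omega) g h0 (fun i hi hit => hgq i hi (by omega))
    ext g
    constructor
    · rintro ⟨hg, hg'⟩
      refine hdown M le_rfl g hg (fun i hi hit => ?_)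
      exact (mem_fixingSubgroup_iff _).mp hg' (q i) ⟨i, hi, hit, rfl⟩
    · intro hg
      refine ⟨wH_le W _ hg, (mem_fixingSubgroup_iff _).mpr ?_⟩
      rintro x ⟨i, h1, h2, rfl⟩
      rw [W.hH] at hg
      obtain ⟨⟨hg1, hg2⟩, hg3⟩ := hg
      by_cases hi1 : i = 1
      · subst hi1; exact hg2
      · by_cases hi2 : i = 2
        · subst hi2; exact hg3
        · exact W.hfix g hg1 i (by omega) h2

end

end Cfsg.Agent.Lib.Perm
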