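import Mathlib
import Cfsg.Agent.Lib.Perm.ZNTop

/-!
Normal subgroups of Zassenhaus groups.
-/

set_option autoImplicit false
set_option linter.style.haveILetI false

namespace Cfsg.Agent.Lib.Perm

open MulAction Cfsg Cfsg.Agent.Lib.Char Cfsg.Agent.Lib.Char.Zass
open scoped Pointwise

universe u v

/-- The square of the degree does not divide the group order. -/
theorem zsub_hnd {G : Type u} {Ω : Type v} [Group G] [MulAction G Ω] [Finite G] [Fintype Ω]
    (hZ : IsZassenhausGroup G Ω) {a b : Ω} (hab : a ≠ b) :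
    ¬ Fintype.card Ω * Fintype.card Ω ∣ Nat.card G := by
  classical
  set d := Nat.card ↥(stabilizer G a ⊓ stabilizer G b) with hd
  have hdpos : 0 < d := Nat.card_pos
  obtain ⟨c₀, hc₀a, hc₀b⟩ := Zass.exists_third hZ hab
  have hΩ3 : 3 ≤ Fintype.card Ω := by
    have : ({a, b, c₀} : Finset Ω).card ≤ Fintype.card Ω := Finset.card_le_univ _
    rw [Finset.card_eq_three.mpr ⟨a, b, c₀, hab, hc₀a.symm, hc₀b.symm, rfl⟩] at this
    exact this
  have hdvd : d ∣ Fintype.card Ω - 2 := zs_dvd hZ hab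
  have hdle : d ≤ Fintype.card Ω - 2 := Nat.le_of_dvd (by omega) hdvd
  have hGcard : Nat.card G = Fintype.card Ω * (Fintype.card Ω - 1) * d := zs_card hZ hab
  intro h
  rw [hGcard, mul_assoc] at h
  have h1 : Fintype.card Ω ∣ (Fintype.card Ω - 1) * d :=
    Nat.dvd_of_mul_dvd_mul_left (by omega) h
  have h2 : Nat.Coprime (Fintype.card Ω) (Fintype.card Ω - 1) := by
    have e : Fintype.card Ω = (Fintype.card Ω - 1) + 1 := by omega
    rw [e]
    simp
  have h3 : Fintype.card Ω ∣ d := h2.dvd_of_dvd_mul_left h1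
  have := Nat.le_of_dvd hdpos h3
  omega

/-- A nontrivial normal subgroup is transitive. -/
theorem zsub_trans {G : Type u} {Ω : Type v} [Group G] [MulAction G Ω]
    (hZ : IsZassenhausGroup G Ω) (N : Subgroup G) (hNn : N.Normal) (hN : N ≠ ⊥) :
    ∀ y z : Ω, ∃ w ∈ N, w • y = z := by
  classical
  obtain ⟨n₀, hn₀⟩ := (Subgroup.ne_bot_iff_exists_ne_one.mp hN)
  have hn₁ : (n₀ : G) ∈ N := n₀.2
  have hfa := hZ.1
  have hne : ((n₀ : G)) ≠ 1 := fun h => hn₀ (Subtype.ext h)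
  obtain ⟨y₀, hy₀⟩ : ∃ y₀ : Ω, (n₀ : G) • y₀ ≠ y₀ := by
    by_contra h
    push Not at h
    apply hne
    apply FaithfulSMul.eq_of_smul_eq_smul (α := Ω)
    intro x
    rw [one_smul]
    exact h x
  intro y z
  by_cases hyz : y = z
  · exact ⟨1, N.one_mem, by rw [one_smul, hyz]⟩
  · obtain ⟨g, hg1, hg2⟩ := Zass.two_trans hZ (Ne.symm hy₀) hyz
    refine ⟨g * n₀ * g⁻¹, hNn.conj_mem _ hn₁ g, ?_⟩
    simp only [mul_smul]
    rw [← hg1, inv_smul_smul, hg2]

/-- A nontrivial normal subgroup with a nonidentity element fixing two points contains the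
Frobenius kernel. -/
theorem zsub_kernel_le {G : Type u} {Ω : Type v} [Group G] [MulAction G Ω] [Finite G] [Fintype Ω]
    (hZ : IsZassenhausGroup G Ω) {N : Subgroup G} (hNn : N.Normal) {a b : Ω} (hab : a ≠ b)
    {n : G} (hn : n ∈ N) (hn1 : n ≠ 1) (hna : n • a = a) (hnb : n • b = b)
    {F : Subgroup G} (hcard : Nat.card F + 1 = Fintype.card Ω) (hFa : F ≤ stabilizer G a)
    (hFfix : ∀ u ∈ F, u ≠ 1 → ∀ c : Ω, u • c = c → c = a) : F ≤ N := by
  classical
  have hFconj : ∀ u ∈ F, n * u * n⁻¹ ∈ F := fun u hu =>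
    Zass.conj_mem_kernel hZ hcard hFa hFfix hna hu
  have hFconj' : ∀ u ∈ F, u * (n * u⁻¹ * n⁻¹) ∈ F := fun u hu =>
    F.mul_mem hu (hFconj _ (F.inv_mem hu))
  let c : F → F := fun u => ⟨u * (n * (u : G)⁻¹ * n⁻¹), hFconj' _ u.2⟩
  have hcinj : Function.Injective c := by
    intro u v huv
    have h1 : (u : G) * (n * (u : G)⁻¹ * n⁻¹) = (v : G) * (n * (v : G)⁻¹ * n⁻¹) :=
      congrArg Subtype.val huv
    have h2 : (v : G)⁻¹ * u * n = n * ((v : G)⁻¹ * u) := by
      have h3 : (u : G) * (n * (u : G)⁻¹) = (v : G) * (n * (v : G)⁻¹) := by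
        have h4 := congrArg (· * n) h1
        simpa [mul_assoc] using h4
      have h5 : (v : G)⁻¹ * ((u : G) * (n * (u : G)⁻¹)) * u =
          (v : G)⁻¹ * ((v : G) * (n * (v : G)⁻¹)) * u := by rw [h3]
      simpa [mul_assoc] using h5
    set w : G := (v : G)⁻¹ * u with hw
    have hwF : w ∈ F := F.mul_mem (F.inv_mem v.2) u.2
    by_contra hne
    have hw1 : w ≠ 1 := by
      intro h
      apply hne
      exact Subtype.ext (inv_mul_eq_one.mp h).symm
    have hwa : w • a = a := hFa hwF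
    have hfix : n • (w • b) = w • b := by
      rw [← mul_smul, ← h2, mul_smul, hnb]
    have hwb1 : w • b ≠ b := fun h => hab (hFfix w hwF hw1 b h).symm
    have hwb2 : w • b ≠ a := by
      intro h
      apply hab
      apply smul_left_cancel w
      rw [hwa, h]
    exact hn1 (Zass.eq_one_of_three hZ hab hwb1.symm hwb2.symm hna hnb hfix)
  haveI : Finite F := inferInstance
  have hcsurj : Function.Surjective c := Finite.surjective_of_injective hcinj
  intro u hu
  obtain ⟨v, hv⟩ := hcsurj ⟨u, hu⟩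
  have h1 : (u : G) = (v : G) * (n * (v : G)⁻¹ * n⁻¹) := (congrArg Subtype.val hv).symm
  rw [h1, ← mul_assoc]
  apply N.mul_mem _ (N.inv_mem hn)
  have h2 := hNn.conj_mem n hn (v : G)
  simpa [mul_assoc] using h2

/-- A normal subgroup containing the Frobenius kernels is 2-transitive. -/
theorem zsub_two_trans {G : Type u} {Ω : Type v} [Group G] [MulAction G Ω] [Finite G] [Fintype Ω]
    (hZ : IsZassenhausGroup G Ω) {N : Subgroup G} (hNn : N.Normal) {a b : Ω} (hab : a ≠ b)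
    {F : Subgroup G} (hFN : F ≤ N) (hFa' : ∀ u ∈ F, u • a = a)
    (hFreg : ∀ y z : Ω, y ≠ a → z ≠ a → ∃ u ∈ F, u • y = z) :
    ∀ y₁ y₂ z₁ z₂ : Ω, y₁ ≠ y₂ → z₁ ≠ z₂ → ∃ w : N, w • y₁ = z₁ ∧ w • y₂ = z₂ := by
  classical
  have hconj : ∀ c y z : Ω, y ≠ c → z ≠ c → ∃ w ∈ N, w • c = c ∧ w • y = z := by
    intro c y z hy hz
    by_cases hca : c = a
    · subst hca
      obtain ⟨u, hu, huy⟩ := hFreg y z hy hz
      exact ⟨u, hFN hu, hFa' u hu, huy⟩
    · obtain ⟨g, hg, -⟩ := Zass.two_trans hZ hab hca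
      have h1 : g⁻¹ • y ≠ a := by
        intro h
        rw [inv_smul_eq_iff, hg] at h
        exact hy h
      have h2 : g⁻¹ • z ≠ a := by
        intro h
        rw [inv_smul_eq_iff, hg] at h
        exact hz h
      obtain ⟨u, hu, huy⟩ := hFreg _ _ h1 h2
      refine ⟨g * u * g⁻¹, hNn.conj_mem u (hFN hu) g, ?_, ?_⟩
      · simp only [mul_smul]
        rw [← hg, inv_smul_smul, hFa' u hu]
      · simp only [mul_smul]
        rw [huy, smul_inv_smul]
  have htrans : ∀ y z : Ω, ∃ w ∈ N, w • y = z := by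
    intro y z
    by_cases hyz : y = z
    · exact ⟨1, N.one_mem, by rw [one_smul, hyz]⟩
    · obtain ⟨c, hcy, hcz⟩ := Zass.exists_third hZ hyz
      obtain ⟨w, hw, -, hwy⟩ := hconj c y z (Ne.symm hcy) (Ne.symm hcz)
      exact ⟨w, hw, hwy⟩
  intro y₁ y₂ z₁ z₂ hy hz
  obtain ⟨w₁, hw₁, h1⟩ := htrans y₁ z₁
  have h3 : w₁ • y₂ ≠ z₁ := by
    intro h
    exact hy (MulAction.injective w₁ (h1.trans h.symm))
  obtain ⟨w₂, hw₂, h4, h5⟩ := hconj z₁ (w₁ • y₂) z₂ h3 (Ne.symm hz)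
  refine ⟨⟨w₂ * w₁, N.mul_mem hw₂ hw₁⟩, ?_, ?_⟩
  · change (w₂ * w₁) • y₁ = z₁
    rw [mul_smul, h1, h4]
  · change (w₂ * w₁) • y₂ = z₂
    rw [mul_smul, h5]

/-- A normal subgroup whose nonidentity elements fix at most one point: impossible. -/
theorem zsub_no_frob {G : Type u} {Ω : Type v} [Group G] [MulAction G Ω] [Finite G] [Fintype Ω]
    (hZ : IsZassenhausGroup G Ω) {N : Subgroup G} (hNn : N.Normal) (hN : N ≠ ⊥) {a b : Ω}
    (hab : a ≠ b)
    (hno : ∀ g ∈ N, g ≠ 1 → ∀ y z : Ω, y ≠ z → g • y = y → g • z = z → False) : False := by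
  classical
  have htr := zsub_trans hZ N hNn hN
  haveI hNtr : IsPretransitive N Ω := ⟨fun y z => by
    obtain ⟨w, hw, h⟩ := htr y z
    exact ⟨⟨w, hw⟩, h⟩⟩
  obtain ⟨c, hc⟩ := hZ.2.2.2.2 N hNn hNtr
  let H' : Subgroup N := stabilizer N c
  have hmemH : ∀ g : N, g ∈ H' ↔ (g : G) • c = c := fun g => Iff.rfl
  have hconjmem : ∀ (g x : N), x ∈ MulAut.conj g • H' ↔ (x : G) • ((g : G) • c) = (g : G) • c := by
    intro g x
    rw [Subgroup.mem_pointwise_smul_iff_inv_smul_mem]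
    have h5 : (((MulAut.conj g)⁻¹ • x : N) : G) = (g : G)⁻¹ * x * g := by
      simp [MulAut.smul_def]
    have h6 : (MulAut.conj g)⁻¹ • x ∈ H' ↔ (((MulAut.conj g)⁻¹ • x : N) : G) • c = c := Iff.rfl
    rw [h6, h5, mul_smul, mul_smul, inv_smul_eq_iff]
  have hFC : IsFrobeniusComplement H' := by
    refine ⟨hc, ?_, ?_⟩
    · intro h
      obtain ⟨d, hd⟩ : ∃ d : Ω, d ≠ c := by
        by_cases hac : a = c
        · exact ⟨b, fun h => hab (hac.trans h.symm)⟩
        · exact ⟨a, hac⟩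
      obtain ⟨w, hw⟩ := IsPretransitive.exists_smul_eq (M := N) c d
      have : w ∈ H' := by rw [h]; trivial
      rw [hmemH] at this
      apply hd
      rw [← hw]
      exact this
    · intro g hg
      rw [eq_bot_iff]
      rintro x ⟨hx1, hx2⟩
      rw [Subgroup.mem_bot]
      by_contra hx
      apply hno (x : G) x.2 (fun h => hx (Subtype.ext h)) c ((g : G) • c) ?_ hx1
        ((hconjmem g x).mp hx2)
      intro h
      exact hg ((hmemH g).mpr h.symm)
  obtain ⟨K, hKset, hKn, hKc⟩ := Cfsg.Agent.S0035.result H' hFC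
  have hKmem : ∀ x : N, x ∈ K ↔ (x = 1 ∨ ∀ y : Ω, (x : G) • y ≠ y) := by
    intro x
    have h1 : x ∈ K ↔ x ∈ frobeniusKernel H' := by
      rw [← hKset]
      rfl
    rw [h1]
    constructor
    · rintro (h | h)
      · exact Or.inl h
      · right
        intro y hy
        obtain ⟨g, hg⟩ := IsPretransitive.exists_smul_eq (M := N) c y
        apply h g
        rw [hconjmem]
        have : (g : G) • c = y := hg
        rw [this]
        exact hy
    · rintro (h | h)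
      · exact Or.inl h
      · right
        intro g hg
        rw [hconjmem] at hg
        exact h _ hg
  let K₀ : Subgroup G := K.map N.subtype
  have hK₀mem : ∀ x : G, x ∈ K₀ ↔ x ∈ N ∧ (x = 1 ∨ ∀ y : Ω, x • y ≠ y) := by
    intro x
    constructor
    · rintro ⟨k, hk, rfl⟩
      refine ⟨k.2, ?_⟩
      rcases (hKmem k).mp hk with h | h
      · left
        simp [h]
      · right
        exact h
    · rintro ⟨h1, h2⟩
      refine ⟨⟨x, h1⟩, (hKmem _).mpr ?_, rfl⟩
      rcases h2 with h | h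
      · left
        exact Subtype.ext h
      · right
        exact h
  have hK₀n : K₀.Normal := by
    refine ⟨fun x hx g => ?_⟩
    obtain ⟨h1, h2⟩ := (hK₀mem x).mp hx
    refine (hK₀mem _).mpr ⟨hNn.conj_mem x h1 g, ?_⟩
    rcases h2 with h | h
    · left
      rw [h]
      group
    · right
      intro y hy
      apply h (g⁻¹ • y)
      have h3 : g⁻¹ • ((g * x * g⁻¹) • y) = g⁻¹ • y := by rw [hy]
      simpa [mul_smul] using h3
  have hK₀tr : IsPretransitive K₀ Ω := by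
    have hto : ∀ y : Ω, ∃ k ∈ K₀, k • c = y := by
      intro y
      obtain ⟨w, hw⟩ := IsPretransitive.exists_smul_eq (M := N) c y
      obtain ⟨⟨k, h⟩, hkh⟩ := hKc.2 w
      refine ⟨(k : N), (hK₀mem _).mpr ⟨(k : N).2, ?_⟩, ?_⟩
      · rcases (hKmem k).mp k.2 with h1 | h1
        · left
          rw [h1]
          rfl
        · right
          exact h1
      · have h2 : (((h : N)) : G) • c = c := h.2
        have h3 : ((k : N) : G) * ((h : N) : G) = w := congrArg Subtype.val hkh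
        have h4 : (w : G) • c = y := hw
        rw [← h4, ← h3, mul_smul, h2]
    refine ⟨fun y z => ?_⟩
    obtain ⟨k₁, hk₁, h1⟩ := hto y
    obtain ⟨k₂, hk₂, h2⟩ := hto z
    refine ⟨⟨k₂ * k₁⁻¹, K₀.mul_mem hk₂ (K₀.inv_mem hk₁)⟩, ?_⟩
    change (k₂ * k₁⁻¹) • y = z
    rw [mul_smul, ← h1, inv_smul_smul, h2]
  obtain ⟨y, hy⟩ := hZ.2.2.2.2 K₀ hK₀n hK₀tr
  apply hy
  rw [eq_bot_iff]
  intro x hx
  rw [Subgroup.mem_bot]
  rcases ((hK₀mem x).mp x.2).2 with h | h
  · exact Subtype.ext h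
  · exact absurd hx (h y)

/-- A nontrivial normal subgroup of a Zassenhaus group is a Zassenhaus group. -/
theorem zsub_main {G : Type u} {Ω : Type v} [Group G] [MulAction G Ω] [Finite Ω]
    (hZ : IsZassenhausGroup G Ω) (N : Subgroup G) (hNn : N.Normal) (hN : N ≠ ⊥) :
    IsZassenhausGroup N Ω := by
  classical
  haveI := Fintype.ofFinite Ω
  haveI hfa := hZ.1
  haveI hG : Finite G := Finite.of_injective (MulAction.toPermHom G Ω) (fun x y h => by
    apply FaithfulSMul.eq_of_smul_eq_smul (α := Ω)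
    intro z
    exact congrArg (fun f : Equiv.Perm Ω => f z) h)
  obtain ⟨t, ht, a₀, b₀, hab₀, h1, h2⟩ := hZ.2.2.2.1
  by_cases hfix : ∃ g ∈ N, g ≠ 1 ∧ ∃ y z : Ω, y ≠ z ∧ g • y = y ∧ g • z = z
  · obtain ⟨n, hn, hn1, a, b, hab, hna, hnb⟩ := hfix
    obtain ⟨F, hcard, hFa, hFfix⟩ := zf_kernel hZ hab
    have hFN := zsub_kernel_le hZ hNn hab hn hn1 hna hnb hcard hFa hFfix
    have hFa' : ∀ u ∈ F, u • a = a := fun u hu => hFa hu
    have hFreg : ∀ y z : Ω, y ≠ a → z ≠ a → ∃ u ∈ F, u • y = z := fun y z hy hz =>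
      Zass.regular_of_kernel hcard hFa hFfix hy hz
    have h2t := zsub_two_trans hZ hNn hab hFN hFa' hFreg
    have hnd := zsub_hnd hZ hab
    refine ⟨?_, ?_, ?_, ⟨⟨n, hn⟩, fun h => hn1 (congrArg Subtype.val h), a, b, hab, hna, hnb⟩, ?_⟩
    · exact ⟨fun {x y} h => Subtype.ext (FaithfulSMul.eq_of_smul_eq_smul (α := Ω) h)⟩
    · rw [is_two_pretransitive_iff]
      intro y₁ y₂ z₁ z₂ hy hz
      exact h2t y₁ y₂ z₁ z₂ hy hz
    · intro g y₁ y₂ y₃ h12 h23 h13 h1 h2 h3
      exact Subtype.ext (hZ.2.2.1 g y₁ y₂ y₃ h12 h23 h13 h1 h2 h3)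
    · intro V hVn hVt
      by_contra hVs
      push Not at hVs
      let V₀ : Subgroup G := V.map N.subtype
      have hmem₀ : ∀ v, v ∈ V₀ ↔ ∃ (h : v ∈ N), (⟨v, h⟩ : N) ∈ V := by
        intro v
        constructor
        · rintro ⟨x, hx, rfl⟩
          exact ⟨x.2, hx⟩
        · rintro ⟨h, hx⟩
          exact ⟨⟨v, h⟩, hx, rfl⟩
      apply zt_no_regular (N := N) (F := F) (V := V₀) (a := a) hZ hNn hFN hFa' hFreg
      · rintro v ⟨x, -, rfl⟩
        exact x.2
      · intro n hn v hv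
        obtain ⟨h, hx⟩ := (hmem₀ v).mp hv
        refine (hmem₀ _).mpr ⟨N.mul_mem (N.mul_mem hn h) (N.inv_mem hn), ?_⟩
        exact hVn.conj_mem _ hx ⟨n, hn⟩
      · intro y z
        obtain ⟨v, hv⟩ := hVt.exists_smul_eq y z
        exact ⟨(v : N), (hmem₀ _).mpr ⟨(v : N).2, v.2⟩, hv⟩
      · intro v hv y hy
        obtain ⟨h, hx⟩ := (hmem₀ v).mp hv
        have h1 : (⟨⟨v, h⟩, hx⟩ : V) ∈ stabilizer V y := hy
        rw [hVs y] at h1
        exact congrArg (fun w : V => ((w : N) : G)) h1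
      · exact hnd
  · push Not at hfix
    exfalso
    exact zsub_no_frob hZ hNn hN hab₀ (fun g hg hg1 y z hyz hy hz => hfix g hg hg1 y z hyz hy hz)

end Cfsg.Agent.Lib.Perm
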