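import Mathlib
import Cfsg.Agent.Lib.Perm.ZSub

/-!
Zassenhaus groups of odd degree are simple.
-/

set_option autoImplicit false
set_option linter.style.haveILetI false

namespace Cfsg.Agent.Lib.Perm

open MulAction Cfsg Cfsg.Agent.Lib.Char Cfsg.Agent.Lib.Char.Zass

universe u v

variable {G : Type u} {Ω : Type v} [Group G] [MulAction G Ω]

/-- The two-point stabilisers of a Zassenhaus group of odd degree have odd order. -/
lemma zsimp_dodd [Fintype Ω] (hZ : IsZassenhausGroup G Ω) (hodd : Odd (Fintype.card Ω))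
    {a b : Ω} (hab : a ≠ b) : Odd (Nat.card ↥(stabilizer G a ⊓ stabilizer G b)) := by
  classical
  obtain ⟨c₀, hc₀a, hc₀b⟩ := Zass.exists_third hZ hab
  have hΩ3 : 3 ≤ Fintype.card Ω := by
    have : ({a, b, c₀} : Finset Ω).card ≤ Fintype.card Ω := Finset.card_le_univ _
    rw [Finset.card_eq_three.mpr ⟨a, b, c₀, hab, hc₀a.symm, hc₀b.symm, rfl⟩] at this
    exact this
  have hdvd := zs_dvd hZ hab
  have h2 : Odd (Fintype.card Ω - 2) := by
    obtain ⟨m, hm⟩ := hodd
    exact ⟨m - 1, by omega⟩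
  exact Odd.of_dvd_nat h2 hdvd

/-- An involution of a Zassenhaus group of odd degree has a unique fixed point. -/
lemma zsimp_one_fixed [Fintype Ω] (hZ : IsZassenhausGroup G Ω) (hodd : Odd (Fintype.card Ω))
    {s : G} (hs1 : s ≠ 1) (hs2 : s ^ 2 = 1) : ∃ c : Ω, s • c = c ∧ ∀ d : Ω, s • d = d → d = c := by
  classical
  have h1 := zi_parity (Ω := Ω) s hs2
  have h2 := zi_fix_le hZ hs1
  rw [Nat.card_eq_fintype_card] at h1
  have h3 : Nat.card (fixedBy Ω s) % 2 = 1 := by
    have := Nat.odd_iff.mp hodd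
    unfold Nat.ModEq at h1
    omega
  have h4 : Nat.card (fixedBy Ω s) = 1 := by omega
  rw [Nat.card_coe_set_eq, Set.ncard_eq_one] at h4
  obtain ⟨c, hc⟩ := h4
  refine ⟨c, ?_, ?_⟩
  · have : c ∈ fixedBy Ω s := by rw [hc]; rfl
    exact this
  · intro d hd
    have : d ∈ fixedBy Ω s := hd
    rw [hc] at this
    exact this

/-- An involution lies in the kernel of its point stabiliser if the two-point stabilisers have odd
order. -/
lemma zsimp_mem_kernel [Finite G] [Fintype Ω] (hZ : IsZassenhausGroup G Ω)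
    {c b : Ω} (hcb : c ≠ b) (hdodd : Odd (Nat.card ↥(stabilizer G c ⊓ stabilizer G b)))
    {F : Subgroup G} (hcard : Nat.card F + 1 = Fintype.card Ω) (hFa : F ≤ stabilizer G c)
    (hFfix : ∀ u ∈ F, u ≠ 1 → ∀ d : Ω, u • d = d → d = c)
    {s : G} (hs2 : s ^ 2 = 1) (hsc : s • c = c) : s ∈ F := by
  classical
  haveI := Fintype.ofFinite G
  obtain ⟨u, hu, x, hxc, hxb, rfl⟩ := exists_kernel_mul hcb hcard hFa hFfix hsc
  have hconj := Zass.conj_mem_kernel hZ hcard hFa hFfix hxc hu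
  have hx2 : x ^ 2 ∈ F := by
    have h1 : x ^ 2 = (x * u * x⁻¹)⁻¹ * u⁻¹ := by
      have h2 : u * x * (u * x) = 1 := by rw [← pow_two]; exact hs2
      have h3 : x * u * x = u⁻¹ := by
        have : u * (x * u * x) = 1 := by simpa [mul_assoc] using h2
        exact eq_inv_of_mul_eq_one_right this
      calc x ^ 2 = (x * u * x⁻¹)⁻¹ * (x * u * x) := by
            rw [pow_two]
            simp [mul_assoc]
        _ = _ := by rw [h3]
    rw [h1]
    exact F.mul_mem (F.inv_mem hconj) (F.inv_mem hu)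
  have hx21 : x ^ 2 = 1 := by
    by_contra h
    apply hcb
    refine (hFfix _ hx2 h b ?_).symm
    rw [pow_two, mul_smul, hxb, hxb]
  have hx1 : x = 1 := by
    have hm : x ∈ stabilizer G c ⊓ stabilizer G b := ⟨hxc, hxb⟩
    have h1 : orderOf x ∣ Nat.card ↥(stabilizer G c ⊓ stabilizer G b) := by
      have := orderOf_dvd_natCard (⟨x, hm⟩ : ↥(stabilizer G c ⊓ stabilizer G b))
      rwa [Subgroup.orderOf_mk] at this
    have h2 : orderOf x ∣ 2 := orderOf_dvd_of_pow_eq_one hx21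
    have h3 : Odd (orderOf x) := Odd.of_dvd_nat hdodd h1
    have h4 : orderOf x = 1 := by
      rcases (Nat.dvd_prime Nat.prime_two).mp h2 with h | h
      · exact h
      · rw [h] at h3
        exact absurd h3 (by decide)
    exact orderOf_eq_one_iff.mp h4
  rw [hx1, mul_one]
  exact hu

/-- A Zassenhaus group of odd degree is simple. -/
theorem zsimple_main [Fintype Ω] (hZ : IsZassenhausGroup G Ω) (hodd : Odd (Fintype.card Ω)) :
    IsSimpleGroup G := by
  classical
  haveI hfa := hZ.1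
  haveI hG : Finite G := Finite.of_injective (MulAction.toPermHom G Ω) (fun x y h => by
    apply FaithfulSMul.eq_of_smul_eq_smul (α := Ω)
    intro z
    exact congrArg (fun f : Equiv.Perm Ω => f z) h)
  obtain ⟨t, ht, a₀, b₀, hab₀, -, -⟩ := hZ.2.2.2.1
  haveI : Nontrivial G := ⟨⟨t, 1, ht⟩⟩
  refine ⟨?_⟩
  intro N hNn
  by_cases hbot : N = ⊥
  · exact Or.inl hbot
  right
  have hfix : ∃ g ∈ N, g ≠ 1 ∧ ∃ y z : Ω, y ≠ z ∧ g • y = y ∧ g • z = z := by
    by_contra hcon
    push Not at hcon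
    exact zsub_no_frob hZ hNn hbot hab₀ (fun g hg hg1 y z hyz hy hz => hcon g hg hg1 y z hyz hy hz)
  obtain ⟨n, hn, hn1, y, z, hyz, hny, hnz⟩ := hfix
  have hfix2 : ∀ c d : Ω, c ≠ d → ∃ m ∈ N, m ≠ 1 ∧ m • c = c ∧ m • d = d := by
    intro c d hcd
    obtain ⟨g, hg1, hg2⟩ := Zass.two_trans hZ hyz hcd
    refine ⟨g * n * g⁻¹, hNn.conj_mem n hn g, ?_, ?_, ?_⟩
    · intro h
      apply hn1
      have h2 : n = g⁻¹ * (g * n * g⁻¹) * g := by group
      rw [h2, h]
      group
    · simp only [mul_smul]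
      rw [← hg1, inv_smul_smul, hny]
    · simp only [mul_smul]
      rw [← hg2, inv_smul_smul, hnz]
  have hker : ∀ c d : Ω, c ≠ d → ∃ F : Subgroup G, Nat.card F + 1 = Fintype.card Ω ∧
      F ≤ stabilizer G c ∧ (∀ u ∈ F, u ≠ 1 → ∀ e : Ω, u • e = e → e = c) ∧ F ≤ N := by
    intro c d hcd
    obtain ⟨F, h1, h2, h3⟩ := zf_kernel hZ hcd
    obtain ⟨m, hm, hm1, hmc, hmd⟩ := hfix2 c d hcd
    exact ⟨F, h1, h2, h3, zsub_kernel_le hZ hNn hcd hm hm1 hmc hmd h1 h2 h3⟩
  have hexne : ∀ c : Ω, ∃ d : Ω, c ≠ d := by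
    intro c
    by_cases h : c = a₀
    · exact ⟨b₀, fun h2 => hab₀ (h.symm.trans h2)⟩
    · exact ⟨a₀, h⟩
  have hinvol : ∀ s : G, s ≠ 1 → s ^ 2 = 1 → s ∈ N := by
    intro s hs1 hs2
    obtain ⟨c, hc, -⟩ := zsimp_one_fixed hZ hodd hs1 hs2
    obtain ⟨d, hd⟩ := hexne c
    obtain ⟨F, h1, h2, h3, h4⟩ := hker c d hd
    exact h4 (zsimp_mem_kernel hZ hd (zsimp_dodd hZ hodd hd) h1 h2 h3 hs2 hc)
  have hE : ∀ x : G, x • a₀ = a₀ → x • b₀ = b₀ → x ∈ N := by
    intro x hxa hxb
    obtain ⟨s, hso, hsa, hsb⟩ := zi_exists_swap hZ hab₀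
    have hs2 : s ^ 2 = 1 := by rw [← hso]; exact pow_orderOf_eq_one s
    have hs1 : s ≠ 1 := by
      intro h
      rw [h, orderOf_one] at hso
      omega
    have htt : s * s = 1 := by rw [← pow_two]; exact hs2
    have hsinv : s⁻¹ = s := inv_eq_of_mul_eq_one_left htt
    obtain ⟨c, hc, hcu⟩ := zsimp_one_fixed hZ hodd hs1 hs2
    have hca : c ≠ a₀ := by
      rintro rfl
      exact hab₀ (hc.symm.trans hsa)
    have hcb : c ≠ b₀ := by
      rintro rfl
      exact hab₀ (hsb.symm.trans hc)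
    let E : Subgroup G := stabilizer G a₀ ⊓ stabilizer G b₀
    have hEn : ∀ u ∈ E, s * u * s⁻¹ ∈ E := by
      rintro u ⟨h1, h2⟩
      have h1' : u • a₀ = a₀ := h1
      have h2' : u • b₀ = b₀ := h2
      constructor
      · change (s * u * s⁻¹) • a₀ = a₀
        rw [hsinv, mul_smul, mul_smul, hsa, h2', hsb]
      · change (s * u * s⁻¹) • b₀ = b₀
        rw [hsinv, mul_smul, mul_smul, hsb, h1', hsa]
    let φ : E →* E :=
      { toFun := fun u => ⟨s * u * s⁻¹, hEn u u.2⟩
        map_one' := by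
          apply Subtype.ext
          simp
        map_mul' := fun u v => by
          apply Subtype.ext
          simp only [Subgroup.coe_mul]
          group }
    have hφ : ∀ u : E, ((φ u : E) : G) = s * u * s⁻¹ := fun u => rfl
    have hfpf : MonoidHom.FixedPointFree φ := by
      intro u hu
      by_contra hu1
      have hu1' : (u : G) ≠ 1 := fun h => hu1 (Subtype.ext h)
      have hcomm : s * u * s⁻¹ = u := congrArg Subtype.val hu
      have hua : (u : G) • a₀ = a₀ := u.2.1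
      have hub : (u : G) • b₀ = b₀ := u.2.2
      have hsu : s * u = u * s := by
        calc s * u = (s * u * s⁻¹) * s := by group
          _ = u * s := by rw [hcomm]
      have huc : (u : G) • c = c := by
        apply hcu
        rw [← mul_smul, hsu, mul_smul, hc]
      exact hu1' (Zass.eq_one_of_three hZ hab₀ hcb.symm hca.symm hua hub huc)
    have hinvolφ : Function.Involutive φ := by
      intro u
      apply Subtype.ext
      rw [hφ, hφ]
      calc s * (s * (u : G) * s⁻¹) * s⁻¹ = (s * s) * u * (s * s)⁻¹ := by group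
        _ = u := by rw [htt]; group
    have hinv := hfpf.coe_eq_inv_of_involutive hinvolφ
    have hx : s * x * s⁻¹ = x⁻¹ := by
      have := congrFun hinv ⟨x, ⟨hxa, hxb⟩⟩
      exact congrArg Subtype.val this
    have hsx2 : (s * x) ^ 2 = 1 := by
      rw [hsinv] at hx
      rw [pow_two]
      calc s * x * (s * x) = (s * x * s) * x := by group
        _ = 1 := by rw [hx]; group
    have hsx1 : s * x ≠ 1 := by
      intro h
      have h2 : (s * x) • a₀ = a₀ := by rw [h, one_smul]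
      rw [mul_smul, hxa, hsa] at h2
      exact hab₀ h2.symm
    have h1 := hinvol _ hsx1 hsx2
    have h2 := hinvol _ hs1 hs2
    have : x = s⁻¹ * (s * x) := by group
    rw [this]
    exact N.mul_mem (N.inv_mem h2) h1
  obtain ⟨F, h1, h2, h3, h4⟩ := hker a₀ b₀ hab₀
  haveI := Fintype.ofFinite G
  have hstab : ∀ g : G, g • a₀ = a₀ → g ∈ N := by
    intro g hg
    obtain ⟨u, hu, x, hxa, hxb, rfl⟩ := exists_kernel_mul hab₀ h1 h2 h3 hg
    exact N.mul_mem (h4 hu) (hE x hxa hxb)
  rw [eq_top_iff]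
  intro g _
  obtain ⟨w, hw, hwa⟩ := zsub_trans hZ N hNn hbot a₀ (g • a₀)
  have : w⁻¹ * g ∈ N := hstab _ (by rw [mul_smul, ← hwa, inv_smul_smul])
  have h5 : g = w * (w⁻¹ * g) := by group
  rw [h5]
  exact N.mul_mem hw this

end Cfsg.Agent.Lib.Perm
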