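import Mathlib
import Cfsg.Agent.Lib.Perm.ZSimple
import Cfsg.Agent.Lib.Perm.ZNFinal
import Cfsg.Agent.Lib.Perm.Sharp3

/-!
Zassenhaus groups with an abelian two-group as a kernel: the equation `(v u₀)³ = 1`.
-/

set_option autoImplicit false
set_option linter.style.haveILetI false

namespace Cfsg.Agent.Lib.Perm

open MulAction Cfsg Cfsg.Agent.Lib.Char Cfsg.Agent.Lib.Char.Zass

universe u v

variable {G : Type u} {Ω : Type v} [Group G] [MulAction G Ω]

/-- The structure equation of a Zassenhaus group whose kernel is an abelian two-group. -/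
theorem z2_main [Finite G] [Finite Ω] (hZ : IsZassenhausGroup G Ω) {a : Ω}
    (U : Subgroup G) (hUle : U ≤ stabilizer G a)
    (hUn : ∀ h ∈ stabilizer G a, ∀ u ∈ U, h * u * h⁻¹ ∈ U)
    (hreg : ∀ c d : Ω, c ≠ a → d ≠ a → ∃! u : U, (u : G) • c = d)
    (hU2 : IsPGroup 2 U) (hUab : ∀ u ∈ U, ∀ u' ∈ U, u * u' = u' * u)
    (v : G) (hv1 : v ≠ 1) (hv2 : v * v = 1) (hva : v • a ≠ a) :
    ∃! u₀ : G, u₀ ∈ U ∧ u₀ ≠ 1 ∧ v * u₀ * v = u₀ * v * u₀ := by
  classical
  haveI := Fintype.ofFinite Ω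
  set b := v • a with hb
  have hab : a ≠ b := hva.symm
  have hvb : v • b = a := by
    rw [hb, ← mul_smul, hv2, one_smul]
  have hFfix : ∀ u ∈ U, u ≠ 1 → ∀ c : Ω, u • c = c → c = a := by
    intro u hu hu1 c hc
    by_contra hca
    obtain ⟨w, -, hw⟩ := hreg c c hca hca
    have h1 := hw ⟨u, hu⟩ hc
    have h2 := hw 1 (by simp)
    apply hu1
    have := h1.trans h2.symm
    exact congrArg Subtype.val this
  have hcard : Nat.card U + 1 = Fintype.card Ω := by
    have hne : ∀ u : U, (u : G) • b ≠ a := by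
      intro u h
      have h8 : (u : G) • a = a := hUle u.2
      exact hab ((smul_left_cancel (u : G) (h.trans h8.symm))).symm
    let φ : U → {x : Ω // x ≠ a} := fun u => ⟨(u : G) • b, hne u⟩
    have hbij : Function.Bijective φ := by
      constructor
      · intro u w huw
        have h1 : (u : G) • b = (w : G) • b := congrArg Subtype.val huw
        obtain ⟨x, -, hx⟩ := hreg b ((w : G) • b) hab.symm (hne w)
        exact (hx u h1).trans (hx w rfl).symm
      · rintro ⟨c, hc⟩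
        obtain ⟨x, hx, -⟩ := hreg b c hab.symm hc
        exact ⟨x, Subtype.ext hx⟩
    have hc2 : Nat.card U = Nat.card {x : Ω // x ≠ a} := Nat.card_congr (Equiv.ofBijective φ hbij)
    rw [hc2, Nat.card_eq_fintype_card, Fintype.card_subtype_compl, Fintype.card_subtype_eq]
    have : 0 < Fintype.card Ω := Fintype.card_pos_iff.mpr ⟨a⟩
    omega
  obtain ⟨c₀, hc₀a, hc₀b⟩ := Zass.exists_third hZ hab
  have hΩ3 : 3 ≤ Fintype.card Ω := by
    have : ({a, b, c₀} : Finset Ω).card ≤ Fintype.card Ω := Finset.card_le_univ _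
    rw [Finset.card_eq_three.mpr ⟨a, b, c₀, hab, hc₀a.symm, hc₀b.symm, rfl⟩] at this
    exact this
  have hUeven : Even (Nat.card U) := by
    obtain ⟨k, hk⟩ := IsPGroup.iff_card.mp hU2
    have hk0 : k ≠ 0 := by
      rintro rfl
      rw [pow_zero] at hk
      omega
    rw [hk]
    exact (Nat.even_pow.mpr ⟨even_two, hk0⟩)
  have hΩodd : Odd (Fintype.card Ω) := by
    rw [← hcard]
    exact hUeven.add_one
  have hdodd := zsimp_dodd hZ hΩodd hab
  obtain ⟨-, hnum⟩ := zt_numeric hZ hab hcard hUle hFfix hUab hdodd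
  have hd1 : Nat.card U - 1 = Nat.card ↥(stabilizer G a ⊓ stabilizer G b) := by
    rcases hnum with h | h
    · exact h
    · exfalso
      obtain ⟨m, hm⟩ := hUeven
      have hpos : 0 < Nat.card ↥(stabilizer G a ⊓ stabilizer G b) := Nat.card_pos
      omega
  have hd2 : Nat.card ↥(stabilizer G a ⊓ stabilizer G b) + 2 = Fintype.card Ω := by
    omega
  obtain ⟨h3t, -⟩ := zt_sharp3 hZ hab hd2
  have hconj : ∀ u ∈ U, ∀ w ∈ U, u ≠ 1 → w ≠ 1 → ∃ x : G, x • a = a ∧ x * u * x⁻¹ = w := by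
    intro u hu w hw hu1 hw1
    have hub1 : u • b ≠ b := fun h => hab (hFfix u hu hu1 b h).symm
    have hub2 : u • b ≠ a := by
      intro h
      have h8 : u • a = a := hUle hu
      exact hab ((smul_left_cancel u (h.trans h8.symm))).symm
    have hwb1 : w • b ≠ b := fun h => hab (hFfix w hw hw1 b h).symm
    have hwb2 : w • b ≠ a := by
      intro h
      have h8 : w • a = a := hUle hw
      exact hab ((smul_left_cancel w (h.trans h8.symm))).symm
    obtain ⟨x, hx⟩ := h3t.exists_smul_eq (Cfsg.Agent.Lib.Perm.mk3 a b (u • b) hab hub2.symm hub1.symm)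
      (Cfsg.Agent.Lib.Perm.mk3 a b (w • b) hab hwb2.symm hwb1.symm)
    have hx0 : x • a = a := congrArg (fun f : Fin 3 ↪ Ω => f 0) hx
    have hx1 : x • b = b := congrArg (fun f : Fin 3 ↪ Ω => f 1) hx
    have hx2 : x • (u • b) = w • b := congrArg (fun f : Fin 3 ↪ Ω => f 2) hx
    refine ⟨x, hx0, ?_⟩
    have hm := hUn x hx0 u hu
    obtain ⟨y, -, hy⟩ := hreg b (w • b) hab.symm hwb2
    have h1 := hy ⟨x * u * x⁻¹, hm⟩ (by
      change (x * u * x⁻¹) • b = w • b
      have : x⁻¹ • b = b := by rw [inv_smul_eq_iff, hx1]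
      rw [mul_smul, mul_smul, this, hx2])
    have h2 := hy ⟨w, hw⟩ rfl
    exact congrArg Subtype.val (h1.trans h2.symm)
  have hexp : ∀ u ∈ U, u * u = 1 := by
    intro u hu
    by_cases hu1 : u = 1
    · rw [hu1, one_mul]
    obtain ⟨t', ht'⟩ := exists_prime_orderOf_dvd_card' (G := U) (p := 2) (hp := ⟨Nat.prime_two⟩)
      hUeven.two_dvd
    have hto : orderOf (t' : G) = 2 := by rw [Subgroup.orderOf_coe]; exact ht'
    have ht1 : (t' : G) ≠ 1 := by
      intro h
      rw [h, orderOf_one] at hto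
      omega
    obtain ⟨x, -, hx⟩ := hconj _ t'.2 u hu ht1 hu1
    have h2 : (t' : G) * (t' : G) = 1 := by
      rw [← pow_two, ← hto]
      exact pow_orderOf_eq_one _
    rw [← hx]
    calc x * t' * x⁻¹ * (x * t' * x⁻¹) = x * ((t' : G) * t') * x⁻¹ := by group
      _ = 1 := by rw [h2]; group
  have hv2' : v ^ 2 = 1 := by rw [pow_two, hv2]
  obtain ⟨c, hc, hcu⟩ := zsimp_one_fixed hZ hΩodd hv1 hv2'
  have hca : c ≠ a := by
    rintro rfl
    exact hva hc
  have hcb : c ≠ b := by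
    intro h
    apply hab
    have h2 : v • b = b := by rw [h] at hc; exact hc
    rw [← hvb, h2]
  have hvinv : v⁻¹ = v := inv_eq_of_mul_eq_one_left hv2
  obtain ⟨u₀', hu₀c, hu₀uniq⟩ := hreg b c hab.symm hca
  set u₀ : G := (u₀' : G) with hu₀def
  have hu₀U : u₀ ∈ U := u₀'.2
  have hu₀inv : u₀⁻¹ = u₀ := inv_eq_of_mul_eq_one_left (hexp u₀ hu₀U)
  have hu₀a : u₀ • a = a := hUle hu₀U
  have hu₀c2 : u₀ • c = b := by
    rw [← hu₀c, ← mul_smul, hexp u₀ hu₀U, one_smul]
  refine ⟨u₀, ⟨hu₀U, ?_, ?_⟩, ?_⟩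
  · intro h
    rw [h, one_smul] at hu₀c
    exact hcb hu₀c.symm
  · have hg3 : (v * u₀) * (v * u₀) * (v * u₀) = 1 := by
      have e1 : (v * u₀) • a = b := by rw [mul_smul, hu₀a]
      have e2 : (v * u₀) • b = c := by rw [mul_smul, hu₀c, hc]
      have e3 : (v * u₀) • c = a := by rw [mul_smul, hu₀c2, hvb]
      apply Zass.eq_one_of_three hZ hab hcb.symm hca.symm
      · rw [mul_smul, mul_smul, e1, e2, e3]
      · rw [mul_smul, mul_smul, e2, e3, e1]
      · rw [mul_smul, mul_smul, e3, e1, e2]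
    have h1 : (v * u₀ * v) * (u₀ * v * u₀) = 1 := by
      calc (v * u₀ * v) * (u₀ * v * u₀) = (v * u₀) * (v * u₀) * (v * u₀) := by group
        _ = 1 := hg3
    have h2 : v * u₀ * v = (u₀ * v * u₀)⁻¹ := eq_inv_of_mul_eq_one_left h1
    rw [h2]
    simp [mul_inv_rev, hvinv, hu₀inv, mul_assoc]
  · rintro w ⟨hwU, hw1, hw⟩
    have hwa : w • a = a := hUle hwU
    have h1 : v • (w • b) = w • b := by
      have h2 : (v * w * v) • a = (w * v * w) • a := by rw [hw]
      simp only [mul_smul, hwa] at h2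
      exact h2
    have h2 : w • b = c := hcu _ h1
    exact congrArg Subtype.val (hu₀uniq ⟨w, hwU⟩ h2)

end Cfsg.Agent.Lib.Perm
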