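import Mathlib
import Cfsg.Agent.Lib.Perm.RegSharp
import Cfsg.Agent.Lib.Perm.ZFZass

/-!
A sharply triply transitive group of even degree has a subgroup of index two.
-/

set_option autoImplicit false
set_option linter.style.haveILetI false

namespace Cfsg.Agent.Lib.Perm

open MulAction

universe u v

/-- The sign of an involution. -/
lemma zx_sign_of_invol {α : Type*} [Fintype α] [DecidableEq α] (τ : Equiv.Perm α) (h : τ ^ 2 = 1)
    (h1 : τ ≠ 1) (k : ℕ) (hk : τ.support.card = 2 * k) : Equiv.Perm.sign τ = (-1) ^ k := by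
  have ho : orderOf τ = 2 := orderOf_eq_prime h h1
  obtain ⟨n, hn⟩ := Equiv.Perm.cycleType_prime_order (σ := τ) (by rw [ho]; exact Nat.prime_two)
  have hs := Equiv.Perm.sum_cycleType τ
  rw [hn, ho, Multiset.sum_replicate, smul_eq_mul, hk] at hs
  have hk' : n + 1 = k := by omega
  rw [Equiv.Perm.sign_of_cycleType, hn, ho, hk', Multiset.sum_replicate, Multiset.card_replicate,
    smul_eq_mul, pow_add, mul_comm k 2, pow_mul]
  simp

variable {G : Type u} {Ω : Type v} [Group G] [Finite G] [MulAction G Ω] [Fintype Ω] [DecidableEq Ω]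

/-- If the involutions of the two-point stabilisers are odd permutations, there is a subgroup of
index two. -/
theorem zx_index_two_sign (hS : Sh3 G Ω) {a b c : Ω} (hab : a ≠ b) {z : G} (hz1 : z ≠ 1)
    (hz2 : z ^ 2 = 1) (hza : z • a = a) (hzb : z • b = b) (k : ℕ)
    (hk : Fintype.card Ω = 2 * k + 2) (hko : Odd k) : ∃ L : Subgroup G, L.index = 2 := by
  classical
  let θ : G →* ℤˣ := (Equiv.Perm.sign).comp (MulAction.toPermHom G Ω)
  have hsupp : (MulAction.toPermHom G Ω z).support = (Finset.univ.erase a).erase b := by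
    ext x
    simp only [Equiv.Perm.mem_support, Finset.mem_erase, Finset.mem_univ, and_true]
    constructor
    · intro h
      refine ⟨?_, ?_⟩
      · rintro rfl
        exact h hzb
      · rintro rfl
        exact h hza
    · rintro ⟨h1, h2⟩ h
      exact hz1 (hS.fix z a b x hab (Ne.symm h2) (Ne.symm h1) hza hzb h)
  have hcard : (MulAction.toPermHom G Ω z).support.card = 2 * k := by
    rw [hsupp, Finset.card_erase_of_mem (by simp [hab.symm]), Finset.card_erase_of_mem (by simp),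
      Finset.card_univ, hk]
    omega
  have hne : MulAction.toPermHom G Ω z ≠ 1 := by
    intro h
    have h2 : ∀ x : Ω, z • x = x := fun x => congrArg (fun g : Equiv.Perm Ω => g x) h
    obtain ⟨x, hx⟩ : ∃ x : Ω, x ≠ a ∧ x ≠ b := by
      by_contra hcon
      push Not at hcon
      have hl : Fintype.card Ω ≤ 2 := by
        have : (Finset.univ : Finset Ω) ⊆ {a, b} := by
          intro x _
          by_cases hxa : x = a
          · simp [hxa]
          · simp [hcon x hxa]
        calc Fintype.card Ω = (Finset.univ : Finset Ω).card := rfl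
          _ ≤ ({a, b} : Finset Ω).card := Finset.card_le_card this
          _ ≤ 2 := Finset.card_le_two
      obtain ⟨m, hm⟩ := hko
      omega
    exact hz1 (hS.fix z a b x hab (Ne.symm hx.1) (Ne.symm hx.2) hza hzb (h2 x))
  have hθz : θ z = -1 := by
    change Equiv.Perm.sign (MulAction.toPermHom G Ω z) = -1
    rw [zx_sign_of_invol _ (by rw [← map_pow, hz2, map_one]) hne k hcard, hko.neg_one_pow]
  have hsurj : Function.Surjective θ := by
    intro u
    rcases Int.units_eq_one_or u with rfl | rfl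
    · exact ⟨1, map_one θ⟩
    · exact ⟨z, hθz⟩
  refine ⟨θ.ker, ?_⟩
  rw [Subgroup.index_ker, MonoidHom.range_eq_top.mpr hsurj, Subgroup.card_top, Nat.card_eq_fintype_card]
  rfl

/-- The element `s u s` for `u` in the kernel: the `E`-part lies in the invariant subgroup of index
two containing the involution. -/
theorem zx_key (hS : Sh3 G Ω) {a b c : Ω} (hab : a ≠ b) (hac : a ≠ c) (hbc : b ≠ c)
    {F N : Subgroup G}
    (hFa : ∀ u ∈ F, u • a = a) (hFn : ∀ g : G, g • a = a → ∀ u ∈ F, g * u * g⁻¹ ∈ F)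
    (hFreg : ∀ y z : Ω, y ≠ a → z ≠ a → ∃! u : F, (u : G) • y = z)
    {s z : G} (hsa : s • a = b) (hsb : s • b = a) (hss : s * s = 1)
    (hzN : z ∈ N) (hzi : ∀ u ∈ F, z * u * z⁻¹ = u⁻¹) (hzs : s * z = z * s) (hza : z • a = a) (hzb : z • b = b)
    (hNmul : ∀ k : G, k • a = a → k • b = b → s * k * s⁻¹ * k⁻¹ ∈ N)
    {u : G} (hu : u ∈ F) (hu1 : u ≠ 1)
    {u₁ u₂ e : G} (hu₁ : u₁ ∈ F) (hu₂ : u₂ ∈ F) (hea : e • a = a) (heb : e • b = b)
    (hg : s * u * s = u₁ * e * s * u₂) (hsc : s • c = c) (hNmulN : ∀ x ∈ N, ∀ y ∈ N, x * y ∈ N) :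
    e ∈ N := by
  classical
  have hfree : ∀ r ∈ F, r • b = b → r = 1 := by
    intro r hr hrb
    obtain ⟨x, -, hx⟩ := hFreg b b hab.symm hab.symm
    have h1 := hx ⟨r, hr⟩ hrb
    have h2 := hx 1 (one_smul _ _)
    exact congrArg Subtype.val (h1.trans h2.symm)
  have hne : ∀ r ∈ F, r ≠ 1 → r • b ≠ b ∧ r • b ≠ a := by
    intro r hr hr1
    refine ⟨fun h => hr1 (hfree r hr h), fun h => ?_⟩
    exact hab ((smul_left_cancel r (h.trans (hFa r hr).symm))).symm
  set p := u • b with hp
  obtain ⟨hpb, hpa⟩ := hne u hu hu1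
  have hsinv : s⁻¹ = s := inv_eq_of_mul_eq_one_left hss
  have hssx : ∀ x : Ω, s • (s • x) = x := fun x => by rw [← mul_smul, hss, one_smul]
  -- (1)
  have h1 : u₁ • b = s • p := by
    have e1 : (s * u * s) • a = s • p := by
      simp only [mul_smul]
      rw [hsa]
    have e2 : (u₁ * e * s * u₂) • a = u₁ • b := by
      simp only [mul_smul]
      rw [hFa u₂ hu₂, hsa, heb]
    rw [← e2, ← hg, e1]
  -- (2)
  have hzinvb : u⁻¹ • b = z • p := by
    rw [← hzi u hu]
    simp only [mul_smul]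
    rw [inv_smul_eq_iff.mpr hzb.symm]
  have h2 : u₂⁻¹ • b = z • (s • p) := by
    have e1 : (s * u * s)⁻¹ • a = s • (u⁻¹ • b) := by
      have : (s * u * s)⁻¹ = s * u⁻¹ * s := by
        rw [mul_inv_rev, mul_inv_rev, hsinv]
        group
      rw [this]
      simp only [mul_smul]
      rw [hsa]
    have e2 : (u₁ * e * s * u₂)⁻¹ • a = u₂⁻¹ • b := by
      have : (u₁ * e * s * u₂)⁻¹ = u₂⁻¹ * s * e⁻¹ * u₁⁻¹ := by
        rw [mul_inv_rev, mul_inv_rev, mul_inv_rev, hsinv]
        group
      rw [this]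
      simp only [mul_smul]
      rw [inv_smul_eq_iff.mpr (hFa u₁ hu₁).symm, inv_smul_eq_iff.mpr hea.symm, hsa]
    rw [← e2, ← hg, e1, hzinvb, ← mul_smul, hzs, mul_smul]
  have h3 : z • (u₁ • b) = u₁⁻¹ • b := by
    rw [← hzi u₁ hu₁]
    simp only [mul_smul]
    rw [inv_smul_eq_iff.mpr hzb.symm]
  have hu₂eq : u₂ = u₁ := by
    have h4 : u₂⁻¹ • b = u₁⁻¹ • b := by rw [h2, ← h1, h3]
    have hne' : u₁⁻¹ • b ≠ a := by
      intro h
      apply hab
      have h5 : u₁⁻¹ • a = a := by rw [inv_smul_eq_iff]; exact (hFa u₁ hu₁).symm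
      exact (smul_left_cancel _ (h.trans h5.symm)).symm
    obtain ⟨x, -, hx⟩ := hFreg b (u₁⁻¹ • b) hab.symm hne'
    have e3 := hx ⟨u₂⁻¹, F.inv_mem hu₂⟩ h4
    have e4 := hx ⟨u₁⁻¹, F.inv_mem hu₁⟩ rfl
    have e5 : u₂⁻¹ = u₁⁻¹ := congrArg Subtype.val (e3.trans e4.symm)
    exact inv_injective e5
  -- (3)
  have h4 : e • p = z • (s • p) := by
    have e1 : (s * u * s) • b = b := by
      simp only [mul_smul]
      rw [hsb, hFa u hu, hsa]
    have e2 : (u₁ * e * s * u₂) • b = u₁ • (e • p) := by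
      simp only [mul_smul]
      rw [hu₂eq, h1, hssx]
    rw [hg, e2] at e1
    rw [← h1, h3]
    exact eq_inv_smul_iff.mpr e1
  -- (4)
  obtain ⟨k, hka, hkb, hkc⟩ := hS.trans a b c a b p hab hac hbc hab hpa.symm hpb.symm
  have h5 : s • p = (s * k * s⁻¹) • c := by
    rw [← hkc]
    simp only [mul_smul]
    rw [inv_smul_eq_iff.mpr hsc.symm]
  have h6 : e * k = z * (s * k * s⁻¹) := by
    have hx : (z * (s * k * s⁻¹))⁻¹ * (e * k) = 1 := by
      apply hS.fix _ a b c hab hac hbc
      · have e1 : (s * k * s⁻¹) • a = a := by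
          rw [hsinv]
          simp only [mul_smul]
          rw [hsa, hkb, hsb]
        rw [mul_smul, mul_smul, hka, hea, inv_smul_eq_iff, mul_smul, e1, hza]
      · have e1 : (s * k * s⁻¹) • b = b := by
          rw [hsinv]
          simp only [mul_smul]
          rw [hsb, hka, hsa]
        rw [mul_smul, mul_smul, hkb, heb, inv_smul_eq_iff, mul_smul, e1, hzb]
      · rw [mul_smul, mul_smul, hkc, h4, inv_smul_eq_iff, h5]
        simp only [mul_smul]
    exact (inv_mul_eq_one.mp hx).symm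
  have h7 : e = z * (s * k * s⁻¹ * k⁻¹) := by
    have : e = e * k * k⁻¹ := by group
    rw [this, h6]
    group
  rw [h7]
  exact hNmulN _ hzN _ (hNmul k hka hkb)

/-- The case with the involution in the invariant subgroup of index two. -/
theorem zx_index_two_inv (hS : Sh3 G Ω) {a b c : Ω} (hab : a ≠ b) (hac : a ≠ c) (hbc : b ≠ c)
    {F N : Subgroup G}
    (hFa : ∀ u ∈ F, u • a = a) (hFn : ∀ g : G, g • a = a → ∀ u ∈ F, g * u * g⁻¹ ∈ F)
    (hFreg : ∀ y z : Ω, y ≠ a → z ≠ a → ∃! u : F, (u : G) • y = z)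
    {s z : G} (hsa : s • a = b) (hsb : s • b = a) (hss : s * s = 1)
    (hzN : z ∈ N) (hzi : ∀ u ∈ F, z * u * z⁻¹ = u⁻¹) (hzs : s * z = z * s) (hza : z • a = a)
    (hzb : z • b = b) (hsc : s • c = c)
    (hNE : N ≤ stabilizer G a ⊓ stabilizer G b)
    (hNi : (N.subgroupOf (stabilizer G a ⊓ stabilizer G b)).index = 2)
    (hNs : ∀ n ∈ N, s * n * s⁻¹ ∈ N) : ∃ L : Subgroup G, L.index = 2 := by
  classical
  set E : Subgroup G := stabilizer G a ⊓ stabilizer G b with hE
  have hsinv : s⁻¹ = s := inv_eq_of_mul_eq_one_left hss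
  have hEmem : ∀ x : G, x ∈ E ↔ x • a = a ∧ x • b = b := fun x => Iff.rfl
  have hNmem : ∀ x : E, x ∈ N.subgroupOf E ↔ (x : G) ∈ N := fun x => Subgroup.mem_subgroupOf
  -- multiplication modulo `N`
  have hmulN : ∀ x ∈ E, ∀ y ∈ E, x * y ∈ N ↔ (x ∈ N ↔ y ∈ N) := by
    intro x hx y hy
    have := Subgroup.mul_mem_iff_of_index_two (H := N.subgroupOf E) hNi (a := ⟨x, hx⟩) (b := ⟨y, hy⟩)
    simpa [hNmem] using this
  have hNnE : ∀ x ∈ E, ∀ n ∈ N, x * n * x⁻¹ ∈ N := by
    intro x hx n hn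
    have hn' := Subgroup.normal_of_index_eq_two hNi
    have := hn'.conj_mem ⟨n, hNE hn⟩ ((hNmem _).mpr hn) ⟨x, hx⟩
    exact (hNmem _).mp this
  have hsE : ∀ x ∈ E, s * x * s⁻¹ ∈ E := by
    rintro u ⟨h1, h2⟩
    have h1' : u • a = a := h1
    have h2' : u • b = b := h2
    constructor
    · change (s * u * s⁻¹) • a = a
      rw [hsinv, mul_smul, mul_smul, hsa, h2', hsb]
    · change (s * u * s⁻¹) • b = b
      rw [hsinv, mul_smul, mul_smul, hsb, h1', hsa]
  have hsN : ∀ x ∈ E, s * x * s⁻¹ ∈ N ↔ x ∈ N := by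
    intro x hx
    refine ⟨fun h => ?_, hNs x⟩
    have h1 := hNs _ h
    have h2 : s * (s * x * s⁻¹) * s⁻¹ = (s * s) * x * (s * s)⁻¹ := by group
    rw [h2, hss] at h1
    simpa using h1
  have hNmul : ∀ k : G, k • a = a → k • b = b → s * k * s⁻¹ * k⁻¹ ∈ N := by
    intro k hka hkb
    have hkE : k ∈ E := ⟨hka, hkb⟩
    rw [hmulN _ (hsE k hkE) _ (E.inv_mem hkE), hsN k hkE, inv_mem_iff]
  -- Bruhat
  have hBstab : ∀ g : G, g • a = a → ∃ u ∈ F, ∃ e ∈ E, g = u * e := by
    intro g hg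
    have hgb : g • b ≠ a := by
      intro h
      exact hab ((smul_left_cancel g (h.trans hg.symm))).symm
    obtain ⟨u, hu, -⟩ := hFreg b (g • b) hab.symm hgb
    refine ⟨u, u.2, (u : G)⁻¹ * g, ?_, by group⟩
    constructor
    · change ((u : G)⁻¹ * g) • a = a
      rw [mul_smul, hg, inv_smul_eq_iff]
      exact (hFa u u.2).symm
    · change ((u : G)⁻¹ * g) • b = b
      rw [mul_smul, inv_smul_eq_iff]
      exact hu.symm
  have hBrest : ∀ g : G, g • a ≠ a → ∃ u ∈ F, ∃ e ∈ E, ∃ u' ∈ F, g = u * e * s * u' := by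
    intro g hg
    have hy : g⁻¹ • a ≠ a := by
      intro h
      apply hg
      rw [inv_smul_eq_iff] at h
      exact h.symm
    obtain ⟨u', hu', -⟩ := hFreg (g⁻¹ • a) b hy hab.symm
    have h1 : (g * (u' : G)⁻¹ * s⁻¹) • a = a := by
      rw [hsinv, mul_smul, mul_smul, hsa, ← hu', inv_smul_smul, smul_inv_smul]
    obtain ⟨u, hu, e, he, hue⟩ := hBstab _ h1
    refine ⟨u, hu, e, he, u', u'.2, ?_⟩
    rw [← hue]
    group
  -- the key relation
  have hkey : ∀ u ∈ F, u ≠ 1 → ∃ u₁ ∈ F, ∃ h ∈ N, ∃ u₂ ∈ F, s * u * s = u₁ * h * s * u₂ := by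
    intro u hu hu1
    have hne : (s * u * s) • a ≠ a := by
      simp only [mul_smul]
      rw [hsa]
      intro h
      have hub : u • b = b := by
        apply smul_left_cancel s
        rw [h, hsb]
      obtain ⟨x, -, hx⟩ := hFreg b b hab.symm hab.symm
      have h1 := hx ⟨u, hu⟩ hub
      have h2 := hx 1 (one_smul _ _)
      exact hu1 (congrArg Subtype.val (h1.trans h2.symm))
    obtain ⟨u₁, hu₁, e, he, u₂, hu₂, hg⟩ := hBrest _ hne
    refine ⟨u₁, hu₁, e, ?_, u₂, hu₂, hg⟩
    exact zx_key hS hab hac hbc hFa hFn hFreg hsa hsb hss hzN hzi hzs hza hzb hNmul hu hu1 hu₁ hu₂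
      he.1 he.2 hg hsc (fun x hx y hy => N.mul_mem hx hy)
  -- the subgroup
  have hNF : ∀ n ∈ N, ∀ t ∈ F, n * t * n⁻¹ ∈ F := fun n hn t ht => hFn n (hNE hn).1 t ht
  have hNF' : ∀ n ∈ N, ∀ t ∈ F, n⁻¹ * t * n ∈ F := fun n hn t ht => by
    have := hNF n⁻¹ (N.inv_mem hn) t ht
    simpa using this
  let P : G → Prop := fun g => (∃ u ∈ F, ∃ n ∈ N, g = u * n) ∨
    (∃ u ∈ F, ∃ n ∈ N, ∃ u' ∈ F, g = u * n * s * u')
  have hrF : ∀ g, P g → ∀ t ∈ F, P (g * t) := by
    rintro g (⟨u, hu, n, hn, rfl⟩ | ⟨u, hu, n, hn, u', hu', rfl⟩) t ht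
    · left
      refine ⟨u * (n * t * n⁻¹), F.mul_mem hu (hNF n hn t ht), n, hn, by group⟩
    · right
      exact ⟨u, hu, n, hn, u' * t, F.mul_mem hu' ht, by group⟩
  have hrN : ∀ g, P g → ∀ t ∈ N, P (g * t) := by
    rintro g (⟨u, hu, n, hn, rfl⟩ | ⟨u, hu, n, hn, u', hu', rfl⟩) t ht
    · left
      exact ⟨u, hu, n * t, N.mul_mem hn ht, by group⟩
    · right
      refine ⟨u, hu, n * (s * t * s⁻¹), N.mul_mem hn (hNs t ht), t⁻¹ * u' * t, hNF' t ht u' hu', ?_⟩
      group
  have hrs : ∀ g, P g → P (g * s) := by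
    rintro g (⟨u, hu, n, hn, rfl⟩ | ⟨u, hu, n, hn, u', hu', rfl⟩)
    · right
      exact ⟨u, hu, n, hn, 1, F.one_mem, by group⟩
    · by_cases hu'1 : u' = 1
      · left
        refine ⟨u, hu, n, hn, ?_⟩
        rw [hu'1, mul_one, mul_assoc, hss, mul_one]
      · right
        obtain ⟨u₁, hu₁, h, hh, u₂, hu₂, hrel⟩ := hkey u' hu' hu'1
        refine ⟨u * (n * u₁ * n⁻¹), F.mul_mem hu (hNF n hn u₁ hu₁), n * h, N.mul_mem hn hh, u₂, hu₂, ?_⟩
        calc u * n * s * u' * s = u * n * (s * u' * s) := by group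
          _ = u * n * (u₁ * h * s * u₂) := by rw [hrel]
          _ = _ := by group
  have hmem₁ : ∀ u ∈ F, ∀ n ∈ N, ∀ g, P g → P (g * (u * n)) := by
    intro u hu n hn g hg
    have := hrN _ (hrF g hg u hu) n hn
    rwa [mul_assoc] at this
  let L : Subgroup G :=
    { carrier := {g | P g}
      one_mem' := Or.inl ⟨1, F.one_mem, 1, N.one_mem, by group⟩
      mul_mem' := by
        rintro x y hx (⟨u, hu, n, hn, rfl⟩ | ⟨u, hu, n, hn, u', hu', rfl⟩)
        · exact hmem₁ u hu n hn x hx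
        · have := hrF _ (hrs _ (hmem₁ u hu n hn x hx)) u' hu'
          have e : x * (u * n * s * u') = x * (u * n) * s * u' := by group
          change P _
          rw [e]
          exact this
      inv_mem' := by
        rintro g (⟨u, hu, n, hn, rfl⟩ | ⟨u, hu, n, hn, u', hu', rfl⟩)
        · left
          refine ⟨n⁻¹ * u⁻¹ * n, hNF' n hn _ (F.inv_mem hu), n⁻¹, N.inv_mem hn, by group⟩
        · right
          refine ⟨u'⁻¹, F.inv_mem hu', s * n⁻¹ * s⁻¹, hNs _ (N.inv_mem hn), u⁻¹, F.inv_mem hu, ?_⟩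
          rw [hsinv]
          calc (u * n * s * u')⁻¹ = u'⁻¹ * s⁻¹ * n⁻¹ * u⁻¹ := by group
            _ = u'⁻¹ * (s * n⁻¹ * s) * s * u⁻¹ := by
              rw [hsinv]
              calc u'⁻¹ * s * n⁻¹ * u⁻¹ = u'⁻¹ * s * n⁻¹ * (s * s) * u⁻¹ := by rw [hss, mul_one]
                _ = _ := by group }
  have hLmem : ∀ g, g ∈ L ↔ P g := fun g => Iff.rfl
  obtain ⟨e₀, he₀E, he₀N⟩ : ∃ e₀ ∈ E, e₀ ∉ N := by
    by_contra hcon
    push Not at hcon
    have : N.subgroupOf E = ⊤ := by
      rw [eq_top_iff]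
      intro x _
      exact (hNmem x).mpr (hcon x x.2)
    rw [this, Subgroup.index_top] at hNi
    omega
  have hfree : ∀ r ∈ F, r • b = b → r = 1 := by
    intro r hr hrb
    obtain ⟨x, -, hx⟩ := hFreg b b hab.symm hab.symm
    have h1 := hx ⟨r, hr⟩ hrb
    have h2 := hx 1 (one_smul _ _)
    exact congrArg Subtype.val (h1.trans h2.symm)
  have he₀L : e₀ ∉ L := by
    rw [hLmem]
    rintro (⟨u, hu, n, hn, rfl⟩ | ⟨u, hu, n, hn, u', hu', he⟩)
    · have hub : u • b = b := by
        have h1 : (u * n) • b = b := he₀E.2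
        rw [mul_smul, (hNE hn).2] at h1
        exact h1
      rw [hfree u hu hub, one_mul] at he₀N
      exact he₀N hn
    · have h1 : e₀ • a = a := he₀E.1
      rw [he] at h1
      simp only [mul_smul] at h1
      rw [hFa u' hu', hsa, (hNE hn).2] at h1
      apply hab
      have h2 : u • b = u • a := by rw [h1, hFa u hu]
      exact (smul_left_cancel u h2).symm
  refine ⟨L, ?_⟩
  rw [Subgroup.index_eq_two_iff]
  refine ⟨e₀, fun g => ?_⟩
  have hnotboth : ¬ (g * e₀ ∈ L ∧ g ∈ L) := by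
    rintro ⟨h1, h2⟩
    apply he₀L
    have := L.mul_mem (L.inv_mem h2) h1
    simpa using this
  have hone : g * e₀ ∈ L ∨ g ∈ L := by
    by_cases hga : g • a = a
    · obtain ⟨u, hu, e, he, rfl⟩ := hBstab g hga
      by_cases heN : e ∈ N
      · right
        exact Or.inl ⟨u, hu, e, heN, rfl⟩
      · left
        refine Or.inl ⟨u, hu, e * e₀, ?_, by group⟩
        rw [hmulN e he e₀ he₀E]
        tauto
    · obtain ⟨u, hu, e, he, u', hu', rfl⟩ := hBrest g hga
      by_cases heN : e ∈ N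
      · right
        exact Or.inr ⟨u, hu, e, heN, u', hu', rfl⟩
      · left
        refine Or.inr ⟨u, hu, e * (s * e₀ * s⁻¹), ?_, e₀⁻¹ * u' * e₀, ?_, ?_⟩
        · rw [hmulN e he _ (hsE e₀ he₀E), hsN e₀ he₀E]
          tauto
        · have := hFn e₀⁻¹ (by rw [inv_smul_eq_iff]; exact he₀E.1.symm) u' hu'
          simpa using this
        · group
  rcases hone with h | h
  · exact Or.inl ⟨h, fun h2 => hnotboth ⟨h, h2⟩⟩
  · exact Or.inr ⟨h, fun h2 => hnotboth ⟨h2, h⟩⟩

/-- A sharply triply transitive group of even degree has a subgroup of index two. -/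
theorem zx_has_index_two (hS : Sh3 G Ω) (hfaith : ∀ g : G, (∀ x : Ω, g • x = x) → g = 1)
    (heven : Even (Fintype.card Ω)) (hc3 : 3 ≤ Fintype.card Ω) : ∃ L : Subgroup G, L.index = 2 := by
  classical
  haveI hp2 : Fact (Nat.Prime 2) := ⟨Nat.prime_two⟩
  obtain ⟨a, b, c, hab, hac, hbc⟩ := Fintype.two_lt_card_iff.mp (by omega : 2 < Fintype.card Ω)
  obtain ⟨s, hsa, hsb, hsc⟩ := hS.trans a b c b a c hab hac hbc hab.symm hbc hac
  have hss : s * s = 1 := by
    apply hS.fix _ a b c hab hac hbc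
    · rw [mul_smul, hsa, hsb]
    · rw [mul_smul, hsb, hsa]
    · rw [mul_smul, hsc, hsc]
  have hsinv : s⁻¹ = s := inv_eq_of_mul_eq_one_left hss
  obtain ⟨F, p, j, hp, hj, hcardj, hFa, hFn, hFc, hFp, hFreg⟩ := sh3_kernel hS a hc3
  have hfree : ∀ u ∈ F, u • b = b → u = 1 := by
    intro r hr hrb
    obtain ⟨x, -, hx⟩ := hFreg b b hab.symm hab.symm
    have h1 := hx ⟨r, hr⟩ hrb
    have h2 := hx 1 (one_smul _ _)
    exact congrArg Subtype.val (h1.trans h2.symm)
  let E : Subgroup G := stabilizer G a ⊓ stabilizer G b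
  have hEcard : Nat.card E + 2 = Fintype.card Ω := by
    rw [← zq_card_off hab]
    congr 1
    let φ : E → {y : Ω // y ≠ a ∧ y ≠ b} := fun k =>
      ⟨(k : G) • c, fun h => hac (by
          have h3 : (k : G) • a = a := k.2.1
          exact MulAction.injective (k : G) (h3.trans h.symm)), fun h => hbc (by
          have h3 : (k : G) • b = b := k.2.2
          exact MulAction.injective (k : G) (h3.trans h.symm))⟩
    have hφ : Function.Bijective φ := by
      constructor
      · intro k l hkl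
        have h1 : (k : G) • c = (l : G) • c := congrArg Subtype.val hkl
        have h2 : (l : G)⁻¹ * k = 1 := by
          apply hS.fix _ a b c hab hac hbc
          · rw [mul_smul, show (k : G) • a = a from k.2.1, inv_smul_eq_iff]
            exact (show (l : G) • a = a from l.2.1).symm
          · rw [mul_smul, show (k : G) • b = b from k.2.2, inv_smul_eq_iff]
            exact (show (l : G) • b = b from l.2.2).symm
          · rw [mul_smul, h1, inv_smul_smul]
        exact Subtype.ext (inv_mul_eq_one.mp h2).symm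
      · rintro ⟨y, hya, hyb⟩
        obtain ⟨k, hka, hkb, hkc⟩ := hS.trans a b c a b y hab hac hbc hab hya.symm hyb.symm
        exact ⟨⟨k, hka, hkb⟩, Subtype.ext hkc⟩
    exact Nat.card_congr (Equiv.ofBijective φ hφ)
  obtain ⟨m, hm⟩ := heven
  have hEm : Nat.card E = 2 * (m - 1) := by omega
  have hm2 : 2 ≤ m := by omega
  have hinv : ∀ z ∈ E, z ≠ 1 → z * z = 1 → ∀ u ∈ F, z * u * z⁻¹ = u⁻¹ := fun z hz hz1 hz2 =>
    sh3_invert hS hab hFa hFn hfree hz.1 hz.2 hz1 hz2
  by_cases hk : Odd (m - 1)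
  · obtain ⟨t, ht⟩ := exists_prime_orderOf_dvd_card' (G := E) 2 (by rw [hEm]; exact dvd_mul_right 2 _)
    have hto : orderOf ((t : E) : G) = 2 := by rw [Subgroup.orderOf_coe]; exact ht
    have ht1 : (t : G) ≠ 1 := by
      intro h
      rw [h, orderOf_one] at hto
      omega
    have ht2 : (t : G) ^ 2 = 1 := by rw [← hto]; exact pow_orderOf_eq_one _
    exact zx_index_two_sign (c := c) hS hab ht1 ht2 t.2.1 t.2.2 (m - 1) (by omega) hk
  · have hke : Even (m - 1) := Nat.not_odd_iff_even.mp hk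
    obtain ⟨N, hNE, -, hNi, hNs⟩ := sh3_index_two_s hS hfaith ⟨m, hm⟩ hc3 hab hac hbc s hsa hsb hsc
    have hNi' : (N.subgroupOf E).index = 2 := hNi
    have hNcard : Nat.card N = m - 1 := by
      have h1 := (N.subgroupOf E).card_mul_index
      rw [hNi', hEm, Nat.card_congr (Subgroup.subgroupOfEquivOfLe hNE).toEquiv] at h1
      omega
    obtain ⟨t, ht⟩ := exists_prime_orderOf_dvd_card' (G := N) 2 (by
      rw [hNcard]
      exact hke.two_dvd)
    have hto : orderOf ((t : N) : G) = 2 := by rw [Subgroup.orderOf_coe]; exact ht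
    have ht1 : (t : G) ≠ 1 := by
      intro h
      rw [h, orderOf_one] at hto
      omega
    have ht2 : (t : G) * t = 1 := by rw [← pow_two, ← hto]; exact pow_orderOf_eq_one _
    have htE : (t : G) ∈ E := hNE t.2
    have hzi := hinv _ htE ht1 ht2
    -- the involution commutes with `s`
    have hzs : s * (t : G) = (t : G) * s := by
      set z : G := (t : G) with hz
      let z' : G := s * z * s⁻¹
      have hz'E : z' ∈ E := by
        constructor
        · change (s * z * s⁻¹) • a = a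
          rw [hsinv, mul_smul, mul_smul, hsa, htE.2, hsb]
        · change (s * z * s⁻¹) • b = b
          rw [hsinv, mul_smul, mul_smul, hsb, htE.1, hsa]
      have hz'1 : z' ≠ 1 := by
        intro h
        apply ht1
        have : z = s⁻¹ * z' * s := by simp [z', mul_assoc]
        rw [this, h]
        simp
      have hz'2 : z' * z' = 1 := by
        have : z' * z' = s * (z * z) * s⁻¹ := by
          simp only [z']
          group
        rw [this, ht2]
        simp
      have hzi' := hinv _ hz'E hz'1 hz'2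
      -- a nonidentity element of the kernel
      obtain ⟨d, hda, hdb⟩ : ∃ d : Ω, d ≠ a ∧ d ≠ b := ⟨c, hac.symm, hbc.symm⟩
      obtain ⟨u, hu, -⟩ := hFreg b d hab.symm hda
      have hu1 : (u : G) ≠ 1 := by
        intro h
        rw [h, one_smul] at hu
        exact hdb hu.symm
      have hcomm : (z' * z) * u = u * (z' * z) := by
        have e1 : z * u = (u : G)⁻¹ * z := by
          have := hzi u u.2
          calc z * u = (z * u * z⁻¹) * z := by group
            _ = _ := by rw [this]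
        have e2 : z' * (u : G)⁻¹ = u * z' := by
          have h3 : z' * (u : G) * z'⁻¹ = (u : G)⁻¹ := hzi' u u.2
          have h6 : z' * (u : G)⁻¹ * z'⁻¹ = u := by
            have : z' * (u : G)⁻¹ * z'⁻¹ = (z' * u * z'⁻¹)⁻¹ := by group
            rw [this, h3, inv_inv]
          calc z' * (u : G)⁻¹ = (z' * (u : G)⁻¹ * z'⁻¹) * z' := by group
            _ = u * z' := by rw [h6]
        calc (z' * z) * u = z' * (z * u) := by group
          _ = z' * ((u : G)⁻¹ * z) := by rw [e1]
          _ = (z' * (u : G)⁻¹) * z := by group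
          _ = (u * z') * z := by rw [e2]
          _ = u * (z' * z) := by group
      have hx1 : z' * z = 1 := by
        apply hS.fix _ a b d hab hda.symm hdb.symm
        · rw [mul_smul, show z • a = a from htE.1, show z' • a = a from hz'E.1]
        · rw [mul_smul, show z • b = b from htE.2, show z' • b = b from hz'E.2]
        · rw [← hu, ← mul_smul, hcomm, mul_smul, mul_smul, show z • b = b from htE.2,
            show z' • b = b from hz'E.2]
      have hzz : z' = z := by
        have hzinv : z⁻¹ = z := inv_eq_of_mul_eq_one_left ht2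
        have := eq_inv_of_mul_eq_one_left hx1
        rwa [hzinv] at this
      calc s * z = (s * z * s⁻¹) * s := by group
        _ = z * s := by rw [show s * z * s⁻¹ = z from hzz]
    exact zx_index_two_inv hS hab hac hbc hFa hFn hFreg hsa hsb hss t.2 hzi hzs htE.1 htE.2 hsc hNE hNi' hNs

end Cfsg.Agent.Lib.Perm
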