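import Mathlib
import Cfsg.Agent.Lib.Perm.ZSharpIdx
import Cfsg.Agent.Lib.Perm.ZFEven
import Cfsg.Agent.Lib.Perm.ZNFinal
import Cfsg.Agent.Lib.Perm.ZSimple

/-!
Simple Zassenhaus groups: two-point stabilisers of even order, and cyclicity of two-point stabilisers.
-/

set_option autoImplicit false
set_option linter.style.haveILetI false

namespace Cfsg.Agent.Lib.Perm

open MulAction Cfsg Cfsg.Agent.Lib.Char Cfsg.Agent.Lib.Char.Zass OnePoint

universe u v

variable {G : Type u} {Ω : Type v} [Group G] [Finite G] [MulAction G Ω] [Fintype Ω]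

/-- A simple Zassenhaus group with two-point stabilisers of even order is not sharply triply
transitive. -/
theorem zfin_not_sharp (hZ : IsZassenhausGroup G Ω) [IsSimpleGroup G] {a b : Ω} (hab : a ≠ b)
    (heven : Even (Nat.card ↥(stabilizer G a ⊓ stabilizer G b)))
    (hd : Nat.card ↥(stabilizer G a ⊓ stabilizer G b) + 2 = Fintype.card Ω) : False := by
  classical
  obtain ⟨h3t, hsh⟩ := zt_sharp3 hZ hab hd
  haveI := hZ.1
  have hS : Sh3 G Ω := by
    constructor
    · intro a b c a' b' c' hab hac hbc hab' hac' hbc'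
      obtain ⟨g, hg⟩ := h3t.exists_smul_eq (mk3 a b c hab hac hbc) (mk3 a' b' c' hab' hac' hbc')
      exact ⟨g, congrArg (fun f : Fin 3 ↪ Ω => f 0) hg, congrArg (fun f : Fin 3 ↪ Ω => f 1) hg,
        congrArg (fun f : Fin 3 ↪ Ω => f 2) hg⟩
    · intro g a b c hab hac hbc h1 h2 h3
      exact hZ.2.2.1 g a b c hab hbc hac h1 h2 h3
  have hfaith : ∀ g : G, (∀ x : Ω, g • x = x) → g = 1 := by
    intro g hg
    apply FaithfulSMul.eq_of_smul_eq_smul (α := Ω)
    intro x
    rw [one_smul]
    exact hg x
  have hΩeven : Even (Fintype.card Ω) := by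
    rw [← hd]
    exact heven.add (by decide)
  obtain ⟨c, hca, hcb⟩ := Zass.exists_third hZ hab
  have hΩ3 : 3 ≤ Fintype.card Ω := by
    have : ({a, b, c} : Finset Ω).card ≤ Fintype.card Ω := Finset.card_le_univ _
    rw [Finset.card_eq_three.mpr ⟨a, b, c, hab, hca.symm, hcb.symm, rfl⟩] at this
    exact this
  obtain ⟨L, hL⟩ := zx_has_index_two hS hfaith hΩeven hΩ3
  have hLn := Subgroup.normal_of_index_eq_two hL
  have hcardG := zs_card hZ hab
  have hdpos : 0 < Nat.card ↥(stabilizer G a ⊓ stabilizer G b) := Nat.card_pos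
  rcases hLn.eq_bot_or_eq_top with h | h
  · rw [h, Subgroup.index_bot] at hL
    rw [hL] at hcardG
    have h6 : 3 * 2 ≤ Fintype.card Ω * (Fintype.card Ω - 1) := Nat.mul_le_mul hΩ3 (by omega)
    have h7 : Fintype.card Ω * (Fintype.card Ω - 1) * 1 ≤ Fintype.card Ω * (Fintype.card Ω - 1) *
      Nat.card ↥(stabilizer G a ⊓ stabilizer G b) := Nat.mul_le_mul_left _ hdpos
    omega
  · rw [h, Subgroup.index_top] at hL
    omega

/-- The case of even two-point stabilisers of a simple Zassenhaus group: the degree. -/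
theorem zfin_even_degree (hZ : IsZassenhausGroup G Ω) [IsSimpleGroup G] {a b : Ω} (hab : a ≠ b)
    (heven : Even (Nat.card ↥(stabilizer G a ⊓ stabilizer G b))) :
    2 * Nat.card ↥(stabilizer G a ⊓ stabilizer G b) + 2 = Fintype.card Ω := by
  classical
  set d := Nat.card ↥(stabilizer G a ⊓ stabilizer G b) with hdd
  have hdpos : 0 < d := Nat.card_pos
  have h1 : Fintype.card Ω - 2 ≤ 2 * d := zf_degree_bound hZ hab heven
  obtain ⟨s, hs⟩ : d ∣ Fintype.card Ω - 2 := zs_dvd hZ hab
  have hs2 : s ≤ 2 := by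
    by_contra hs3
    push Not at hs3
    have : d * 3 ≤ d * s := Nat.mul_le_mul_left _ hs3
    omega
  obtain ⟨c, hca, hcb⟩ := Zass.exists_third hZ hab
  have hΩ3 : 3 ≤ Fintype.card Ω := by
    have : ({a, b, c} : Finset Ω).card ≤ Fintype.card Ω := Finset.card_le_univ _
    rw [Finset.card_eq_three.mpr ⟨a, b, c, hab, hca.symm, hcb.symm, rfl⟩] at this
    exact this
  interval_cases s
  · omega
  · exfalso
    exact zfin_not_sharp hZ hab heven (by omega)
  · omega

/-- A simple Zassenhaus group with two-point stabilisers of even order is `PSL₂`. -/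
theorem zfin_even_psl (hZ : IsZassenhausGroup G Ω) [IsSimpleGroup G] {a b : Ω} (hab : a ≠ b)
    (heven : Even (Nat.card ↥(stabilizer G a ⊓ stabilizer G b))) :
    ∃ (F : Type) (_ : Field F) (_ : Fintype F), 3 < Fintype.card F ∧
      Nonempty (G ≃* Matrix.ProjectiveSpecialLinearGroup (Fin 2) F) := by
  classical
  have hd2 := zfin_even_degree hZ hab heven
  obtain ⟨K', iF', iT', hc, hiso⟩ := zq_even_psl hZ hab heven hd2
  refine ⟨K', iF', iT', ?_, hiso⟩
  rw [← Nat.card_eq_fintype_card]
  have hdpos : 0 < Nat.card ↥(stabilizer G a ⊓ stabilizer G b) := Nat.card_pos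
  obtain ⟨m, hm⟩ := heven
  omega

/-- Cyclicity of two-point stabilisers and the inverting involution in a simple Zassenhaus group. -/
theorem zfin_cyclic (hZ : IsZassenhausGroup G Ω) [IsSimpleGroup G] {a b : Ω} (hab : a ≠ b) :
    IsCyclic ↥(stabilizer G a ⊓ stabilizer G b) ∧
      ∃ v : G, orderOf v = 2 ∧ v • a = b ∧ v • b = a ∧
        ∀ h ∈ stabilizer G a ⊓ stabilizer G b, v * h * v⁻¹ = h⁻¹ := by
  classical
  obtain ⟨c₀, hca₀, hcb₀⟩ := Zass.exists_third hZ hab
  have hΩ3 : 3 ≤ Fintype.card Ω := by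
    have : ({a, b, c₀} : Finset Ω).card ≤ Fintype.card Ω := Finset.card_le_univ _
    rw [Finset.card_eq_three.mpr ⟨a, b, c₀, hab, hca₀.symm, hcb₀.symm, rfl⟩] at this
    exact this
  rcases Nat.even_or_odd (Nat.card ↥(stabilizer G a ⊓ stabilizer G b)) with heven | hodd
  · have hd := zfin_even_degree hZ hab heven
    have hp2 : Fact (Nat.Prime 2) := ⟨Nat.prime_two⟩
    obtain ⟨t', ht'⟩ := exists_prime_orderOf_dvd_card' (G := ↥(stabilizer G a ⊓ stabilizer G b)) 2
      heven.two_dvd
    set t : G := (t' : G) with ht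
    have hto : orderOf t = 2 := by rw [ht, Subgroup.orderOf_coe]; exact ht'
    have hta : t • a = a := t'.2.1
    have htb : t • b = b := t'.2.2
    obtain ⟨F, hcard, hFa, hFfix⟩ := zf_kernel hZ hab
    obtain ⟨-, hFc, -⟩ := zf_invert hZ hab hcard hFa hFfix hta htb hto
    obtain ⟨J, hJa, hJb⟩ := Zass.two_trans hZ hab hab.symm
    have hsw := zq_swap_all hZ hab hd hta htb hto
    obtain ⟨hJJ, c, hca, hcb, hJc⟩ := hsw J hJa hJb
    have hJi : J⁻¹ = J := inv_eq_of_mul_eq_one_left hJJ
    have hJinv : ∀ h : G, h • a = a → h • b = b → J * h * J⁻¹ = h⁻¹ := by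
      intro h hha hhb
      have h1 := (hsw (h * J) (by rw [mul_smul, hJa, hhb]) (by rw [mul_smul, hJb, hha])).1
      rw [hJi]
      have h2 : h * (J * h * J) = 1 := by
        calc h * (J * h * J) = h * J * (h * J) := by group
          _ = 1 := h1
      exact eq_inv_of_mul_eq_one_right h2
    have hHc : ∀ h k : G, h • a = a → h • b = b → k • a = a → k • b = b → h * k = k * h := by
      intro h k hha hhb hka hkb
      have h1 := hJinv (h * k) (by rw [mul_smul, hka, hha]) (by rw [mul_smul, hkb, hhb])
      have h2 : J * (h * k) * J⁻¹ = (J * h * J⁻¹) * (J * k * J⁻¹) := by group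
      rw [h2, hJinv h hha hhb, hJinv k hka hkb, mul_inv_rev] at h1
      have h3 : (h⁻¹ * k⁻¹)⁻¹ = (k⁻¹ * h⁻¹)⁻¹ := by rw [h1]
      simpa using h3.symm
    obtain ⟨K, iF, iK, ρ, Q, h1, h2, h3, h4, h5, h6, hidx, hmemQ, hQk, hsq, hodd⟩ :=
      zq_setup hZ hab hca.symm hcb.symm hcard hFa hFfix hFc hHc hd
    constructor
    · let E := stabilizer G a ⊓ stabilizer G b
      have hr : ∀ k : E, ∃ r : Kˣ, ∀ x : K, (k : G) • ρ (x : OnePoint K) =
          ρ (((r : K) * x : K) : OnePoint K) := by
        intro k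
        obtain ⟨r, -, hr⟩ := hmemQ k k.2.1 k.2.2
        exact ⟨r, hr⟩
      choose r hrk using hr
      let f : E →* Kˣ := MonoidHom.mk' r (by
        intro k l
        apply Units.ext
        have e1 := hrk (k * l) 1
        have e2 : ((k * l : E) : G) • ρ ((1 : K) : OnePoint K) =
            (k : G) • ((l : G) • ρ ((1 : K) : OnePoint K)) := mul_smul _ _ _
        rw [e2, hrk l 1, hrk k] at e1
        have e3 := OnePoint.coe_injective (ρ.injective e1)
        simpa using e3.symm)
      have hf : Function.Injective f := by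
        intro k l hkl
        have hrr : r k = r l := hkl
        have e1 := hrk k 1
        have e2 := hrk l 1
        rw [hrr, ← e2, h3] at e1
        have hfix : (l : G)⁻¹ * k = 1 := by
          apply Zass.eq_one_of_three hZ hab hcb.symm hca.symm
          · rw [mul_smul, show (k : G) • a = a from k.2.1, inv_smul_eq_iff]
            exact (show (l : G) • a = a from l.2.1).symm
          · rw [mul_smul, show (k : G) • b = b from k.2.2, inv_smul_eq_iff]
            exact (show (l : G) • b = b from l.2.2).symm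
          · rw [mul_smul, e1, inv_smul_smul]
        exact Subtype.ext (inv_mul_eq_one.mp hfix).symm
      exact isCyclic_of_subgroup_isDomain ((Units.coeHom K).comp f) (Units.val_injective.comp hf)
    · refine ⟨J, ?_, hJa, hJb, fun h hh => hJinv h hh.1 hh.2⟩
      apply orderOf_eq_prime (by rw [pow_two, hJJ])
      rintro rfl
      rw [one_smul] at hJa
      exact hab hJa
  · -- odd two-point stabilisers
    have hcardG := zs_card hZ hab
    have hdpos : 0 < Nat.card ↥(stabilizer G a ⊓ stabilizer G b) := Nat.card_pos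
    have hnil : ∀ q : ℕ, q.Prime → q ∣ Nat.card ↥(stabilizer G a ⊓ stabilizer G b) →
        ¬ ∃ N : Subgroup G, N.Normal ∧ N.index = q ^ (Nat.card G).factorization q := by
      rintro q hq hqd ⟨N, hNn, hNi⟩
      have hqG : q ∣ Nat.card G := by
        rw [hcardG]
        exact hqd.trans (Nat.dvd_mul_left _ _)
      have hk : 1 ≤ (Nat.card G).factorization q :=
        (hq.dvd_iff_one_le_factorization Nat.card_pos.ne').mp hqG
      rcases hNn.eq_bot_or_eq_top with h | h
      · rw [h, Subgroup.index_bot] at hNi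
        -- `G` would be a `q`-group
        have hΩ : q ∣ Fintype.card Ω := by
          have h1 : Fintype.card Ω ∣ q ^ (Nat.card G).factorization q := by
            rw [← hNi, hcardG, mul_assoc]
            exact Dvd.intro _ rfl
          obtain ⟨j, -, hj⟩ := (Nat.dvd_prime_pow hq).mp h1
          rw [hj]
          exact dvd_pow_self q (by
            rintro rfl
            rw [pow_zero] at hj
            omega)
        have hΩ1 : q ∣ Fintype.card Ω - 1 := by
          have h1 : Fintype.card Ω - 1 ∣ q ^ (Nat.card G).factorization q := by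
            rw [← hNi, hcardG]
            exact Dvd.dvd.mul_right (Dvd.intro_left _ rfl) _
          obtain ⟨j, -, hj⟩ := (Nat.dvd_prime_pow hq).mp h1
          rw [hj]
          exact dvd_pow_self q (by
            rintro rfl
            rw [pow_zero] at hj
            omega)
        have h2 : q ∣ 1 := by
          have e : Fintype.card Ω = (Fintype.card Ω - 1) + 1 := by omega
          rw [e] at hΩ
          exact (Nat.dvd_add_right hΩ1).mp hΩ
        exact hq.one_lt.ne' (Nat.dvd_one.mp h2)
      · rw [h, Subgroup.index_top] at hNi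
        have h5 : q ^ 1 ≤ q ^ (Nat.card G).factorization q := Nat.pow_le_pow_right hq.pos hk
        rw [pow_one] at h5
        have := hq.two_le
        omega
    obtain ⟨hcyc, -, hinvert⟩ := zs_main hZ hab hodd hnil
    refine ⟨hcyc, ?_⟩
    obtain ⟨s, h1, h2, h3⟩ := zi_exists_swap hZ hab
    exact ⟨s, h1, h2, h3, hinvert s h2 h3⟩

end Cfsg.Agent.Lib.Perm
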